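import Cfsg.Agent.H7.Irr

/-!
Overgroups of the elementary group of a polar space in the general linear group: they consist of
similarities or contain the special linear group.
-/

set_option autoImplicit false
set_option linter.unusedSectionVars false

namespace Cfsg.Agent.H7

open Module

namespace Polar

variable {F : Type*} [Field F] {V : Type*} [AddCommGroup V] [Module F V] {P : Polar F V}
variable [Finite F] [FiniteDimensional F V]

theorem finrank_pp {u : V} (hu : u ≠ 0) : finrank F (P.pp u) + 1 = finrank F V := by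
  rw [← perp_span_singleton, ← P.finrank_perp (F ∙ u), finrank_span_singleton hu]

theorem perp_pp (u : V) : P.perp (P.pp u) = F ∙ u := by
  rw [← perp_span_singleton, perp_perp]

theorem finrank_pp_inf_perp_le (u : V) : finrank F ↥(P.pp u ⊓ P.perp (P.pp u)) ≤ 1 := by
  rw [perp_pp]
  exact (Submodule.finrank_mono inf_le_right).trans (finrank_span_singleton_le u)

theorem SLV_le_of_full {d : ℕ} (hw : P.Wild d) (hn : d + 1 ≤ finrank F V) (hn' : 3 ≤ finrank F V)
    {X : Subgroup (V ≃ₗ[F] V)} (hE : P.E ≤ X) {u : V} (hu0 : u ≠ 0) (hu : Full X u) :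
    SLV F V ≤ X := by
  refine SLV_le_of_fullSub (EInv.eq_top hw (fun e _ w _ c he hw hc x hx => ?_) ?_ hn hn')
  · exact Full.conj hx (hE (eichE_mem_E he hw hc))
  · exact (Submodule.ne_bot_iff _).2 ⟨u, hu, hu0⟩

theorem SLV_le_of_tv_sing {d : ℕ} (hw : P.Wild d) (hn : d + 3 ≤ finrank F V)
    (hn' : 5 ≤ finrank F V) {X : Subgroup (V ≃ₗ[F] V)} (hE : P.E ≤ X) {u z : V} (hu : P.Val u 0)
    (hu0 : u ≠ 0) (hz : P.B z u = 0) (hzu : z ∉ F ∙ u) (h : ∀ a : F, TV X (P.B.flip (a • z)) u) :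
    SLV F V ≤ X := by
  let N : Submodule F V :=
    { carrier := {z | P.B z u = 0 ∧ ∀ a : F, TV X (P.B.flip (a • z)) u}
      zero_mem' := ⟨by simp, fun a => by simpa using TV.zero_left u⟩
      add_mem' := by
        rintro z z' ⟨h1, h2⟩ ⟨h1', h2'⟩
        refine ⟨by simp [h1, h1'], fun a => ?_⟩
        rw [smul_add, map_add]
        exact (h2 a).add_left (h2' a) (by simp [P.B_symm h1])
      smul_mem' := by
        rintro b z ⟨h1, h2⟩
        exact ⟨by simp [h1], fun a => by rw [smul_smul]; exact h2 _⟩ }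
  have hN : P.EInv (P.pp u) N := by
    rintro e he w hw c hes hwe hc x ⟨hx1, hx2⟩
    have hfix : eichE hes hwe hc u = u := eich_fix c (P.B_symm he) (P.B_symm hw)
    have hI := eichE_mem_Iso hes hwe hc
    refine ⟨by rw [← hfix, ← eichE_apply hes hwe hc, Iso.B hI, hx1], fun a => ?_⟩
    have := (hx2 a).conj (ψ := P.B.flip (a • eichE hes hwe hc x)) (hE (eichE_mem_E hes hwe hc))
      (fun y => by rw [← map_smul, LinearMap.flip_apply, Iso.B hI, LinearMap.flip_apply])
    rwa [hfix] at this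
  have h1 := finrank_pp (P := P) hu0
  have h2 := finrank_pp_inf_perp_le (P := P) u
  have h3 : P.pp u ≤ N := hN.le hw (z := z) ⟨hz, h⟩ (by rwa [perp_pp]) (by omega) (by omega)
  refine SLV_le_of_full hw (by omega) (by omega) hE hu0 fun φ hφ => ?_
  obtain ⟨y, hy⟩ := P.exists_B_eq φ
  have := (h3 (show y ∈ P.pp u from P.B_symm (by rw [hy, hφ]))).2 1
  rw [one_smul] at this
  rwa [show φ = P.B.flip y from LinearMap.ext fun x => (hy x).symm]

/-- Extraction of a transvection from an element fixing `u`, `B · u` and `w`. -/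
theorem tv_of_conj_eich {X : Subgroup (V ≃ₗ[F] V)} (hE : P.E ≤ X) {y : V ≃ₗ[F] V} (hy : y ∈ X)
    {u w z : V} (hu : P.Val u 0) (hw : P.B w u = 0) (hyu : y u = u) (hyw : y w = w)
    (hyB : ∀ x, P.B (y x) u = P.B x u) (hz : ∀ x, P.B (y x) z = P.ε * (P.B (y x) w - P.B x w)) :
    TV X (P.B.flip z) u := by
  obtain ⟨c, hc⟩ := P.val_ex w
  have hρ := hE (eichE_mem_E hu hw hc)
  have hzu : P.B u z = 0 := by simpa [hyu] using hz u
  have hzw : P.B w z = 0 := by simpa [hyw] using hz w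
  refine ⟨y * eichE hu hw hc * y⁻¹ * (eichE hu hw hc)⁻¹,
    X.mul_mem (X.mul_mem (X.mul_mem hy hρ) (X.inv_mem hy)) (X.inv_mem hρ), fun x => ?_⟩
  obtain ⟨x, rfl⟩ := (eichE hu hw hc).surjective x
  rw [LinearEquiv.mul_apply, show (eichE hu hw hc)⁻¹ (eichE hu hw hc x) = x from
    (eichE hu hw hc).symm_apply_apply x]
  obtain ⟨x, rfl⟩ := y.surjective x
  rw [LinearEquiv.mul_apply, show y⁻¹ (y x) = x from y.symm_apply_apply x, LinearEquiv.mul_apply]
  simp only [eichE_apply, eich, map_add, map_sub, map_smul, hyu, hyw, hyB, LinearMap.flip_apply,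
    LinearMap.add_apply, LinearMap.sub_apply, LinearMap.smul_apply, hz, hzu, hzw, smul_eq_mul]
  module

theorem B_map_eq_zero_of_not_SLV {d : ℕ} (hw : P.Wild d) (hn : d + 8 ≤ finrank F V)
    {X : Subgroup (V ≃ₗ[F] V)} (hE : P.E ≤ X) (hX : ¬ SLV F V ≤ X) {g : V ≃ₗ[F] V} (hg : g ∈ X)
    {u0 x0 : V} (hu0 : P.Val u0 0) (hx0 : P.B x0 u0 = 0) : P.B (g x0) (g u0) = 0 := by
  obtain ⟨w0, hw0, hw0'⟩ := exists_notMem_of_finrank_lt (U := F ∙ u0) (W := P.pp u0 ⊓ P.pp x0) (by
    have := finrank_inf_pp_ge (P := P) ⊤ u0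
    have := finrank_inf_pp_ge (P := P) (P.pp u0) x0
    have := finrank_span_singleton_le (F := F) u0
    rw [top_inf_eq, finrank_top] at *
    omega)
  have hw1 : P.B w0 u0 = 0 := hw0.1
  have hw2 : P.B x0 w0 = 0 := P.B_symm hw0.2
  obtain ⟨c0, hc0⟩ := P.val_ex w0
  obtain ⟨a', ha'⟩ := P.exists_B_eq (P.B.flip u0 ∘ₗ (g.symm : V →ₗ[F] V))
  obtain ⟨b', hb'⟩ := P.exists_B_eq (P.B.flip w0 ∘ₗ (g.symm : V →ₗ[F] V))
  have ha'' : ∀ x, P.B (g x) a' = P.B x u0 := fun x => by simp [ha']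
  have hb'' : ∀ x, P.B (g x) b' = P.B x w0 := fun x => by simp [hb']
  set a := g u0 with ha
  set b := g w0 with hb
  let y := g * eichE hu0 hw1 hc0 * g⁻¹
  have hyX : y ∈ X := X.mul_mem (X.mul_mem hg (hE (eichE_mem_E _ _ _))) (X.inv_mem hg)
  have hy : ∀ x, y x = x + P.B x a' • b - (P.ε * P.B x b' + P.σ c0 * P.B x a') • a := by
    intro x
    obtain ⟨x, rfl⟩ := g.surjective x
    simp only [y, LinearEquiv.mul_apply, show g⁻¹ (g x) = x from g.symm_apply_apply x,
      eichE_apply, eich, map_add, map_sub, map_smul, ha'', hb'', ha, hb]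
  have haa : P.B a a' = 0 := by rw [ha, ha'', sing_B hu0]
  have hba : P.B b a' = 0 := by rw [hb, ha'', hw1]
  have hab : P.B a b' = 0 := by rw [ha, hb'', P.B_symm hw1]
  have hbb : P.B b b' = c0 + P.ε * P.σ c0 := by rw [hb, hb'', P.val_self hc0]
  set S : Submodule F V := (((F ∙ a) ⊔ F ∙ b) ⊔ F ∙ a') ⊔ F ∙ b' with hS
  have hSd : finrank F S ≤ 4 := by
    have := finrank_span_pair_le (F := F) a b
    have := finrank_sup_span_le ((F ∙ a) ⊔ F ∙ b) a'
    have := finrank_sup_span_le (((F ∙ a) ⊔ F ∙ b) ⊔ F ∙ a') b'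
    rw [hS]; omega
  have haS : a ∈ S := Submodule.mem_sup_left (Submodule.mem_sup_left (Submodule.mem_sup_left
    (Submodule.mem_span_singleton_self _)))
  have hbS : b ∈ S := Submodule.mem_sup_left (Submodule.mem_sup_left (Submodule.mem_sup_right
    (Submodule.mem_span_singleton_self _)))
  have haS' : a' ∈ S := Submodule.mem_sup_left (Submodule.mem_sup_right
    (Submodule.mem_span_singleton_self _))
  have hbS' : b' ∈ S := Submodule.mem_sup_right (Submodule.mem_span_singleton_self _)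
  obtain ⟨u, hu, huS, hus⟩ := hw.exists_notMem (P.perp S) S (by have := P.finrank_perp S; omega)
  have hu0' : u ≠ 0 := by rintro rfl; simp at huS
  have key : ∀ w, P.B w u = 0 → P.B w a' = 0 → P.B w b' = 0 → P.B a w = 0 := by
    intro w h1 h2 h3
    by_contra hne
    refine hX (SLV_le_of_tv_sing hw (by omega) (by omega) hE hus hu0'
      (z := P.σ (P.ε * P.B b w + c0 * P.B a w) • a' - P.σ (P.B a w) • b')
      (by simp [mem_perp'.1 hu _ haS', mem_perp'.1 hu _ hbS']) ?_ fun t => ?_)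
    · rw [Submodule.mem_span_singleton]
      rintro ⟨κ, hκ⟩
      have hκ0 : κ = 0 := by
        by_contra h
        apply huS
        rw [← S.smul_mem_iff h, hκ]
        exact S.sub_mem (S.smul_mem _ haS') (S.smul_mem _ hbS')
      obtain ⟨x, hx1, hx2⟩ := exists_sep' (P := P) hw0' 1
      rw [perp_span_singleton, mem_pp] at hx1
      have := congrArg (P.B (g x)) hκ
      simp [hκ0, ha'', hb'', hx1, hx2, hne] at this
    · refine tv_of_conj_eich hE hyX hus (w := t • w) (by simp [h1]) ?_ ?_ (fun x => ?_) fun x => ?_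
      · simp [hy, hu _ haS', hu _ hbS']
      · simp [hy, h2, h3]
      · simp [hy, mem_perp'.1 hu _ haS, mem_perp'.1 hu _ hbS]
      · simp only [hy, map_add, map_sub, map_smul, LinearMap.add_apply, LinearMap.sub_apply,
          LinearMap.smul_apply, smul_eq_mul, B_smul_right, σσ, haa, hba, hab, hbb, map_mul, σ_ε]
        have := P.ε_mul_ε
        linear_combination (P.σ t * P.B x b' * P.B a w) * this
  have h1 : a ∈ P.perp (P.perp (((F ∙ a') ⊔ F ∙ b') ⊔ F ∙ u)) := by
    intro w hw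
    simp only [perp_sup, perp_span_singleton, Submodule.mem_inf, mem_pp] at hw
    exact key w hw.2 hw.1.1 hw.1.2
  rw [perp_perp, mem_sup_span_singleton] at h1
  obtain ⟨m, hm, κ, hκ⟩ := h1
  obtain ⟨m', hm', t, rfl⟩ := mem_sup_span_singleton.1 hm
  obtain ⟨s, rfl⟩ := Submodule.mem_span_singleton.1 hm'
  have hκ0 : κ = 0 := by
    by_contra h
    apply huS
    rw [← S.smul_mem_iff h, ← S.add_mem_iff_right (S.add_mem (S.smul_mem s haS') (S.smul_mem t hbS')),
      ← hκ]
    exact haS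
  rw [hκ]
  simp [hκ0, ha'', hb'', hx0, hw2]

/-- A linear automorphism respecting orthogonality to singular vectors is a similarity. -/
theorem sim_of_forall_sing {d : ℕ} (hw : P.Wild d) (hn : d + 4 ≤ finrank F V) {g : V →ₗ[F] V}
    (h : ∀ u x, P.Val u 0 → P.B x u = 0 → P.B (g x) (g u) = 0) :
    ∃ c : F, ∀ x y, P.B (g x) (g y) = c * P.B x y := by
  have h1 : ∀ u, P.Val u 0 → ∃ c : F, ∀ x, P.B (g x) (g u) = c * P.B x u := by
    intro u hu
    by_cases hu0 : u = 0
    · exact ⟨0, by simp [hu0]⟩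
    obtain ⟨y, -, hy⟩ := exists_sep' (P := P) (U := ⊥) (v := u) (by simpa using hu0) 1
    refine ⟨P.B (g y) (g u), fun x => ?_⟩
    have := h u (x - P.B x u • y) hu (by simp [hy])
    simp only [map_sub, map_smul, LinearMap.sub_apply, LinearMap.smul_apply, smul_eq_mul] at this
    linear_combination this
  choose! c hc using h1
  have h2 : ∀ u v, P.Val u 0 → P.Val v 0 → P.B u v = 0 → u ≠ 0 → v ∉ F ∙ u → c u = c v := by
    intro u v hu hv huv hu0 hvu
    have huv' : P.Val (u + v) 0 := by simpa using val_add_orth hu hv huv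
    have h3 : u ∉ F ∙ v := by
      have := notMem_sup_span_swap (U := (⊥ : Submodule F V)) (v := u) (z := v)
        (by simpa using hu0) (by simpa using hvu)
      simpa using this
    obtain ⟨x, hx1, hx2⟩ := exists_sep' (P := P) hvu 1
    obtain ⟨y, hy1, hy2⟩ := exists_sep' (P := P) h3 1
    rw [perp_span_singleton, mem_pp] at hx1 hy1
    have e1 := hc _ huv' x
    have e2 := hc _ huv' y
    simp only [map_add, hc u hu, hc v hv, hx1, hx2, hy1, hy2] at e1 e2
    linear_combination e2 - e1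
  obtain ⟨u1, -, hu1, hu1s⟩ := hw ⊤ (by rw [finrank_top]; omega)
  let N : Submodule F V :=
    { carrier := {v | ∀ x, P.B (g x) (g v) = c u1 * P.B x v}
      zero_mem' := by simp
      add_mem' := fun ha hb x => by simp only [map_add, ha x, hb x]; ring
      smul_mem' := fun a v hv x => by simp only [map_smul, B_smul_right, hv x]; ring }
  have hN : N = ⊤ := by
    refine eq_top_of_forall_sing hw (by omega) fun v hv => ?_
    by_cases hv0 : v = 0
    · rw [hv0]; exact N.zero_mem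
    obtain ⟨z, hz, hzS, hzs⟩ := hw.exists_notMem (P.perp ((F ∙ u1) ⊔ F ∙ v)) ((F ∙ u1) ⊔ F ∙ v) (by
      have := P.finrank_perp ((F ∙ u1) ⊔ F ∙ v)
      have := finrank_span_pair_le (F := F) u1 v
      omega)
    simp only [perp_sup, perp_span_singleton, Submodule.mem_inf, mem_pp] at hz
    intro x
    rw [h2 u1 z hu1s hzs (P.B_symm hz.1) hu1 (fun h => hzS (Submodule.mem_sup_left h)),
      ← h2 v z hv hzs (P.B_symm hz.2) hv0 (fun h => hzS (Submodule.mem_sup_right h)), hc v hv]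
  exact ⟨c u1, fun x y => (show y ∈ N by simp [hN]) x⟩

variable (P) in
/-- The group of similarities of the form. -/
def Sim : Subgroup (V ≃ₗ[F] V) where
  carrier := {g | ∃ c : Fˣ, ∀ x y, P.B (g x) (g y) = c * P.B x y}
  mul_mem' := by
    rintro a b ⟨c, hc⟩ ⟨d, hd⟩
    exact ⟨c * d, fun x y => by simp [hc, hd, mul_assoc]⟩
  one_mem' := ⟨1, by simp⟩
  inv_mem' := by
    rintro a ⟨c, hc⟩
    refine ⟨c⁻¹, fun x y => ?_⟩
    have := hc (a⁻¹ x) (a⁻¹ y)
    rw [show a (a⁻¹ x) = x from a.apply_symm_apply x,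
      show a (a⁻¹ y) = y from a.apply_symm_apply y] at this
    simp [this]

theorem mem_Sim {g : V ≃ₗ[F] V} : g ∈ P.Sim ↔ ∃ c : Fˣ, ∀ x y, P.B (g x) (g y) = c * P.B x y :=
  Iff.rfl

theorem mem_Sim_of {g : V ≃ₗ[F] V} {c : F} (h : ∀ x y, P.B (g x) (g y) = c * P.B x y) :
    g ∈ P.Sim := by
  by_cases hc : c = 0
  · refine ⟨1, fun x y => ?_⟩
    have : g y = 0 := P.nondeg _ fun z => by
      obtain ⟨z, rfl⟩ := g.surjective z
      simp [h, hc]
    have h2 : y = 0 := by simpa using this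
    simp [h2]
  · exact ⟨Units.mk0 c hc, h⟩

theorem Iso_le_Sim : P.Iso ≤ P.Sim := fun _ hg => ⟨1, fun x y => by simp [Iso.B hg]⟩

theorem SLV_le_or_le_Sim {d : ℕ} (hw : P.Wild d) (hn : d + 8 ≤ finrank F V)
    {X : Subgroup (V ≃ₗ[F] V)} (hE : P.E ≤ X) : SLV F V ≤ X ∨ X ≤ P.Sim := by
  by_cases hX : SLV F V ≤ X
  · exact Or.inl hX
  refine Or.inr fun g hg => ?_
  obtain ⟨c, hc⟩ := sim_of_forall_sing hw (by omega) (g := (g : V →ₗ[F] V))
    fun u x hu hx => B_map_eq_zero_of_not_SLV hw hn hE hX hg hu hx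
  exact mem_Sim_of hc

theorem exists_SLV_notMem_Sim (hn : 3 ≤ finrank F V) : ∃ g ∈ SLV F V, g ∉ P.Sim := by
  obtain ⟨v, -, hv⟩ := exists_notMem_of_finrank_lt (U := (⊥ : Submodule F V)) (W := ⊤)
    (by simp; omega)
  have hv0 : v ≠ 0 := by simpa using hv
  have h0 := finrank_pp (P := P) hv0
  obtain ⟨z, hz, hzv⟩ := exists_notMem_of_finrank_lt (U := F ∙ v) (W := P.pp v) (by
    have := finrank_span_singleton_le (F := F) v; omega)
  have hφ : P.B.flip z v = 0 := P.B_symm hz
  refine ⟨_, transvection_mem_SLV hφ, fun ⟨c, hc⟩ => ?_⟩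
  have hvz : v ∉ F ∙ z := by
    have := notMem_sup_span_swap (U := (⊥ : Submodule F V)) (v := v) (z := z) hv (by simpa using hzv)
    simpa using this
  obtain ⟨x, hx1, hx2⟩ := exists_sep' (P := P) hvz 1
  rw [perp_span_singleton, mem_pp] at hx1
  have h1 := hc x v
  simp [LinearMap.transvection.apply, hx1, hx2, P.B_symm hz] at h1
  obtain ⟨y, -, hy⟩ := exists_sep' (P := P) hzv 1
  have h2 := hc x y
  simp [LinearMap.transvection.apply, hx1, hx2, hy, ← h1] at h2

/-- The similarities of determinant one form a maximal subgroup of the special linear group. -/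
theorem Sim_maximal {d : ℕ} (hw : P.Wild d) (hn : d + 8 ≤ finrank F V) :
    Geo.IsMaximalIn (SLV F V) (P.Sim ⊓ SLV F V) := by
  refine isMaximalIn_of inf_le_right ?_ fun X hHX hXE g hg hgH => ?_
  · obtain ⟨g, hg, hg'⟩ := exists_SLV_notMem_Sim (P := P) (by omega)
    exact ⟨g, hg, fun h => hg' h.1⟩
  · refine (SLV_le_or_le_Sim hw hn ((le_inf (E_le_Iso.trans Iso_le_Sim) E_le_SLV).trans hHX)).resolve_right
      fun h => hgH ⟨h hg, hXE hg⟩

end Polar

end Cfsg.Agent.H7
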