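import Cfsg.Agent.H7.C6L
import Cfsg.Agent.H2.PGroup
import Cfsg.Agent.Asch.RGroup

/-!
The standard form of an extraspecial group of order `3 ^ 5` in dimension nine.
-/

set_option autoImplicit false
set_option linter.unusedSectionVars false

namespace Cfsg.Agent.H7.C6

open Matrix H7.Polar
open scoped commutatorElement

theorem comm_mem_center {R : Type*} [Group R] [Finite R] {r : ℕ} [hr : Fact r.Prime]
    (hP : IsPGroup r R) (hc : ∀ A : Subgroup R, A.Characteristic → IsMulCommutative A → IsCyclic A)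
    (he : ∀ g : R, g ^ r = 1) : commutator R ≤ Subgroup.center R := by
  let D : Subgroup R := commutator R ⊓ Subgroup.centralizer (commutator R : Set R)
  haveI hD : D.Characteristic := by
    rw [Subgroup.characteristic_iff_comap_eq]
    intro φ
    rw [Subgroup.comap_inf, (inferInstance : (commutator R).Characteristic).fixed,
      (inferInstance : (Subgroup.centralizer (commutator R : Set R)).Characteristic).fixed]
  have hDZ : D ≤ Subgroup.center R := by
    by_cases h0 : D = ⊥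
    · simp [h0]
    obtain ⟨x, hx, h1, h2⟩ := H2.PGroup.exists_center_mem_normal hP D h0
    obtain ⟨c, hc⟩ := (hc D hD ⟨⟨fun a b => Subtype.ext (b.2.2 a.1 a.2.1)⟩⟩).exists_generator
    have h3 : Nat.card D ∣ r := by
      rw [← orderOf_eq_card_of_forall_mem_zpowers hc]
      exact orderOf_dvd_of_pow_eq_one (Subtype.ext (he _))
    rw [← Subgroup.eq_of_le_of_card_ge (Subgroup.zpowers_le.2 hx)
      (by rw [Nat.card_zpowers, h2]; exact Nat.le_of_dvd hr.out.pos h3)]
    exact Subgroup.zpowers_le.2 h1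
  by_contra hn
  have hne : (commutator R).map (QuotientGroup.mk' (Subgroup.center R)) ≠ ⊥ := by
    rwa [Ne, Subgroup.map_eq_bot_iff, QuotientGroup.ker_mk']
  haveI : ((commutator R).map (QuotientGroup.mk' (Subgroup.center R))).Normal :=
    Subgroup.Normal.map inferInstance _ (QuotientGroup.mk'_surjective _)
  obtain ⟨_, ⟨m, hm, rfl⟩, h1, h2⟩ :=
    H2.PGroup.exists_center_mem_normal (hP.to_quotient _) _ hne
  have h3 : ∀ g : R, ∃ z ∈ Subgroup.center R, g * m = m * g * z := fun g =>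
    ⟨(m * g)⁻¹ * (g * m), QuotientGroup.eq.1 (Subgroup.mem_center_iff.1 h1 (g : R ⧸ _)).symm,
      by group⟩
  have h4 : m ∈ D := ⟨hm, fun s hs => by
    refine (Subgroup.commutator_le.2 fun a _ b _ => ?_ :
      commutator R ≤ Subgroup.centralizer {m}) hs m rfl |>.symm
    obtain ⟨y, hy, e1⟩ := h3 a⁻¹
    obtain ⟨z, hz, e2⟩ := h3 b⁻¹
    have k0 := Subgroup.mem_center_iff.1 (mul_mem hy hz) ⁅a, b⁆
    rw [Subgroup.mem_center_iff] at hy hz
    have k : ∀ {a b y z : R}, a * m = m * a * y → b * m = m * b * z → (∀ g, g * y = y * g) →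
        a * b * m = m * (a * b) * (y * z) := fun {a b y z} e1 e2 hy => by
      rw [mul_assoc, e2, ← mul_assoc, ← mul_assoc, e1, mul_assoc (m * a), ← hy]; group
    have k1 := k e1 e2 hy
    have k2 := k e2 e1 hz
    rw [Subgroup.mem_centralizer_singleton_iff]
    calc ⁅a, b⁆ * m = (b⁻¹ * a⁻¹)⁻¹ * (a⁻¹ * b⁻¹ * m) := by rw [commutatorElement_def]; group
      _ = (b⁻¹ * a⁻¹)⁻¹ * (m * (b⁻¹ * a⁻¹) * (z * y)) * ⁅a, b⁆ := by
        rw [k1, hy z, mul_assoc _ _ ⁅a, b⁆, mul_assoc _ _ ⁅a, b⁆, ← k0, commutatorElement_def]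
        group
      _ = m * ⁅a, b⁆ := by rw [← k2]; group⟩
  rw [QuotientGroup.mk'_apply, (QuotientGroup.eq_one_iff m).2 (hDZ h4), orderOf_one] at h2
  exact hr.out.one_lt.ne h2

variable {F : Type*} [Field F] {n : Type} [Fintype n] [DecidableEq n] {w : F}

theorem rdata [Finite F] {R : Subgroup (GL n F)} (hs : Geo.IsSymplecticTypeGroup 3 R)
    (h : Geo.ActsAbsolutelyIrreducibly (Geo.matrixSet R)) :
    Asch.RData 3 R ∧ ∀ x ∈ R, x ^ 3 = 1 := by
  haveI : Fact (Nat.Prime 3) := ⟨hs.prime⟩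
  have he : ∀ g : R, g ^ 3 = 1 := fun g => by
    have := Monoid.pow_exponent_eq_one g
    rwa [hs.exponent_eq] at this
  have he' : ∀ x ∈ R, x ^ 3 = 1 := fun x hx => congrArg Subtype.val (he ⟨x, hx⟩)
  have ha := Asch.absIrr_of_acts h
  refine ⟨⟨hs.prime, ha, fun x hx y hy => Asch.exists_twist_of_mem
    (ha.mem_scalars_of_comm fun g hg => ?_), fun x hx => by rw [he' x hx]; exact one_mem _⟩, he'⟩
  have k := comm_mem_center hs.pGroup hs.cyclic_of_characteristic he
    (Subgroup.commutator_mem_commutator (Subgroup.mem_top (⟨x, hx⟩ : R)) (Subgroup.mem_top ⟨y, hy⟩))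
  simpa [commutatorElement_def] using
    (congrArg Subtype.val (Subgroup.mem_center_iff.1 k ⟨g, hg⟩)).symm

theorem pw_add {x : Matrix n n F} (h : x ^ 3 = 1) (a b : T) :
    x ^ (a + b).val = x ^ a.val * x ^ b.val := by
  rw [← pow_add, ZMod.val_add, ← pow_eq_pow_mod _ h]

theorem tw_pow (hw : Om w) {g x : Matrix n n F} {c : T} (h : g * x = chi w c • (x * g)) (a : T) :
    g * x ^ a.val = chi w (c * a) • (x ^ a.val * g) := by
  rcases z3_cases a with rfl | rfl | rfl
  · simp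
  · simpa [ZMod.val_one] using h
  · rw [show (-1 : T).val = 2 from rfl, sq, ← mul_assoc, h, smul_mul_assoc, mul_assoc, h,
      mul_smul_comm, smul_smul, ← hw.chi_add, mul_assoc]
    congr 2
    grind

theorem tw_symm (hw : Om w) {g x : Matrix n n F} {c : T} (h : g * x = chi w c • (x * g)) :
    x * g = chi w (-c) • (g * x) := by rw [h, smul_smul, mul_comm, hw.chi_mul_neg, one_smul]

/-- Weyl operators of a pair -/
def wp (w : F) (x z : Matrix n n F) (u : T × T) : Matrix n n F :=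
  chi w (2 * u.1 * u.2) • (x ^ u.1.val * z ^ u.2.val)

theorem wp_zero (x z : Matrix n n F) : wp w x z 0 = 1 := by simp [wp]

theorem tw_wp (hw : Om w) {g x z : Matrix n n F} {c d : T} (h : g * x = chi w c • (x * g))
    (h' : g * z = chi w d • (z * g)) (u : T × T) :
    g * wp w x z u = chi w (c * u.1 + d * u.2) • (wp w x z u * g) := by
  rw [wp, mul_smul_comm, ← mul_assoc, tw_pow hw h, smul_mul_assoc, mul_assoc (x ^ _), tw_pow hw h',
    hw.chi_add]
  simp only [mul_smul_comm, smul_mul_assoc, smul_smul, mul_assoc]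
  congr 1
  ring

theorem comm_wp (hw : Om w) {g x z : Matrix n n F} (h : g * x = x * g) (h' : g * z = z * g)
    (u : T × T) : g * wp w x z u = wp w x z u * g := by
  simpa using tw_wp hw (c := 0) (d := 0) (by simpa) (by simpa) u

theorem wp_mul (hw : Om w) {x z : Matrix n n F} (hx : x ^ 3 = 1) (hz : z ^ 3 = 1)
    (h : z * x = w • (x * z)) (u v : T × T) :
    wp w x z u * wp w x z v = chi w (B1 u v) • wp w x z (u + v) := by
  have := tw_symm hw (tw_pow hw (tw_symm hw (tw_pow hw (c := 1) (by simpa using h) v.1)) u.2)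
  simp only [wp, Prod.fst_add, Prod.snd_add, pw_add hx, pw_add hz, smul_mul_smul_comm, smul_smul]
  rw [mul_assoc (x ^ _), ← mul_assoc (z ^ _), this]
  simp only [mul_smul_comm, smul_mul_assoc, smul_smul, mul_assoc, ← hw.chi_add, B1]
  congr 2
  grind

variable {X : MG n F}

theorem in_wp (h : X.In (w • 1)) {x z : Matrix n n F} (hx : X.In x) (hz : X.In z) (u : T × T) :
    X.In (wp w x z u) := by
  simpa [wp, chi, smul_pow] using X.mul (MG.pow h (2 * u.1 * u.2).val)
    (X.mul (MG.pow hx u.1.val) (MG.pow hz u.2.val))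

theorem exists_ws (hn : Fintype.card n = 9) (hw : Om w) (h3 : ∀ A, X.In A → A ^ 3 = 1)
    (hc : ∀ A B, X.In A → X.In B → ∃ c : T, A * B = chi w c • (B * A))
    (hs : ∀ M, M ∈ Submodule.span F {A | X.In A})
    (hi : ∀ M : Matrix n n F, (∀ A, X.In A → M * A = A * M) → ∃ c : F, M = c • 1)
    {x z : Matrix n n F} (hx : X.In x) (hz : X.In z) (h : z * x = w • (x * z)) :
    X.In (w • 1) ∧ ∃ S : WS P2 w n, ∀ u, X.In (S.W u) := by
  have h1 : X.In (w • 1) := MG.of_mul_right (X.mul hx hz) (by simpa [← h] using X.mul hz hx)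
  have h2 : ∀ g, X.In g → ∃ u, g * wp w x z u * x = x * (g * wp w x z u) ∧
      g * wp w x z u * z = z * (g * wp w x z u) := fun g hg => by
    obtain ⟨a, ha⟩ := hc x g hx hg
    obtain ⟨b, hb⟩ := hc z g hz hg
    have e1 := tw_wp hw (g := x) (x := x) (c := 0) (d := -1) (by simp) (tw_symm hw (c := 1) (by simpa))
    have e2 := tw_wp hw (g := z) (x := x) (z := z) (c := 1) (d := 0) (by simpa) (by simp)
    refine ⟨(-b, a), ?_, ?_⟩
    · rw [← mul_assoc, ha, smul_mul_assoc, mul_assoc g x, e1]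
      simp [smul_smul, hw.chi_mul_neg, mul_assoc]
    · rw [← mul_assoc, hb, smul_mul_assoc, mul_assoc g z, e2]
      simp [smul_smul, hw.chi_mul_neg, mul_assoc]
  have h4 : ∃ g g', X.In g ∧ X.In g' ∧ g * x = x * g ∧ g * z = z * g ∧ g * g' ≠ g' * g := by
    by_contra k
    push Not at k
    have : ⊤ ≤ Submodule.span F (Set.range (wp w x z)) := fun M _ =>
      Submodule.span_le.2 (fun g hg => by
        obtain ⟨u, e1, e2⟩ := h2 g hg
        obtain ⟨c, e⟩ := hi _ fun A hA => k _ A (X.mul hg (in_wp h1 hx hz u)) hA e1 e2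
        have := congrArg (· * wp w x z (-u)) e
        simp only [mul_assoc, wp_mul hw (h3 _ hx) (h3 _ hz) h, add_neg_cancel, wp_zero,
          smul_mul_assoc, one_mul, show B1 u (-u) = 0 by simp [B1, mul_comm], chi_zero, one_smul,
          mul_one] at this
        exact this ▸ Submodule.smul_mem _ _ (Submodule.subset_span ⟨_, rfl⟩)) (hs M)
    simpa [Module.finrank_matrix, hn] using finrank_le_of_span_eq_top (top_le_iff.1 this)
  obtain ⟨x', z', hx', hz', e1, e2, e3, e4, h'⟩ : ∃ x' z', X.In x' ∧ X.In z' ∧ x' * x = x * x' ∧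
      x' * z = z * x' ∧ z' * x = x * z' ∧ z' * z = z * z' ∧ z' * x' = w • (x' * z') := by
    obtain ⟨g, g', hg, hg', e1, e2, e⟩ := h4
    obtain ⟨u, e3, e4⟩ := h2 g' hg'
    obtain ⟨c, hc⟩ := hc g g' hg hg'
    have k := X.mul hg' (in_wp h1 hx hz u)
    have e5 : g * (g' * wp w x z u) = chi w c • (g' * wp w x z u * g) := by
      rw [← mul_assoc, hc, smul_mul_assoc, mul_assoc, comm_wp hw e1 e2, mul_assoc]
    rcases z3_cases c with rfl | rfl | rfl
    · exact absurd (by simpa using hc) e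
    · exact ⟨_, _, k, hg, e3, e4, e1, e2, by simpa using e5⟩
    · exact ⟨_, _, hg, k, e1, e2, e3, e4, by simpa using tw_symm hw e5⟩
  refine ⟨h1, ⟨fun u => wp w x z u.1 * wp w x' z' u.2, hw, ⟨fun _ _ => trivial⟩, by simp [wp_zero],
    fun u v => ?_, by simp [hn], ?_⟩, fun u => X.mul (in_wp h1 hx hz _) (in_wp h1 hx' hz' _)⟩
  · rw [mul_assoc, ← mul_assoc (wp w x' z' u.2), ← comm_wp hw (comm_wp hw e1 e2 _).symm
      (comm_wp hw e3 e4 _).symm, mul_assoc, ← mul_assoc, wp_mul hw (h3 _ hx) (h3 _ hz) h,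
      wp_mul hw (h3 _ hx') (h3 _ hz') h', smul_mul_smul_comm, P2_B, hw.chi_add]
    rfl
  · simpa [hn, show (9 : F) = 3 * 3 by norm_num] using hw.three

/-- the matrices of a subgroup -/
def ofSub (R : Subgroup (GL n F)) : MG n F where
  In A := A ∈ Geo.matrixSet R
  one := ⟨1, R.one_mem, rfl⟩
  mul := fun ⟨g, hg, e⟩ ⟨g', hg', e'⟩ => ⟨g * g', R.mul_mem hg hg', by simp [← e, ← e']⟩
  inv := fun ⟨g, hg, e⟩ => ⟨_, ⟨g⁻¹, R.inv_mem hg, rfl⟩, by simp [← e]⟩

theorem ofSub_coe {R : Subgroup (GL n F)} {g : GL n F} : (ofSub R).In g ↔ g ∈ R :=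
  ⟨fun ⟨_, h, e⟩ => Units.ext e ▸ h, fun h => ⟨g, h, rfl⟩⟩

theorem std_form [Finite F] (hn : Fintype.card n = 9) {R : Subgroup (GL n F)}
    (hs : Geo.IsSymplecticTypeGroup 3 R) (h : Geo.ActsAbsolutelyIrreducibly (Geo.matrixSet R)) :
    ∃ (w : F) (S : WS P2 w n), (∀ u, (ofSub R).In (S.W u)) ∧
      ∀ g : GL n F, g ∈ Geo.subgroupNormalizer R ↔ S.Nor g := by
  haveI : Nonempty n := Fintype.card_pos_iff.1 (by omega)
  obtain ⟨hR, h3⟩ := rdata hs h
  obtain ⟨z, hz, x, hx, w, h1, h2, e⟩ := hR.exists_root (by omega)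
  have hw : Om w := ⟨mul_left_cancel₀ (sub_ne_zero.2 h1) (by linear_combination h2),
    by simpa using hR.cast_ne_zero (by omega)⟩
  have h4 : ∀ A, (ofSub R).In A → A ^ 3 = 1 := by
    rintro _ ⟨g, hg, rfl⟩
    simpa using congrArg Units.val (h3 g hg)
  have h5 : ∀ A B, (ofSub R).In A → (ofSub R).In B → ∃ c : T, A * B = chi w c • (B * A) := by
    rintro _ _ ⟨g, hg, rfl⟩ ⟨g', hg', rfl⟩
    obtain ⟨c, hc⟩ := hR.comm g hg g' hg'
    obtain ⟨a, rfl⟩ := hw.exists_chi (hR.twist_pow hg hc)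
    exact ⟨a, hc⟩
  obtain ⟨k1, S, k2⟩ := exists_ws hn hw h4 h5 hR.abs h.2 (ofSub_coe.2 hx) (ofSub_coe.2 hz) e
  have k3 : ∀ A, (ofSub R).In A → ∃ u, ∃ c : F, c ≠ 0 ∧ A = c • S.W u := fun A hA =>
    S.eq_of_twist (MG.unit hA).choose_spec fun v => (h5 _ _ hA (k2 v)).elim fun _ h => ⟨_, h⟩
  refine ⟨w, S, k2, fun g => ⟨fun hg u => ?_, fun hg => mem_normalizer_of fun r hr => ?_⟩⟩
  · obtain ⟨r, hr, e⟩ := k2 u
    obtain ⟨v, c, -, e'⟩ := k3 _ (ofSub_coe.2 (conj_mem_of hg hr))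
    exact ⟨v, c, by rw [← smul_mul_assoc, ← e', ← e]; simp⟩
  · obtain ⟨u, c, -, e⟩ := k3 _ (ofSub_coe.2 hr)
    obtain ⟨v, d, e'⟩ := hg u
    have e1 : (g * r * g⁻¹ : GL n F).1 = (c * d) • S.W v := by
      rw [Units.val_mul, Units.val_mul, e, mul_smul_comm, e']
      simp [smul_smul]
    have e2 := congrArg Units.val (show (g * r * g⁻¹) ^ 3 = 1 by rw [conj_pow, h3 r hr]; simp)
    rw [Units.val_pow_eq_pow_val, e1, smul_pow, S.W_cube, Units.val_one, ← one_smul F (1 : Matrix n n F),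
      smul_smul, mul_one] at e2
    obtain ⟨a, ha⟩ := hw.exists_chi (S.smul_one_inj e2)
    rw [← ofSub_coe, e1, ha]
    simpa [chi, smul_pow] using (ofSub R).mul (MG.pow k1 a.val) (k2 v)

section
variable {A : Type*} [AddCommGroup A] [Module T A] [Fintype A] [DecidableEq A] {P : Polar T A}
  {m : Type} [Fintype m] [DecidableEq m]

theorem exists_intertw (S : WS P w n) (S' : WS P w m) :
    ∃ Q : Matrix m n F, Q ≠ 0 ∧ ∀ u, S'.W u * Q = Q * S.W u := by
  by_contra h
  push Not at h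
  have k : ∀ E : Matrix m n F, ∑ u, S'.W u * E * S.W (-u) = 0 := fun E => by
    by_contra k
    obtain ⟨v, hv⟩ := h _ k
    refine hv ?_
    rw [Matrix.mul_sum, Matrix.sum_mul]
    refine Fintype.sum_equiv (Equiv.addLeft v) _ _ fun u => ?_
    rw [← Matrix.mul_assoc, ← Matrix.mul_assoc, S'.mul, Matrix.mul_assoc _ (S.W _), S.mul]
    simp [S.s3.self, S.s3.skew v u]
  obtain ⟨j⟩ : Nonempty n := Fintype.card_pos_iff.1 (Nat.pos_of_ne_zero fun e => S.nz (by simp [e]))
  have := Fintype.linearIndependent_iff.1 S'.li (fun u => S.W (-u) j j) (by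
    ext a i
    simpa [Matrix.sum_apply, mul_apply, single_apply, ite_and, mul_comm] using
      congrFun (congrFun (k (single i j 1)) a) j) 0
  simp [S.zero] at this

theorem skolem (S : WS P w n) (S' : WS P w m) : ∃ (Q : Matrix m n F) (Q' : Matrix n m F),
    Q * Q' = 1 ∧ Q' * Q = 1 ∧ ∀ u, S'.W u * Q = Q * S.W u := by
  obtain ⟨Q, h0, h⟩ := exists_intertw S S'
  obtain ⟨Q', h0', h'⟩ := exists_intertw S' S
  obtain ⟨c, hc⟩ := S.scalar (M := Q' * Q) fun u => by
    rw [Matrix.mul_assoc, ← h, ← Matrix.mul_assoc, ← h', Matrix.mul_assoc]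
  obtain ⟨d, hd⟩ := S'.scalar (M := Q * Q') fun u => by
    rw [Matrix.mul_assoc, ← h', ← Matrix.mul_assoc, ← h, Matrix.mul_assoc]
  have c0 : c ≠ 0 := fun e => by
    obtain ⟨a, i, h1⟩ : ∃ a i, Q' a i ≠ 0 := by simpa [← Matrix.ext_iff] using h0'
    obtain ⟨j, b, h2⟩ : ∃ a i, Q a i ≠ 0 := by simpa [← Matrix.ext_iff] using h0
    obtain ⟨f, hf⟩ := S'.span (single i j 1)
    have : Q' * single i j (1 : F) * Q = 0 := by
      simp [hf, Matrix.mul_sum, Matrix.sum_mul, Matrix.mul_assoc, h, ← Matrix.mul_assoc Q', hc, e]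
    simpa [mul_apply, single_apply, ite_and, h1, h2] using congrFun (congrFun this a) b
  have : d = c := smul_left_injective F h0 (by
    simpa [hc, hd] using Matrix.mul_assoc Q Q' Q)
  exact ⟨Q, c⁻¹ • Q', by simp [hd, this, smul_smul, c0], by simp [hc, smul_smul, c0], h⟩

end

end Cfsg.Agent.H7.C6
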