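import Cfsg.Agent.H7.C2Refl
import Cfsg.Agent.H6.Cls

/-!
Dickson's theorem transferred to reflection groups of a ternary quadratic space.
-/

set_option autoImplicit false
set_option linter.unusedSectionVars false

namespace Cfsg.Agent.H7

open Module H8 H7.Polar QuadraticMap H6 H6.Pg
open scoped MatrixGroups

namespace Dick

variable {F : Type*} [Field F]

/-- a split quaternion algebra -/
def qm (c x y a b₁ b₂ b₃ : F) : Matrix (Fin 2) (Fin 2) F :=
  !![a + b₂ * x + b₃ * c * y, b₁ * c - b₂ * c * y - b₃ * c * x;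
    b₁ + b₂ * y + b₃ * x, a - b₂ * x - b₃ * c * y]

variable {c x y : F} (h : x * x - c * y * y = c)
include h

theorem qm_mul (a b₁ b₂ b₃ a' b₁' b₂' b₃' : F) :
    qm c x y a b₁ b₂ b₃ * qm c x y a' b₁' b₂' b₃' =
      qm c x y (a * a' + c * (b₁ * b₁' + b₂ * b₂') - c * c * b₃ * b₃')
        (a * b₁' + b₁ * a' + c * (b₃ * b₂' - b₂ * b₃'))
        (a * b₂' + b₂ * a' + c * (b₁ * b₃' - b₃ * b₁'))
        (a * b₃' + b₃ * a' + (b₁ * b₂' - b₂ * b₁')) := by
  ext i j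
  fin_cases i <;> fin_cases j <;> simp [qm, Matrix.mul_apply, Fin.sum_univ_two]
  · linear_combination (b₂ * b₂' - c * b₃ * b₃') * h
  · linear_combination (c * (b₃ * b₂' - b₂ * b₃')) * h
  · linear_combination (b₃ * b₂' - b₂ * b₃') * h
  · linear_combination (b₂ * b₂' - c * b₃ * b₃') * h

theorem qm_det (a b₁ b₂ b₃ : F) :
    (qm c x y a b₁ b₂ b₃).det = a * a - c * (b₁ * b₁ + b₂ * b₂) + c * c * b₃ * b₃ := by
  simp [qm, Matrix.det_fin_two]
  linear_combination (-b₂ * b₂ + c * b₃ * b₃) * h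

omit h in
theorem qm_trace (a b₁ b₂ b₃ : F) : (qm c x y a b₁ b₂ b₃).trace = 2 * a := by
  simp [qm, Matrix.trace_fin_two]
  ring

omit h in
theorem qm_smul (s a b₁ b₂ b₃ : F) :
    s • qm c x y a b₁ b₂ b₃ = qm c x y (s * a) (s * b₁) (s * b₂) (s * b₃) := by
  ext i j
  fin_cases i <;> fin_cases j <;> simp [qm] <;> ring

omit h in
theorem qm_one : qm c x y 1 0 0 0 = 1 := by
  ext i j
  fin_cases i <;> fin_cases j <;> simp [qm]

theorem qm_inj (h2 : (2 : F) ≠ 0) (hc : c ≠ 0) {a b₁ b₂ b₃ a' b₁' b₂' b₃' : F}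
    (e : qm c x y a b₁ b₂ b₃ = qm c x y a' b₁' b₂' b₃') :
    a = a' ∧ b₁ = b₁' ∧ b₂ = b₂' ∧ b₃ = b₃' := by
  have t := fun s t u v => congrArg (fun A => Matrix.trace (A * qm c x y s t u v)) e
  simp only [qm_mul h, qm_trace] at t
  have t1 := t 1 0 0 0
  have t2 := t 0 1 0 0
  have t3 := t 0 0 1 0
  have t4 := t 0 0 0 1
  simp [h2, hc] at t1 t2 t3 t4
  exact ⟨t1, t2, t3, t4⟩

omit h

theorem S_le_of_sq (h2 : (2 : F) ≠ 0) {M : Subgroup PGL(2, F)} (hM : ∀ g ∈ S F, g * g ∈ M) :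
    S F ≤ M := by
  have up : ∀ t : F, pg !![1, t; 0, 1] ∈ M := fun t => by
    have := hM (pg !![1, t / 2; 0, 1]) (mem_S.2 ⟨_, by simp, rfl⟩)
    rw [pg_mul (by simp) (by simp)] at this
    convert this using 2
    ext i j
    fin_cases i <;> fin_cases j <;> simp [← two_mul, mul_div_cancel₀, h2]
  have lo : ∀ t : F, pg !![1, 0; t, 1] ∈ M := fun t => by
    have := hM (pg !![1, 0; t / 2, 1]) (mem_S.2 ⟨_, by simp, rfl⟩)
    rw [pg_mul (by simp) (by simp)] at this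
    convert this using 2
    ext i j
    fin_cases i <;> fin_cases j <;> simp [← two_mul, mul_div_cancel₀, h2]
  have key : ∀ A : Matrix (Fin 2) (Fin 2) F, A.det = 1 → A 1 0 ≠ 0 → pg A ∈ M := fun A hA h0 => by
    have := mul_mem (mul_mem (up ((A 0 0 - 1) / A 1 0)) (lo (A 1 0))) (up ((A 1 1 - 1) / A 1 0))
    rw [pg_mul (by simp) (by simp), pg_mul (by simp) (by simp)] at this
    convert this using 2
    rw [Matrix.det_fin_two] at hA
    ext i j
    fin_cases i <;> fin_cases j <;> simp [h0]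
    · field_simp
      linear_combination -hA
    · field_simp
      ring
  intro g hg
  obtain ⟨A, hA, rfl⟩ := mem_S.1 hg
  by_cases h0 : A 1 0 = 0
  · have h1 : A 0 0 ≠ 0 := fun h => by simp [Matrix.det_fin_two, h, h0] at hA
    have := key (!![1, 0; 1, 1] * A) (by rw [Matrix.det_mul, hA]; simp)
      (by simp [Matrix.mul_apply, h0, h1])
    rwa [← pg_mul (by simp) (by simp [hA]), M.mul_mem_cancel_left (lo 1)] at this
  · exact key A hA h0

theorem tau_cases {g : PGL(2, F)} (h1 : g ≠ 1)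
    (h : orderOf g ∣ 2 ∨ orderOf g ∣ 3 ∨ orderOf g ∣ 4 ∨ orderOf g ∣ 5) :
    tau g = 0 ∨ tau g = 1 ∨ tau g = 2 ∨ tau g ^ 2 - 3 * tau g + 1 = 0 := by
  simp only [orderOf_dvd_iff_pow_eq_one, pow_two_iff h1, pow_three_iff h1, pow_four_iff h1,
    pow_five_iff h1] at h
  tauto

theorem eq_top_of_prime [Fintype F] (hp : (Fintype.card F).Prime) (L : Subfield F) : L = ⊤ := by
  rw [eq_top_iff]
  intro a _
  obtain ⟨n, rfl⟩ := exists_natCast_of_prime hp a
  exact natCast_mem L n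

theorem S_le [Fintype F] (hp : (Fintype.card F).Prime) (h2 : (2 : F) ≠ 0) (h3 : (3 : F) ≠ 0)
    (h : x * x - c * y * y = c) {α : F} (hα : α ≠ 0) (hc : c ≠ 0) (hcα : α * α - c = 1)
    (hα2 : 2 * (α * α) ≠ 1) {N : Subgroup PGL(2, F)} (hI : pg (qm c x y 0 1 0 0) ∈ N)
    (hJ : pg (qm c x y 0 0 1 0) ∈ N)
    (hA : pg (qm c x y α 0 1 0) ∈ N) (hB : pg (qm c x y α 1 0 0) ∈ N) : S F ≤ N := by
  have := Fact.mk hp
  have := charP_of_card_eq_prime (R := F) rfl
  have m := mobF F (Fintype.card F)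
  have dJ : (qm c x y 0 0 1 0).det ≠ 0 := by simp [qm_det h, hc]
  have dA : (qm c x y α 0 1 0).det = 1 := by simp [qm_det h, hcα]
  have dB : (qm c x y α 1 0 0).det = 1 := by simp [qm_det h, hcα]
  have dA' := ne_of_eq_of_ne dA one_ne_zero
  have dB' := ne_of_eq_of_ne dB one_ne_zero
  have h4 : (4 : F) ≠ 0 := by
    rw [show (4 : F) = 2 * 2 by norm_num]; exact mul_ne_zero h2 h2
  have tA : tau (pg (qm c x y α 0 1 0)) = 4 * (α * α) := by
    rw [tau_pg dA', dA, qm_trace]; ring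
  have tB : tau (pg (qm c x y α 1 0 0)) = 4 * (α * α) := by
    rw [tau_pg dB', dB, qm_trace]; ring
  have tAJ : tau (pg (qm c x y α 0 1 0) * pg (qm c x y 0 0 1 0)) = 4 - 4 * (α * α) := by
    rw [pg_mul dA' dJ, tau_pg (by simp [dA, dJ]), Matrix.det_mul, dA, qm_mul h, qm_trace, qm_det h]
    rw [div_eq_iff (by simpa using hc)]
    linear_combination (-4 * c) * hcα
  have ne1 : ∀ {g : PGL(2, F)}, tau g ≠ 4 → g ≠ 1 := fun h e => h (by rw [e, tau_one])
  have n4 : 4 * (α * α) ≠ 4 := fun e => hc (by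
    have : 4 * c = 0 := by linear_combination e - 4 * hcα
    simpa [h4] using this)
  have n0 : 4 * (α * α) ≠ 0 := by simp [h4, hα]
  have A1 := ne1 (tA ▸ n4)
  have B1 := ne1 (tB ▸ n4)
  have A2 : pg (qm c x y α 0 1 0) * pg (qm c x y α 0 1 0) ≠ 1 := by
    rw [← _root_.sq, Ne, pow_two_iff A1, tA]; exact n0
  have B2 : pg (qm c x y α 1 0 0) * pg (qm c x y α 1 0 0) ≠ 1 := by
    rw [← _root_.sq, Ne, pow_two_iff B1, tB]; exact n0
  have exc : (∀ g ∈ N, orderOf g ∣ 2 ∨ orderOf g ∣ 3 ∨ orderOf g ∣ 4 ∨ orderOf g ∣ 5) → False := by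
    intro H
    have e1 := tau_cases A1 (H _ hA)
    have e2 := tau_cases (ne1 (by rw [tAJ]; simpa using n0)) (H _ (mul_mem hA hJ))
    rw [tA] at e1
    rw [tAJ] at e2
    have n2 : 4 * (α * α) ≠ 2 := fun e => hα2 (mul_left_cancel₀ h2 (by linear_combination e))
    generalize 4 * (α * α) = t at *
    rcases e1 with e1 | e1 | e1 | e1
    · exact n0 e1
    · rcases e2 with e2 | e2 | e2 | e2
      · exact h3 (by linear_combination e1 + e2)
      · exact h2 (by linear_combination e1 + e2)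
      · exact one_ne_zero (α := F) (by linear_combination e1 + e2)
      · exact one_ne_zero (α := F) (by linear_combination e2 - (t - 4) * e1)
    · exact n2 e1
    · rcases e2 with e2 | e2 | e2 | e2
      · exact n4 (by linear_combination -e2)
      · exact one_ne_zero (α := F) (by linear_combination e1 + t * e2)
      · exact n2 (by linear_combination -e2)
      · exact n2 (mul_left_cancel₀ h2 (by linear_combination e1 - e2))
  rcases Pg.dickson (Fintype.card F) N with ⟨z, hz⟩ | ⟨z, w, hzw, hz⟩ | ⟨-, e⟩ | ⟨-, e⟩ |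
    ⟨-, -, e⟩ | ⟨g, L, -, h1, -⟩
  · exfalso
    have hJ2 : pg (qm c x y 0 0 1 0) * pg (qm c x y 0 0 1 0) = 1 := by
      rw [pg_mul dJ dJ, qm_mul h, ← pg_one, ← pg_smul hc 1, ← qm_one (c := c) (x := x) (y := y),
        qm_smul]
      simp
    have hJ1 : pg (qm c x y 0 0 1 0) ≠ 1 := ne1 (by
      rw [tau_pg dJ, qm_trace]; simpa using h4.symm)
    have dI : (qm c x y 0 1 0 0).det ≠ 0 := by simp [qm_det h, hc]
    have e1 : pg (qm c x y α 0 1 0) * pg (qm c x y 0 1 0 0) * pg (qm c x y α 0 1 0) =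
        pg (qm c x y 0 1 0 0) := by
      rw [pg_mul dA' dI, pg_mul (by simp [dA, dI]) dA', qm_mul h, qm_mul h]
      congr 2 <;> first | ring1 | linear_combination hcα
    have e2 : pg (qm c x y 0 0 1 0) * pg (qm c x y α 0 1 0) =
        pg (qm c x y α 0 1 0) * pg (qm c x y 0 0 1 0) := by
      rw [pg_mul dA' dJ, pg_mul dJ dA', qm_mul h, qm_mul h]
      congr 2 <;> ring
    have e3 := m.comm _ _ z (hz hI) (hz hA)
    generalize pg (qm c x y α 0 1 0) = A at *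
    generalize pg (qm c x y 0 1 0 0) = I at *
    generalize pg (qm c x y 0 0 1 0) = J at *
    rw [show I * A * I⁻¹ * A⁻¹ = (A * A)⁻¹ by
      conv_lhs => rw [show I * A = A⁻¹ * (A * I * A) by group, e1]
      group, inv_pow, inv_eq_one] at e3
    have e4 := m.pow_of_commute A2 e3 (g := J) (by
      rw [← mul_assoc, e2, mul_assoc, e2, mul_assoc])
    obtain ⟨r, hr⟩ := hp.odd_of_ne_two fun e => h2 (by
      have := CharP.cast_eq_zero F (Fintype.card F)
      rwa [e, Nat.cast_ofNat] at this)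
    rw [hr, pow_succ, pow_mul, _root_.sq, hJ2, one_pow, one_mul] at e4
    exact hJ1 e4
  · exfalso
    have f : ∀ g ∈ N, g * g ≠ 1 → g • z = z ∧ g • w = w := fun g hg h =>
      (Mob.mem_pair.1 (hz hg)).resolve_right fun e => h (m.sq_of_swap hzw e.1 e.2)
    obtain ⟨a1, a2⟩ := f _ hA A2
    obtain ⟨b1, b2⟩ := f _ hB B2
    have := m.pelt _ z w (m.comm _ _ z a1 b1) hzw
      (by simp only [mul_smul, inv_smul_eq_iff.2 a1.symm, inv_smul_eq_iff.2 b1.symm, a1, b1])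
      (by simp only [mul_smul, inv_smul_eq_iff.2 a2.symm, inv_smul_eq_iff.2 b2.symm, a2, b2])
    rw [mul_inv_eq_one, mul_inv_eq_iff_eq_mul, pg_mul dA' dB', pg_mul dB' dA',
      pg_eq_iff (by simp [dA, dB]) (by simp [dA, dB])] at this
    obtain ⟨s, hs⟩ := this
    rw [qm_mul h, qm_mul h, qm_smul] at hs
    obtain ⟨-, s1, -, s2⟩ := qm_inj h h2 hc hs
    simp [hα] at s1 s2
    exact h2 (by linear_combination -s2 - s1)
  · exact (exc fun g hg => by have := order_A4 e hg; tauto).elim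
  · exact (exc fun g hg => by have := order_S4 e hg; tauto).elim
  · exact (exc fun g hg => by have := order_A5 e hg; tauto).elim
  · exact S_le_of_top (eq_top_of_prime hp L ▸ h1)

variable {V : Type*} [AddCommGroup V] [Module F V] {Q : QuadraticForm F V}

/-- A reflection group on a ternary space. -/
theorem rQ_mul_mem [Fintype F] (hp : (Fintype.card F).Prime) (h2 : (2 : F) ≠ 0) (h3 : (3 : F) ≠ 0)
    {e₁ e₂ e₃ : V} {α ν : F} (q1 : Q e₁ = 1) (q2 : Q e₂ = 1) (q3 : Q e₃ = ν)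
    (p12 : polar Q e₁ e₂ = 0) (p13 : polar Q e₁ e₃ = 0) (p23 : polar Q e₂ e₃ = 0)
    (hα : α ≠ 0) (hν : ν ≠ 0) (hαν : α * α + ν = 1) (hα2 : 2 * (α * α) ≠ 1)
    {Y : Subgroup (V ≃ₗ[F] V)} (h1 : rQ Q e₁ ∈ Y) (h2' : rQ Q e₂ ∈ Y)
    (ha : rQ Q (α • e₁ + e₃) ∈ Y) (hb : rQ Q (α • e₂ + e₃) ∈ Y) {a₁ a₂ a₃ b₁ b₂ b₃ : F}
    (hab : Q (a₁ • e₁ + a₂ • e₂ + a₃ • e₃) = Q (b₁ • e₁ + b₂ • e₂ + b₃ • e₃))
    (h0 : Q (b₁ • e₁ + b₂ • e₂ + b₃ • e₃) ≠ 0) :
    rQ Q (a₁ • e₁ + a₂ • e₂ + a₃ • e₃) * rQ Q (b₁ • e₁ + b₂ • e₂ + b₃ • e₃) ∈ Y := by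
  obtain ⟨x, y, h⟩ := exists_quad_add_quad h2 (a := 1) (b := ν) one_ne_zero hν (-ν)
  replace h : x * x - -ν * y * y = -ν := by linear_combination h
  have hc : -ν ≠ 0 := by simpa
  let φ : V → Matrix (Fin 2) (Fin 2) F := fun v =>
    qm (-ν) x y 0 (polar Q v e₁ / 2) (polar Q v e₂ / 2) (polar Q v e₃ / (2 * ν))
  let U : Submodule F V := Submodule.span F {e₁, e₂, e₃}
  have hU : ∀ v ∈ U, ∃ a b c : F, v = a • e₁ + b • e₂ + c • e₃ := fun v hv => by
    obtain ⟨a, b, c, h⟩ := Submodule.mem_span_triple.1 hv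
    exact ⟨a, b, c, h.symm⟩
  have hU' : ∀ a b c : F, a • e₁ + b • e₂ + c • e₃ ∈ U := fun a b c =>
    Submodule.mem_span_triple.2 ⟨a, b, c, rfl⟩
  have p21 := polar_comm Q e₂ e₁ ▸ p12
  have p31 := polar_comm Q e₃ e₁ ▸ p13
  have p32 := polar_comm Q e₃ e₂ ▸ p23
  have hQ : ∀ a b c : F, Q (a • e₁ + b • e₂ + c • e₃) = a * a + b * b + c * c * ν := by
    intro a b c
    simp [Q_add, Q_smul, polar_add_left, polar_smul_left, polar_smul_right, *]
  have hφ : ∀ a b c : F, φ (a • e₁ + b • e₂ + c • e₃) = qm (-ν) x y 0 a b c := by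
    intro a b c
    simp only [φ, polar_add_left, polar_smul_left, polar_self', smul_eq_mul, p12, p13, p23, p21,
      p31, p32, q1, q2, q3]
    congr 1 <;> field_simp <;> ring
  have hdet : ∀ a b c : F, (qm (-ν) x y 0 a b c).det = ν * Q (a • e₁ + b • e₂ + c • e₃) := by
    intro a b c
    rw [qm_det h, hQ]; ring
  let R : F → PGL(2, F) → Prop := fun ε g => ∃ A : Matrix (Fin 2) (Fin 2) F, A.det ≠ 0 ∧ pg A = g ∧
    ∃ t ∈ Y, (∀ v, t v - v ∈ U) ∧ ∀ v, φ (t v) * A = ε • (A * φ v)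
  have key : ∀ a b c : F, Q (a • e₁ + b • e₂ + c • e₃) ≠ 0 → ∀ v,
      φ (rQ Q (a • e₁ + b • e₂ + c • e₃) v) * qm (-ν) x y 0 a b c =
        (-1 : F) • (qm (-ν) x y 0 a b c * φ v) := by
    intro a b c h0 v
    simp only [φ, qm_mul h, qm_smul, rQ_apply, polar_sub_left, polar_smul_left, polar_add_left,
      polar_add_right, polar_smul_right, polar_self', smul_eq_mul, p12, p13, p23, p21,
      p31, p32, q1, q2, q3]
    rw [hQ] at h0 ⊢
    have hi := mul_inv_cancel₀ h0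
    generalize (a * a + b * b + c * c * ν)⁻¹ = q at hi
    congr 1
    · field_simp
      linear_combination (2 * ν * (a * polar Q v e₁ + b * polar Q v e₂ + c * polar Q v e₃)) * hi
    all_goals (field_simp; ring)
  have keyU : ∀ a b c : F, ∀ v, rQ Q (a • e₁ + b • e₂ + c • e₃) v - v ∈ U := fun a b c v =>
    (Submodule.span_singleton_le_iff_mem _ _).2 (hU' a b c) (rQ_sub_mem _ v)
  have Rrefl : ∀ a b c : F, Q (a • e₁ + b • e₂ + c • e₃) ≠ 0 →
      rQ Q (a • e₁ + b • e₂ + c • e₃) ∈ Y → R (-1) (pg (qm (-ν) x y 0 a b c)) :=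
    fun a b c h0 h1 => ⟨_, by simp [hdet, hν, h0], rfl, _, h1, keyU a b c, key a b c h0⟩
  have Rmul : ∀ {ε ε' g g'}, R ε g → R ε' g' → R (ε * ε') (g * g') := by
    rintro ε ε' _ _ ⟨A, hA, rfl, t, ht, t1, t2⟩ ⟨A', hA', rfl, t', ht', t1', t2'⟩
    refine ⟨A * A', by simp [hA, hA'], (pg_mul hA hA').symm, t * t', mul_mem ht ht', fun v => ?_,
      fun v => ?_⟩
    · simpa using add_mem (t1 (t' v)) (t1' v)
    · rw [LinearEquiv.mul_apply, ← mul_assoc, t2, smul_mul_assoc, mul_assoc, t2', mul_smul_comm,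
        smul_smul, mul_assoc]
  have Rone : R 1 1 := ⟨1, by simp, pg_one, 1, one_mem _, by simp, by simp⟩
  have Rinv : ∀ {ε g}, ε * ε = 1 → R ε g → R ε g⁻¹ := by
    rintro ε _ hε ⟨A, hA, rfl, t, ht, t1, t2⟩
    have e : ∀ v, t (t⁻¹ v) = v := t.apply_symm_apply
    have hA' : IsUnit A.det := hA.isUnit
    have hA'' : A⁻¹.det ≠ 0 := (Matrix.isUnit_nonsing_inv_det A hA').ne_zero
    refine ⟨A⁻¹, hA'', eq_inv_of_mul_eq_one_left (by
      rw [pg_mul hA'' hA, Matrix.nonsing_inv_mul _ hA', pg_one]), t⁻¹, inv_mem ht, fun v => ?_,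
      fun v => ?_⟩
    · simpa [e] using neg_mem (t1 (t⁻¹ v))
    · have := t2 (t⁻¹ v)
      rw [e] at this
      rw [← Matrix.mul_nonsing_inv_cancel_right A (φ v) hA', this, smul_mul_assoc, mul_smul_comm,
        smul_smul, hε, one_smul, mul_assoc, Matrix.nonsing_inv_mul_cancel_left _ _ hA']
  let N : Subgroup PGL(2, F) :=
    { carrier := {g | ∃ ε, ε * ε = 1 ∧ R ε g}
      mul_mem' := by
        rintro g g' ⟨ε, e, hg⟩ ⟨ε', e', hg'⟩
        exact ⟨_, by linear_combination ε' * ε' * e + e', Rmul hg hg'⟩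
      one_mem' := ⟨1, by simp, Rone⟩
      inv_mem' := fun ⟨ε, e, hg⟩ => ⟨ε, e, Rinv e hg⟩ }
  let M : Subgroup PGL(2, F) :=
    { carrier := {g | R 1 g}
      mul_mem' := fun hg hg' => by simpa using Rmul hg hg'
      one_mem' := Rone
      inv_mem' := Rinv (by simp) }
  have Nrefl : ∀ a b c : F, Q (a • e₁ + b • e₂ + c • e₃) ≠ 0 →
      rQ Q (a • e₁ + b • e₂ + c • e₃) ∈ Y → pg (qm (-ν) x y 0 a b c) ∈ N :=
    fun a b c h0 h1 => ⟨-1, by simp, Rrefl a b c h0 h1⟩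
  have nI := Nrefl 1 0 0 (by simp [q1]) (by simpa)
  have nJ := Nrefl 0 1 0 (by simp [q2]) (by simpa)
  have nA := Nrefl α 0 1 (by rw [hQ]; simp [hαν]) (by simpa)
  have nB := Nrefl 0 α 1 (by rw [hQ]; simp [hαν]) (by simpa)
  have hS : S F ≤ N := by
    refine S_le hp h2 h3 h hα hc (by linear_combination hαν) hα2 nI nJ ?_ ?_
    · have := mul_mem nI nA
      rw [pg_mul (by simp [qm_det h, hν]) (by rw [hdet, hQ]; simp [hν, hαν]), qm_mul h] at this
      rw [← pg_smul hc, qm_smul]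
      convert this using 3 <;> ring
    · have := mul_mem nB nJ
      rw [pg_mul (by rw [hdet, hQ]; simp [hν, hαν]) (by simp [qm_det h, hν]), qm_mul h] at this
      rw [← pg_smul hc, qm_smul]
      convert this using 3 <;> ring
  have hM : S F ≤ M := S_le_of_sq h2 fun g hg => by
    obtain ⟨ε, e, hg⟩ := hS hg
    have := Rmul hg hg
    rwa [e] at this
  have da : (qm (-ν) x y 0 a₁ a₂ a₃).det ≠ 0 := by simp [hdet, hν, hab, h0]
  have db : (qm (-ν) x y 0 b₁ b₂ b₃).det ≠ 0 := by simp [hdet, hν, h0]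
  have dab : (qm (-ν) x y 0 a₁ a₂ a₃ * qm (-ν) x y 0 b₁ b₂ b₃).det ≠ 0 := by simp [da, db]
  obtain ⟨A, hA, e, t, ht, t1, t2⟩ := hM ((pg_mem_S dab).2 ⟨_, by
    rw [Matrix.det_mul, hdet, hdet, hab]⟩)
  obtain ⟨s, hs⟩ := (pg_eq_iff dab hA).1 e.symm
  convert ht using 1
  refine LinearEquiv.ext fun v => ?_
  have e1 := t2 v
  have e2 : φ (rQ Q (a₁ • e₁ + a₂ • e₂ + a₃ • e₃) (rQ Q (b₁ • e₁ + b₂ • e₂ + b₃ • e₃) v)) * A =
      A * φ v := by
    rw [← hs, mul_smul_comm, smul_mul_assoc, ← mul_assoc, key _ _ _ (hab ▸ h0), smul_mul_assoc,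
      mul_assoc, key _ _ _ h0, mul_smul_comm, smul_smul, mul_assoc]
    simp
  rw [one_smul, ← e2, (Matrix.isUnit_iff_isUnit_det A).2 hA.isUnit |>.mul_left_inj] at e1
  rw [LinearEquiv.mul_apply]
  generalize hw : rQ Q (a₁ • e₁ + a₂ • e₂ + a₃ • e₃) (rQ Q (b₁ • e₁ + b₂ • e₂ + b₃ • e₃) v) = w at *
  have e3 : w - t v ∈ U := by
    have := sub_mem (add_mem (keyU a₁ a₂ a₃ (rQ Q (b₁ • e₁ + b₂ • e₂ + b₃ • e₃) v))
      (keyU b₁ b₂ b₃ v)) (t1 v)
    rw [hw] at this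
    simpa using this
  obtain ⟨a, b, c, e4⟩ := hU _ e3
  obtain rfl : w = t v + (a • e₁ + b • e₂ + c • e₃) := by rw [← e4]; simp
  obtain ⟨-, f1, f2, f3⟩ := qm_inj h h2 hc e1
  simp [polar_add_left, polar_smul_left, polar_self', p12, p13, p23, p21,
      p31, p32, q1, q2, q3, h2, hν, add_div] at f1 f2 f3
  simp [f1, f2, f3]

end Dick

end Cfsg.Agent.H7
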