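import Cfsg.Agent.H7.SubPolar2
import Cfsg.Agent.H7.Inst
import Cfsg.Agent.Asch.Span
import Cfsg.Agent.Asch.FinField

/-!
Subfield subgroups: translation to the Prelude.
-/

set_option autoImplicit false
set_option linter.unusedSectionVars false

namespace Cfsg.Agent.H7

open Module
open scoped MatrixGroups Matrix

section frob

variable {F : Type*} [Field F] [Fintype F] (F₀ : Subfield F)

/-- The Frobenius map of `F` over the subfield `F₀`. -/
noncomputable def subFrob : F →+* F :=
  letI := Fintype.ofFinite F₀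
  (FiniteField.frobeniusAlgHom F₀ F : F →ₐ[F₀] F)

theorem subFrob_apply (a : F) : subFrob F₀ a = a ^ Nat.card F₀ := by
  letI := Fintype.ofFinite F₀
  rw [Nat.card_eq_fintype_card]; rfl

theorem subFrob_iff (a : F) : subFrob F₀ a = a ↔ a ∈ F₀ := by
  classical
  letI := Fintype.ofFinite F₀
  rw [subFrob_apply, Nat.card_eq_fintype_card]
  have h1 : ∀ a ∈ F₀, a ^ Fintype.card F₀ = a := fun a ha =>
    congrArg Subtype.val (FiniteField.pow_card (⟨a, ha⟩ : F₀))
  refine ⟨fun h => ?_, h1 a⟩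
  by_contra ha
  have hq : 1 < Fintype.card F₀ := Fintype.one_lt_card
  have h2 : insert a (Finset.univ.image (Subtype.val : F₀ → F)) ⊆
      (Polynomial.X ^ Fintype.card F₀ - Polynomial.X : Polynomial F).roots.toFinset := by
    intro x hx
    rw [Multiset.mem_toFinset, Polynomial.mem_roots (FiniteField.X_pow_card_sub_X_ne_zero F hq)]
    simp only [Finset.mem_insert, Finset.mem_image, Finset.mem_univ, true_and] at hx
    rcases hx with rfl | ⟨y, rfl⟩
    · simp [h]
    · simp [h1 y y.2]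
  have h3 := (Finset.card_le_card h2).trans ((Multiset.toFinset_card_le _).trans
    (Polynomial.card_roots' _))
  rw [FiniteField.X_pow_card_sub_X_natDegree_eq F hq, Finset.card_insert_of_notMem (by simpa using ha),
    Finset.card_image_of_injective _ Subtype.val_injective, Finset.card_univ] at h3
  omega

variable {F₀}

theorem finrank_eq_of_card {r : ℕ} (hcard : Fintype.card F = Nat.card F₀ ^ r) :
    finrank F₀ F = r := by
  have h1 := Module.natCard_eq_pow_finrank (K := F₀) (V := F)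
  rw [Nat.card_eq_fintype_card, hcard] at h1
  exact (Nat.pow_right_injective (Finite.one_lt_card (α := F₀)) h1).symm

theorem subring_eq_top {r : ℕ} (hr : r.Prime) (hcard : Fintype.card F = Nat.card F₀ ^ r)
    (S : Subring F) (h1 : ∀ a ∈ F₀, a ∈ S) (h2 : ∃ ξ ∈ S, ξ ∉ F₀) : S = ⊤ := by
  let A : Subalgebra F₀ F := { S with algebraMap_mem' := fun a => h1 a a.2 }
  rcases (Subalgebra.isSimpleOrder_of_finrank_prime F₀ F
    (by rwa [finrank_eq_of_card hcard])).eq_bot_or_eq_top A with h | h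
  · obtain ⟨ξ, h3, h4⟩ := h2
    have : ξ ∈ A := h3
    rw [h, Algebra.mem_bot] at this
    obtain ⟨a, rfl⟩ := this
    exact absurd a.2 h4
  · rw [eq_top_iff]
    exact fun x _ => (show x ∈ A by simp [h])

theorem exists_notMem_subfield {r : ℕ} (hr : r.Prime) (hcard : Fintype.card F = Nat.card F₀ ^ r) :
    ∃ ξ, ξ ∉ F₀ := by
  by_contra! h
  have h1 : Nat.card F₀ = Fintype.card F := by
    rw [← Nat.card_eq_fintype_card]
    exact Nat.card_congr (Equiv.subtypeUnivEquiv h)
  rw [h1] at hcard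
  have := Nat.pow_right_injective (Fintype.one_lt_card (α := F)) ((pow_one _).trans hcard)
  exact hr.one_lt.ne this

end frob

namespace RatStr

variable {F : Type*} [Field F] {F₀ : Subfield F} {V : Type*} [AddCommGroup V] [Module F V]
  {V' : Type*} [AddCommGroup V'] [Module F V']

/-- Transport of a rational structure. -/
def map (R : RatStr F₀ V) (e : V ≃ₗ[F] V') : RatStr F₀ V' where
  θ := R.θ
  τ := (e : V →+ V').comp (R.τ.comp (e.symm : V' →+ V))
  θ_iff := R.θ_iff
  τ_smul a x := by simp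
  span N hN := by
    have := R.span (N.comap (e : V →ₗ[F] V')) fun x hx => hN _ (by simp [hx])
    rw [eq_top_iff]
    intro x _
    obtain ⟨x, rfl⟩ := e.surjective x
    exact (show x ∈ N.comap (e : V →ₗ[F] V') by simp [this])

end RatStr

variable {ι : Type} [Fintype ι] [DecidableEq ι] {F : Type*} [Field F] [Fintype F]

/-- The rational structure spanned by the columns of `P`. -/
noncomputable def stdRat (F₀ : Subfield F) (P : GL ι F) : RatStr F₀ (ι → F) :=
  (RatStr.pi (subFrob F₀) (subFrob_iff F₀) ι).map (toLE P)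

theorem stdRat_θ (F₀ : Subfield F) (P : GL ι F) (a : F) : (stdRat F₀ P).θ a = a ^ Nat.card F₀ :=
  subFrob_apply F₀ a

theorem stdRat_τ (F₀ : Subfield F) (P : GL ι F) (u : ι → F) :
    (stdRat F₀ P).τ (toLE P u) = toLE P fun i => subFrob F₀ (u i) := by
  show toLE P (fun i => subFrob F₀ ((toLE P).symm (toLE P u) i)) = _
  rw [LinearEquiv.symm_apply_apply]

theorem stdRat_fix {F₀ : Subfield F} {P : GL ι F} {x : ι → F} (hx : (stdRat F₀ P).τ x = x) :
    ∃ u : ι → F, (∀ i, u i ∈ F₀) ∧ x = (P : Matrix ι ι F) *ᵥ u := by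
  obtain ⟨u, rfl⟩ := (toLE P).surjective x
  rw [stdRat_τ] at hx
  exact ⟨u, fun i => (subFrob_iff F₀ _).1 (congrFun ((toLE P).injective hx) i), rfl⟩

theorem stdRat_τ_τ {F₀ : Subfield F} (hcard : Fintype.card F = Nat.card F₀ ^ 2) (P : GL ι F)
    (x : ι → F) : (stdRat F₀ P).τ ((stdRat F₀ P).τ x) = x := by
  obtain ⟨u, rfl⟩ := (toLE P).surjective x
  rw [stdRat_τ, stdRat_τ]
  congr 1
  ext i
  rw [subFrob_apply, subFrob_apply, ← pow_mul, ← sq, ← hcard, FiniteField.pow_card]

theorem mem_subfieldSubgroup_iff_N [Nonempty ι] (F₀ : Subfield F) (P g : GL ι F) :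
    g ∈ Geo.subfieldSubgroup F₀ P ↔ toLE g ∈ (stdRat F₀ P).N := by
  have key : ∀ u, toLE g (toLE P u) = toLE P (Asch.cj P⁻¹ (g : Matrix ι ι F) *ᵥ u) := by
    intro u
    simp only [toLE_apply, Matrix.mulVec_mulVec, Asch.cj_apply, inv_inv, ← mul_assoc,
      Units.mul_inv, one_mul]
  rw [Asch.mem_subfieldSubgroup_iff]
  constructor
  · rintro ⟨c, y, hc, h⟩
    refine RatStr.mem_N_of (c := subFrob F₀ c / c) fun x hx => ?_
    obtain ⟨u, hu, rfl⟩ := stdRat_fix hx
    rw [← toLE_apply, key, stdRat_τ, h, ← map_smul]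
    congr 1
    ext i
    have : (((y : Matrix ι ι F₀).map F₀.subtype) *ᵥ u) i ∈ F₀ :=
      F₀.sum_mem fun j _ => F₀.mul_mem (y i j).2 (hu j)
    simp only [Matrix.smul_mulVec, Pi.smul_apply, smul_eq_mul, map_mul,
      (subFrob_iff F₀ _).2 this]
    field_simp
  · rintro ⟨c, hc⟩
    set M := Asch.cj P⁻¹ (g : Matrix ι ι F) with hM
    have h1 : ∀ i j, subFrob F₀ (M i j) = c * M i j := by
      intro i j
      have := hc (toLE P (Pi.single j 1))
      rw [key, stdRat_τ, stdRat_τ, key, ← map_smul] at this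
      have h2 := congrFun ((toLE P).injective this) i
      have h3 : (fun i => subFrob F₀ ((Pi.single j 1 : ι → F) i)) = Pi.single j 1 := by
        ext k; by_cases h : k = j <;> simp [h]
      simpa [h3] using h2
    have hdet : M.det ≠ 0 := by
      rw [hM, Asch.cj_coe]
      exact Matrix.GeneralLinearGroup.det_ne_zero _
    obtain ⟨i, j, hij⟩ : ∃ i j, M i j ≠ 0 := by
      by_contra! h
      exact hdet (by rw [show M = 0 from Matrix.ext h, Matrix.det_zero])
    let y : Matrix ι ι F₀ := fun k l => ⟨M k l / M i j, (subFrob_iff F₀ _).1 (by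
      rw [map_div₀, h1, h1, mul_div_mul_left _ _ c.ne_zero])⟩
    have h2 : M = M i j • y.map F₀.subtype := by
      ext k l
      exact (mul_div_cancel₀ _ hij).symm
    refine ⟨M i j, Matrix.GeneralLinearGroup.mkOfDetNeZero y fun h => hdet ?_, hij, h2⟩
    rw [h2, Matrix.det_smul, ← RingHom.mapMatrix_apply, ← RingHom.map_det, h]
    simp

namespace Polar

variable {F : Type*} [Field F] {V : Type*} [AddCommGroup V] [Module F V] (P : Polar F V)

/-- Multiplication of the form by a scalar. -/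
def scale {ζ η : F} (hζ : ζ ≠ 0) (hη : η = 1 ∨ η = -1) (hσ : P.σ ζ = η * ζ) : Polar F V where
  σ := P.σ
  ε := P.ε * η
  B := ζ • P.B
  Val x c := P.Val x (c / ζ)
  σσ := P.σσ
  εε := by rcases P.εε with h | h <;> rcases hη with h' | h' <;> simp [h, h']
  herm x y := by
    simp only [LinearMap.smul_apply, smul_eq_mul, map_mul, hσ, P.herm x y]
    rcases hη with h | h <;> simp [h] <;> ring
  nondeg y h := P.nondeg y fun x => by simpa [hζ] using h x
  val_ex x := by
    obtain ⟨c, hc⟩ := P.val_ex x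
    exact ⟨c * ζ, by simpa [hζ] using hc⟩
  val_add hx hy := val_congr (P.val_add hx hy) (by simp; field_simp)
  val_smul a hx := val_congr (P.val_smul a hx) (by ring)
  val_self hx := by
    simp only [LinearMap.smul_apply, smul_eq_mul, P.val_self hx, map_div₀, hσ]
    rcases hη with h | h <;> simp [h] <;> field_simp <;> ring
  val_min a := val_congr (P.val_min (a / ζ)) (by
    rw [map_div₀, hσ]
    rcases hη with h | h <;> simp [h] <;> field_simp <;> ring)

variable {P}

section
variable {ζ η : F} (hζ : ζ ≠ 0) (hη : η = 1 ∨ η = -1) (hσ : P.σ ζ = η * ζ)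

theorem scale_B (x y : V) : (P.scale hζ hη hσ).B x y = ζ * P.B x y := rfl
theorem scale_σ (a : F) : (P.scale hζ hη hσ).σ a = P.σ a := rfl
theorem scale_ε : (P.scale hζ hη hσ).ε = P.ε * η := rfl
theorem scale_val {x : V} {c : F} : (P.scale hζ hη hσ).Val x c ↔ P.Val x (c / ζ) := Iff.rfl

theorem scale_eich (u w : V) (c : F) (x : V) :
    (P.scale hζ hη hσ).eich u w c x = P.eich u (ζ • w) (P.σ ζ * c) x := by
  simp only [eich, scale_B, scale_σ, scale_ε, B_smul_right, map_mul, σσ]
  rw [hσ]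
  module

theorem scale_E : (P.scale hζ hη hσ).E = P.E := by
  have h1 : P.σ ζ ≠ 0 := by simpa using hζ
  apply le_antisymm
  · refine E_le_of_EI fun u w c hu hw hc => ?_
    rw [scale_val, zero_div] at hu
    rw [scale_B, mul_eq_zero, or_iff_right hζ] at hw
    exact (EI_E hu (w := ζ • w) (by simp [hw]) (val_congr (P.val_smul ζ hc)
      (by field_simp))).has.congr fun x => (scale_eich hζ hη hσ u w c x).symm
  · refine E_le_of_EI fun u w c hu hw hc => ?_
    refine (EI_E (P := P.scale hζ hη hσ) (u := u) (w := ζ⁻¹ • w) (c := (P.σ ζ)⁻¹ * c)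
      (by rwa [scale_val, zero_div]) (by simp [scale_B, hw])
      (val_congr (P := P) (P.val_smul ζ⁻¹ hc) (by rw [map_inv₀]; field_simp))).has.congr fun x => ?_
    rw [scale_eich, smul_smul, mul_inv_cancel₀ hζ, one_smul, mul_inv_cancel_left₀ h1]

end

theorem wild_three [Finite F] [FiniteDimensional F V] (h : P.ε = 1 ∨ ∀ a, P.σ a = a) :
    P.Wild 3 := by
  by_cases h1 : ∀ a, P.σ a = a
  · exact wild_three_of_σ h1
  · exact (wild_two_of_unitary (by simpa using h1) (h.resolve_right h1)).mono (by omega)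

theorem RatOK.wild_three [Finite F] [FiniteDimensional F V] {F₀ : Subfield F} {R : RatStr F₀ V}
    (h : P.RatOK R) (h1 : P.ε = 1 ∨ ∀ a ∈ F₀, P.σ a = a) : h.restrict.Wild 3 :=
  Polar.wild_three (h1.imp (fun h => Subtype.ext h) fun h a => Subtype.ext (h a a.2))

theorem lam_of_unitary (hσ : ∃ a, P.σ a ≠ a) (hε : P.ε = 1) {c : F} (hc : P.Val 0 c) :
    ∃ a, c = a - P.ε * P.σ a := by
  rw [val_iff_of_unitary hσ hε, map_zero] at hc
  obtain ⟨a, ha⟩ := exists_sub_conj _ P.σσ hσ hc.symm
  exact ⟨a, by rw [← ha, hε, one_mul]⟩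

end Polar

theorem omegaGL_subfield_maximal {Q : (ι → F) → F} (hQ : Geo.IsNondegenerateQuadraticForm Q)
    (hn : 8 ≤ Fintype.card ι) {F₀ : Subfield F} {r : ℕ} (hr : r.Prime)
    (hcard : Fintype.card F = Nat.card F₀ ^ r) (P : GL ι F) {ζ : F} (hζ : ζ ≠ 0)
    (hP : Geo.IsQuadFormRationalStructure (fun v => ζ * Q v) F₀ P) :
    Geo.IsMaximalIn (Geo.omegaGL Q) (Geo.subfieldSubgroup F₀ P ⊓ Geo.omegaGL Q) := by
  have : Nonempty ι := Fintype.card_pos_iff.1 (by omega)
  have hσ : (oPolar hQ).σ ζ = 1 * ζ := (one_mul ζ).symm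
  have hval : ∀ x, (stdRat F₀ P).τ x = x → ζ * Q x ∈ F₀ := fun x hx => by
    obtain ⟨u, hu, rfl⟩ := stdRat_fix hx
    exact hP u hu
  have h : ((oPolar hQ).scale hζ (Or.inl rfl) hσ).RatOK (stdRat F₀ P) :=
    ⟨fun _ => rfl, fun x y hx hy => by
      rw [Polar.scale_B, oPolar_B, QuadraticMap.polar, mul_sub, mul_sub]
      exact F₀.sub_mem (F₀.sub_mem (hval _ (by rw [map_add, hx, hy])) (hval _ hx)) (hval _ hy),
    fun x hx => ⟨_, hval x hx, by rw [Polar.scale_val, oPolar_val]; field_simp⟩⟩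
  have := h.N_maximal (h.wild_three (Or.inr fun _ _ => rfl)) (by simpa using hn)
    (by simpa using hn) (exists_notMem_subfield hr hcard) (subring_eq_top hr hcard)
    (fun c hc => ⟨0, 0, 0, F₀.zero_mem, Polar.val_zero, by
      simpa [hζ] using oPolar_lam hQ _ hc⟩) (Or.inr (Or.inl ⟨fun _ => rfl, one_mul _⟩))
  rw [Polar.scale_E] at this
  refine isMaximalIn_of_equiv toLE (mem_omegaGL_iff hQ (by omega)) (fun g => ?_) this
  rw [Subgroup.mem_inf, mem_omegaGL_iff hQ (by omega), mem_subfieldSubgroup_iff_N,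
    Subgroup.mem_inf]

end Cfsg.Agent.H7
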