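import Cfsg.Agent.H7.C2Fr3
import Cfsg.Agent.H8.LamBlk

/-!
Maximality of the stabiliser of an orthonormal frame over a prime field.
-/

set_option autoImplicit false
set_option linter.unusedSectionVars false

namespace Cfsg.Agent.H7

open Module H8 H7.Polar QuadraticMap Matrix Equiv

variable {F : Type*} [Field F] [Fintype F] {κ : Type} [Fintype κ] [DecidableEq κ]

namespace Fr

theorem sgn_dot (T : Finset κ) (y : κ → F) :
    sgn (dec0 F κ) T y ⬝ᵥ y = y ⬝ᵥ y - 2 * ∑ j ∈ T, y j * y j := by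
  rw [← Finset.sum_ite_mem_eq, Finset.mul_sum, dotProduct, dotProduct, ← Finset.sum_sub_distrib]
  refine Finset.sum_congr rfl fun j _ => ?_
  rw [sgn0_apply]
  split_ifs <;> ring

variable (h2 : (2 : F) ≠ 0) {X : Subgroup ((κ → F) ≃ₗ[F] (κ → F))} (hn : 7 ≤ Fintype.card κ)
  (hH : decStab (D0 F : κ → _) ⊓ (qP (nd0 h2)).E ≤ X)
include hn hH

theorem sgn_two {T : Finset κ} (hT : T.card = 2) : sgn (dec0 F κ) T ∈ X := by
  obtain ⟨i, j, hij, rfl⟩ := Finset.card_eq_two.1 hT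
  exact hH ⟨sgn_mem_decStab _, sgn_pair_mem_E (pDec0 κ h2) (qP_wild _) (by simpa) hij⟩

theorem sgn_four {T : Finset κ} (hT : T.card = 4) : sgn (dec0 F κ) T ∈ X := by
  obtain ⟨T', h1, h3⟩ := Finset.exists_subset_card_eq (show 2 ≤ T.card by omega)
  convert mul_mem (sgn_two h2 hn hH h3) (sgn_two h2 hn hH (T := T \ T')
    (by rw [Finset.card_sdiff_of_subset h1]; omega)) using 1
  ext x j
  have := @h1 j
  by_cases e1 : j ∈ T' <;> by_cases e2 : j ∈ T <;> simp_all [sgn0_apply]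

theorem pm_mem (a b c d : κ) (h : a ≠ b) (h' : c ≠ d) : pm F (swap a b * swap c d) ∈ X :=
  hH ⟨pm_mem_mon _, pm_swap_mul_mem_E h2 hn h h'⟩

theorem quarter {K : Finset κ} (hK : 3 ≤ K.card) {x y : κ → F} (hx : ∀ k ∈ K, x k = 0)
    (hy : y ⬝ᵥ y = 1) (hy' : ∀ j, y ∉ D0 F j)
    (hT : ∀ h ∈ X, h x = x → h y = y ∨ h y = -y ∨ h y ⬝ᵥ y = 0) {k : κ} (hk : k ∈ K)
    (h0 : y k ≠ 0) : ∀ l ∈ K, 4 * (y l * y l) = 1 := by
  have ne : ∀ {a : F}, -a = a → a = 0 := fun {a} h => by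
    have : 2 * a = 0 := by linear_combination -h
    simpa [h2] using this
  have third : ∀ a b, ∃ c ∈ K, c ≠ a ∧ c ≠ b := fun a b => by
    obtain ⟨c, hc, hc'⟩ : ∃ c ∈ K, c ∉ ({a, b} : Finset κ) :=
      Finset.exists_mem_notMem_of_card_lt_card (Finset.card_le_two.trans_lt (by omega))
    exact ⟨c, hc, by simpa using hc'⟩
  have pair : ∀ a ∈ K, ∀ b ∈ K, a ≠ b → y a ≠ 0 → (∀ m, m ≠ a → m ≠ b → y m = 0) ∨
      2 * (y a * y a + y b * y b) = 1 := by
    intro a ha b hb hab h1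
    rcases hT _ (sgn_two h2 hn hH (Finset.card_pair hab)) (by
      ext j
      rw [sgn0_apply]
      split_ifs with h
      · rw [hx j (by simp at h; rcases h with rfl | rfl <;> assumption), neg_zero]
      · rfl) with h | h | h
    · exact absurd (ne (by simpa [sgn0_apply] using congrFun h a)) h1
    · exact Or.inl fun m e1 e2 => ne (by simpa [sgn0_apply, e1, e2] using (congrFun h m).symm)
    · right
      rw [sgn_dot, Finset.sum_pair hab, hy] at h
      linear_combination -h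
  have cyc : ∀ a ∈ K, ∀ b ∈ K, ∀ c ∈ K, a ≠ b → a ≠ c → b ≠ c → y c = 0 → y a = 0 ∨
      1 - y a * y a - y b * y b + y a * y b = 0 ∨ y b ≠ 0 ∧ False := by
    intro a ha b hb c hc hab hac hbc h1
    have e : pm F (swap a c * swap a b) y = y + (y a - y b) • e b + y b • e c - y a • e a := by
      ext m
      rw [pm_mul, LinearEquiv.mul_apply]
      by_cases e1 : m = a
      · simp [e1, swap_apply_of_ne_of_ne hac.symm hbc.symm, h1, e_ne hab, e_ne hac]
      by_cases e2 : m = b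
      · simp [e2, swap_apply_of_ne_of_ne hab.symm hbc, e_ne hab.symm, e_ne hbc]
      by_cases e3 : m = c
      · simp [e3, h1, e_ne hac.symm, e_ne hbc.symm]
      · simp [swap_apply_of_ne_of_ne e1 e3, swap_apply_of_ne_of_ne e1 e2, e_ne e1, e_ne e2,
          e_ne e3]
    rcases hT _ (pm_mem h2 hn hH a c a b hac hab) (by
      rw [pm_mul, LinearEquiv.mul_apply, pm_swap_fix (x := x) (by rw [hx a ha, hx b hb]),
        pm_swap_fix (by rw [hx a ha, hx c hc])]) with h | h | h <;> rw [e] at h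
    · left
      simpa [e_ne hab, e_ne hac] using (congrFun h a).symm
    · left
      simpa [e_ne hab, e_ne hac] using congrFun h a
    · right; left
      simp [hy, h1] at h
      linear_combination h
  have pair' : ∀ a ∈ K, ∀ b ∈ K, a ≠ b → y a ≠ 0 → 2 * (y a * y a + y b * y b) = 1 := by
    intro a ha b hb hab h1
    refine (pair a ha b hb hab h1).resolve_left fun h3 => ?_
    have h4 : y b ≠ 0 := fun h => hy' a (mem_D0.2 fun m hm => by
      by_cases e : m = b
      · rw [e, h]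
      · exact h3 m hm e)
    obtain ⟨c, hc, ca, cb⟩ := third a b
    have h5 := h3 c ca cb
    have h6 := (pair a ha c hc ca.symm h1).resolve_left fun h => h4 (h b hab.symm cb.symm)
    have h7 := (pair b hb c hc cb.symm h4).resolve_left fun h => h1 (h a hab ca.symm)
    rcases cyc a ha b hb c hc hab ca.symm cb.symm h5 with h | h | h
    · exact h1 h
    · rw [h5] at h6 h7
      exact mul_ne_zero h2 (mul_ne_zero h1 h4) (by linear_combination 2 * h + h6 + h7)
    · exact h.2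
  have nz : ∀ l ∈ K, y l ≠ 0 := by
    intro l hl h1
    have kl : k ≠ l := by rintro rfl; exact h0 h1
    obtain ⟨c, hc, ck, cl⟩ := third k l
    have h3 := pair' k hk l hl kl h0
    have h4 := pair' k hk c hc ck.symm h0
    rw [h1] at h3
    have h5 : y c = 0 := mul_self_eq_zero.1 (mul_left_cancel₀ h2 (by linear_combination h4 - h3))
    rcases cyc k hk l hl c hc kl ck.symm cl.symm h5 with h | h | h
    · exact h0 h
    · rw [h1] at h
      exact one_ne_zero (α := F) (by linear_combination 2 * h + h3)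
    · exact h.2
  intro l hl
  obtain ⟨a, ha, al, -⟩ := third l l
  obtain ⟨b, hb, bl, ba⟩ := third l a
  linear_combination pair' l hl a ha al.symm (nz l hl) + pair' l hl b hb bl.symm (nz l hl) -
    pair' a ha b hb ba.symm (nz a ha)

theorem mem_mon_of_VS (h8 : Fintype.card κ ≠ 8) (hX : X ≤ (qP (nd0 h2)).Iso)
    (hs : ∀ g ∈ X, ∀ i j, g (e i) ∈ D0 F j → g ∈ decStab (D0 F : κ → _))
    {g : (κ → F) ≃ₗ[F] (κ → F)} (hg : g ∈ X) {i : κ} {S : Finset κ} (hS : S.card ≤ 4)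
    (hi : g (e i) ∈ VS (dec0 F κ) S) : g ∈ decStab (D0 F : κ → _) := by
  by_contra hg'
  obtain ⟨S, h1, hS⟩ := Finset.exists_superset_card_eq hS (by omega)
  replace hi := mem_VS0.1 (VS_mono h1 hi)
  have ne : ∀ {a : F}, -a = a → a = 0 := fun {a} h => by
    have : 2 * a = 0 := by linear_combination -h
    simpa [h2] using this
  have e1 : ∀ y, g (g⁻¹ y) = y := g.apply_symm_apply
  have hT : ∀ j, ∀ h ∈ X, (h (g (e i)) = g (e i) ∨ h (g (e i)) = -g (e i)) →
      h (g (e j)) = g (e j) ∨ h (g (e j)) = -g (e j) ∨ h (g (e j)) ⬝ᵥ g (e j) = 0 := by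
    intro j h hh h3
    have h4 := mul_mem (mul_mem (inv_mem hg) hh) hg
    have e2 : ∀ y, g⁻¹ (g y) = y := g.symm_apply_apply
    obtain ⟨l, hl⟩ := mem_mon.1 (hs _ h4 i i (by
      rcases h3 with h3 | h3 <;> simp [h3, e2, e_mem])) j
    have h5 := dot_iso (h2 := h2) (hX h4) (e j) (e j)
    have h6 : h (g (e j)) = (g⁻¹ * h * g) (e j) l • g (e l) := by
      rw [← map_smul, ← eq_of_mem_D0 hl]; simp [e1]
    rw [eq_of_mem_D0 hl] at h5
    by_cases e3 : l = j
    · subst e3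
      simp only [smul_dotProduct, dotProduct_smul, e_dot, e_self, smul_eq_mul, mul_one] at h5
      rcases mul_self_eq_one_iff.1 h5 with h7 | h7 <;> rw [h6, h7] <;> simp
    · rw [h6, smul_dotProduct, dot_iso (h2 := h2) (hX hg)]
      simp [e_ne (Ne.symm e3)]
  have hK : Sᶜ.card + 4 = Fintype.card κ := by rw [Finset.card_compl]; omega
  obtain ⟨k, hk⟩ := Finset.card_pos.1 (show 0 < Sᶜ.card by omega)
  obtain ⟨j, hj⟩ : ∃ j, g (e j) k ≠ 0 := by
    by_contra! h
    have := congrFun (e1 (e k)) k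
    rw [← sum_e (g⁻¹ (e k))] at this
    simp [h] at this
  have hy : g (e j) ⬝ᵥ g (e j) = 1 := by rw [dot_iso (h2 := h2) (hX hg)]; simp
  have h3 := quarter h2 hn hH (K := Sᶜ) (by omega) (fun k hk => hi k (by simpa using hk)) hy
    (fun l hl => hg' (hs g hg j l hl)) (fun h hh h3 => hT j h hh (Or.inl h3)) hk hj
  set y := g (e j)
  have nz : ∀ l ∈ Sᶜ, y l ≠ 0 := fun l hl h => by simpa [h] using h3 l hl
  have sm : ∀ T ⊆ Sᶜ, 4 * ∑ l ∈ T, y l * y l = T.card := fun T hT => by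
    rw [Finset.mul_sum, Finset.sum_congr rfl fun l hl => h3 l (hT hl)]; simp
  by_cases h7 : Fintype.card κ = 7
  · have h4 := sm _ subset_rfl
    have h5 : ∑ l ∈ S, y l * y l + ∑ l ∈ Sᶜ, y l * y l = 1 := by
      rw [Finset.sum_add_sum_compl]; exact hy
    rw [show Sᶜ.card = 3 by omega] at h4
    push_cast at h4
    rcases hT j _ (sgn_four h2 hn hH hS) (Or.inr (by
      ext m
      rw [sgn0_apply]
      split_ifs with h
      · rfl
      · simp [hi m h])) with h | h | h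
    · rw [Finset.sum_eq_zero fun l hl => by
        rw [ne (a := y l) (by simpa [sgn0_apply, hl] using congrFun h l), mul_zero]] at h5
      exact one_ne_zero (α := F) (by linear_combination h4 - 4 * h5)
    · exact hj (ne (by simpa [sgn0_apply, Finset.mem_compl.1 hk] using (congrFun h k).symm))
    · rw [sgn_dot, hy] at h
      exact h2 (by linear_combination 4 * h + 8 * h5 - 2 * h4)
  · obtain ⟨T, hT1, hT2⟩ := Finset.exists_subset_card_eq (show 4 ≤ Sᶜ.card by omega)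
    obtain ⟨m, hm, hm'⟩ : ∃ m ∈ Sᶜ, m ∉ T := Finset.exists_mem_notMem_of_card_lt_card (by omega)
    obtain ⟨t, ht⟩ := Finset.card_pos.1 (show 0 < T.card by omega)
    have h4 := sm T hT1
    rw [hT2] at h4
    push_cast at h4
    rcases hT j _ (sgn_four h2 hn hH hT2) (Or.inl (by
      ext m
      rw [sgn0_apply]
      split_ifs with h
      · simp [hi m (by simpa using hT1 h)]
      · rfl)) with h | h | h
    · exact nz t (hT1 ht) (ne (by simpa [sgn0_apply, ht] using congrFun h t))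
    · exact nz m hm (ne (by simpa [sgn0_apply, hm'] using (congrFun h m).symm))
    · rw [sgn_dot, hy] at h
      exact h2 (by linear_combination -2 * h - h4)

theorem key (hp : (Fintype.card F).Prime) (h8 : Fintype.card κ ≠ 8) (hX : X ≤ (qP (nd0 h2)).E)
    {g : (κ → F) ≃ₗ[F] (κ → F)} (hg : g ∈ X) (hg' : g ∉ decStab (D0 F : κ → _)) :
    (qP (nd0 h2)).E ≤ X := by
  have hX' := hX.trans E_le_Iso
  obtain ⟨g, hg, i, j, hij, hg'⟩ : ∃ g ∈ X, ∃ i j, g (e i) ∈ D0 F j ∧
      g ∉ decStab (D0 F : κ → _) := by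
    by_contra! hs
    exact hg' (ztrick (pDec0 κ h2) h2 (by norm_num) (by omega) (qP_wild _) (by simpa) hH hX'
      (fun g hg i S hS h => mem_mon_of_VS h2 hn hH h8 hX' hs hg hS (h _ (e_mem i))) hg)
  obtain ⟨Y, h1, h3, h4, h5⟩ := exists_refl_group hX' (e j)
  have hr : ∀ l : κ, rQ (Q0 F κ) (e l) * rQ (Q0 F κ) (e j) ∈ X := fun l =>
    hH ⟨by rw [rQ_e, rQ_e]; exact mul_mem (sgn_mem_decStab _) (sgn_mem_decStab _),
      rQ_mul_mem_E _ (by simpa) (by simp [Q0_apply])⟩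
  have hY : RCtx h2 Y :=
    ⟨h1, fun a b c d h h' => h5 _ (pm_mem h2 hn hH a b c d h h') _ (hr j) (by
      rw [pm_e]; exact hr _), fun l => h4 _ (hr l)⟩
  have hgY : g ∈ Y := h5 g hg _ (hr i) (by
    have h0 : g (e i) j ≠ 0 := fun h => by
      have := eq_of_mem_D0 hij
      rw [h, zero_smul] at this
      exact e_ne_zero i (by simpa using this)
    rw [eq_of_mem_D0 hij, rQ_smul h0]
    exact hr j)
  have hE : (qP (nd0 h2)).E ≤ Y := by
    rcases hY.good_of_fix hgY hij hg' with ⟨k, h, -⟩ | ⟨c, h, h', -⟩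
    · exact hY.E_le hp hn (hY.map hgY (hY.root_e k)) h
    · exact hY.E_le hp hn h h'
  intro x hx
  refine (h3 x (hE hx)).resolve_right fun h => h2 ?_
  have d1 := mem_SLV.1 (E_le_SLV (hX h))
  have d2 := mem_SLV.1 (E_le_SLV hx)
  rw [LinearEquiv.coe_toLinearMap_mul, map_mul, d2, det_rQ (nd0 h2) (by simp [Q0_apply])] at d1
  linear_combination -d1

end Fr

section transport

variable {V V' : Type*} [AddCommGroup V] [Module F V] [AddCommGroup V'] [Module F V']

/-- conjugation by a linear isomorphism -/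
def cE (φ : V' ≃ₗ[F] V) : (V' ≃ₗ[F] V') ≃* (V ≃ₗ[F] V) where
  toFun g := φ.symm.trans (g.trans φ)
  invFun g := φ.trans (g.trans φ.symm)
  left_inv g := by ext; simp
  right_inv g := by ext; simp
  map_mul' g h := by ext; simp

@[simp] theorem cE_apply (φ : V' ≃ₗ[F] V) (g : V' ≃ₗ[F] V') (x : V') : cE φ g (φ x) = φ (g x) := by
  simp [cE]

theorem cE_symm_cE (φ : V' ≃ₗ[F] V) (g : V' ≃ₗ[F] V') : cE φ.symm (cE φ g) = g :=
  (cE φ).left_inv g

variable {Q : QuadraticForm F V} {Q' : QuadraticForm F V'} (hQ : ND Q) (hQ' : ND Q')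

theorem cE_mem_E {φ : V' ≃ₗ[F] V} {δ : F} (hδ : δ ≠ 0) (h : ∀ x, Q (φ x) = δ * Q' x)
    {g : V' ≃ₗ[F] V'} (hg : g ∈ (qP hQ').E) : cE φ g ∈ (qP hQ).E := by
  have hp : ∀ x y, polar Q (φ x) (φ y) = δ * polar Q' x y := fun x y => by
    simp only [polar, ← map_add, h]; ring
  refine E_le_of_EI (X := (qP hQ).E.comap (cE φ).toMonoidHom) (fun u w c hu hw hc => ?_) hg
  refine EI_of_mem hu hw hc ?_
  have hu' : Q (φ u) = 0 := by rw [h, ← (qP_val hQ').1 hu, mul_zero]
  have hw' : polar Q (δ⁻¹ • φ w) (φ u) = 0 := by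
    rw [polar_smul_left, hp, show polar Q' w u = 0 from hw]; simp
  refine (EI_E (qP_sing hQ hu') hw' (qP_val_self hQ _)).mem fun x => ?_
  obtain ⟨x, rfl⟩ := φ.surjective x
  rw [MulEquiv.coe_toMonoidHom, cE_apply, eichE_apply, qP_eich, qP_eich, Q_smul, h,
    ← (qP_val hQ').1 hc]
  simp only [map_sub, map_add, map_smul, polar_smul_right, hp, smul_eq_mul]
  match_scalars <;> field_simp

theorem cE_mem_E_iff {φ : V' ≃ₗ[F] V} {δ : F} (hδ : δ ≠ 0) (h : ∀ x, Q (φ x) = δ * Q' x)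
    (g : V' ≃ₗ[F] V') : g ∈ (qP hQ').E ↔ cE φ g ∈ (qP hQ).E :=
  ⟨cE_mem_E hQ hQ' hδ h, fun hg => cE_symm_cE φ g ▸ cE_mem_E hQ' hQ (inv_ne_zero hδ) (fun x => by
    obtain ⟨x, rfl⟩ := φ.surjective x
    simp [h, hδ]) hg⟩

variable [FiniteDimensional F V]

/-- The stabiliser of an orthogonal frame over a prime field is maximal. -/
theorem maximal_frame {D : κ → Submodule F V} (hD : PDec (qP hQ) 1 D)
    (hp : (Fintype.card F).Prime) (h2 : (2 : F) ≠ 0) (hn : 7 ≤ Fintype.card κ)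
    (h8 : Fintype.card κ ≠ 8) : Geo.IsMaximalIn (qP hQ).E (decStab D ⊓ (qP hQ).E) := by
  obtain ⟨i₀⟩ : Nonempty κ := Fintype.card_pos_iff.1 (by omega)
  obtain ⟨v, hv, h0⟩ := hD.exists_ne_zero i₀
  choose g hg hg' using hD.iso i₀
  set f : κ → V := fun i => g i v with hf
  have f1 : ∀ i, f i ∈ D i := fun i => hg' i v hv
  have f0 : ∀ i, f i ≠ 0 := fun i => by simpa [hf] using h0
  have f2 : ∀ i, Q (f i) = Q v := fun i => Iso.Q_eq (hg i) v
  have f3 : ∀ i, D i = F ∙ f i := fun i => (Submodule.eq_of_le_of_finrank_eq (by simpa using f1 i)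
    (by rw [finrank_span_singleton (f0 i), hD.dim])).symm
  have hδ : Q v ≠ 0 := fun h => f0 i₀ (hD.ndOn i₀ _ (f1 i₀) fun x hx => by
    rw [f3] at hx
    obtain ⟨a, rfl⟩ := Submodule.mem_span_singleton.1 hx
    simp [polar_self', f2, h])
  let ψ : (κ → F) →ₗ[F] V := Fintype.linearCombination F f
  have hψ : ∀ x i, hD.pr i (ψ x) = x i • f i := fun x i => by
    simp [ψ, Fintype.linearCombination_apply, hD.pr_of_mem (f1 _)]
  let φ : (κ → F) ≃ₗ[F] V := LinearMap.linearEquivOfInjective ψ (by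
    rw [← LinearMap.ker_eq_bot, eq_bot_iff]
    intro x hx
    ext i
    have := hψ x i
    rw [hx, map_zero] at this
    simpa [f0] using this.symm) (by rw [← hD.mul_eq]; simp)
  have hφ : ∀ x i, hD.pr i (φ x) = x i • f i := hψ
  have hφe : ∀ i, φ (Fr.e i) = f i := fun i => hD.ext fun j => by
    rw [hφ, hD.pr_of_mem (f1 i), Fr.e_apply]
    by_cases h : j = i
    · simp [h]
    · simp [h, Ne.symm h]
  have hQφ : ∀ x, Q (φ x) = Q v * Fr.Q0 F κ x := fun x => by
    rw [hD.Q_sum, Fr.Q0_apply, dotProduct, Finset.mul_sum]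
    refine Finset.sum_congr rfl fun i _ => ?_
    rw [hφ, Q_smul, f2, mul_comm]
  have hE := cE_mem_E_iff hQ (Fr.nd0 h2) hδ hQφ
  have hDφ : ∀ x i, φ x ∈ D i ↔ x ∈ Fr.D0 F i := fun x i => by
    simp [hD.mem_iff, Fr.mem_D0, hφ, f0]
  have hM : ∀ g, g ∈ decStab (Fr.D0 F : κ → _) ↔ cE φ g ∈ decStab D := fun g => by
    rw [Fr.mem_mon]
    refine ⟨fun h => hD.mem_decStab fun i => (h i).imp fun j hj x hx => ?_, fun h i => ?_⟩
    · obtain ⟨x, rfl⟩ := φ.surjective x
      rw [cE_apply, hDφ]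
      exact Fr.map_D0.2 hj x ((hDφ _ _).1 hx)
    · obtain ⟨j, hj⟩ := Dec.exists_mem h (f1 i)
      exact ⟨j, by rwa [← hφe, cE_apply, hDφ] at hj⟩
  refine isMaximalIn_of_equiv (cE φ).symm (K' := (qP (Fr.nd0 h2)).E)
    (H' := decStab (Fr.D0 F : κ → _) ⊓ (qP (Fr.nd0 h2)).E) (fun g => by rw [hE]; simp)
    (fun g => by simp only [Subgroup.mem_inf, hE, hM]; simp) ?_
  refine isMaximalIn_of inf_le_right ?_ fun X h1 h3 g hg hg' =>
    Fr.key h2 hn h1 hp h8 h3 hg fun h => hg' ⟨h, h3 hg⟩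
  obtain ⟨g, hg, hg'⟩ := exists_E_not_permutes (qP_wild (Fr.nd0 h2)) (by simpa)
    (Fr.dec0 F κ).indep (Fr.e_mem i₀) (Fr.e_ne_zero i₀) (by rw [(Fr.dec0 F κ).dim]; simp; omega)
  refine ⟨g, hg, fun h => ?_⟩
  obtain ⟨j, hj⟩ := Dec.exists_mem h.1 (Fr.e_mem i₀)
  exact hg' j hj

end transport

end Cfsg.Agent.H7
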