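import Cfsg.Agent.H7.C2Z

/-!
Reflections of a quadratic space as a total function, products of reflections and Eichler
transformations, the group generated with a class of reflections.
-/

set_option autoImplicit false
set_option linter.unusedSectionVars false

namespace Cfsg.Agent.H7

open Module H8 H7.Polar QuadraticMap

variable {F : Type*} [Field F] {V : Type*} [AddCommGroup V] [Module F V]

/-- the reflection in `a` (the identity if `a` is singular) -/
noncomputable def rQ (Q : QuadraticForm F V) (a : V) : V ≃ₗ[F] V :=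
  LinearEquiv.ofInvolutive (LinearMap.id - ((Q a)⁻¹ • Q.polarBilin.flip a).smulRight a) fun x => by
    by_cases h : Q a = 0
    · simp [h]
    · simp only [LinearMap.sub_apply, LinearMap.id_apply, LinearMap.smulRight_apply,
        LinearMap.smul_apply, LinearMap.flip_apply, polarBilin_apply_apply, smul_eq_mul,
        polar_sub_left, polar_smul_left, polar_self']
      match_scalars <;> field_simp <;> ring

variable {Q : QuadraticForm F V}

theorem rQ_apply (a x : V) : rQ Q a x = x - ((Q a)⁻¹ * polar Q x a) • a := rfl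

theorem rQ_rQ (a x : V) : rQ Q a (rQ Q a x) = x := (rQ Q a).left_inv x

theorem rQ_mul_self (a : V) : rQ Q a * rQ Q a = 1 := LinearEquiv.ext (rQ_rQ a)

theorem rQ_inv (a : V) : (rQ Q a)⁻¹ = rQ Q a := inv_eq_of_mul_eq_one_right (rQ_mul_self a)

theorem rQ_fix {a x : V} (h : polar Q x a = 0) : rQ Q a x = x := by simp [rQ_apply, h]

theorem rQ_self {a : V} (h : Q a ≠ 0) : rQ Q a a = -a := by
  rw [rQ_apply, polar_self']
  match_scalars
  field_simp
  ring

theorem Q_rQ (a x : V) : Q (rQ Q a x) = Q x := by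
  by_cases h : Q a = 0
  · simp [rQ_apply, h]
  · rw [rQ_apply, Q_sub, Q_smul, polar_smul_right, smul_eq_mul]
    field_simp
    ring

theorem rQ_smul {c : F} (hc : c ≠ 0) (a : V) : rQ Q (c • a) = rQ Q a := LinearEquiv.ext fun x => by
  rw [rQ_apply, rQ_apply, Q_smul, polar_smul_right, smul_eq_mul, smul_smul]
  congr 2
  by_cases h : Q a = 0
  · simp [h]
  · field_simp

theorem rQ_neg (a : V) : rQ Q (-a) = rQ Q a := by
  rw [← neg_one_smul F a, rQ_smul (by simp)]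

theorem rQ_sub_mem (a x : V) : rQ Q a x - x ∈ F ∙ a := by
  rw [rQ_apply, sub_sub_cancel_left]
  exact neg_mem (Submodule.smul_mem _ _ (Submodule.mem_span_singleton_self a))

theorem rQ_apply_mem {W : Submodule F V} {a x : V} (ha : a ∈ W) (hx : x ∈ W) : rQ Q a x ∈ W :=
  sub_mem hx (W.smul_mem _ ha)

theorem rQ_conj_apply {g : V ≃ₗ[F] V} (hg : ∀ x, Q (g x) = Q x) (a x : V) :
    rQ Q (g a) (g x) = g (rQ Q a x) := by
  have := polar_eq_of_isom (Q := Q) (g := (g : V →ₗ[F] V)) (W := ⊤) (fun x _ => hg x)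
    (x := x) (y := a) trivial trivial
  simp only [LinearEquiv.coe_coe] at this
  rw [rQ_apply, rQ_apply, hg, this, map_sub, map_smul]

theorem rQ_conj' {g : V ≃ₗ[F] V} (hg : ∀ x, Q (g x) = Q x) (a : V) :
    g * rQ Q a * g⁻¹ = rQ Q (g a) := by
  rw [mul_inv_eq_iff_eq_mul]
  exact LinearEquiv.ext fun x => (rQ_conj_apply hg a x).symm

theorem polar_rQ (a x y : V) : polar Q (rQ Q a x) (rQ Q a y) = polar Q x y :=
  polar_eq_of_isom (Q := Q) (g := (rQ Q a : V →ₗ[F] V)) (W := ⊤) (fun x _ => Q_rQ a x)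
    trivial trivial

theorem rQ_comm {a b : V} (h : polar Q a b = 0) : rQ Q a * rQ Q b = rQ Q b * rQ Q a := by
  rw [← mul_inv_eq_iff_eq_mul, rQ_conj' (Q_rQ a), rQ_fix (by rwa [polar_comm])]

theorem rQ_rQ_eich {u w : V} (hu : Q u = 0) (hw : polar Q w u = 0) (h0 : Q w ≠ 0) (x : V) :
    rQ Q (w + u) (rQ Q w x) = x + polar Q x u • (-(Q w)⁻¹ • w) -
      (polar Q x (-(Q w)⁻¹ • w) + Q (-(Q w)⁻¹ • w) * polar Q x u) • u := by
  rw [rQ_apply, rQ_apply, Q_add, hu, hw, Q_smul]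
  simp only [polar_add_right, polar_sub_left, polar_smul_left, polar_smul_right, polar_self', hw,
    smul_eq_mul, add_zero]
  match_scalars <;> field_simp <;> ring

variable (hQ : ND Q)

theorem rQ_mem_Iso (a : V) : rQ Q a ∈ (qP hQ).Iso := (mem_qP_Iso hQ).2 (Q_rQ a)

theorem rQ_eq_reflE {a : V} (h : Q a ≠ 0) : rQ Q a = reflE (qP_val_self hQ a) h :=
  LinearEquiv.ext fun x => by rw [reflE_apply, qP_refl, rQ_apply]

variable {hQ} in
theorem rQ_conj {g : V ≃ₗ[F] V} (hg : g ∈ (qP hQ).Iso) (a : V) :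
    g * rQ Q a * g⁻¹ = rQ Q (g a) := rQ_conj' ((mem_qP_Iso hQ).1 hg) a

variable [Fintype F] [FiniteDimensional F V]

theorem rQ_mul_mem_E (hn : 7 ≤ finrank F V) {a b : V} (h : Q a = Q b) :
    rQ Q a * rQ Q b ∈ (qP hQ).E := by
  by_cases h0 : Q b = 0
  · have : ∀ c, Q c = 0 → rQ Q c = 1 := fun c hc => LinearEquiv.ext fun x => by simp [rQ_apply, hc]
    rw [this a (h.trans h0), this b h0, mul_one]
    exact one_mem _
  have := refl_congr (qP_wild hQ) hn ((qP_val hQ).2 h.symm) (qP_val_self hQ b) h0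
  rw [← rQ_eq_reflE, rQ_inv] at this
  convert this using 2
  exact LinearEquiv.ext fun x => by rw [reflE_apply, qP_refl, rQ_apply, h]

include hQ in
theorem det_rQ {a : V} (h : Q a ≠ 0) : LinearMap.det (rQ Q a : V →ₗ[F] V) = -1 := by
  rw [rQ_eq_reflE hQ h, det_reflE]
  simp [h]

theorem rQ_mem_FixIso {W : Submodule F V} {a : V} (ha : a ∈ W) : rQ Q a ∈ FixIso (qP hQ) W :=
  ⟨rQ_mem_Iso hQ a, fun _ hx => rQ_fix (hx a ha)⟩

variable {hQ} {X : Subgroup (V ≃ₗ[F] V)}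

theorem EI_of_rQ {u w : V} (hu : Q u = 0) (hw : polar Q w u = 0) (h0 : Q w ≠ 0)
    (h : rQ Q (w + u) * rQ Q w ∈ X) : (qP hQ).EI X u (-(Q w)⁻¹ • w) (Q (-(Q w)⁻¹ • w)) :=
  (Has.of_mem h).congr fun x => by
    rw [LinearEquiv.mul_apply, rQ_rQ_eich hu hw h0, qP_eich]

theorem EI.add' {u w w' : V} (hu : Q u = 0) (hw : polar Q w u = 0) (hw' : polar Q w' u = 0)
    (h : (qP hQ).EI X u w (Q w)) (h' : (qP hQ).EI X u w' (Q w')) :
    (qP hQ).EI X u (w + w') (Q (w + w')) :=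
  (h.add h' (qP_sing hQ hu) hw hw').congr rfl (by rw [Q_add, qP_B])

theorem EI.neg' {u w : V} (hu : Q u = 0) (hw : polar Q w u = 0)
    (h : (qP hQ).EI X u w (Q w)) : (qP hQ).EI X u (-w) (Q (-w)) :=
  (h.neg (qP_sing hQ hu) hw (qP_val_self hQ w)).congr rfl (by simp)

theorem EI.nsmul' {u w : V} (hu : Q u = 0) (hw : polar Q w u = 0)
    (h : (qP hQ).EI X u w (Q w)) (n : ℕ) : (qP hQ).EI X u ((n : F) • w) (Q ((n : F) • w)) := by
  induction n with
  | zero => simpa using EI.zero u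
  | succ n ih =>
    rw [Nat.cast_succ, add_smul, one_smul]
    exact EI.add' hu (by simp [hw]) hw ih h

theorem mem_AS_iff {u w : V} (hu : Q u = 0) :
    w ∈ AS hQ X hu ↔ polar Q w u = 0 ∧ ∀ a : F, (qP hQ).EI X u (a • w) (Q (a • w)) := by
  rw [AS, mem_eSub]
  refine and_congr_right fun _ => forall_congr' fun a => ⟨?_, fun h => ⟨_, qP_val_self hQ _, h⟩⟩
  rintro ⟨c, hc, h⟩
  rwa [(qP_val hQ).1 hc] at h

theorem exists_natCast_of_prime (hp : (Fintype.card F).Prime) (a : F) : ∃ n : ℕ, (n : F) = a := by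
  have := Fact.mk hp
  have := charP_of_card_eq_prime (R := F) rfl
  obtain ⟨b, rfl⟩ := (ZMod.ringEquivOfPrime F hp rfl).surjective a
  exact ⟨b.val, by rw [← map_natCast (ZMod.ringEquivOfPrime F hp rfl), ZMod.natCast_zmod_val]⟩

theorem mem_AS_of_prime (hp : (Fintype.card F).Prime) {u w : V} (hu : Q u = 0)
    (hw : polar Q w u = 0) {c : F} (hc : c ≠ 0) (h : (qP hQ).EI X u (c • w) (Q (c • w))) :
    w ∈ AS hQ X hu := by
  refine (mem_AS_iff hu).2 ⟨hw, fun a => ?_⟩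
  obtain ⟨n, hn⟩ := exists_natCast_of_prime hp (a * c⁻¹)
  have := EI.nsmul' hu (by simp [hw]) h n
  rwa [hn, smul_smul, inv_mul_cancel_right₀ hc] at this

theorem AS_apply (hX : X ≤ (qP hQ).Iso) {u w : V} {hu : Q u = 0} (hw : w ∈ AS hQ X hu)
    {g : V ≃ₗ[F] V} (hg : g ∈ X) {v : V} (hv : Q v = 0) (h : g u = v) : g w ∈ AS hQ X hv :=
  apply_mem_eSub' _ hg (hX hg) hw _ h

theorem mem_AS_of_rQ (hX : X ≤ (qP hQ).Iso) {u w b : V} {hu : Q u = 0} (hw : w ∈ AS hQ X hu)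
    (hb : rQ Q b ∈ X) (hb0 : Q b ≠ 0) (hbu : polar Q u b = 0) (hwb : polar Q w b ≠ 0) :
    b ∈ AS hQ X hu := by
  have h1 := sub_mem hw (AS_apply hX hw hb hu (rQ_fix hbu))
  rw [rQ_apply, sub_sub_cancel] at h1
  exact (Submodule.smul_mem_iff _ (by simp [hb0, hwb])).1 h1

theorem fullA_of_AS {u : V} (hu : Q u = 0) (h : ∀ w, polar Q w u = 0 → w ∈ AS hQ X hu) :
    (qP hQ).FullA X u :=
  fullA_of_eSub _ (fun c hc => by
    rw [(qP_val hQ).1 hc, map_zero]; exact EI.zero u) h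

/-- The group generated by a class of reflections and its normaliser in `X`. -/
theorem exists_refl_group (hX : X ≤ (qP hQ).Iso) (a₀ : V) :
    ∃ Y : Subgroup (V ≃ₗ[F] V), Y ≤ (qP hQ).Iso ∧ (∀ g ∈ Y, g ∈ X ∨ g * rQ Q a₀ ∈ X) ∧
      (∀ a, rQ Q a * rQ Q a₀ ∈ X → rQ Q a ∈ Y) ∧
      ∀ g ∈ X, ∀ a, rQ Q a * rQ Q a₀ ∈ X → rQ Q (g a) * rQ Q a₀ ∈ X → g ∈ Y := by
  set r := rQ Q a₀ with hr
  have hrr : r * r = 1 := rQ_mul_self a₀
  have h0 : rQ Q a₀ * r ∈ X := by rw [hrr]; exact one_mem _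
  have hsw : ∀ a, rQ Q a * r ∈ X → r * rQ Q a ∈ X := fun a ha => by
    simpa [rQ_inv, hr] using inv_mem ha
  have key : ∀ g ∈ (qP hQ).Iso, rQ Q (g a₀) * r ∈ X → (g ∈ X ↔ r * g * r ∈ X) := fun g hg h => by
    have : r * g * r = r * rQ Q (g a₀) * g := by rw [← rQ_conj hg, ← hr]; group
    rw [this, X.mul_mem_cancel_left (hsw _ h)]
  let Y : Subgroup (V ≃ₗ[F] V) :=
    { carrier := {g | g ∈ (qP hQ).Iso ∧ (∀ a, rQ Q a * r ∈ X ↔ rQ Q (g a) * r ∈ X) ∧
        (g ∈ X ∨ g * r ∈ X)}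
      mul_mem' := by
        rintro g h ⟨g1, g2, g3⟩ ⟨h1, h2, h3⟩
        refine ⟨mul_mem g1 h1, fun a => (h2 a).trans (g2 _), ?_⟩
        have h4 := key h h1 ((h2 a₀).1 h0)
        rcases g3 with g3 | g3 <;> rcases h3 with h3 | h3
        · exact Or.inl (mul_mem g3 h3)
        · exact Or.inr (by rw [mul_assoc]; exact mul_mem g3 h3)
        · right
          have := mul_mem g3 (h4.1 h3)
          rwa [mul_assoc, ← mul_assoc r, ← mul_assoc r, hrr, one_mul, ← mul_assoc] at this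
        · left
          have h5 : r * h ∈ X := by
            have := mul_mem (hsw _ ((h2 a₀).1 h0)) h3
            rwa [← rQ_conj h1, ← hr, show r * (h * r * h⁻¹) * (h * r) = r * h * (r * r) by group,
              hrr, mul_one] at this
          have := mul_mem g3 h5
          rwa [mul_assoc, ← mul_assoc r, hrr, one_mul] at this
      one_mem' := ⟨one_mem _, fun a => Iff.rfl, Or.inl (one_mem _)⟩
      inv_mem' := by
        rintro g ⟨g1, g2, g3⟩
        refine ⟨inv_mem g1, fun a => ?_, g3.imp inv_mem fun g3 => ?_⟩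
        · rw [g2 (g⁻¹ a), show g (g⁻¹ a) = a from g.apply_symm_apply a]
        · have := mul_mem (hsw _ ((g2 a₀).1 h0)) g3
          rw [← rQ_conj g1, ← hr, show r * (g * r * g⁻¹) * (g * r) = r * g * (r * r) by group,
            hrr, mul_one] at this
          simpa [hr, rQ_inv] using inv_mem this }
  have pres : ∀ g ∈ X, ∀ a, rQ Q a * r ∈ X → rQ Q (g a) * r ∈ X → ∀ b, rQ Q b * r ∈ X →
      rQ Q (g b) * r ∈ X := fun g hg a h1 h2 b h3 => by
    have := mul_mem (mul_mem (mul_mem hg (mul_mem h3 (hsw _ h1))) (inv_mem hg)) h2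
    rwa [← rQ_conj (hX hg), show g * (rQ Q b * r * (r * rQ Q a)) * g⁻¹ * (g * rQ Q a * g⁻¹ * r) =
      g * rQ Q b * (r * r) * (rQ Q a * rQ Q a) * g⁻¹ * r by group, hrr, rQ_mul_self, mul_one,
      mul_one, rQ_conj (hX hg)] at this
  refine ⟨Y, fun g hg => hg.1, fun g hg => hg.2.2, fun a ha => ?_, fun g hg a h1 h2 => ?_⟩
  · have h1 : ∀ b, rQ Q b * r ∈ X → rQ Q (rQ Q a b) * r ∈ X := fun b hb => by
      have := mul_mem (mul_mem ha (hsw _ hb)) ha
      rw [← rQ_conj' (Q_rQ a), rQ_inv]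
      rwa [show rQ Q a * r * (r * rQ Q b) * (rQ Q a * r) = rQ Q a * (r * r) * rQ Q b * rQ Q a * r by
        group, hrr, mul_one] at this
    exact ⟨rQ_mem_Iso hQ a, fun b => ⟨h1 b, fun h => by simpa [rQ_rQ] using h1 _ h⟩, Or.inr ha⟩
  · refine ⟨hX hg, fun b => ⟨pres g hg a h1 h2 b, fun h => ?_⟩, Or.inl hg⟩
    have e : ∀ y, g⁻¹ (g y) = y := g.symm_apply_apply
    simpa [e] using pres g⁻¹ (inv_mem hg) (g a) h2 (by rwa [e]) _ h

end Cfsg.Agent.H7
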