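import Cfsg.Agent.H7.SubSL
import Cfsg.Agent.H7.FormInSL

/-!
Subfield subgroups of the elementary group of a polar space: the rational polar space and the case
of an overgroup containing a non-rational Eichler transformation with rational centre.
-/

set_option autoImplicit false
set_option linter.unusedSectionVars false

namespace Cfsg.Agent.H7

open Module

namespace Polar

variable {F : Type*} [Field F] {V : Type*} [AddCommGroup V] [Module F V] {P : Polar F V}
variable {F₀ : Subfield F} {R : RatStr F₀ V}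

variable (P R) in
/-- The form is defined over the rational structure. -/
structure RatOK : Prop where
  θσ : ∀ a, R.θ (P.σ a) = P.σ (R.θ a)
  B_mem : ∀ x y, R.τ x = x → R.τ y = y → P.B x y ∈ F₀
  val_mem : ∀ x, R.τ x = x → ∃ c ∈ F₀, P.Val x c

variable (P) in
/-- The vectors `z ⊥ w` occurring in an Eichler transformation in `X` with centre `w`. -/
def zSub (X : Subgroup (V ≃ₗ[F] V)) {w : V} (hw : P.Val w 0) : AddSubgroup V where
  carrier := {z | P.B z w = 0 ∧ ∃ c, P.Val z c ∧ P.EI X w z c}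
  zero_mem' := ⟨by simp, 0, val_zero, EI.zero w⟩
  add_mem' := by
    rintro z z' ⟨h1, c, hc, h2⟩ ⟨h1', c', hc', h2'⟩
    exact ⟨by simp [h1, h1'], _, P.val_add hc hc', h2.add h2' hw h1 h1'⟩
  neg_mem' := by
    rintro z ⟨h1, c, hc, h2⟩
    exact ⟨by simp [h1], _, val_neg (val_conj hc), h2.neg hw h1 hc⟩

theorem mem_zSub {X : Subgroup (V ≃ₗ[F] V)} {w z : V} {hw : P.Val w 0} :
    z ∈ P.zSub X hw ↔ P.B z w = 0 ∧ ∃ c, P.Val z c ∧ P.EI X w z c := Iff.rfl

theorem map_mem_zSub {X : Subgroup (V ≃ₗ[F] V)} {w w' z : V} {hw : P.Val w 0} (hw' : P.Val w' 0)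
    {g : V ≃ₗ[F] V} (hg : g ∈ X) (hg' : g ∈ P.Iso) {μ : F} (hμ0 : μ ≠ 0) (hμ : g w = μ • w')
    (hz : z ∈ P.zSub X hw) : P.σ μ • g z ∈ P.zSub X hw' := by
  obtain ⟨h1, c, hc, h2⟩ := hz
  have h3 := h2.conj hg hg'
  rw [hμ, EI.smul_iff] at h3
  refine ⟨?_, _, ?_, h3⟩
  · rw [← Iso.B hg', hμ, B_smul_right] at h1
    simpa using h1
  · exact val_congr (P.val_smul (P.σ μ) (Iso.val hg' hc)) (by rw [σσ]; ring)

theorem eich_sub_mem_zSub {X : Subgroup (V ≃ₗ[F] V)} {w z e y : V} {c : F} {hw : P.Val w 0}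
    (hz : z ∈ P.zSub X hw) (he : P.Val e 0) (hye : P.B y e = 0) (hc : P.Val y c)
    (h : P.EI X e y c) (hwe : P.B w e = 0) (hwy : P.B w y = 0) :
    P.B z e • y - (P.ε * P.B z y + P.σ c * P.B z e) • e ∈ P.zSub X hw := by
  have := map_mem_zSub hw (g := eichE he hye hc) (h.mem fun _ => rfl) (eichE_mem_Iso _ _ _)
    one_ne_zero (by rw [one_smul]; exact eich_fix c hwe hwy) hz
  rw [map_one, one_smul, eichE_apply, eich, add_sub_assoc] at this
  exact (AddSubgroup.add_mem_cancel_left _ hz).1 this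

variable [Finite F] [FiniteDimensional F V]

theorem EI_lam_min {X : Subgroup (V ≃ₗ[F] V)} {u : V} (hu : P.Val u 0) (hn : 3 ≤ finrank F V)
    (h : ∀ z, P.B z u = 0 → z ∈ P.zSub X hu) (t : F) : P.EI X u 0 (t - P.ε * P.σ t) := by
  obtain ⟨p, hp, p', hp', hpp⟩ := exists_nonperp_pair (P := P) (M := ⊤) (e := u) trivial
    (by rw [perp_top, inf_bot_eq]; simpa using hn)
  have h1 : P.B ((t / P.B p p') • p) u = 0 := by simp [show P.B p u = 0 from hp.2]
  have h2 : P.B p' u = 0 := hp'.2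
  have h3 : P.B ((t / P.B p p') • p) p' = t := by simp [hpp]
  generalize (t / P.B p p') • p = q at h1 h3
  obtain ⟨-, c1, hc1, e1⟩ := h q h1
  obtain ⟨-, c2, hc2, e2⟩ := h p' h2
  have e3 := (e1.add e2 hu h1 h2).add ((e2.add e1 hu h2 h1).neg hu (by simp [h1, h2])
    (P.val_add hc2 hc1)) hu (by simp [h1, h2]) (by simp [h1, h2])
  refine e3.congr (by module) ?_
  have h5 := P.val_self (P.val_add hc2 hc1)
  rw [add_comm p' q] at h5
  rw [map_neg, add_comm p' q, h5, P.herm q p', h3]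
  ring

namespace RatOK

variable (h : P.RatOK R)
include h

theorem σ_mem {a : F} (ha : a ∈ F₀) : P.σ a ∈ F₀ := by
  rw [← R.θ_iff, h.θσ, R.θ_of_mem ha]

theorem B_τ (x y : V) : P.B (R.τ x) (R.τ y) = R.θ (P.B x y) := by
  let N : Submodule F V :=
    { carrier := {y | ∀ x, P.B (R.τ x) (R.τ y) = R.θ (P.B x y)}
      zero_mem' := by simp
      add_mem' := fun {y z} hy hz x => by simp only [map_add, hy x, hz x]
      smul_mem' := fun a y hy x => by
        simp only [RatStr.τ_smul, B_smul_right, hy x, map_mul, h.θσ] }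
  have := R.span N fun y hy x => by
    rw [hy]
    exact RatStr.rf_of_forall (φ := P.B.flip y) (fun x hx => h.B_mem x y hx hy) x
  exact (show y ∈ N by simp [this]) x

theorem inv_perp {U : Submodule F V} (hU : R.Inv U) : R.Inv (P.perp U) := by
  intro x hx u hu
  obtain ⟨y, hy, rfl⟩ := hU.surj hu
  rw [h.B_τ, hx y hy, map_zero]

theorem inv_pp {v : V} (hv : R.τ v = v) : R.Inv (P.pp v) := by
  rw [← perp_span_singleton]; exact h.inv_perp (RatStr.inv_span' hv)

omit h in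
theorem exists_B_ne {M : Submodule F V} (hM : R.Inv M) {z : V} (hz : z ∉ P.perp M) :
    ∃ x ∈ M, R.τ x = x ∧ P.B x z ≠ 0 :=
  hM.exists_notMem (N := P.pp z) fun hh => hz (mem_perp'.2 hh)

theorem τ_sub_mem {w z : V} (hw : R.τ w = w)
    (hz : ∀ y, R.τ y = y → P.B y w = 0 → P.B z y ∈ F₀) : R.τ z - z ∈ F ∙ w := by
  by_contra hcon
  rw [← perp_pp (P := P)] at hcon
  obtain ⟨y, hy, hy', hy''⟩ := exists_B_ne (h.inv_pp hw) hcon
  refine P.B_ne_symm hy'' ?_
  have := h.B_τ z y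
  rw [hy', R.θ_of_mem (hz y hy' hy)] at this
  simp [this]

/-- The polar space on the rational vectors. -/
def restrict : Polar F₀ R.V₀ where
  σ := P.σ.restrict F₀ F₀ fun _ ha => h.σ_mem ha
  ε := ⟨P.ε, by rcases P.εε with h | h <;> simp [h]⟩
  B := LinearMap.mk₂'ₛₗ (RingHom.id F₀) (P.σ.restrict F₀ F₀ fun _ ha => h.σ_mem ha)
    (fun x y => ⟨P.B x y, h.B_mem x y x.2 y.2⟩)
    (fun x y z => Subtype.ext (by simp))
    (fun a x y => Subtype.ext (by simp [Subfield.smul_def]))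
    (fun x y z => Subtype.ext (by simp))
    (fun a x y => Subtype.ext (by simp [Subfield.smul_def]))
  Val x c := P.Val x c
  σσ a := Subtype.ext (P.σσ a)
  εε := P.εε.imp (fun h => Subtype.ext h) fun h => Subtype.ext h
  herm x y := Subtype.ext (P.herm x y)
  nondeg y hy := by
    have := R.span (P.pp y) fun x hx => congrArg Subtype.val (hy ⟨x, hx⟩)
    exact Subtype.ext (P.nondeg _ fun x => (show x ∈ P.pp y by simp [this]))
  val_ex x := by
    obtain ⟨c, hc, hc'⟩ := h.val_mem x x.2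
    exact ⟨⟨c, hc⟩, hc'⟩
  val_add hx hy := P.val_add hx hy
  val_smul a hx := P.val_smul (a : F) hx
  val_self hx := Subtype.ext (P.val_self hx)
  val_min a := P.val_min (a : F)

theorem coe_B (x y : R.V₀) : (h.restrict.B x y : F) = P.B x y := rfl

theorem restrict_B_eq_zero {x y : R.V₀} : h.restrict.B x y = 0 ↔ P.B x y = 0 :=
  Subtype.ext_iff

theorem coe_eich (u w : R.V₀) (c : F₀) (x : R.V₀) :
    (h.restrict.eich u w c x : V) = P.eich u w c x := rfl

theorem τ_eich {e y : V} {c : F} (he : R.τ e = e) (hy : R.τ y = y) (hc : c ∈ F₀) (x : V) :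
    R.τ (P.eich e y c x) = P.eich e y c (R.τ x) := by
  have h1 := h.B_τ x e
  have h2 := h.B_τ x y
  rw [he] at h1
  rw [hy] at h2
  have h3 : R.θ P.ε = P.ε := by rcases P.εε with h | h <;> simp [h]
  simp only [eich, map_sub, map_add, RatStr.τ_smul, he, hy, h1, h2, map_mul, h3,
    R.θ_of_mem (h.σ_mem hc)]

variable {d : ℕ} (hw : h.restrict.Wild d)
include hw

theorem exists_sing {M : Submodule F V} (hM : R.Inv M) (U : Submodule F V)
    (hd : finrank F U + d ≤ finrank F M) : ∃ e ∈ M, R.τ e = e ∧ P.Val e 0 ∧ e ∉ U := by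
  obtain ⟨e, he, heU, hes⟩ := hw.exists_notMem (R.rat M) (R.rat U) (by
    have := R.finrank_rat_le U
    have := hM.le_finrank_rat
    omega)
  exact ⟨e, he, e.2, hes, heU⟩

theorem span_sing {M : Submodule F V} (hM : R.Inv M)
    (hd : finrank F ↥(M ⊓ P.perp M) + d + 1 ≤ finrank F M) {N : Submodule F₀ V}
    (hN : ∀ e ∈ M, R.τ e = e → P.Val e 0 → e ∈ N) {y : V} (hy : y ∈ M) (hy' : R.τ y = y) :
    y ∈ N := by
  have h1 : h.restrict.perp (N.comap R.V₀.subtype) ≤ h.restrict.perp (R.rat M) := by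
    intro z hz
    by_contra hz'
    obtain ⟨e, he, hes, hze⟩ := exists_sing_ne_of_sub hw hz' (by
      have h2 : R.rat M ⊓ h.restrict.perp (R.rat M) ≤ R.rat (M ⊓ P.perp M) := by
        refine fun x hx => ⟨hx.1, ?_⟩
        by_contra h3
        obtain ⟨y, hy, hy', hy''⟩ := exists_B_ne hM h3
        exact P.B_ne_symm hy'' (h.restrict_B_eq_zero.1 (hx.2 ⟨y, hy'⟩ hy))
      have := Submodule.finrank_mono h2
      have := R.finrank_rat_le (M ⊓ P.perp M)
      have := hM.le_finrank_rat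
      omega)
    exact hze (hz e (hN e he e.2 hes))
  have h2 := perp_anti (P := h.restrict) h1
  rw [perp_perp, perp_perp] at h2
  exact h2 (show (⟨y, hy'⟩ : R.V₀) ∈ R.rat M from hy)

theorem exists_sing_B_ne {M : Submodule F V} (hM : R.Inv M)
    (hd : finrank F ↥(M ⊓ P.perp M) + d + 1 ≤ finrank F M) {z : V} (hz : z ∉ P.perp M) :
    ∃ e ∈ M, R.τ e = e ∧ P.Val e 0 ∧ P.B e z ≠ 0 := by
  by_contra! hcon
  obtain ⟨y, hy, hy', hy''⟩ := exists_B_ne hM hz
  exact hy'' (h.span_sing hw hM hd (N := (P.pp z).restrictScalars F₀) hcon hy hy')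

section

variable {X : Subgroup (V ≃ₗ[F] V)}
  (hX : ∀ e y c, R.τ e = e → R.τ y = y → c ∈ F₀ → P.Val e 0 → P.B y e = 0 → P.Val y c →
    P.EI X e y c)
include hX

omit hw in
theorem mem_zSub_of_rat {w y : V} (hws : P.Val w 0) (hw' : R.τ w = w) (hy : R.τ y = y)
    (hyw : P.B y w = 0) : y ∈ P.zSub X hws := by
  obtain ⟨c, hc, hc'⟩ := h.val_mem y hy
  exact ⟨hyw, c, hc', hX w y c hw' hy hc hws hyw hc'⟩

omit hw in
theorem exists_lift {g₀ : R.V₀ ≃ₗ[F₀] R.V₀} (hg : g₀ ∈ h.restrict.E) :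
    ∃ g ∈ X, g ∈ P.Iso ∧ ∀ x : R.V₀, g x = g₀ x := by
  induction hg using Subgroup.closure_induction with
  | mem g hg =>
    obtain ⟨u, w, c, h1, h2, h3, h4⟩ := hg
    have h5 := h.restrict_B_eq_zero.1 h2
    exact ⟨eichE (P := P) h1 h5 h3, (hX u w c u.2 w.2 c.2 h1 h5 h3).mem fun _ => rfl,
      eichE_mem_Iso _ _ _, fun x => by rw [h4]; rfl⟩
  | one => exact ⟨1, X.one_mem, P.Iso.one_mem, fun _ => rfl⟩
  | mul a b _ _ ha hb =>
    obtain ⟨g, h1, h2, h3⟩ := ha
    obtain ⟨g', h1', h2', h3'⟩ := hb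
    exact ⟨g * g', X.mul_mem h1 h1', P.Iso.mul_mem h2 h2', fun x => by
      rw [LinearEquiv.mul_apply, h3', h3, LinearEquiv.mul_apply]⟩
  | inv a _ ha =>
    obtain ⟨g, h1, h2, h3⟩ := ha
    refine ⟨g⁻¹, X.inv_mem h1, P.Iso.inv_mem h2, fun x => ?_⟩
    obtain ⟨x, rfl⟩ := a.surjective x
    rw [← h3, show g⁻¹ (g x) = x from g.symm_apply_apply x,
      show a⁻¹ (a x) = x from a.symm_apply_apply x]

theorem smul_mem_zSub (hn : d + 5 ≤ finrank F V) {w y e : V} {ξ t : F} (hws : P.Val w 0)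
    (hw' : R.τ w = w) (h0 : w ≠ 0) (hy : R.τ y = y) (he : R.τ e = e)
    (hye : y ∉ (F ∙ w) ⊔ F ∙ e) (hz : ξ • y + t • e ∈ P.zSub X hws) {x : V} (hx : R.τ x = x)
    (hxw : P.B x w = 0) : ξ • x ∈ P.zSub X hws := by
  have hwe := (RatStr.inv_span' hw').sup (RatStr.inv_span' he)
  obtain ⟨e', he', he'1, he'2, he'3⟩ := h.exists_sing_B_ne hw (h.inv_perp hwe) (z := y) (by
    have := Submodule.finrank_mono
      (inf_le_right : P.perp ((F ∙ w) ⊔ F ∙ e) ⊓ P.perp (P.perp ((F ∙ w) ⊔ F ∙ e)) ≤ _)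
    have := finrank_span_pair_le (F := F) w e
    have := P.finrank_perp ((F ∙ w) ⊔ F ∙ e)
    rw [perp_perp] at *
    omega) (by rwa [perp_perp])
  simp only [perp_sup, perp_span_singleton, Submodule.mem_inf, mem_pp] at he'
  obtain ⟨y', hy', hy'1, hy'2, hy'3⟩ := h.exists_sing hw
    ((((h.inv_pp hw').inf (h.inv_pp he'1)).inf (h.inv_pp he)).inf (h.inv_pp hy)) (F ∙ w) (by
      have := finrank_pp (P := P) h0
      have := finrank_inf_pp_ge (P := P) (P.pp w) e'
      have := finrank_inf_pp_ge (P := P) (P.pp w ⊓ P.pp e') e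
      have := finrank_inf_pp_ge (P := P) (P.pp w ⊓ P.pp e' ⊓ P.pp e) y
      have := finrank_span_singleton_le (F := F) w
      omega)
  simp only [Submodule.mem_inf, mem_pp] at hy'
  have hβ : P.B y e' ∈ F₀ := h.B_mem _ _ hy he'1
  have hβ0 : P.B y e' ≠ 0 := P.B_ne_symm he'3
  let N : Submodule F₀ R.V₀ :=
    { carrier := {x | P.B x w = 0 ∧ ∀ a : F₀, ξ • ((a • x : R.V₀) : V) ∈ P.zSub X hws}
      zero_mem' := ⟨by simp, fun a => by simp⟩
      add_mem' := by
        rintro x y ⟨h1, h2⟩ ⟨h3, h4⟩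
        refine ⟨by simp [h1, h3], fun a => ?_⟩
        rw [smul_add, Submodule.coe_add, smul_add]
        exact AddSubgroup.add_mem _ (h2 a) (h4 a)
      smul_mem' := by
        rintro b x ⟨h1, h2⟩
        exact ⟨by simp [Subfield.smul_def, h1], fun a => by rw [smul_smul]; exact h2 _⟩ }
  have hN : h.restrict.EInv (h.restrict.pp ⟨w, hw'⟩) N := by
    rintro e he y hy c h1 h2 h3 x ⟨h4, h5⟩
    have h6 := h.restrict_B_eq_zero.1 h2
    have h7 : eichE (P := P) h1 h6 h3 w = (1 : F) • w := by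
      rw [one_smul]
      exact eich_fix _ (P.B_symm (h.restrict_B_eq_zero.1 he)) (P.B_symm (h.restrict_B_eq_zero.1 hy))
    refine ⟨?_, fun a => ?_⟩
    · have := Iso.B (eichE_mem_Iso (P := P) h1 h6 h3) x w
      rw [h7, one_smul, h4] at this
      exact this
    · have := map_mem_zSub hws ((hX e y c e.2 y.2 c.2 h1 h6 h3).mem fun _ => rfl)
        (eichE_mem_Iso (P := P) h1 h6 h3) one_ne_zero h7 (h5 a)
      rwa [map_one, one_smul, map_smul, Submodule.coe_smul, Subfield.smul_def, map_smul] at this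
  have hd1 := finrank_pp (P := h.restrict) (u := ⟨w, hw'⟩) (fun h => h0 (congrArg Subtype.val h))
  have hd2 := finrank_pp_inf_perp_le (P := h.restrict) ⟨w, hw'⟩
  have hd3 := R.le_finrank_V₀
  have hle := hN.le hw (z := ⟨y', hy'1⟩) ⟨hy'.1.1.1, fun a => ?_⟩ ?_ (by omega) (by omega)
  · simpa using (hle (show (⟨x, hx⟩ : R.V₀) ∈ h.restrict.pp ⟨w, hw'⟩ from
      h.restrict_B_eq_zero.2 hxw)).2 1
  · have h1 : R.τ (((a : F) / P.B y e') • y') = ((a : F) / P.B y e') • y' :=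
      RatStr.τ_smul_of_mem (F₀.div_mem a.2 hβ) hy'1
    have h2 : P.B (((a : F) / P.B y e') • y') e' = 0 := by simp [hy'.1.1.2]
    have := eich_sub_mem_zSub hz he'2 h2 (sing_smul hy'2 _)
      (hX _ _ 0 he'1 h1 F₀.zero_mem he'2 h2 (sing_smul hy'2 _)) (P.B_symm he'.1)
      (by simp [P.B_symm hy'.1.1.1])
    simp only [map_add, map_smul, LinearMap.add_apply, LinearMap.smul_apply, B_smul_right,
      P.B_symm he'.2, P.B_symm hy'.1.2, P.B_symm hy'.2, smul_eq_mul, mul_zero, add_zero, map_zero,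
      zero_mul, zero_smul, sub_zero, smul_smul, mul_assoc, mul_div_cancel₀ _ hβ0] at this
    rwa [Submodule.coe_smul, Subfield.smul_def, smul_smul]
  · rw [perp_pp, Submodule.mem_span_singleton]
    rintro ⟨a, ha⟩
    exact hy'3 (Submodule.mem_span_singleton.2 ⟨a, congrArg Subtype.val ha⟩)

theorem smul_mem_zSub_all (hn : d + 5 ≤ finrank F V) {w : V} {ξ : F} (hws : P.Val w 0)
    (hw' : R.τ w = w) (h0 : w ≠ 0)
    (hξ : ∀ x, R.τ x = x → P.B x w = 0 → ξ • x ∈ P.zSub X hws) {v : V} (hvs : P.Val v 0)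
    (hv : R.τ v = v) {x : V} (hx : R.τ x = x) (hxv : P.B x v = 0) : ξ • x ∈ P.zSub X hvs := by
  by_cases hv0 : v = 0
  · subst hv0
    obtain ⟨c, hc⟩ := P.val_ex (ξ • x)
    exact ⟨by simp, c, hc, Has.id.congr fun y => by simp [eich]⟩
  obtain ⟨g₀, hg₀, hgw⟩ := E_trans hw (by have := R.le_finrank_V₀; omega) (v := ⟨w, hw'⟩)
    (v' := ⟨v, hv⟩) (c := 0) hws hvs (fun h => h0 (congrArg Subtype.val h))
    (fun h => hv0 (congrArg Subtype.val h))
  obtain ⟨g, h1, h2, h3⟩ := h.exists_lift hX hg₀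
  have h4 : g w = v := by rw [h3 ⟨w, hw'⟩, hgw]
  have h5 : g (g₀.symm ⟨x, hx⟩ : R.V₀) = x := by rw [h3, g₀.apply_symm_apply]
  have := map_mem_zSub hvs h1 h2 one_ne_zero (by rw [one_smul, h4])
    (hξ _ (g₀.symm ⟨x, hx⟩).2 (by rw [← Iso.B h2, h4, h5, hxv]))
  rwa [map_one, one_smul, map_smul, h5] at this

theorem E_le_of_not_rat (hn : d + 5 ≤ finrank F V)
    (hsimple : ∀ S : Subring F, (∀ a ∈ F₀, a ∈ S) → (∃ ξ ∈ S, ξ ∉ F₀) → S = ⊤)
    (hΛ : ∀ c, P.Val 0 c → ∃ a l, ∃ c₀ ∈ F₀, P.Val 0 c₀ ∧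
      c = a - P.ε * P.σ a + l * P.σ l * c₀)
    {w z : V} (hws : P.Val w 0) (hw' : R.τ w = w) (h0 : w ≠ 0) (hz : z ∈ P.zSub X hws)
    (hz' : R.τ z - z ∉ F ∙ w) : P.E ≤ X := by
  have hd1 := finrank_pp (P := P) h0
  have hd2 := finrank_pp_inf_perp_le (P := P) w
  have hd3 := finrank_span_singleton_le (F := F) w
  have hpair : ∀ e, R.τ e = e → ∃ y, R.τ y = y ∧ P.B y w = 0 ∧ P.B y e = 0 ∧
      y ∉ (F ∙ w) ⊔ F ∙ e := by
    intro e he
    obtain ⟨y, hy, hy1, hy2⟩ := ((h.inv_pp hw').inf (h.inv_pp he)).exists_notMem_of_lt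
      (N := (F ∙ w) ⊔ F ∙ e) (by
        have := finrank_inf_pp_ge (P := P) (P.pp w) e
        have := finrank_span_pair_le (F := F) w e
        omega)
    exact ⟨y, hy1, hy.1, hy.2, hy2⟩
  let S : Subring F :=
    { carrier := {ξ | ∀ (v : V) (hvs : P.Val v 0), R.τ v = v → ∀ x, R.τ x = x → P.B x v = 0 →
        ξ • x ∈ P.zSub X hvs}
      zero_mem' := fun v hvs _ x _ _ => by simp
      one_mem' := fun v hvs h1 x h2 h3 => by
        rw [one_smul]; exact h.mem_zSub_of_rat hX hvs h1 h2 h3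
      add_mem' := fun ha hb v hvs h1 x h2 h3 => by
        rw [add_smul]
        exact AddSubgroup.add_mem _ (ha v hvs h1 x h2 h3) (hb v hvs h1 x h2 h3)
      neg_mem' := fun ha v hvs h1 x h2 h3 => by
        rw [neg_smul]
        exact AddSubgroup.neg_mem _ (ha v hvs h1 x h2 h3)
      mul_mem' := fun {a b} ha hb v hvs h1 x h2 h3 => by
        refine h.smul_mem_zSub_all hw hX hn hws hw' h0 (fun x hx hxw => ?_) hvs h1 h2 h3
        obtain ⟨e, he, he1, he2, he3⟩ := h.exists_sing hw (h.inv_pp hw') (F ∙ w) (by omega)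
        obtain ⟨u, hu, hu1, hu2⟩ := exists_B_ne (h.inv_pp hw') (z := e) (by rwa [perp_pp])
        obtain ⟨y, hy, hy1, hy2, hy3⟩ := hpair e he1
        obtain ⟨h4, c, hc, h5⟩ := hb e he2 he1 y hy hy2
        have := eich_sub_mem_zSub (ha w hws hw' u hu1 hu) he2 h4 hc h5 (P.B_symm he)
          (by simp [P.B_symm hy1])
        refine h.smul_mem_zSub hw hX hn (y := P.B u e • y) (e := e)
          (t := -(P.ε * P.B (a • u) (b • y) + P.σ c * P.B (a • u) e)) hws hw' h0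
          (RatStr.τ_smul_of_mem (h.B_mem _ _ hu1 he1) hy) he1
          (by rwa [Submodule.smul_mem_iff _ hu2]) ?_ hx hxw
        convert this using 1
        simp only [map_smul, LinearMap.smul_apply, smul_eq_mul]
        module }
  have hS : S = ⊤ := by
    refine hsimple S (fun a ha v hvs h1 x h2 h3 =>
      h.mem_zSub_of_rat hX hvs h1 (RatStr.τ_smul_of_mem ha h2) (by simp [h3])) ?_
    obtain ⟨e, he, he1, he2, he3⟩ : ∃ e ∈ P.pp w, R.τ e = e ∧ P.Val e 0 ∧ P.B z e ∉ F₀ := by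
      by_contra! hcon
      let N : Submodule F₀ V :=
        { carrier := {e | P.B z e ∈ F₀}
          zero_mem' := by simp
          add_mem' := fun ha hb => by simpa using F₀.add_mem ha hb
          smul_mem' := fun a e he => by
            simpa [Subfield.smul_def] using F₀.mul_mem (h.σ_mem a.2) he }
      exact hz' (h.τ_sub_mem hw' fun y hy hyw =>
        h.span_sing hw (h.inv_pp hw') (by omega) (N := N) hcon hyw hy)
    refine ⟨P.B z e, fun v hvs h1 x h2 h3 => ?_, he3⟩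
    refine h.smul_mem_zSub_all hw hX hn hws hw' h0 (fun x hx hxw => ?_) hvs h1 h2 h3
    obtain ⟨y, hy, hy1, hy2, hy3⟩ := hpair e he1
    obtain ⟨c, hc, hc'⟩ := h.val_mem y hy
    have := eich_sub_mem_zSub hz he2 hy2 hc' (hX e y c he1 hy hc he2 hy2 hc') (P.B_symm he)
      (P.B_symm hy1)
    rw [sub_eq_add_neg, ← neg_smul] at this
    exact h.smul_mem_zSub hw hX hn hws hw' h0 hy he1 hy3 this hx hxw
  have hall : ∀ (v : V) (hvs : P.Val v 0), R.τ v = v → ∀ x, P.B x v = 0 → x ∈ P.zSub X hvs := by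
    intro v hvs hv x hx
    have : P.pp v ≤ P.eSub X hvs := (h.inv_pp hv).le fun y hy hy' =>
      ⟨hy, fun a => ((show a ∈ S by simp [hS]) v hvs hv y hy' hy).2⟩
    obtain ⟨c, hc, hc'⟩ := (this hx).2 1
    rw [one_smul] at hc hc'
    exact ⟨hx, c, hc, hc'⟩
  have hmove : ∀ v a, P.Val a 0 → R.τ a = a → P.B v a = 0 → v ∉ F ∙ a → ∀ t : F,
      ∃ s ∈ X ⊓ P.Iso, s a = a ∧ s v = v + t • a := by
    intro v a has ha hva hv t
    obtain ⟨y, hy, hvy⟩ := exists_sep (P := P) hv (-(P.ε * t))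
    rw [perp_span_singleton, mem_pp] at hy
    obtain ⟨-, c, hc, hc'⟩ := hall a has ha y hy
    refine ⟨eichE has hy hc, ⟨hc'.mem fun _ => rfl, eichE_mem_Iso _ _ _⟩,
      eich_fix c (sing_B has) (P.B_symm hy), ?_⟩
    simp [eich, hva, hvy, ← mul_assoc]
  have hfull : ∀ v, P.Val v 0 → R.τ v = v → v ≠ 0 → P.FullA X v := by
    intro v hvs hv hv0 x c hx hc
    obtain ⟨-, c', hc', h1⟩ := hall v hvs hv x hx
    obtain ⟨a, l, c₀, h2, h3, h4⟩ := hΛ _ (val_sub_val hc hc')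
    have h5 : P.EI X v 0 (l * P.σ l * c₀) := by
      by_cases hl : l = 0
      · simpa [hl] using EI.zero v
      obtain ⟨e, he, he1, he2, he3⟩ := h.exists_sing hw (h.inv_pp hv) (F ∙ v) (by
        have := finrank_pp (P := P) hv0
        have := finrank_span_singleton_le (F := F) v
        omega)
      have h6 := notMem_span_swap hv0 he3
      obtain ⟨s₁, hs₁, -, hs₁'⟩ := hmove v e he2 he1 (P.B_symm he) h6 1
      obtain ⟨s₂, hs₂, hs₂', hs₂''⟩ := hmove e v hvs hv he he3 (l - 1)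
      obtain ⟨s₃, hs₃, hs₃', hs₃''⟩ := hmove v e he2 he1 (P.B_symm he) h6 (-l⁻¹)
      have h7 := (X ⊓ P.Iso).mul_mem hs₃ ((X ⊓ P.Iso).mul_mem hs₂ hs₁)
      have h8 := (hX v 0 c₀ hv (by simp) h2 hvs (by simp) h3).conj h7.1 h7.2
      have h9 : (s₃ * (s₂ * s₁)) v = l • v := by
        simp only [LinearEquiv.mul_apply, hs₁', map_add, map_smul, hs₂', hs₂'', hs₃', hs₃'']
        match_scalars <;> field_simp <;> ring
      rwa [h9, map_zero, EI.smul_iff, smul_zero] at h8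
    have h6 := EI_lam_min hvs (by omega) (hall v hvs hv) a
    exact ((h1.add h6 hvs hx (by simp)).add h5 hvs (by simpa using hx) (by simp)).congr (by simp)
      (by simp only [map_zero]; linear_combination -h4)
  obtain ⟨e, -, he1, he2, he3⟩ := h.exists_sing_B_ne hw RatStr.inv_top (z := w)
    (by rw [perp_top, inf_bot_eq, finrank_bot, finrank_top]; omega) (by simpa [perp_top] using h0)
  exact E_le_of_fullA hws he2 (hfull w hws hw' h0) (hfull e he2 he1 (by rintro rfl; simp at he3)) he3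

end

end RatOK

end Polar

end Cfsg.Agent.H7
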