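import Cfsg.Agent.H7.NondegO
import Cfsg.Agent.H7.OInSp
import Cfsg.Agent.H7.SubPolar

/-!
Stabilisers of non-degenerate subspaces in small dimensions.
-/

set_option autoImplicit false
set_option linter.unusedSectionVars false

namespace Cfsg.Agent.H7

open Module

theorem exists_sq_sub_sq {F : Type*} [Field F] [Finite F] (t : F) :
    ∃ a b : F, t = a * a - b * b := by
  by_cases h2 : (2 : F) = 0
  · obtain ⟨a, ha⟩ := exists_mul_self_of_two h2 t
    exact ⟨a, 0, by simp [ha]⟩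
  · exact ⟨(t + 1) / 2, (t - 1) / 2, by field_simp; ring⟩

namespace Polar

variable {F : Type*} [Field F] {V : Type*} [AddCommGroup V] [Module F V] {P : Polar F V}
variable [Finite F] [FiniteDimensional F V]

theorem exists_val_of_aniso (hσ : ∀ a, P.σ a = a) {N U : Submodule F V}
    (hd : finrank F U + 2 ≤ finrank F N) (hs : ∀ x ∈ N, P.Val x 0 → x ∈ U) (c : F) :
    ∃ y ∈ N, P.Val y c := by
  obtain ⟨x, hx, hxU⟩ := exists_notMem_of_finrank_lt (U := U) (W := N) (by omega)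
  obtain ⟨y, hy, hyU⟩ := exists_notMem_of_finrank_lt (U := U ⊔ F ∙ x) (W := N) (by
    have := finrank_sup_span_le U x; omega)
  obtain ⟨c1, h1⟩ := P.val_ex x
  obtain ⟨c2, h2⟩ := P.val_ex y
  obtain ⟨a1, a2, a3, h0, h⟩ := exists_ternary_zero c1 c2 (-c) (P.B x y) 0 0
  have h3 := P.val_add (P.val_smul a1 h1) (P.val_smul a2 h2)
  have h4 := N.add_mem (N.smul_mem a1 hx) (N.smul_mem a2 hy)
  simp only [map_smul, LinearMap.smul_apply, smul_eq_mul, B_smul_right, hσ] at h3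
  by_cases ha : a3 = 0
  · exfalso
    have h5 := hs _ h4 (val_congr h3 (by rw [ha] at h; linear_combination h))
    have h6 : a2 = 0 := by
      by_contra h6
      apply hyU
      rw [← Submodule.smul_mem_iff _ h6]
      exact mem_sup_span_singleton.2 ⟨_, h5, -a1, by module⟩
    have h7 : a1 = 0 := by
      by_contra h7
      rw [h6, zero_smul, add_zero, U.smul_mem_iff h7] at h5
      exact hxU h5
    exact h0 ⟨h7, h6, ha⟩
  · refine ⟨_, N.smul_mem a3⁻¹ h4, val_congr (P.val_smul _ h3) ?_⟩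
    rw [hσ]; field_simp; linear_combination h

theorem exists_val_of_nondeg_four (hσ : ∀ a, P.σ a = a) {M : Submodule F V}
    (hM : M ⊓ P.perp M = ⊥) {u : V} (hu : u ∈ M) (hd : 4 ≤ finrank F M) (c : F) :
    ∃ y ∈ M, P.B y u = 0 ∧ P.Val y c := by
  by_cases h : ∀ x ∈ M ⊓ P.pp u, P.Val x 0 → x ∈ F ∙ u
  · obtain ⟨y, hy, hc⟩ := exists_val_of_aniso hσ (by
      have := finrank_inf_pp_ge (P := P) M u
      have := finrank_span_singleton_le (F := F) u
      omega) h c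
    exact ⟨y, hy.1, hy.2, hc⟩
  push Not at h
  obtain ⟨e, he, hes, heu⟩ := h
  obtain ⟨y, hy, hye⟩ : ∃ y ∈ M ⊓ P.pp u, P.B y e ≠ 0 := by
    by_contra! h
    have h1 : e ∈ P.perp (M ⊓ P.pp u) := mem_perp'.2 h
    rw [perp_inf, perp_pp, mem_sup_span_singleton] at h1
    obtain ⟨m, hm, a, rfl⟩ := h1
    have : m ∈ M ⊓ P.perp M := ⟨(M.add_mem_iff_left (M.smul_mem a hu)).1 he.1, hm⟩
    rw [hM, Submodule.mem_bot] at this
    exact heu (by simp [this, Submodule.smul_mem, Submodule.mem_span_singleton_self])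
  obtain ⟨a, ha⟩ := exists_val_add_sing hes hye c
  have h1 : P.B y u = 0 := hy.2
  have h2 : P.B e u = 0 := he.2
  exact ⟨_, M.add_mem hy.1 (M.smul_mem _ he.1), by simp [h1, h2], ha⟩

variable (P) in
/-- products of two reflections of the same value lie in the elementary group -/
def ReflCongr : Prop :=
  ∀ (a a' : V) (c : F) (ha : P.Val a c) (ha' : P.Val a' c) (h0 : c ≠ 0),
    reflE ha h0 * (reflE ha' h0)⁻¹ ∈ P.E

theorem reflCongr_of {d : ℕ} (hw : P.Wild d) (hn : d + 4 ≤ finrank F V) : P.ReflCongr :=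
  fun _ _ _ ha ha' h0 => refl_congr hw hn ha ha' h0

theorem reflE_inv_fix {d x : V} {c : F} (hc : P.Val d c) (h0 : c ≠ 0) (hx : P.B x d = 0) :
    (reflE hc h0)⁻¹ x = x := by
  conv_lhs => rw [← refl_fix c hx]
  exact (reflE hc h0).symm_apply_apply x

theorem reflE_mem_stab {W : Submodule F V} {d : V} {c : F} (hc : P.Val d c) (h0 : c ≠ 0)
    (hd : d ∈ W ∨ d ∈ P.perp W) : reflE hc h0 ∈ stab W := by
  refine mem_stab_of_forall fun x hx => ?_
  rcases hd with hd | hd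
  · exact W.sub_mem hx (W.smul_mem _ hd)
  · rwa [reflE_apply, refl_fix c (mem_perp'.1 hd x hx)]

section core

variable {W : Submodule F V} (hW : W ⊓ P.perp W = ⊥) {X : Subgroup (V ≃ₗ[F] V)}
  (hH : stab W ⊓ P.E ≤ X)
include hW hH

theorem E_le_of_nondeg_core (hrc : P.ReflCongr) (hd : 3 ≤ finrank F (P.perp W))
    (hex : (∃ c, c ≠ 0 ∧ P.Val 0 c) ∨ finrank F W ≠ 2 ∨ 3 < Nat.card F ∨
      ∀ x ∈ W, P.Val x 0 → x = 0) {u : V} (huW : u ∈ P.perp W) (hus : P.Val u 0) (hu0 : u ≠ 0)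
    (hval : ∀ c, ∃ y ∈ P.perp W, P.B y u = 0 ∧ P.Val y c) {p : V} (hp : p ∈ W) (hp0 : p ≠ 0)
    (h2 : p ∈ P.eSub X hus) : P.E ≤ X := by
  have hM : ∀ e ∈ P.perp W, ∀ w ∈ P.perp W, ∀ c, P.Val e 0 → P.B w e = 0 → P.Val w c →
      P.EI X e w c := fun e he w hw c h1 h2 h3 =>
    EI_of_mem h1 h2 h3 (hH ⟨eichE_mem_stab_of_perp h1 h2 h3 he hw, eichE_mem_E _ _ _⟩)
  have hsub : ∀ w ∈ P.perp W, P.B w u = 0 → w ∈ P.eSub X hus := fun w hw hwu =>
    mem_eSub_of_sub hus (fun w hw c h1 h2 => hM u huW w hw c hus h1 h2) hw hwu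
  have hpu : ∀ p ∈ W, P.B p u = 0 := fun p hp => mem_perp'.1 huW p hp
  have h3 : W ≤ W ⊓ P.eSub X hus := by
    refine le_of_refl_inv hW inf_le_left ((Submodule.ne_bot_iff _).2 ⟨p, ⟨hp, h2⟩, hp0⟩) ?_ ?_ hex
    · intro e he w hw c h1 h2 h3 x hx
      have hs := eichE_mem_stab_of_mem h1 h2 h3 he hw
      exact ⟨(mem_stab.1 hs x).1 hx.1, apply_mem_eSub hus (hH ⟨hs, eichE_mem_E _ _ _⟩)
        (eichE_mem_Iso _ _ _) (eich_fix c (huW e he) (huW w hw)) hx.2⟩
    · intro e he c hc hc0 z hz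
      obtain ⟨e', he', heu, hc'⟩ := hval c
      have hE := hrc _ _ _ hc hc' hc0
      have hWs : ∀ x ∈ W, (reflE hc hc0 * (reflE hc' hc0)⁻¹) x = P.refl e c x := fun x hx => by
        rw [LinearEquiv.mul_apply, reflE_inv_fix hc' hc0 (mem_perp'.1 he' x hx), reflE_apply]
      have hs : reflE hc hc0 * (reflE hc' hc0)⁻¹ ∈ stab W := mem_stab_of_forall fun x hx => by
        rw [hWs x hx]; exact W.sub_mem hx (W.smul_mem _ he)
      rw [← hWs z hz.1]
      refine ⟨(mem_stab.1 hs z).1 hz.1, apply_mem_eSub hus (hH ⟨hs, hE⟩) (E_le_Iso hE) ?_ hz.2⟩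
      rw [LinearEquiv.mul_apply, reflE_inv_fix hc' hc0 (P.B_symm heu), reflE_apply,
        refl_fix c (huW e he)]
  refine E_le_of_fullA_of_sub hM huW hus ?_ (fullA_of_eSub hus
    (fun c hc => hM u huW 0 (Submodule.zero_mem _) c hus (by simp) hc) fun x hx => ?_) ?_
  · rw [perp_perp]
    exact fun h => hu0 (by simpa [hW] using (show u ∈ W ⊓ P.perp W from ⟨h, huW⟩))
  · obtain ⟨p, hp, p', hp', rfl⟩ := exists_decomp hW x
    refine Submodule.add_mem _ (h3 hp).2 (hsub p' hp' ?_)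
    simpa [hpu p hp] using hx
  · rw [inf_perp_perp hW]; simp; omega

theorem exists_eSub_of_fix {u : V} (huW : u ∈ P.perp W) (hus : P.Val u 0) {y : V ≃ₗ[F] V}
    (hy : y ∈ X) (hy' : y ∈ P.Iso) (hyu : y u = u) {w1 : V} (hw1 : w1 ∈ P.perp W)
    (hwu : P.B w1 u = 0) (hw1' : y w1 ∉ P.perp W) : ∃ p ∈ W, p ≠ 0 ∧ p ∈ P.eSub X hus := by
  have hsub : ∀ w ∈ P.perp W, P.B w u = 0 → w ∈ P.eSub X hus := fun w hw hwu =>
    mem_eSub_of_sub hus (fun w hw c h1 h2 => EI_of_mem hus h1 h2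
      (hH ⟨eichE_mem_stab_of_perp hus h1 h2 huW hw, eichE_mem_E _ _ _⟩)) hw hwu
  have h1 := apply_mem_eSub hus hy hy' hyu (hsub w1 hw1 hwu)
  obtain ⟨p, hp, p', hp', hpp⟩ := exists_decomp hW (y w1)
  refine ⟨p, hp, ?_, ?_⟩
  · rintro rfl
    exact hw1' (by rw [← hpp]; simpa using hp')
  · have h3 : P.B p' u = 0 := by
      have := h1.1
      rwa [← hpp, map_add, LinearMap.add_apply, mem_perp'.1 huW p hp, zero_add] at this
    rwa [← hpp, Submodule.add_mem_iff_left _ (hsub p' hp' h3)] at h1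

/-- the case of a non-trivial form parameter -/
theorem E_le_of_nondeg_lam {d : ℕ} (hw : P.Wild d) (hrc : P.ReflCongr)
    (hd : d + 2 ≤ finrank F (P.perp W)) (hd' : 3 ≤ finrank F (P.perp W))
    (hΛ : ∃ c, c ≠ 0 ∧ P.Val 0 c) {g : V ≃ₗ[F] V} (hg : g ∈ X) (hg' : g ∈ P.Iso)
    (hgW : g ∉ stab W) (hgW' : ¬ (P.perp W).map (g : V →ₗ[F] V) ≤ W) : P.E ≤ X := by
  have hM := EI_map (X := X) (M := P.perp W) (fun e he w hw c h1 h2 h3 =>
    EI_of_mem h1 h2 h3 (hH ⟨eichE_mem_stab_of_perp h1 h2 h3 he hw, eichE_mem_E _ _ _⟩)) hg hg'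
  set M' := (P.perp W).map (g : V →ₗ[F] V) with hM'
  have hdim : finrank F M' = finrank F (P.perp W) := LinearEquiv.finrank_map_eq g (P.perp W)
  have hnd : M' ⊓ P.perp M' = ⊥ := inf_perp_map hg' (inf_perp_perp hW)
  have key : ∀ U : Submodule F V, ¬ M' ≤ U → ∃ e ∈ M', P.Val e 0 ∧ e ∉ U := by
    intro U hU
    obtain ⟨z, hz, hz'⟩ : ∃ z ∈ P.perp U, z ∉ P.perp M' := by
      by_contra! h
      exact hU (by simpa [perp_perp] using perp_anti (P := P) h)
    obtain ⟨e, he, hes, hze⟩ := exists_sing_ne_of_sub hw hz' (by rw [hnd, finrank_bot]; omega)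
    exact ⟨e, he, hes, fun h => hze (hz e h)⟩
  obtain ⟨a, ha, has, haW, haM⟩ : ∃ a ∈ M', P.Val a 0 ∧ a ∉ W ∧ a ∉ P.perp W := by
    obtain ⟨e1, he1, hs1, h1⟩ := key W hgW'
    obtain ⟨e2, he2, hs2, h2⟩ := key (P.perp W) fun h => hgW ((mem_stab_perp_iff hg').1
      (mem_stab_iff_map.2 (Submodule.eq_of_le_of_finrank_eq h hdim)))
    by_cases h3 : e1 ∈ P.perp W
    · by_cases h4 : e2 ∈ W
      · exact ⟨e1 + e2, M'.add_mem he1 he2, by simpa using val_add_orth hs1 hs2 (h3 e2 h4),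
          by rwa [W.add_mem_iff_left h4], by rwa [Submodule.add_mem_iff_right _ h3]⟩
      · exact ⟨e2, he2, hs2, h4, h2⟩
    · exact ⟨e1, he1, hs1, h1, h3⟩
  obtain ⟨c₀, h0, hc₀⟩ := hΛ
  obtain ⟨w1, hw1, hw1a⟩ : ∃ w1 ∈ P.perp W, P.B w1 a ≠ 0 := by
    by_contra! h
    exact haW (by rw [← perp_perp (P := P) W]; exact mem_perp'.2 h)
  obtain ⟨u, hu, hu0, hus⟩ := hw (P.perp W ⊓ P.pp a ⊓ P.pp w1) (by
    have := finrank_inf_pp_ge (P := P) (P.perp W) a
    have := finrank_inf_pp_ge (P := P) (P.perp W ⊓ P.pp a) w1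
    omega)
  obtain ⟨p, hp, hp0, hp'⟩ := exists_eSub_of_fix hW hH hu.1.1 hus
    (y := eichE has (w := 0) (by simp) hc₀)
    ((hM a ha 0 M'.zero_mem c₀ has (by simp) hc₀).mem fun _ => rfl) (eichE_mem_Iso _ _ _)
    (eich_fix c₀ hu.1.2 (by simp)) hw1 (P.B_symm hu.2) (by
      simp only [eichE_apply, eich, smul_zero, add_zero, map_zero, mul_zero, zero_add]
      rwa [Submodule.sub_mem_iff_right _ hw1, Submodule.smul_mem_iff _ (by simp [h0, hw1a])])
  exact E_le_of_nondeg_core hW hH hrc hd' (Or.inl ⟨c₀, h0, hc₀⟩) hu.1.1 hus hu0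
    (exists_val_of_nondeg hw (inf_perp_perp hW) hu.1.1 hd) hp hp0 hp'

end core

theorem nondeg_maximal_lam {d : ℕ} (hw : P.Wild d) (hrc : P.ReflCongr)
    (hΛ : ∃ c, c ≠ 0 ∧ P.Val 0 c) {W : Submodule F V} (hW : W ⊓ P.perp W = ⊥) (h0 : W ≠ ⊥)
    (hd : finrank F W + d + 2 ≤ finrank F V) (hd' : finrank F W + 3 ≤ finrank F V)
    (hlt : 2 * finrank F W < finrank F V) : Geo.IsMaximalIn P.E (stab W ⊓ P.E) := by
  have hdim := P.finrank_perp W
  refine isMaximalIn_of inf_le_right ?_ fun X hHX hXE g hg hgH => ?_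
  · obtain ⟨g, hg, hg'⟩ := exists_E_notMem_stab hw (by omega) (by omega) h0
      (fun h => by rw [h, finrank_top] at hd; omega)
    exact ⟨g, hg, fun h => hg' h.1⟩
  refine E_le_of_nondeg_lam hW hHX hw hrc (by omega) (by omega) hΛ hg (E_le_Iso (hXE hg))
    (fun h => hgH ⟨h, hXE hg⟩) fun h => ?_
  have := Submodule.finrank_mono h
  rw [LinearEquiv.finrank_map_eq] at this
  omega

section orth

variable (hΛ : ∀ c, P.Val 0 c → c = 0)
include hΛ

/-- vectors of a fixed non-zero value are not covered by two orthogonal proper subspaces -/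
theorem le_or_le_of_cover {M N₁ N₂ : Submodule F V} (hM : M ⊓ P.perp M = ⊥)
    (hd : 4 ≤ finrank F M) (h1 : N₁ ≤ M) (h2 : N₂ ≤ M) (h12 : ∀ x ∈ N₁, ∀ y ∈ N₂, P.B x y = 0)
    (hex : 2 < Nat.card F ∨ finrank F M ≠ 4 ∨
      ∀ T ≤ M, (∀ x ∈ T, P.Val x 0) → finrank F T ≤ 1)
    {c : F} (hc : c ≠ 0) (h : ∀ x ∈ M, P.Val x c → x ∈ N₁ ∨ x ∈ N₂) : M ≤ N₁ ∨ M ≤ N₂ := by
  have hσ := fun a => (σ_eq_of_lam hΛ a).1
  have hw : P.Wild 3 := wild_three_of_σ hσ
  have key : ∀ N ≤ M, ∀ u ∈ N, P.Val u 0 → u ≠ 0 → ¬ M ≤ N →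
      ∃ x ∈ M, x ∉ N ∧ P.Val x c ∧ P.B x u ≠ 0 := by
    intro N hN u hu hus hu0 hMN
    obtain ⟨x1, hx1, hx1'⟩ := SetLike.not_le_iff_exists.1 hMN
    obtain ⟨x2, hx2, hx2'⟩ := inf_perp_eq_bot_iff.1 hM u (hN hu) hu0
    obtain ⟨x, hx, hxN, hxu⟩ := exists_notMem_two (U := N) (U' := P.pp u) M hx1 hx2 hx1'
      (fun h => hx2' (P.B_symm h))
    obtain ⟨a, ha⟩ := exists_val_add_sing hus hxu c
    exact ⟨_, M.add_mem hx (M.smul_mem _ (hN hu)), by rwa [N.add_mem_iff_left (N.smul_mem _ hu)],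
      ha, by simpa [sing_B hus] using hxu⟩
  by_contra! hcon
  have a1 : ∀ u ∈ N₁, P.Val u 0 → u ∈ (⊥ : Submodule F V) := fun u hu hus => by
    by_contra hu0
    obtain ⟨x, hx, hxN, hxc, hxu⟩ := key N₁ h1 u hu hus hu0 hcon.1
    exact hxu (P.B_symm (h12 u hu x ((h x hx hxc).resolve_left hxN)))
  have a2 : ∀ u ∈ N₂, P.Val u 0 → u ∈ (⊥ : Submodule F V) := fun u hu hus => by
    by_contra hu0
    obtain ⟨x, hx, hxN, hxc, hxu⟩ := key N₂ h2 u hu hus hu0 hcon.2
    exact hxu (h12 x ((h x hx hxc).resolve_right hxN) u hu)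
  have d1 : finrank F N₁ ≤ 2 := by
    by_contra h3
    obtain ⟨u, hu, hu0, hus⟩ := hw N₁ (by omega)
    exact hu0 (a1 u hu hus)
  have d2 : finrank F N₂ ≤ 2 := by
    by_contra h3
    obtain ⟨u, hu, hu0, hus⟩ := hw N₂ (by omega)
    exact hu0 (a2 u hu hus)
  have h5 : M ≤ N₁ ⊔ N₂ := by
    by_contra h3
    obtain ⟨z, hz, hz'⟩ : ∃ z ∈ P.perp (N₁ ⊔ N₂), z ∉ P.perp M := by
      by_contra! h
      exact h3 (by simpa [perp_perp] using perp_anti (P := P) h)
    obtain ⟨u, hu, hu0, hus⟩ := hw (M ⊓ P.pp z) (by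
      have := finrank_inf_pp_ge (P := P) M z; omega)
    obtain ⟨x, hx, hxN, hxc, -⟩ := key _ inf_le_left u hu hus hu0 fun h =>
      hz' (mem_perp'.2 fun m hm => (h hm).2)
    exact hxN ⟨hx, (h x hx hxc).elim (fun h => mem_perp'.1 hz _ (Submodule.mem_sup_left h))
      fun h => mem_perp'.1 hz _ (Submodule.mem_sup_right h)⟩
  have d3 := (Submodule.finrank_mono h5).trans
    (Submodule.finrank_add_le_finrank_add_finrank N₁ N₂)
  have hdis : ∀ z ∈ N₁, z ∈ N₂ → z = 0 := by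
    intro z hz1 hz2
    have : z ∈ M ⊓ P.perp M := ⟨h1 hz1, fun m hm => by
      obtain ⟨a, ha, b, hb, rfl⟩ := Submodule.mem_sup.1 (h5 hm)
      simp [h12 z hz1 b hb, P.B_symm (h12 a ha z hz2)]⟩
    simpa [hM] using this
  have hall : ∀ t : F, t = 0 ∨ t = c := by
    intro t
    by_contra! ht
    obtain ⟨x, hx, hxc⟩ := exists_val_of_aniso hσ (by rw [finrank_bot]; omega) a1 t
    obtain ⟨y, hy, hyc⟩ := exists_val_of_aniso hσ (by rw [finrank_bot]; omega) a2 (c - t)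
    have hxy := val_congr (val_add_orth hxc hyc (h12 x hx y hy)) (add_sub_cancel t c)
    rcases h _ (M.add_mem (h1 hx) (h2 hy)) hxy with h3 | h3
    · rw [N₁.add_mem_iff_right hx] at h3
      rw [hdis y h3 hy] at hyc
      exact ht.2 (sub_eq_zero.1 (hΛ _ hyc)).symm
    · rw [N₂.add_mem_iff_left hy] at h3
      rw [hdis x hx h3] at hxc
      exact ht.1 (hΛ _ hxc)
  rcases hex with h3 | h3 | h3
  · have : Nat.card F ≤ Nat.card Bool :=
      Nat.card_le_card_of_surjective (fun b : Bool => if b then c else 0) fun t => by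
        rcases hall t with rfl | rfl
        · exact ⟨false, rfl⟩
        · exact ⟨true, rfl⟩
    simp at this
    omega
  · omega
  · have hcc : c + c = 0 := (hall (c + c)).resolve_right fun h => hc (by linear_combination h)
    let ψ : N₁ ≃ₗ[F] N₂ := LinearEquiv.ofFinrankEq N₁ N₂ (by omega)
    let φ : N₁ →ₗ[F] V := N₁.subtype + N₂.subtype ∘ₗ (ψ : N₁ →ₗ[F] N₂)
    have hφ : ∀ x, φ x = x + ψ x := fun _ => rfl
    have hinj : Function.Injective φ := (injective_iff_map_eq_zero _).2 fun x hx =>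
      Subtype.ext (hdis x x.2 (by
        rw [hφ] at hx
        rw [eq_neg_of_add_eq_zero_left hx]; exact N₂.neg_mem (ψ x).2))
    have := h3 (LinearMap.range φ) (by
      rintro _ ⟨x, rfl⟩; exact M.add_mem (h1 x.2) (h2 (ψ x).2)) (by
      rintro _ ⟨x, rfl⟩
      by_cases hx : x = 0
      · rw [hx, map_zero]; exact val_zero
      obtain ⟨s, hs⟩ := P.val_ex (x : V)
      obtain ⟨t, ht⟩ := P.val_ex (ψ x : V)
      have hs' : s = c := (hall s).resolve_left fun h => hx (Subtype.ext (a1 _ x.2 (h ▸ hs)))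
      have ht' : t = c := (hall t).resolve_left fun h =>
        hx (by simpa using a2 _ (ψ x).2 (h ▸ ht))
      exact val_congr (val_add_orth hs ht (h12 _ x.2 _ (ψ x).2)) (by rw [hs', ht', hcc]))
    rw [LinearMap.finrank_range_of_inj hinj] at this
    omega

variable {W : Submodule F V} (hW : W ⊓ P.perp W = ⊥) {X : Subgroup (V ≃ₗ[F] V)}
  (hH : stab W ⊓ P.E ≤ X)
include hW hH

theorem mem_eSub_of_zSub (hrc : P.ReflCongr) {u : V} (huW : u ∈ P.perp W) (hus : P.Val u 0)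
    (hu0 : u ≠ 0) {p : V} (hp : p ∈ W) (h : p ∈ P.zSub X hus) : p ∈ P.eSub X hus := by
  have hσ := fun a => (σ_eq_of_lam hΛ a).1
  obtain ⟨f, hf, hfs, huf⟩ := exists_hyperbolic (U := W) hus
    (fun h => hu0 (by simpa [hW] using (show u ∈ W ⊓ P.perp W from ⟨h, huW⟩))) huW 1 one_ne_zero
  have key : ∀ l : F, (l * l) • p ∈ P.zSub X hus := by
    intro l
    by_cases hl : l = 0
    · simp [hl]
    have v1 : P.Val (u + (l * l) • f) (l * l) := by simpa [hσ] using val_hyp hus hfs huf (l * l)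
    have v2 : P.Val (l • (u + f)) (l * l) := by
      have := P.val_smul l (val_hyp hus hfs huf 1)
      simpa [hσ] using this
    have hll := mul_ne_zero hl hl
    have hE := P.E.inv_mem (hrc _ _ _ v1 v2 hll)
    have m1 : u + (l * l) • f ∈ P.perp W := Submodule.add_mem _ huW (Submodule.smul_mem _ _ hf)
    have m2 : l • (u + f) ∈ P.perp W := Submodule.smul_mem _ _ (Submodule.add_mem _ huW hf)
    have hs : (reflE v1 hll * (reflE v2 hll)⁻¹)⁻¹ ∈ stab W := (stab W).inv_mem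
      ((stab W).mul_mem (reflE_mem_stab _ _ (Or.inr m1))
        ((stab W).inv_mem (reflE_mem_stab _ _ (Or.inr m2))))
    have hfu : P.B f u = 1 := by rw [P.herm, huf, (σ_eq_of_lam hΛ 0).2]; simp
    have := map_mem_zSub hus (hH ⟨hs, hE⟩) (E_le_Iso hE) hll (z := p) (by
      rw [mul_inv_rev, inv_inv, LinearEquiv.mul_apply]
      have e : (reflE v1 hll)⁻¹ u = -((l * l) • f) := by
        apply (reflE v1 hll).injective
        rw [show ∀ y, reflE v1 hll ((reflE v1 hll)⁻¹ y) = y from (reflE v1 hll).apply_symm_apply]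
        simp only [reflE_apply, refl, map_neg, map_smul, map_add, LinearMap.neg_apply,
          LinearMap.smul_apply, B_smul_right, hσ, hfu, sing_B hfs, smul_eq_mul]
        match_scalars <;> field_simp <;> ring
      rw [e]
      simp only [reflE_apply, refl, map_neg, map_smul, map_add, LinearMap.neg_apply,
        LinearMap.smul_apply, B_smul_right, hσ, hfu, sing_B hfs, smul_eq_mul]
      match_scalars <;> field_simp <;> ring) h
    rwa [hσ, mul_inv_rev, inv_inv, LinearEquiv.mul_apply,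
      reflE_inv_fix v1 hll (mem_perp'.1 m1 p hp), reflE_apply,
      refl_fix _ (mem_perp'.1 m2 p hp)] at this
  refine ⟨h.1, fun t => ?_⟩
  obtain ⟨a, b, rfl⟩ := exists_sq_sub_sq t
  rw [sub_smul]
  exact ((P.zSub X hus).sub_mem (key a) (key b)).2

theorem E_le_of_refl (hrc : P.ReflCongr) (hd : 4 ≤ finrank F (P.perp W))
    (hex : finrank F W ≠ 2 ∨ 3 < Nat.card F ∨ ∀ x ∈ W, P.Val x 0 → x = 0) {a b : V} {c : F}
    (ha : P.Val a c) (hb : P.Val b c) (h0 : c ≠ 0) (hbW : b ∈ W ∨ b ∈ P.perp W)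
    (hab : reflE ha h0 * (reflE hb h0)⁻¹ ∈ X) (haW : a ∉ W) (haM : a ∉ P.perp W) : P.E ≤ X := by
  have hσ := fun a => (σ_eq_of_lam hΛ a).1
  have hε := (σ_eq_of_lam hΛ 0).2
  have hw : P.Wild 3 := wild_three_of_σ hσ
  have hall : ∀ b' (hb' : P.Val b' c), b' ∈ W ∨ b' ∈ P.perp W →
      reflE ha h0 * (reflE hb' h0)⁻¹ ∈ X := fun b' hb' h => by
    have := X.mul_mem hab (hH ⟨(stab W).mul_mem (reflE_mem_stab hb h0 hbW)
      ((stab W).inv_mem (reflE_mem_stab hb' h0 h)), hrc _ _ _ hb hb' h0⟩)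
    simpa [mul_assoc] using this
  obtain ⟨p, hp, m, hm, rfl⟩ := exists_decomp hW a
  have hp0 : p ≠ 0 := fun h => haM (by simpa [h] using hm)
  have hm0 : m ≠ 0 := fun h => haW (by simpa [h] using hp)
  have hpm : P.B p m = 0 := mem_perp'.1 hm p hp
  by_cases hms : P.Val m 0
  · have hpc : P.Val p c := by
      obtain ⟨c', hc'⟩ := P.val_ex p
      have := hΛ _ (val_sub_val ha (val_add_orth hc' hms hpm))
      rwa [show c = c' by linear_combination this]
    refine E_le_of_nondeg_core hW hH hrc (by omega) (Or.inr hex) hm hms hm0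
      (exists_val_of_nondeg_four hσ (inf_perp_perp hW) hm hd) (W.smul_mem (-c⁻¹) hp)
      (by simp [h0, hp0]) (mem_eSub_of_zSub hΛ hW hH hrc hm hms hm0 (W.smul_mem _ hp)
        ⟨by simp [hpm], _, P.val_smul _ hpc, ?_⟩)
    refine (Has.of_mem (hall p hpc (Or.inl hp))).congr fun x => ?_
    obtain ⟨x, rfl⟩ := (reflE hpc h0).surjective x
    rw [LinearEquiv.mul_apply, show ∀ y, (reflE hpc h0)⁻¹ (reflE hpc h0 y) = y from
      (reflE hpc h0).symm_apply_apply]
    have hpp : P.B p p = c + c := by rw [P.val_self hpc, hσ, hε, one_mul]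
    simp only [reflE_apply, refl, eich, map_add, map_sub, map_smul, LinearMap.sub_apply,
      LinearMap.smul_apply, B_smul_right, hσ, hε, hpm, hpp, smul_eq_mul]
    match_scalars <;> field_simp <;> ring
  · obtain ⟨u, hu, hu0, hus⟩ := hw (P.perp W ⊓ P.pp m) (by
      have := finrank_inf_pp_ge (P := P) (P.perp W) m; omega)
    have hval := exists_val_of_nondeg_four hσ (inf_perp_perp hW) hu.1 hd
    obtain ⟨e, he, heu, hec⟩ := hval c
    obtain ⟨w, hw, hwm⟩ : ∃ w ∈ P.perp W ⊓ P.pp u, P.B w m ≠ 0 := by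
      by_contra! h
      have h1 : m ∈ P.perp (P.perp W ⊓ P.pp u) := mem_perp'.2 h
      rw [perp_inf, perp_perp, perp_pp, mem_sup_span_singleton] at h1
      obtain ⟨x, hx, t, rfl⟩ := h1
      have : x ∈ W ⊓ P.perp W :=
        ⟨hx, (Submodule.add_mem_iff_left _ (Submodule.smul_mem _ t hu.1)).1 hm⟩
      rw [hW, Submodule.mem_bot] at this
      exact hms (by simpa [this] using sing_smul hus t)
    have hum : P.B u m = 0 := hu.2
    have hy := hall e hec (Or.inr he)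
    obtain ⟨p', hp', hp0', hp''⟩ := exists_eSub_of_fix hW hH hu.1 hus hy
      (P.Iso.mul_mem (reflE_mem_Iso _ _) (P.Iso.inv_mem (reflE_mem_Iso _ _)))
      (by rw [LinearEquiv.mul_apply, reflE_inv_fix hec h0 (P.B_symm heu), reflE_apply,
        refl_fix _ (by simp [hum, hu.1 p hp])]) (w1 := reflE hec h0 w)
      (Submodule.sub_mem _ hw.1 (Submodule.smul_mem _ _ he))
      (by simp [refl, heu, show P.B w u = 0 from hw.2]) (by
        rw [LinearEquiv.mul_apply, show ∀ y, (reflE hec h0)⁻¹ (reflE hec h0 y) = y from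
          (reflE hec h0).symm_apply_apply, reflE_apply, refl, Submodule.sub_mem_iff_right _ hw.1,
          Submodule.smul_mem_iff _ (by simp [h0, hw.1 p hp, hwm])]
        exact haM)
    exact E_le_of_nondeg_core hW hH hrc (by omega) (Or.inr hex) hu.1 hus hu0 hval hp' hp0' hp''

theorem E_le_of_nondeg_orth (hrc : P.ReflCongr) (hd : 4 ≤ finrank F (P.perp W))
    (hex : finrank F W ≠ 2 ∨ 3 < Nat.card F ∨ ∀ x ∈ W, P.Val x 0 → x = 0)
    (hex' : 2 < Nat.card F ∨ finrank F (P.perp W) ≠ 4 ∨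
      ∀ T ≤ P.perp W, (∀ x ∈ T, P.Val x 0) → finrank F T ≤ 1) (hXI : X ≤ P.Iso)
    (hni : ∀ g ∈ X, ¬ (P.perp W).map (g : V →ₗ[F] V) ≤ W)
    {g : V ≃ₗ[F] V} (hg : g ∈ X) (hgW : g ∉ stab W) : P.E ≤ X := by
  have hσ := fun a => (σ_eq_of_lam hΛ a).1
  have hw : P.Wild 3 := wild_three_of_σ hσ
  have hg' := hXI hg
  have hM := EI_map (X := X) (M := P.perp W) (fun e he w hw c h1 h2 h3 =>
    EI_of_mem h1 h2 h3 (hH ⟨eichE_mem_stab_of_perp h1 h2 h3 he hw, eichE_mem_E _ _ _⟩)) hg hg'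
  by_cases h : P.EInv ((P.perp W).map (g : V →ₗ[F] V)) W
  · exfalso
    have hdim := LinearEquiv.finrank_map_eq g (P.perp W)
    by_cases h1 : W ≤ P.perp ((P.perp W).map (g : V →ₗ[F] V))
    · rw [← map_perp hg', perp_perp] at h1
      exact hgW (mem_stab_iff_map.2 (Submodule.eq_of_le_of_finrank_eq h1
        (LinearEquiv.finrank_map_eq g W).symm).symm)
    · obtain ⟨z, hz, hz'⟩ := SetLike.not_le_iff_exists.1 h1
      refine hni g hg (h.le hw hz hz' ?_ ?_) <;>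
      · rw [inf_perp_map hg' (inf_perp_perp hW), finrank_bot]; omega
  simp only [EInv, not_forall] at h
  obtain ⟨e, he, w, hw', c, h1, h2, h3, x, hx, hx'⟩ := h
  have hy := (hM e he w hw' c h1 h2 h3).mem (g := eichE h1 h2 h3) fun _ => rfl
  have hy' := eichE_mem_Iso h1 h2 h3
  have hfix : ∀ x ∈ P.perp W ⊓ P.pp e ⊓ P.pp w, eichE h1 h2 h3 x = x := fun x hx =>
    eich_fix c hx.1.2 hx.2
  have hyW : eichE h1 h2 h3 ∉ stab W := fun h => hx' ((mem_stab.1 h x).1 hx)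
  generalize eichE h1 h2 h3 = y at hy hy' hfix hyW
  by_cases hT : ∀ x ∈ P.perp W ⊓ P.pp e ⊓ P.pp w, P.Val x 0
  · obtain ⟨w1, hw1, hw1'⟩ := exists_apply_notMem (mt (mem_stab_perp_iff hy').1 hyW)
    obtain ⟨u, hu, hu0⟩ := exists_notMem_of_finrank_lt (U := ⊥)
      (W := P.perp W ⊓ P.pp e ⊓ P.pp w ⊓ P.pp w1) (by
        have := finrank_inf_pp_ge (P := P) (P.perp W) e
        have := finrank_inf_pp_ge (P := P) (P.perp W ⊓ P.pp e) w
        have := finrank_inf_pp_ge (P := P) (P.perp W ⊓ P.pp e ⊓ P.pp w) w1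
        rw [finrank_bot]; omega)
    have hus := hT u hu.1
    obtain ⟨p, hp, hp0, hp'⟩ := exists_eSub_of_fix hW hH hu.1.1.1 hus hy hy' (hfix u hu.1) hw1
      (P.B_symm hu.2) hw1'
    exact E_le_of_nondeg_core hW hH hrc (by omega) (Or.inr hex) hu.1.1.1 hus hu0
      (exists_val_of_nondeg_four hσ (inf_perp_perp hW) hu.1.1.1 hd) hp hp0 hp'
  push Not at hT
  obtain ⟨b, hb, hbs⟩ := hT
  obtain ⟨c', hc'⟩ := P.val_ex b
  have h0 : c' ≠ 0 := fun h => hbs (h ▸ hc')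
  by_contra hcon
  have := le_or_le_of_cover hΛ (inf_perp_perp hW) hd
    (N₁ := P.perp W ⊓ W.comap (y : V →ₗ[F] V)) (N₂ := P.perp W ⊓ (P.perp W).comap (y : V →ₗ[F] V))
    inf_le_left inf_le_left (fun x hx z hz => by
      rw [← Iso.B hy']; exact mem_perp'.1 hz.2 _ hx.2) hex' h0 fun x hx hxc => by
      by_contra! h
      refine hcon (E_le_of_refl hΛ hW hH hrc hd hex (Iso.val hy' hxc) hc' h0 (Or.inr hb.1.1) ?_
        (fun h' => h.1 ⟨hx, h'⟩) fun h' => h.2 ⟨hx, h'⟩)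
      have h4 := X.mul_mem (X.mul_mem hy (hH ⟨(stab W).mul_mem (reflE_mem_stab hxc h0 (Or.inr hx))
        ((stab W).inv_mem (reflE_mem_stab hc' h0 (Or.inr hb.1.1))), hrc _ _ _ hxc hc' h0⟩))
        (X.inv_mem hy)
      have e1 : reflE (Iso.val hy' hxc) h0 = y * reflE hxc h0 * y⁻¹ := by
        refine eq_mul_inv_of_mul_eq (LinearEquiv.ext fun v => ?_)
        simp only [LinearEquiv.mul_apply, reflE_apply, refl_conj hy']
      have e2 : reflE hc' h0 = y * reflE hc' h0 * y⁻¹ := by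
        refine eq_mul_inv_of_mul_eq (LinearEquiv.ext fun v => ?_)
        simp only [LinearEquiv.mul_apply, reflE_apply, ← refl_conj hy', hfix b hb]
      rw [e1, e2]
      simpa [mul_assoc] using h4
  rcases this with h | h
  · exact hni y hy (by rintro _ ⟨x, hx, rfl⟩; exact (h hx).2)
  · exact hyW ((mem_stab_perp_iff hy').1 (mem_stab_of_forall fun x hx => (h hx).2))

end orth

theorem nondeg_maximal_orth (hΛ : ∀ c, P.Val 0 c → c = 0) (hn : 7 ≤ finrank F V)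
    {W : Submodule F V} (hW : W ⊓ P.perp W = ⊥) (h0 : W ≠ ⊥) (h1 : W ≠ ⊤)
    (hni : ∀ g ∈ P.E, (P.perp W).map (g : V →ₗ[F] V) ≠ W)
    (hex : ∀ U, U = W ∨ U = P.perp W → finrank F U ≠ 2 ∨
      3 < Nat.card F ∨ ∀ x ∈ U, P.Val x 0 → x = 0)
    (hex' : 2 < Nat.card F ∨ 9 ≤ finrank F V ∨ (finrank F V = 8 ∧ (finrank F W ≠ 4 ∨
      ∀ T ≤ P.perp W, (∀ x ∈ T, P.Val x 0) → finrank F T ≤ 1))) :
    Geo.IsMaximalIn P.E (stab W ⊓ P.E) := by
  have hw : P.Wild 3 := wild_three_of_σ fun a => (σ_eq_of_lam hΛ a).1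
  have hrc : P.ReflCongr := reflCongr_of hw hn
  refine isMaximalIn_of inf_le_right ?_ fun X hHX hXE g hg hgH => ?_
  · obtain ⟨g, hg, hg'⟩ := exists_E_notMem_stab hw (by omega) (by omega) h0 h1
    exact ⟨g, hg, fun h => hg' h.1⟩
  have hgW : g ∉ stab W := fun h => hgH ⟨h, hXE hg⟩
  have hdim := P.finrank_perp W
  by_cases hle : finrank F W ≤ finrank F (P.perp W)
  · refine E_le_of_nondeg_orth hΛ hW hHX hrc (by omega) (hex W (Or.inl rfl)) ?_
      (hXE.trans E_le_Iso) (fun g hg h => ?_) hg hgW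
    · rcases hex' with h | h | ⟨h, h' | h'⟩
      · exact Or.inl h
      · exact Or.inr (Or.inl (by omega))
      · exact Or.inr (Or.inl (by omega))
      · exact Or.inr (Or.inr h')
    · exact hni g (hXE hg) (Submodule.eq_of_le_of_finrank_le h
        (by rw [LinearEquiv.finrank_map_eq]; exact hle))
  · refine E_le_of_nondeg_orth hΛ (inf_perp_perp hW)
      (fun x hx => hHX ⟨(mem_stab_perp_iff (E_le_Iso hx.2)).1 hx.1, hx.2⟩) hrc
      (by rw [perp_perp]; omega) (hex _ (Or.inr rfl)) ?_ (hXE.trans E_le_Iso) (fun g hg h => ?_)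
      hg (mt (mem_stab_perp_iff (E_le_Iso (hXE hg))).1 hgW)
    · rw [perp_perp]
      rcases hex' with h | h | ⟨h, h'⟩
      · exact Or.inl h
      · exact Or.inr (Or.inl (by omega))
      · exact Or.inr (Or.inl (by omega))
    · have := Submodule.finrank_mono h
      rw [LinearEquiv.finrank_map_eq, perp_perp] at this
      exact hle this

end Polar

end Cfsg.Agent.H7
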