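import Cfsg.Agent.H7.UStr3
import Cfsg.Agent.Asch.FormField

/-!
`GU` in `Sp` and `Ω`: the concrete statements.
-/

set_option autoImplicit false
set_option linter.unusedSectionVars false

namespace Cfsg.Agent.H7

open Module Matrix

variable {ι : Type} [Fintype ι] [DecidableEq ι] {F : Type*} [Field F]

theorem exists_nonscalar [Nonempty ι] {r : ℕ} (hr : r ≠ 1) {K : Subalgebra F (Matrix ι ι F)}
    (hK : finrank F K = r) : ∃ z ∈ K, ∀ c : F, z ≠ c • 1 := by
  by_contra! h
  exact hr (hK ▸ Asch.finrank_eq_one_iff_scalar.2 h)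

theorem mem_subalgebraNormalizer_iff_NJ [Nonempty ι] {K : Subalgebra F (Matrix ι ι F)}
    (hK : finrank F K = 2) {J : Matrix ι ι F} (hJ : J ∈ K) (hJ' : ∀ c : F, J ≠ c • 1)
    (g : GL ι F) : g ∈ Geo.subalgebraNormalizer K ↔ toLE g ∈ NJ (Matrix.toLin' J) := by
  have key : ∀ g : GL ι F, g ∈ Geo.subalgebraNormalizer K →
      ∃ a b : F, ∀ x, toLE g (Matrix.toLin' J x) = a • toLE g x + b • Matrix.toLin' J (toLE g x) := by
    intro g hg
    obtain ⟨a, b, h⟩ := Asch.exists_comb_of_finrank_two hK hJ hJ' ((hg J).1 hJ)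
    refine ⟨a, b, fun x => ?_⟩
    have := congrArg (· *ᵥ ((g : Matrix ι ι F) *ᵥ x)) h
    simpa [Matrix.mulVec_mulVec, add_mul, Matrix.add_mulVec, Matrix.smul_mulVec] using this
  have key2 : ∀ g : GL ι F, (∃ a b : F, ∀ x, toLE g (Matrix.toLin' J x) =
      a • toLE g x + b • Matrix.toLin' J (toLE g x)) →
      ∀ k ∈ K, (g : Matrix ι ι F) * k * ((g⁻¹ : GL ι F) : Matrix ι ι F) ∈ K := by
    rintro g ⟨a, b, h⟩ k hk
    obtain ⟨c, d, rfl⟩ := Asch.exists_comb_of_finrank_two hK hJ hJ' hk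
    have h1 : (g : Matrix ι ι F) * J = a • (g : Matrix ι ι F) + b • (J * g) := by
      apply Matrix.toLin'.injective
      refine LinearMap.ext fun x => ?_
      simpa [Matrix.mulVec_mulVec, Matrix.add_mulVec, Matrix.smul_mulVec] using h x
    have : (g : Matrix ι ι F) * (c • 1 + d • J) * ((g⁻¹ : GL ι F) : Matrix ι ι F) =
        (c + d * a) • 1 + (d * b) • J := by
      rw [mul_add, mul_smul_comm, mul_smul_comm, h1]
      simp only [add_mul, smul_mul_assoc, mul_one, mul_assoc, Units.mul_inv]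
      module
    rw [this]
    exact K.add_mem (K.smul_mem K.one_mem _) (K.smul_mem hJ _)
  constructor
  · intro hg
    refine ⟨key g hg, ?_⟩
    obtain ⟨a, b, h⟩ := key g⁻¹ ((Geo.subalgebraNormalizer K).inv_mem hg)
    refine ⟨a, b, fun x => ?_⟩
    have := congrArg (toLE g) (h (toLE g x))
    simpa only [map_inv, map_add, map_smul, show ∀ y, toLE g ((toLE g)⁻¹ y) = y from
      (toLE g).apply_symm_apply, show ∀ y, (toLE g)⁻¹ (toLE g y) = y from
      (toLE g).symm_apply_apply] using this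
  · intro hg k
    refine ⟨key2 g hg.1 k, fun h => ?_⟩
    have := key2 g⁻¹ (by rw [map_inv]; exact ((NJ _).inv_mem hg).1) _ h
    simpa [mul_assoc] using this

theorem exists_unitary_gen [Nonempty ι] {K : Subalgebra F (Matrix ι ι F)}
    (hK : Geo.IsFieldSubalgebra 2 K) (P : Polar F (ι → F)) (hσ : ∀ a, P.σ a = a)
    (hac : Geo.IsAdjointClosedFor (fun x y => P.B x y) K)
    (hnsa : ¬ Geo.IsSelfAdjointFor (fun x y => P.B x y) K) :
    ∃ J ∈ K, (∀ c : F, J ≠ c • 1) ∧ ∃ t n : F, J * J = t • J - n • 1 ∧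
      (∀ a b : F, a * a - t * a * b + n * b * b = 0 → a = 0 ∧ b = 0) ∧
      ∀ x y, P.B (J *ᵥ x) y = t * P.B x y - P.B x (J *ᵥ y) := by
  obtain ⟨J, hJ, hJ'⟩ := exists_nonscalar (by decide) hK.finrank_eq
  obtain ⟨n, t, hJJ⟩ := Asch.exists_comb_of_finrank_two hK.finrank_eq hJ hJ' (K.mul_mem hJ hJ)
  obtain ⟨J', hJ'K, hadj⟩ := hac J hJ
  have hc := hK.comm J hJ J' hJ'K
  have h1 : J' * J' = n • 1 + t • J' := by
    apply Matrix.toLin'.injective
    refine LinearMap.ext fun y => sub_eq_zero.1 (P.nondeg _ fun x => ?_)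
    have := congrArg (fun M => P.B (M *ᵥ x) y) hJJ
    simp only [← Matrix.mulVec_mulVec, hadj, Matrix.add_mulVec, Matrix.smul_mulVec,
      Matrix.one_mulVec, map_add, map_smul, LinearMap.add_apply, LinearMap.smul_apply,
      smul_eq_mul] at this
    rw [Matrix.toLin'_apply, Matrix.toLin'_apply]
    simp only [← Matrix.mulVec_mulVec, Matrix.add_mulVec, Matrix.smul_mulVec,
      Matrix.one_mulVec, map_add, map_sub, Polar.B_smul_right, hσ, this, sub_self]
  have h2 := Asch.eq_or_eq_of_mul_sub hK.comm hK.inv (x := J') (a := J) (b := t • 1 - J) hJ'K hJ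
    (by
      simp only [mul_sub, sub_mul, mul_smul_comm, mul_one, h1, hJJ, hc]
      module)
  refine ⟨J, hJ, hJ', t, -n, by rw [hJJ]; module, fun a b hab => ?_, ?_⟩
  · have h3 := Asch.eq_or_eq_of_mul_sub hK.comm hK.inv (x := b • J) (a := a • 1)
      (b := (t * b - a) • 1) (K.smul_mem hJ _) (K.smul_mem K.one_mem _) (by
        simp only [mul_sub, sub_mul, mul_smul_comm, smul_mul_assoc, mul_one, one_mul, hJJ]
        linear_combination (norm := module) (-hab) • (1 : Matrix ι ι F))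
    have hb : b = 0 := by
      by_contra hb
      rcases h3 with h3 | h3
      · exact hJ' (a / b) (by rw [div_eq_inv_mul, mul_smul, ← h3, smul_smul]; simp [hb])
      · exact hJ' ((t * b - a) / b) (by rw [div_eq_inv_mul, mul_smul, ← h3, smul_smul]; simp [hb])
    simpa [hb] using hab
  · rcases h2 with h2 | h2
    · refine absurd (fun k hk u v => ?_) hnsa
      obtain ⟨c, d, rfl⟩ := Asch.exists_comb_of_finrank_two hK.finrank_eq hJ hJ' hk
      simp only [Matrix.add_mulVec, Matrix.smul_mulVec, Matrix.one_mulVec, map_add, map_smul,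
        LinearMap.add_apply, LinearMap.smul_apply, smul_eq_mul, hadj, h2, Polar.B_smul_right, hσ]
    · intro x y
      simp only [hadj, h2, Matrix.sub_mulVec, Matrix.smul_mulVec, Matrix.one_mulVec, map_sub,
        Polar.B_smul_right, hσ]

theorem omegaGL_unitary_maximal [Finite F] (hn : 9 ≤ Fintype.card ι) {Q : (ι → F) → F}
    (hQ : Geo.IsNondegenerateQuadraticForm Q) {K : Subalgebra F (Matrix ι ι F)}
    (hK : Geo.IsFieldSubalgebra 2 K) (hac : Geo.IsAdjointClosedFor (QuadraticMap.polar Q) K)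
    (hnsa : ¬ Geo.IsSelfAdjointFor (QuadraticMap.polar Q) K)
    (hsc : ∀ k ∈ K, ∃ c : F, ∀ v, Q (k *ᵥ v) = c * Q v) :
    Geo.IsMaximalIn (Geo.omegaGL Q) (Geo.subalgebraNormalizer K ⊓ Geo.omegaGL Q) := by
  haveI : Nonempty ι := Fintype.card_pos_iff.1 (by omega)
  obtain ⟨J, hJ, hJ', t, n, hJJ, han, hadj⟩ :=
    exists_unitary_gen hK (oPolar hQ) (oPolar_σ hQ) hac hnsa
  have hJJ' : ∀ x, J *ᵥ (J *ᵥ x) = t • J *ᵥ x - n • x := fun x => by
    rw [Matrix.mulVec_mulVec, hJJ, Matrix.sub_mulVec, Matrix.smul_mulVec, Matrix.smul_mulVec,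
      Matrix.one_mulVec]
  obtain ⟨x₀, hx₀⟩ := exists_ne (0 : ι → F)
  obtain ⟨y₀, hy₀⟩ := (oPolar hQ).exists_B_ne hx₀
  have hmul : ∀ (k : Matrix ι ι F) (c : F), (∀ v, Q (k *ᵥ v) = c * Q v) →
      (oPolar hQ).B (k *ᵥ x₀) (k *ᵥ y₀) = c * (oPolar hQ).B x₀ y₀ := fun k c h => by
    simp only [oPolar_B, QuadraticMap.polar, ← Matrix.mulVec_add, h]; ring
  have h1 : ∀ v, Q (J *ᵥ v) = n * Q v := by
    obtain ⟨c, hc⟩ := hsc J hJ
    have := hmul J c hc
    rw [hadj, hJJ', map_sub, Polar.B_smul_right, Polar.B_smul_right, oPolar_σ, oPolar_σ] at this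
    have : c = n := mul_right_cancel₀ hy₀ (by linear_combination -this)
    rw [← this]; exact hc
  have h2 : ∀ v, (oPolar hQ).B v (J *ᵥ v) = t * Q v := by
    obtain ⟨c, hc⟩ := hsc (1 + J) (K.add_mem K.one_mem hJ)
    have := hmul _ c hc
    simp only [Matrix.add_mulVec, Matrix.one_mulVec, map_add, LinearMap.add_apply, hadj, hJJ',
      map_sub, Polar.B_smul_right, oPolar_σ] at this
    have : c = 1 + t + n := mul_right_cancel₀ hy₀ (by linear_combination -this)
    intro v
    have h3 := hc v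
    rw [Matrix.add_mulVec, Matrix.one_mulVec, this] at h3
    rw [oPolar_B, QuadraticMap.polar, h3, h1]; ring
  let U : (oPolar hQ).UStr :=
    { J := Matrix.toLin' J
      t := t
      n := n
      lam := oPolar_lam hQ
      JJ := hJJ'
      aniso := han
      adj := hadj
      valJ := fun x c hc => by
        rw [oPolar_val] at hc ⊢
        rw [hc, Matrix.toLin'_apply, h1]
      BJ := fun x c hc => by
        rw [oPolar_val] at hc
        rw [hc, Matrix.toLin'_apply, h2] }
  refine isMaximalIn_of_equiv toLE (mem_omegaGL_iff hQ (by omega)) (fun g => ?_)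
    (Polar.UStr.NJ_maximal_o (U := U) (by simpa using hn))
  rw [Subgroup.mem_inf, Subgroup.mem_inf, mem_omegaGL_iff hQ (by omega),
    mem_subalgebraNormalizer_iff_NJ hK.finrank_eq hJ hJ']

/-- The orthogonal geometry attached to a skew operator on a symplectic space. -/
def Polar.skewO {V : Type*} [AddCommGroup V] [Module F V] (S : Polar F V) (hσ : ∀ a, S.σ a = a)
    (hε : S.ε = -1) (h2 : (2 : F) ≠ 0) (J : V →ₗ[F] V) (hJ : ∀ x, J x = 0 → x = 0)
    (hadj : ∀ x y, S.B (J x) y = -S.B x (J y)) : Polar F V where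
  σ := RingHom.id F
  ε := 1
  B := LinearMap.mk₂ F (fun x y => 2 * S.B (J x) y) (fun _ _ _ => by simp; ring)
    (fun _ _ _ => by simp; ring) (fun _ _ _ => by simp; ring) (fun _ _ _ => by simp [hσ]; ring)
  Val x c := c = S.B (J x) x
  σσ _ := rfl
  εε := Or.inl rfl
  herm x y := by
    simp only [LinearMap.mk₂_apply, RingHom.id_apply, one_mul]
    rw [S.herm x (J y), hadj, hσ, hε]; ring
  nondeg y h := hJ y (S.nondeg _ fun x => by simpa [h2, hadj] using h x)
  val_ex x := ⟨_, rfl⟩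
  val_add {x y c d} hc hd := by
    simp only [hc, hd, map_add, LinearMap.add_apply, LinearMap.mk₂_apply]
    rw [S.herm x (J y), hadj x y, hσ, hε]; ring
  val_smul a hc := by simp [hc, hσ]; ring
  val_self hc := by simp [hc]; ring
  val_min a := by simp

theorem spGL_unitary_maximal [Fintype F] {m : ℕ} (hm : 5 ≤ m) (hodd : Odd (Fintype.card F))
    {K : Subalgebra F (Matrix (Fin m ⊕ Fin m) (Fin m ⊕ Fin m) F)}
    (hK : Geo.IsFieldSubalgebra 2 K) (hac : Geo.IsAdjointClosedFor (sympForm m F) K)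
    (hnsa : ¬ Geo.IsSelfAdjointFor (sympForm m F) K) :
    Geo.IsMaximalIn (spGL m F) (Geo.subalgebraNormalizer K ⊓ spGL m F) := by
  haveI : Nonempty (Fin m ⊕ Fin m) := ⟨.inl ⟨0, by omega⟩⟩
  have h2 := two_ne_zero_of_odd_card hodd
  obtain ⟨J, hJ, hJ', t, n, hJJ, han, hadj⟩ :=
    exists_unitary_gen hK (spStd m F) (fun _ => rfl) hac hnsa
  have hJJ' : ∀ x, J *ᵥ (J *ᵥ x) = t • J *ᵥ x - n • x := fun x => by
    rw [Matrix.mulVec_mulVec, hJJ, Matrix.sub_mulVec, Matrix.smul_mulVec, Matrix.smul_mulVec,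
      Matrix.one_mulVec]
  set J' : Matrix (Fin m ⊕ Fin m) (Fin m ⊕ Fin m) F := (2 : F) • J - t • 1 with hJ'def
  have e1 : ∀ x, Matrix.toLin' J' x = (2 : F) • J *ᵥ x - t • x := fun x => by
    rw [Matrix.toLin'_apply, hJ'def, Matrix.sub_mulVec, Matrix.smul_mulVec, Matrix.smul_mulVec,
      Matrix.one_mulVec]
  have e2 : ∀ x, Matrix.toLin' J' (Matrix.toLin' J' x) = -((4 * n - t * t) • x) := fun x => by
    simp only [e1, Matrix.mulVec_sub, Matrix.mulVec_smul, hJJ']; module
  have e3 : ∀ a b : F, a * a - 0 * a * b + (4 * n - t * t) * b * b = 0 → a = 0 ∧ b = 0 := by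
    intro a b h
    obtain ⟨h3, h4⟩ := han ((a + t * b) / 2) b (by field_simp; linear_combination h)
    exact ⟨by simpa [h4, h2] using h3, h4⟩
  have e4 : 4 * n - t * t ≠ 0 := fun h => one_ne_zero (e3 0 1 (by simp [h])).2
  have e5 : ∀ x y, (spStd m F).B (Matrix.toLin' J' x) y = -(spStd m F).B x (Matrix.toLin' J' y) :=
    fun x y => by
      simp only [e1, map_sub, map_smul, LinearMap.sub_apply, LinearMap.smul_apply, smul_eq_mul,
        hadj, Polar.B_smul_right, spPolar_σ]; ring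
  let O := (spStd m F).skewO (fun _ => rfl) rfl h2 (Matrix.toLin' J') (fun x hx => by
    have := e2 x
    rw [hx, map_zero] at this
    simpa [e4] using this) e5
  have hOB : ∀ x y, O.B x y = 2 * (spStd m F).B (Matrix.toLin' J' x) y := fun _ _ => rfl
  have hOV : ∀ x c, O.Val x c ↔ c = (spStd m F).B (Matrix.toLin' J' x) x := fun _ _ => Iff.rfl
  let U : O.UStr :=
    { J := Matrix.toLin' J'
      t := 0
      n := 4 * n - t * t
      lam := fun c hc => by simpa using (hOV _ _).1 hc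
      JJ := fun x => by rw [e2]; simp
      aniso := e3
      adj := fun x y => by rw [hOB, hOB, hOB, e5]; ring
      valJ := fun x c hc => by
        rw [hOV] at hc ⊢
        rw [hc, e2, e5 x x]; simp
      BJ := fun x c hc => by
        rw [hOB, Polar.sing_B (spPolar_val _ _ 0)]; simp }
  refine isMaximalIn_of_equiv toLE (mem_spGL_iff m) (fun g => ?_)
    (Polar.UStr.NJ_maximal_sp (U := U) (by rw [finrank_sum_fun]; omega) h2 rfl (S := spStd m F)
      (spPolar_val _) (fun _ => rfl) rfl (r := (2 * (4 * n - t * t))⁻¹) (by simp [h2, e4])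
      fun x y => ?_)
  · rw [Subgroup.mem_inf, Subgroup.mem_inf, mem_spGL_iff,
      mem_subalgebraNormalizer_iff_NJ hK.finrank_eq (J := J')
        (K.sub_mem (K.smul_mem hJ _) (K.smul_mem K.one_mem _)) fun c hc =>
          hJ' ((c + t) / 2) ?_]
    rw [div_eq_inv_mul, mul_smul, add_smul, ← hc, hJ'def, sub_add_cancel, smul_smul]
    simp [h2]
  · show _ = _ * O.B x (Matrix.toLin' J' y)
    rw [hOB, e5, e2]
    simp only [map_neg, Polar.B_smul_right, spPolar_σ]
    have := inv_mul_cancel₀ (mul_ne_zero h2 e4)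
    linear_combination (-(spStd m F).B x y) * this

end Cfsg.Agent.H7
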