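import Cfsg.Agent.H7.C2Fr4

/-!
Generation of the elementary group by reflections attached to an orthogonal frame.
-/

set_option autoImplicit false
set_option linter.unusedSectionVars false

namespace Cfsg.Agent.H7

open Module H8 H7.Polar QuadraticMap Matrix Equiv

variable {F : Type*} [Field F] [Fintype F] {κ : Type} [Fintype κ] [DecidableEq κ]

namespace Fr

theorem rCtx_of_four {h2 : (2 : F) ≠ 0} {Y : Subgroup ((κ → F) ≃ₗ[F] (κ → F))}
    (hn : 7 ≤ Fintype.card κ) (hY : Y ≤ (qP (nd0 h2)).Iso) (h1 : ∀ i, rQ (Q0 F κ) (e i) ∈ Y)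
    (h4 : ∀ J : Finset κ, J.card = 4 → rQ (Q0 F κ) (∑ j ∈ J, e j) ∈ Y) : RCtx h2 Y := by
  have h4' : (4 : F) ≠ 0 := by
    rw [show (4 : F) = 2 * 2 by norm_num]; exact mul_ne_zero h2 h2
  have cj : ∀ i a, rQ (Q0 F κ) a ∈ Y → rQ (Q0 F κ) (rQ (Q0 F κ) (e i) a) ∈ Y := fun i a ha =>
    rQ_conj' (Q_rQ (Q := Q0 F κ) (e i)) a ▸ mul_mem (mul_mem (h1 i) ha) (inv_mem (h1 i))
  have key : ∀ a b c d : κ, a ≠ b → a ≠ c → a ≠ d → b ≠ c → b ≠ d → c ≠ d →
      pm F (swap a b * swap c d) ∈ Y := by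
    intro a b c d ab ac ad bc bd cd
    have h := h4 {a, b, c, d} (Finset.card_eq_four.2 ⟨a, b, c, d, ab, ac, ad, bc, bd, cd, rfl⟩)
    rw [Finset.sum_insert (by simp [*]), Finset.sum_insert (by simp [*]), Finset.sum_pair cd] at h
    have e1 : rQ (Q0 F κ) (e b) (rQ (Q0 F κ) (e d) (e a + (e b + (e c + e d)))) =
        (e a - e b) + (e c - e d) := by
      simp [rQ_apply, polar_Q0, Q0_apply, e_ne, ab, ac, ad, bc, bd, cd, ab.symm, ac.symm, ad.symm,
        bc.symm, bd.symm, cd.symm]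
      module
    have e2 : rQ (Q0 F κ) (e b) (rQ (Q0 F κ) (e c) (e a + (e b + (e c + e d)))) =
        (e a - e b) - (e c - e d) := by
      simp [rQ_apply, polar_Q0, Q0_apply, e_ne, ab, ac, ad, bc, bd, cd, ab.symm, ac.symm, ad.symm,
        bc.symm, bd.symm, cd.symm]
      module
    have h3 := mul_mem (cj b _ (cj d _ h)) (cj b _ (cj c _ h))
    rw [e1, e2] at h3
    rw [pm_mul, pm_swap h2 ab, pm_swap h2 cd]
    convert h3 using 1
    refine LinearEquiv.ext fun x => ?_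
    simp only [LinearEquiv.mul_apply, rQ_apply, polar_Q0, Q0_apply, sub_dotProduct, dotProduct_sub,
      add_dotProduct, dotProduct_add, smul_dotProduct, dot_e, e_dot, Pi.sub_apply, Pi.add_apply,
      e_self, e_ne, ab, ac, ad, bc, bd, cd, ab.symm, ac.symm, ad.symm,
      bc.symm, bd.symm, cd.symm, ne_eq, not_false_eq_true, smul_eq_mul, Pi.smul_apply]
    norm_num
    match_scalars <;> field_simp <;> ring
  refine ⟨hY, fun a b c d ab cd => ?_, h1⟩
  obtain ⟨l, m, -, lm, -, -, hl, hm, -⟩ := exists_notMem_three (S := {a, b, c, d})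
    (by have := Finset.card_le_four (a := a) (b := b) (c := c) (d := d); omega)
  simp only [Finset.mem_insert, Finset.mem_singleton, not_or] at hl hm
  have := mul_mem (key a b l m ab (Ne.symm hl.1) (Ne.symm hm.1) (Ne.symm hl.2.1) (Ne.symm hm.2.1) lm)
    (key l m c d lm hl.2.2.1 hl.2.2.2 hm.2.2.1 hm.2.2.2 cd)
  rwa [← pm_mul, mul_assoc, swap_mul_self_mul] at this

theorem E_le_of_four {h2 : (2 : F) ≠ 0} {Y : Subgroup ((κ → F) ≃ₗ[F] (κ → F))}
    (hp : (Fintype.card F).Prime)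
    (hn : 7 ≤ Fintype.card κ) (hY : Y ≤ (qP (nd0 h2)).Iso) (h1 : ∀ i, rQ (Q0 F κ) (e i) ∈ Y)
    (h4 : ∀ J : Finset κ, J.card = 4 → rQ (Q0 F κ) (∑ j ∈ J, e j) ∈ Y) : (qP (nd0 h2)).E ≤ Y := by
  obtain ⟨J, -, hJ⟩ := Finset.exists_subset_card_eq
    (show 4 ≤ (Finset.univ : Finset κ).card by simp; omega)
  have h : ∀ l, (∑ j ∈ J, e j : κ → F) l = if l ∈ J then 1 else 0 := fun l => by simp [e_apply]
  refine (rCtx_of_four (h2 := h2) hn hY h1 h4).E_le hp hn (a := (2 : F)⁻¹ • ∑ j ∈ J, e j) ⟨?_, ?_⟩ (Or.inl ?_)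
  · simp only [smul_dotProduct, dotProduct_smul, sum_dotProduct, e_dot, h, smul_eq_mul]
    rw [Finset.sum_congr rfl fun j hj => if_pos hj]
    simp [hJ]
    field_simp
    norm_num
  · rw [rQ_smul (inv_ne_zero h2)]; exact h4 J hJ
  · rw [show supp ((2 : F)⁻¹ • ∑ j ∈ J, e j : κ → F) = J by ext l; simp [h, h2]]
    omega

end Fr

variable {V V' : Type*} [AddCommGroup V] [Module F V] [AddCommGroup V'] [Module F V']
variable {Q : QuadraticForm F V} {Q' : QuadraticForm F V'}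

theorem cE_rQ {φ : V' ≃ₗ[F] V} {δ : F} (hδ : δ ≠ 0) (h : ∀ x, Q (φ x) = δ * Q' x) (a : V') :
    cE φ (rQ Q' a) = rQ Q (φ a) := by
  have hp : ∀ x y, polar Q (φ x) (φ y) = δ * polar Q' x y := fun x y => by
    simp only [polar, ← map_add, h]; ring
  refine LinearEquiv.ext fun x => ?_
  obtain ⟨x, rfl⟩ := φ.surjective x
  rw [cE_apply, rQ_apply, rQ_apply, hp, h, map_sub, map_smul]
  congr 2
  by_cases h0 : Q' a = 0
  · simp [h0]
  · field_simp

variable [FiniteDimensional F V]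

theorem exists_frame_equiv (h2 : (2 : F) ≠ 0) {f : κ → V} {c : F} (hc : c ≠ 0)
    (h1 : ∀ i, Q (f i) = c) (ho : ∀ i j, i ≠ j → polar Q (f i) (f j) = 0)
    (hd : Fintype.card κ = finrank F V) :
    ∃ φ : (κ → F) ≃ₗ[F] V, (∀ i, φ (Fr.e i) = f i) ∧ ∀ x, Q (φ x) = c * Fr.Q0 F κ x := by
  let ψ : (κ → F) →ₗ[F] V := Fintype.linearCombination F f
  have hψ : ∀ x i, polar Q (ψ x) (f i) = 2 * c * x i := fun x i => by
    have : polar Q (ψ x) (f i) = Q.polarBilin.flip (f i) (ψ x) := rfl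
    rw [this]
    simp only [ψ, Fintype.linearCombination_apply, map_sum, map_smul]
    rw [Finset.sum_eq_single i (fun j _ hj => by simp [ho j i hj]) (by simp)]
    simp [polar_self', h1]; ring
  refine ⟨LinearMap.linearEquivOfInjective ψ (by
    rw [← LinearMap.ker_eq_bot, eq_bot_iff]
    intro x hx
    ext i
    have := hψ x i
    rw [hx] at this
    simpa [h2, hc] using this.symm) (by simpa using hd), fun i => by simp [ψ, Fr.e], fun x => ?_⟩
  refine mul_left_cancel₀ h2 ?_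
  change 2 * Q (ψ x) = _
  rw [← polar_self', show polar Q (ψ x) (ψ x) = Q.polarBilin (ψ x) (∑ i, x i • f i) from
    rfl, map_sum, Fr.Q0_apply, dotProduct, Finset.mul_sum,
    Finset.mul_sum]
  refine Finset.sum_congr rfl fun i _ => ?_
  rw [map_smul, polarBilin_apply_apply, hψ, smul_eq_mul]; ring

/-- Products of reflections in a frame and in the sums of four frame vectors generate a group
containing the elementary group. -/
theorem E_le_of_four (hQ : ND Q) (hp : (Fintype.card F).Prime) (h2 : (2 : F) ≠ 0) {f : κ → V}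
    {c : F} (hc : c ≠ 0) (h1 : ∀ i, Q (f i) = c) (ho : ∀ i j, i ≠ j → polar Q (f i) (f j) = 0)
    (hd : Fintype.card κ = finrank F V) (hn : 7 ≤ Fintype.card κ) {X : Subgroup (V ≃ₗ[F] V)}
    (hX : X ≤ (qP hQ).Iso) (i₀ : κ) (hf : ∀ i, rQ Q (f i) * rQ Q (f i₀) ∈ X)
    (h4 : ∀ J : Finset κ, J.card = 4 → rQ Q (∑ j ∈ J, f j) * rQ Q (f i₀) ∈ X) : (qP hQ).E ≤ X := by
  obtain ⟨φ, e1, e2⟩ := exists_frame_equiv h2 hc h1 ho hd
  obtain ⟨Y, y1, y2, y3, -⟩ := exists_refl_group (hQ := hQ) (X := X ⊓ SLV F V)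
    (inf_le_left.trans hX) (f i₀)
  have d0 := det_rQ hQ (a := f i₀) (by rw [h1]; exact hc)
  have y4 : ∀ a, Q a ≠ 0 → rQ Q a * rQ Q (f i₀) ∈ X → rQ Q a ∈ Y := fun a ha h => y3 a ⟨h, mem_SLV.2 <| by
    rw [LinearEquiv.coe_toLinearMap_mul, map_mul, d0, det_rQ hQ ha]; simp⟩
  have hE := Fr.E_le_of_four (h2 := h2) (Y := Y.comap (cE φ).toMonoidHom) hp hn
    (fun g hg => (mem_qP_Iso _).2 fun x => mul_left_cancel₀ hc (by
      rw [← e2, ← e2, ← cE_apply]; exact (mem_qP_Iso _).1 (y1 hg) _))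
    (fun i => by
      change cE φ _ ∈ Y
      rw [cE_rQ hc e2, e1]; exact y4 _ (by rw [h1]; exact hc) (hf i))
    (fun J hJ => by
      change cE φ _ ∈ Y
      have : φ (∑ j ∈ J, Fr.e j) = ∑ j ∈ J, f j := by simp [e1]
      rw [cE_rQ hc e2, this]
      refine y4 _ ?_ (h4 J hJ)
      rw [← this, e2, Fr.Q0_apply]
      simp only [sum_dotProduct, Fr.e_dot, Finset.sum_apply, Fr.e_apply, Finset.sum_ite_eq]
      rw [Finset.sum_congr rfl fun j hj => if_pos hj]
      simp [hJ, hc]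
      rw [show (4 : F) = 2 * 2 by norm_num]; exact mul_ne_zero h2 h2)
  intro g hg
  obtain ⟨g, rfl⟩ := (cE φ).surjective g
  rcases y2 _ (hE ((cE_mem_E_iff hQ (Fr.nd0 h2) hc e2 g).2 hg)) with h | h
  · exact h.1
  · have d1 := mem_SLV.1 h.2
    rw [MulEquiv.coe_toMonoidHom, LinearEquiv.coe_toLinearMap_mul, map_mul,
      mem_SLV.1 (E_le_SLV hg), d0] at d1
    exact absurd (by linear_combination -d1) h2

end Cfsg.Agent.H7
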