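import Cfsg.Agent.H7.FormInSL

/-!
Overgroups of the elementary group in the general linear group, small dimensions.
-/

set_option autoImplicit false
set_option linter.unusedSectionVars false

namespace Cfsg.Agent.H7

open Module

namespace Polar

variable {F : Type*} [Field F] {V : Type*} [AddCommGroup V] [Module F V] {P : Polar F V}
variable [Finite F] [FiniteDimensional F V]

variable (P) in
/-- The additive subgroup `N` is invariant under the Eichler transformations supported on `M`. -/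
def EInvA (M : Submodule F V) (N : AddSubgroup V) : Prop :=
  ∀ e ∈ M, ∀ w ∈ M, ∀ c, P.Val e 0 → P.B w e = 0 → P.Val w c → ∀ x ∈ N, P.eich e w c x ∈ N

theorem EInvA.inf_pp_le {M : Submodule F V} {N : AddSubgroup V} (h : P.EInvA M N) {z e : V}
    (hz : z ∈ N) (he : e ∈ M) (hes : P.Val e 0) (hze : P.B z e ≠ 0)
    (hd : finrank F ↥(M ⊓ P.perp M) + 3 ≤ finrank F M) {w : V} (hw : w ∈ M ⊓ P.pp e) : w ∈ N := by
  have key : ∀ w ∈ M ⊓ P.pp e, ∀ c, P.Val w c →
      P.B z e • w - (P.ε * P.B z w + P.σ c * P.B z e) • e ∈ N := by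
    intro w hw c hc
    have := h e he w hw.1 c hes hw.2 hc z hz
    rwa [eich, add_sub_assoc, N.add_mem_cancel_left hz] at this
  have heN : ∀ a : F, a • e ∈ N := by
    intro a
    obtain ⟨w, hw, w', hw', hww⟩ := exists_nonperp_pair (P := P) he hd
    have hw1 := Submodule.smul_mem _ (P.σ (a / P.B z e) / P.B w w') hw
    obtain ⟨c, hc⟩ := P.val_ex ((P.σ (a / P.B z e) / P.B w w') • w)
    obtain ⟨c', hc'⟩ := P.val_ex w'
    have := N.sub_mem (N.add_mem (key _ hw1 c hc) (key w' hw' c' hc'))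
      (key _ (Submodule.add_mem _ hw1 hw') _ (P.val_add hc hc'))
    convert this using 1
    simp only [map_add, map_smul, LinearMap.smul_apply, smul_eq_mul, div_mul_cancel₀ _ hww, σσ]
    match_scalars <;> field_simp <;> ring
  obtain ⟨c, hc⟩ := P.val_ex ((P.B z e)⁻¹ • w)
  have := N.add_mem (key _ (Submodule.smul_mem _ _ hw) c hc)
    (heN (P.ε * P.B z ((P.B z e)⁻¹ • w) + P.σ c * P.B z e))
  rwa [sub_add_cancel, smul_smul, mul_inv_cancel₀ hze, one_smul] at this

theorem EInvA.le_of_sing {M : Submodule F V} {N : AddSubgroup V} (h : P.EInvA M N) {z e : V}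
    (hz : z ∈ N) (he : e ∈ M) (hes : P.Val e 0) (hze : P.B z e ≠ 0)
    (hd : finrank F ↥(M ⊓ P.perp M) + 3 ≤ finrank F M) {x : V} (hx : x ∈ M) : x ∈ N := by
  have h1 := fun w => h.inf_pp_le hz he hes hze hd (w := w)
  by_cases heM : e ∈ P.perp M
  · exact h1 x ⟨hx, mem_perp'.1 heM x hx⟩
  obtain ⟨y, hy, hy'⟩ : ∃ y ∈ M, P.B y e ≠ 0 := by
    by_contra! h; exact heM (mem_perp'.2 h)
  obtain ⟨a, ha⟩ := exists_val_add_sing hes hy' 0
  have he' : y + a • e ∈ M := M.add_mem hy (M.smul_mem _ he)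
  have h2 : P.B (y + a • e) e ≠ 0 := by simpa [sing_B hes] using hy'
  have h3 := fun w => h.inf_pp_le (h1 e ⟨he, sing_B hes⟩) he' ha (P.B_ne_symm h2) hd (w := w)
  have h4 := h3 _ (Submodule.smul_mem _ (P.B x e / P.B (y + a • e) e) ⟨he', sing_B ha⟩)
  have h5 : x - (P.B x e / P.B (y + a • e) e) • (y + a • e) ∈ N := by
    refine h1 _ ⟨M.sub_mem hx (M.smul_mem _ he'), ?_⟩
    show P.B _ e = 0
    rw [map_sub, map_smul, LinearMap.sub_apply, LinearMap.smul_apply, smul_eq_mul,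
      div_mul_cancel₀ _ h2, sub_self]
  simpa using N.add_mem h5 h4

/-- Irreducibility over the prime field. -/
theorem EInvA.le {d : ℕ} (hw : P.Wild d) {M : Submodule F V} {N : AddSubgroup V}
    (h : P.EInvA M N) {z : V} (hz : z ∈ N) (hzM : z ∉ P.perp M)
    (hd : finrank F ↥(M ⊓ P.perp M) + d + 1 ≤ finrank F M)
    (hd' : finrank F ↥(M ⊓ P.perp M) + 3 ≤ finrank F M) {x : V} (hx : x ∈ M) : x ∈ N := by
  obtain ⟨e, he, hes, hze⟩ := exists_sing_ne_of_sub hw hzM hd
  exact h.le_of_sing hz he hes hze hd' hx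

section TV

variable {d : ℕ} (hw : P.Wild d) (hn : d + 3 ≤ finrank F V) (hn' : 5 ≤ finrank F V)
  {X : Subgroup (V ≃ₗ[F] V)} (hE : P.E ≤ X)
include hw hn hn' hE

theorem SLV_le_of_tv_sing' {u z : V} (hu : P.Val u 0) (hu0 : u ≠ 0) (hz : P.B z u = 0)
    (hzu : z ∉ F ∙ u) (h : TV X (P.B.flip z) u) : SLV F V ≤ X := by
  let N : AddSubgroup V :=
    { carrier := {z | P.B z u = 0 ∧ TV X (P.B.flip z) u}
      zero_mem' := ⟨by simp, by simpa using TV.zero_left u⟩
      add_mem' := by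
        rintro z z' ⟨h1, h2⟩ ⟨h1', h2'⟩
        refine ⟨by simp [h1, h1'], ?_⟩
        rw [map_add]
        exact h2.add_left h2' (by simp [P.B_symm h1])
      neg_mem' := by
        rintro z ⟨h1, h2⟩
        refine ⟨by simp [h1], ?_⟩
        rw [map_neg]
        exact h2.neg_left (by simp [P.B_symm h1]) }
  have hN : P.EInvA (P.pp u) N := by
    rintro e he w hw c hes hwe hc x ⟨hx1, hx2⟩
    have hfix : eichE hes hwe hc u = u := eich_fix c (P.B_symm he) (P.B_symm hw)
    have hI := eichE_mem_Iso hes hwe hc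
    refine ⟨by rw [← hfix, ← eichE_apply hes hwe hc, Iso.B hI, hx1], ?_⟩
    have := hx2.conj (ψ := P.B.flip (eichE hes hwe hc x)) (hE (eichE_mem_E hes hwe hc))
      (fun y => by rw [LinearMap.flip_apply, Iso.B hI, LinearMap.flip_apply])
    rwa [hfix] at this
  have h1 := finrank_pp (P := P) hu0
  have h2 := finrank_pp_inf_perp_le (P := P) u
  refine SLV_le_of_tv_sing hw hn hn' hE hu hu0 hz hzu fun a => ?_
  exact (hN.le hw (z := z) ⟨hz, h⟩ (by rwa [perp_pp]) (by omega) (by omega)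
    (x := a • z) (by simp [hz])).2

theorem SLV_le_of_tv_nonsing {v z : V} (hv : P.B v v ≠ 0) (hz0 : z ≠ 0) (hz : P.B z v = 0)
    (h : TV X (P.B.flip z) v) : SLV F V ≤ X := by
  have hvz : v ∉ F ∙ z := fun h => by
    obtain ⟨a, ha⟩ := Submodule.mem_span_singleton.1 h
    exact hv (by nth_rewrite 1 [← ha]; simp [hz])
  obtain ⟨u, hu, hu', hus⟩ := hw.exists_notMem (P.pp z ⊓ P.pp v)
    (((F ∙ z) ⊔ F ∙ v) ⊓ (P.pp z ⊓ P.pp v)) (by
      have h1 : ¬ (F ∙ z) ⊔ (F ∙ v) ≤ P.pp z ⊓ P.pp v := fun h =>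
        hv (h (Submodule.mem_sup_right (Submodule.mem_span_singleton_self v))).2
      have := Submodule.finrank_lt_finrank_of_lt (inf_lt_left.2 h1)
      have := finrank_span_pair_le (F := F) z v
      have := finrank_pp (P := P) hz0
      have := finrank_inf_pp_ge (P := P) (P.pp z) v
      omega)
  have hu1 : u ∉ (F ∙ z) ⊔ F ∙ v := fun h => hu' ⟨h, hu⟩
  have hu0 : u ≠ 0 := fun h => hu1 (h ▸ Submodule.zero_mem _)
  obtain ⟨w, hw', hvw⟩ := exists_sep (P := P) (notMem_sup_span_swap hvz hu1) 1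
  simp only [perp_sup, perp_span_singleton, Submodule.mem_inf, mem_pp] at hw'
  obtain ⟨c, hc⟩ := P.val_ex w
  have huz : P.B u z = 0 := hu.1
  have huv : P.B u v = 0 := hu.2
  have hI := eichE_mem_Iso hus hw'.2 hc
  have hfix : eichE hus hw'.2 hc z = z := eich_fix c (P.B_symm huz) (P.B_symm hw'.1)
  have h1 := h.conj (ψ := P.B.flip z) (hE (eichE_mem_E hus hw'.2 hc)) fun y => by
    rw [LinearMap.flip_apply, LinearMap.flip_apply, ← Iso.B hI y z, hfix]
  have h2 := h1.sub_right h (P.B_symm hz)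
  simp only [eichE_apply, eich, P.B_symm huv, hvw] at h2
  refine SLV_le_of_tv_sing' hw hn hn' hE (u := -(P.ε • u)) (z := z) (val_neg (sing_smul hus _))
    (by simpa using hu0) (by simp [P.B_symm huz]) (fun h => hu1 (Submodule.mem_sup_left ?_))
    (by rwa [show v + (0 : F) • w - (P.ε * 1 + P.σ c * 0) • u - v = -(P.ε • u) by module] at h2)
  obtain ⟨a, ha⟩ := Submodule.mem_span_singleton.1 h
  have ha0 : a ≠ 0 := fun h => hz0 (by simp [← ha, h])
  refine Submodule.mem_span_singleton.2 ⟨-(a⁻¹ * P.ε), ?_⟩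
  rw [← ha]
  have := P.ε_mul_ε
  match_scalars
  field_simp
  linear_combination this

theorem SLV_le_of_tv_rad {v : V} {κ : F} (hv : P.Val v 0) (hv0 : v ≠ 0)
    (hκ : κ + P.ε * P.σ κ ≠ 0) (h : TV X (P.B.flip v) (κ • v)) : SLV F V ≤ X := by
  obtain ⟨u, hu, hu', hus⟩ := hw.exists_notMem (P.pp v) (F ∙ v) (by
    have := finrank_pp (P := P) hv0
    have := finrank_span_singleton_le (F := F) v
    omega)
  have huv : P.B u v = 0 := hu
  have hvu : v ∉ F ∙ u := by
    simpa using notMem_sup_span_swap (U := (⊥ : Submodule F V)) (v := v) (z := u)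
      (by simpa using hv0) (by simpa using hu')
  obtain ⟨w, hw', hvw⟩ := exists_sep (P := P) hvu (-P.ε)
  rw [perp_span_singleton, mem_pp] at hw'
  obtain ⟨c, hc⟩ := P.val_ex w
  have hI := eichE_mem_Iso hus hw' hc
  have hmove : eichE hus hw' hc v = v + u := by
    simp [eich, P.B_symm huv, hvw]
  have h1 := h.conj (ψ := P.B.flip (v + u)) (hE (eichE_mem_E hus hw' hc)) fun y => by
    rw [LinearMap.flip_apply, LinearMap.flip_apply, ← Iso.B hI y v, hmove]
  rw [map_smul, hmove] at h1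
  have h2 := h.neg_right (by simp [sing_B hv])
  have h3 := (EI_E hv (w := -(κ • u)) (by simp [huv]) (val_neg (sing_smul hus κ))).mono hE
  have h4 : TV X (P.B.flip u) ((κ + P.ε * P.σ κ) • v + κ • u) := by
    refine ((h1.has.comp h2.has).comp h3.has).congr fun x => ?_
    simp only [eich, LinearMap.flip_apply, map_add, map_sub, map_smul, map_neg, B_smul_right,
      LinearMap.add_apply, LinearMap.sub_apply, LinearMap.smul_apply, LinearMap.neg_apply,
      smul_eq_mul, sing_B hv, sing_B hus, huv, P.B_symm huv, map_zero]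
    module
  refine SLV_le_of_tv_sing' hw hn hn' hE
    (val_congr (val_add_orth (sing_smul hv _) (sing_smul hus _) (by simp [P.B_symm huv]))
      (by simp)) (fun h0 => hvu ?_) (by simp [huv, sing_B hus]) (fun h0 => ?_) h4
  · rw [← Submodule.smul_mem_iff _ hκ, eq_neg_of_add_eq_zero_left h0]
    exact Submodule.neg_mem _ (Submodule.smul_mem _ _ (Submodule.mem_span_singleton_self u))
  · obtain ⟨a, ha⟩ := Submodule.mem_span_singleton.1 h0
    have ha0 : a ≠ 0 := fun h => hu' (by rw [h, zero_smul] at ha; rw [← ha]; simp)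
    apply hvu
    rw [← Submodule.smul_mem_iff _ (mul_ne_zero ha0 hκ)]
    exact Submodule.mem_span_singleton.2 ⟨1 - a * κ, by linear_combination (norm := module) -ha⟩

/-- any transvection outside the elementary group generates the special linear group -/
theorem SLV_le_of_tv_any (hmax : ∀ c, c + P.ε * P.σ c = 0 → P.Val 0 c) {v z : V} (hv0 : v ≠ 0)
    (hz0 : z ≠ 0) (hz : P.B z v = 0) (h : TV X (P.B.flip z) v)
    (hΛ : ∀ κ, v = κ • z → κ + P.ε * P.σ κ ≠ 0) : SLV F V ≤ X := by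
  have hs : ∀ x, P.B x x = 0 → P.Val x 0 := fun x hx => by
    obtain ⟨c, hc⟩ := P.val_ex x
    exact val_congr (val_sub_lam hc (hmax c (by rw [← P.val_self hc, hx]))) (sub_self c)
  by_cases hv : P.B v v = 0
  · by_cases hzv : z ∈ F ∙ v
    · obtain ⟨a, rfl⟩ := Submodule.mem_span_singleton.1 hzv
      have ha : a ≠ 0 := fun h => hz0 (by simp [h])
      have e : v = a⁻¹ • a • v := by simp [ha]
      refine SLV_le_of_tv_rad hw hn hn' hE (sing_smul (hs v hv) a) hz0 (hΛ _ e) (by rwa [← e])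
    · exact SLV_le_of_tv_sing' hw hn hn' hE (hs v hv) hv0 hz hzv h
  · exact SLV_le_of_tv_nonsing hw hn hn' hE hv hz0 hz h

theorem B_map_eq_zero_of_lam (hmax : ∀ c, c + P.ε * P.σ c = 0 → P.Val 0 c) {c₀ : F}
    (hc₀ : P.Val 0 c₀) (h0 : c₀ ≠ 0) (hX : ¬ SLV F V ≤ X) {g : V ≃ₗ[F] V} (hg : g ∈ X)
    {u0 x0 : V} (hu0 : P.Val u0 0) (hx0 : P.B x0 u0 = 0) : P.B (g x0) (g u0) = 0 := by
  by_cases hu : u0 = 0
  · simp [hu]
  obtain ⟨a', ha'⟩ := P.exists_B_eq (P.B.flip u0 ∘ₗ (g.symm : V →ₗ[F] V))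
  have ha'' : ∀ x, P.B (g x) a' = P.B x u0 := fun x => by simp [ha']
  have h1 : TV X (P.B.flip (-(c₀ • u0))) u0 :=
    ((EI_E hu0 (w := 0) (by simp) hc₀).mono hE).has.congr fun x => by simp [eich, sub_eq_add_neg]
  have h2 := h1.conj (ψ := P.B.flip (-(c₀ • a'))) hg fun x => by simp [ha'']
  by_contra hne
  refine hX (SLV_le_of_tv_any hw hn hn' hE hmax (by simpa using hu) (fun h => hu ?_)
    (P.B_symm (by simp [ha'', sing_B hu0])) h2 fun κ hκ => absurd ?_ hne)
  · have : a' = 0 := by simpa [h0] using h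
    exact P.nondeg _ fun x => by rw [← ha'', this, map_zero]
  · rw [hκ]; simp [ha'', hx0]

theorem B_map_eq_zero_of_orth (hΛ : ∀ c, P.Val 0 c → c = 0) (hσ : ∀ a, P.σ a = a) (hε : P.ε = 1)
    (h2 : (2 : F) ≠ 0) (hn6 : 6 ≤ finrank F V) (hX : ¬ SLV F V ≤ X) {g : V ≃ₗ[F] V} (hg : g ∈ X)
    {u0 x0 : V} (hu0 : P.Val u0 0) (hx0 : P.B x0 u0 = 0) : P.B (g x0) (g u0) = 0 := by
  by_cases hu00 : u0 = 0
  · simp [hu00]
  have hκ : ∀ κ : F, κ ≠ 0 → κ + P.ε * P.σ κ ≠ 0 := fun κ h h' => by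
    rw [hσ, hε, one_mul, ← two_mul] at h'
    exact mul_ne_zero h2 h h'
  have hmax : ∀ c, c + P.ε * P.σ c = 0 → P.Val 0 c := fun c hc => by
    by_cases h : c = 0
    · exact h ▸ val_zero
    · exact absurd hc (hκ c h)
  have hs : ∀ x, P.B x x = 0 → P.Val x 0 := fun x hx => by
    obtain ⟨c, hc⟩ := P.val_ex x
    exact val_congr (val_sub_lam hc (hmax c (by rw [← P.val_self hc, hx]))) (sub_self c)
  have hTV : ∀ {v z : V}, z ≠ 0 → P.B z v = 0 → TV X (P.B.flip z) v → v = 0 := by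
    intro v z hz0 hz h
    by_contra hv0
    exact hX (SLV_le_of_tv_any hw hn hn' hE hmax hv0 hz0 hz h fun κ h =>
      hκ κ fun h' => hv0 (by simp [h, h']))
  obtain ⟨w0, hw0, hw0', hc0⟩ := hw.exists_notMem (P.pp u0 ⊓ P.pp x0) (F ∙ u0) (by
    have := finrank_pp (P := P) hu00
    have := finrank_inf_pp_ge (P := P) (P.pp u0) x0
    have := finrank_span_singleton_le (F := F) u0
    omega)
  have hw1 : P.B w0 u0 = 0 := hw0.1
  have hw2 : P.B x0 w0 = 0 := P.B_symm hw0.2
  obtain ⟨a', ha'⟩ := P.exists_B_eq (P.B.flip u0 ∘ₗ (g.symm : V →ₗ[F] V))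
  obtain ⟨b', hb'⟩ := P.exists_B_eq (P.B.flip w0 ∘ₗ (g.symm : V →ₗ[F] V))
  have ha'' : ∀ x, P.B (g x) a' = P.B x u0 := fun x => by simp [ha']
  have hb'' : ∀ x, P.B (g x) b' = P.B x w0 := fun x => by simp [hb']
  set a := g u0 with ha
  set b := g w0 with hb
  let y := g * eichE hu0 hw1 hc0 * g⁻¹
  have hyX : y ∈ X := X.mul_mem (X.mul_mem hg (hE (eichE_mem_E _ _ _))) (X.inv_mem hg)
  have hy : ∀ x, y x = x + P.B x a' • b - P.B x b' • a := by
    intro x
    obtain ⟨x, rfl⟩ := g.surjective x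
    simp only [y, LinearEquiv.mul_apply, show g⁻¹ (g x) = x from g.symm_apply_apply x,
      eichE_apply, eich, map_add, map_sub, map_smul, ha'', hb'', ha, hb, hε, map_zero]
    module
  have haa : P.B a a' = 0 := by rw [ha, ha'', sing_B hu0]
  have hba : P.B b a' = 0 := by rw [hb, ha'', hw1]
  have hab : P.B a b' = 0 := by rw [ha, hb'', P.B_symm hw1]
  have hbb : P.B b b' = 0 := by rw [hb, hb'', sing_B hc0]
  have hind : ∀ s t : F, s • a' - t • b' = 0 → s = 0 ∧ t = 0 := by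
    intro s t h
    have h1 : s • u0 - t • w0 = 0 := P.nondeg _ fun x => by
      have := congrArg (P.B (g x)) h
      simpa [ha'', hb''] using this
    have ht : t = 0 := by
      by_contra ht
      apply hw0'
      rw [← Submodule.smul_mem_iff _ ht, ← sub_eq_zero.1 h1]
      exact Submodule.smul_mem _ _ (Submodule.mem_span_singleton_self _)
    exact ⟨by simpa [ht, hu00] using h1, ht⟩
  have key : ∀ u, P.Val u 0 → u ≠ 0 → P.B u a' = 0 → P.B u b' = 0 → P.B u a = 0 → P.B u b = 0 →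
      ∃ s t κ s' t' κ' : F, a = s • a' + t • b' + κ • u ∧ b = s' • a' + t' • b' + κ' • u := by
    intro u hus hu0' h1 h2 h3 h4
    have key : ∀ w, P.B w u = 0 → P.B w a' = 0 → P.B w b' = 0 → P.B b w = 0 ∧ P.B a w = 0 := by
      intro w h5 h6 h7
      refine hind _ _ ?_
      by_contra hne
      refine hu0' (hTV hne (by simp [P.B_symm h1, P.B_symm h2])
        (tv_of_conj_eich hE hyX hus (w := w) h5 ?_ ?_ (fun x => ?_) fun x => ?_))
      · simp [hy, h1, h2]
      · simp [hy, h6, h7]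
      · simp [hy, P.B_symm h3, P.B_symm h4]
      · simp only [hy, map_add, map_sub, map_smul, LinearMap.add_apply, LinearMap.sub_apply,
          LinearMap.smul_apply, smul_eq_mul, B_smul_right, haa, hba, hab, hbb, hσ, hε]
        ring
    have aux : ∀ x, (∀ w, P.B w u = 0 → P.B w a' = 0 → P.B w b' = 0 → P.B x w = 0) →
        ∃ s t κ : F, x = s • a' + t • b' + κ • u := by
      intro x hx
      have h1 : x ∈ P.perp (P.perp (((F ∙ a') ⊔ F ∙ b') ⊔ F ∙ u)) := by
        intro w hw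
        simp only [perp_sup, perp_span_singleton, Submodule.mem_inf, mem_pp] at hw
        exact hx w hw.2 hw.1.1 hw.1.2
      rw [perp_perp, mem_sup_span_singleton] at h1
      obtain ⟨m, hm, κ, hκ⟩ := h1
      obtain ⟨m', hm', t, rfl⟩ := mem_sup_span_singleton.1 hm
      obtain ⟨s, rfl⟩ := Submodule.mem_span_singleton.1 hm'
      exact ⟨s, t, κ, hκ⟩
    obtain ⟨s, t, κ, h⟩ := aux a fun w h5 h6 h7 => (key w h5 h6 h7).2
    obtain ⟨s', t', κ', h'⟩ := aux b fun w h5 h6 h7 => (key w h5 h6 h7).1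
    exact ⟨s, t, κ, s', t', κ', h, h'⟩
  obtain ⟨u, hu, hu0', hus⟩ := hw.exists_notMem (P.pp a' ⊓ P.pp b' ⊓ P.pp b) ⊥ (by
    have := finrank_inf_pp_ge (P := P) ⊤ a'
    have := finrank_inf_pp_ge (P := P) (P.pp a') b'
    have := finrank_inf_pp_ge (P := P) (P.pp a' ⊓ P.pp b') b
    rw [top_inf_eq, finrank_top] at *
    rw [finrank_bot]; omega)
  rw [Submodule.mem_bot] at hu0'
  have hu1 : P.B u a' = 0 := hu.1.1
  have hu2 : P.B u b' = 0 := hu.1.2
  have hu3 : P.B u b = 0 := hu.2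
  have hu4 : P.B u a = 0 := by
    by_contra hne
    obtain ⟨w, hw, hwu⟩ := exists_notMem_of_finrank_lt (U := F ∙ u)
      (W := P.pp a' ⊓ P.pp b' ⊓ P.pp b ⊓ P.pp u) (by
        have := finrank_inf_pp_ge (P := P) ⊤ a'
        have := finrank_inf_pp_ge (P := P) (P.pp a') b'
        have := finrank_inf_pp_ge (P := P) (P.pp a' ⊓ P.pp b') b
        have := finrank_inf_pp_ge (P := P) (P.pp a' ⊓ P.pp b' ⊓ P.pp b) u
        have := finrank_span_singleton_le (F := F) u
        rw [top_inf_eq, finrank_top] at *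
        omega)
    obtain ⟨c, hc⟩ := P.val_ex w
    have hwu' : P.B w u = 0 := hw.2
    have hI := eichE_mem_Iso hus hwu' hc
    have heX := hE (eichE_mem_E hus hwu' hc)
    set e := eichE hus hwu' hc with he
    have f1 : e a' = a' := eich_fix c (P.B_symm hu1) (P.B_symm hw.1.1.1)
    have f2 : e b' = b' := eich_fix c (P.B_symm hu2) (P.B_symm hw.1.1.2)
    have f3 : e b = b := eich_fix c (P.B_symm hu3) (P.B_symm hw.1.2)
    have g1 : P.B (e a) a' = 0 := by rw [← f1, Iso.B hI, haa]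
    have g2 : P.B (e a) b' = 0 := by rw [← f2, Iso.B hI, hab]
    have h3 : Has X fun x => x + P.B x a' • b - P.B x b' • e a :=
      (Has.of_mem hyX).conj heX fun x => by
        simp only [hy, map_add, map_sub, map_smul, f3]
        rw [← Iso.B hI x a', ← Iso.B hI x b', f1, f2]
    have h4 : TV X (P.B.flip b') (e a - a) :=
      (Has.of_mem hyX).of_comp_left h3 fun x => by
        simp only [hy, LinearMap.flip_apply, map_add, map_sub, map_smul, LinearMap.add_apply,
          LinearMap.sub_apply, LinearMap.smul_apply, smul_eq_mul, g1, g2, haa, hab]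
        module
    have h5 := hTV (fun h => by simpa using (hind 0 1 (by simp [h])).2)
      (by simp [P.B_symm g2, P.B_symm hab]) h4
    rw [he, eichE_apply, eich, add_sub_assoc, add_sub_cancel_left, sub_eq_zero] at h5
    apply hwu
    rw [← Submodule.smul_mem_iff _ (P.B_ne_symm hne), h5]
    exact Submodule.smul_mem _ _ (Submodule.mem_span_singleton_self _)
  obtain ⟨s, t, κ, s', t', κ', e1, e2⟩ := key u hus hu0' hu1 hu2 hu4 hu3
  have k1 : P.B a a = 0 := by nth_rewrite 2 [e1]; simp [haa, hab, P.B_symm hu4]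
  have k2 : P.B b a = 0 := by rw [e1]; simp [hba, hbb, P.B_symm hu3]
  have k3 : P.B b b = 0 := by nth_rewrite 2 [e2]; simp [hba, hbb, P.B_symm hu3]
  have hb0 : b ≠ 0 := fun h => hw0' (by
    have : w0 = 0 := by simpa [hb] using h
    simp [this])
  obtain ⟨s, t, κ, -, -, -, e1, -⟩ := key b (hs b k3) hb0 hba hbb k2 k3
  have hl : s • a' + t • b' = a - κ • b := by rw [e1]; simp
  have hl0 : a - κ • b ≠ 0 := by
    intro h
    have h1 : u0 = κ • w0 := g.injective (by rw [map_smul, ← ha, ← hb, sub_eq_zero.1 h])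
    have hκ0 : κ ≠ 0 := fun h => hu00 (by simp [h1, h])
    exact hw0' (Submodule.mem_span_singleton.2 ⟨κ⁻¹, by simp [h1, hκ0]⟩)
  obtain ⟨s₁, t₁, κ₁, -, -, -, e1, -⟩ := key (a - κ • b)
    (hs _ (by simp [k1, k2, k3, P.B_symm k2])) hl0 (by simp [haa, hba]) (by simp [hab, hbb])
    (by simp [k1, k2]) (by simp [k3, P.B_symm k2])
  rw [← hl] at e1
  rw [e1]
  simp [ha'', hb'', hx0, hw2]

end TV

/-- A linear automorphism respecting orthogonality to singular vectors is a similarity. -/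
theorem sim_of_forall_sing' {d : ℕ} (hw : P.Wild d) (hn : d + 2 ≤ finrank F V) {g : V →ₗ[F] V}
    (h : ∀ u x, P.Val u 0 → P.B x u = 0 → P.B (g x) (g u) = 0) :
    ∃ c : F, ∀ x y, P.B (g x) (g y) = c * P.B x y := by
  have h1 : ∀ u, P.Val u 0 → ∃ c : F, ∀ x, P.B (g x) (g u) = c * P.B x u := by
    intro u hu
    by_cases hu0 : u = 0
    · exact ⟨0, by simp [hu0]⟩
    obtain ⟨y, -, hy⟩ := exists_sep' (P := P) (U := ⊥) (v := u) (by simpa using hu0) 1
    refine ⟨P.B (g y) (g u), fun x => ?_⟩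
    have := h u (x - P.B x u • y) hu (by simp [hy])
    simp only [map_sub, map_smul, LinearMap.sub_apply, LinearMap.smul_apply, smul_eq_mul] at this
    linear_combination this
  choose! c hc using h1
  have h2 : ∀ u v, P.Val u 0 → P.Val v 0 → P.B u v = 0 → u ≠ 0 → v ∉ F ∙ u → c u = c v := by
    intro u v hu hv huv hu0 hvu
    have huv' : P.Val (u + v) 0 := by simpa using val_add_orth hu hv huv
    have h3 : u ∉ F ∙ v := by
      have := notMem_sup_span_swap (U := (⊥ : Submodule F V)) (v := u) (z := v)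
        (by simpa using hu0) (by simpa using hvu)
      simpa using this
    obtain ⟨x, hx1, hx2⟩ := exists_sep' (P := P) hvu 1
    obtain ⟨y, hy1, hy2⟩ := exists_sep' (P := P) h3 1
    rw [perp_span_singleton, mem_pp] at hx1 hy1
    have e1 := hc _ huv' x
    have e2 := hc _ huv' y
    simp only [map_add, hc u hu, hc v hv, hx1, hx2, hy1, hy2] at e1 e2
    linear_combination e2 - e1
  obtain ⟨u1, -, hu1, hu1s⟩ := hw ⊤ (by rw [finrank_top]; omega)
  let N : Submodule F V :=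
    { carrier := {v | ∀ x, P.B (g x) (g v) = c u1 * P.B x v}
      zero_mem' := by simp
      add_mem' := fun ha hb x => by simp only [map_add, ha x, hb x]; ring
      smul_mem' := fun a v hv x => by simp only [map_smul, B_smul_right, hv x]; ring }
  have hN : N = ⊤ := by
    refine eq_top_of_forall_sing hw (by omega) fun v hv => ?_
    by_cases hvu : v ∈ F ∙ u1
    · obtain ⟨a, rfl⟩ := Submodule.mem_span_singleton.1 hvu
      exact N.smul_mem a (hc u1 hu1s)
    by_cases hB : P.B u1 v = 0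
    · intro x
      rw [h2 u1 v hu1s hv hB hu1 hvu, hc v hv]
    obtain ⟨z, hz, hz0, hzs⟩ := hw (P.pp u1 ⊓ P.pp v) (by
      have := finrank_pp (P := P) hu1
      have := finrank_inf_pp_ge (P := P) (P.pp u1) v
      omega)
    have hz1 : P.B z u1 = 0 := hz.1
    have hz2 : P.B z v = 0 := hz.2
    intro x
    rw [h2 u1 z hu1s hzs (P.B_symm hz1) hu1 (fun h => ?_),
      ← h2 v z hv hzs (P.B_symm hz2) (fun h => hB (by simp [h])) (fun h => ?_), hc v hv]
    · obtain ⟨a, rfl⟩ := Submodule.mem_span_singleton.1 h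
      simp [P.B_ne_symm hB] at hz1
      exact hz0 (by simp [hz1])
    · obtain ⟨a, rfl⟩ := Submodule.mem_span_singleton.1 h
      simp [hB] at hz2
      exact hz0 (by simp [hz2])
  exact ⟨c u1, fun x y => (show y ∈ N by simp [hN]) x⟩

theorem Sim_maximal_of (hn : 3 ≤ finrank F V)
    (h : ∀ X : Subgroup (V ≃ₗ[F] V), P.E ≤ X → SLV F V ≤ X ∨ X ≤ P.Sim) :
    Geo.IsMaximalIn (SLV F V) (P.Sim ⊓ SLV F V) := by
  refine isMaximalIn_of inf_le_right ?_ fun X hHX hXE g hg hgH => ?_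
  · obtain ⟨g, hg, hg'⟩ := exists_SLV_notMem_Sim (P := P) hn
    exact ⟨g, hg, fun h => hg' h.1⟩
  · refine (h X ((le_inf (E_le_Iso.trans Iso_le_Sim) E_le_SLV).trans hHX)).resolve_right
      fun h => hgH ⟨h hg, hXE hg⟩

theorem SLV_le_or_le_Sim_of_lam {d : ℕ} (hw : P.Wild d) (hn : d + 3 ≤ finrank F V)
    (hn' : 5 ≤ finrank F V) (hmax : ∀ c, c + P.ε * P.σ c = 0 → P.Val 0 c)
    (hΛ : ∃ c, c ≠ 0 ∧ P.Val 0 c) {X : Subgroup (V ≃ₗ[F] V)} (hE : P.E ≤ X) :
    SLV F V ≤ X ∨ X ≤ P.Sim := by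
  by_cases hX : SLV F V ≤ X
  · exact Or.inl hX
  obtain ⟨c₀, h0, hc₀⟩ := hΛ
  refine Or.inr fun g hg => ?_
  obtain ⟨c, hc⟩ := sim_of_forall_sing' hw (by omega) (g := (g : V →ₗ[F] V))
    fun u x hu hx => B_map_eq_zero_of_lam hw hn hn' hE hmax hc₀ h0 hX hg hu hx
  exact mem_Sim_of hc

theorem SLV_le_or_le_Sim_of_orth (hn : 6 ≤ finrank F V) (hσ : ∀ a, P.σ a = a) (hε : P.ε = 1)
    (hΛ : ∀ c, P.Val 0 c → c = 0) (h2 : (2 : F) ≠ 0) {X : Subgroup (V ≃ₗ[F] V)} (hE : P.E ≤ X) :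
    SLV F V ≤ X ∨ X ≤ P.Sim := by
  by_cases hX : SLV F V ≤ X
  · exact Or.inl hX
  have hw := wild_three_of_σ hσ
  refine Or.inr fun g hg => ?_
  obtain ⟨c, hc⟩ := sim_of_forall_sing' hw (by omega) (g := (g : V →ₗ[F] V))
    fun u x hu hx => B_map_eq_zero_of_orth hw hn (by omega) hE hΛ hσ hε h2 hn hX hg hu hx
  exact mem_Sim_of hc

end Polar

end Cfsg.Agent.H7
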