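import Cfsg.Agent.H7.TsPair
import Cfsg.Agent.H7.SubPolar

/-!
Stabilisers of pairs of complementary totally singular subspaces, small dimensions.
-/

set_option autoImplicit false
set_option linter.unusedSectionVars false

namespace Cfsg.Agent.H7

open Module

namespace Polar

variable {F : Type*} [Field F] {V : Type*} [AddCommGroup V] [Module F V] {P : Polar F V}
variable [Finite F] [FiniteDimensional F V]

theorem self_mem_eSub {X : Subgroup (V ≃ₗ[F] V)} {u : V} (hu : P.Val u 0) : u ∈ P.eSub X hu := by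
  refine ⟨sing_B hu, fun a => ⟨P.σ a - P.ε * a, ?_, ?_⟩⟩
  · simpa using val_add_lam (sing_smul hu a) (P.val_min (P.σ a))
  · rw [← zero_add (a • u), EI.add_smul_iff]
    simpa using EI.zero u

namespace TsPair

variable {W W' : Submodule F V} (h : P.TsPair W W') {X : Subgroup (V ≃ₗ[F] V)}
  (hX : ∀ v ∈ W, ∀ w ∈ W', P.B w v = 0 → P.EI X v w 0)
include h

theorem le_of_inv_two {u : V} (hu : u ∈ W) {N : Submodule F V} (huN : u ∈ N)
    (hN : ∀ v ∈ W, ∀ w ∈ W', P.B w v = 0 → P.B w u = 0 → ∀ x ∈ N, P.eich v w 0 x ∈ N) {z : V}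
    (hz : z ∈ N) (hzW : z ∈ W) (hzu : z ∉ F ∙ u) : W ≤ N := by
  intro x hx
  by_cases hxz : x ∈ (F ∙ u) ⊔ F ∙ z
  · exact (sup_le (a := F ∙ u) (b := F ∙ z) (c := N) (by simpa using huN) (by simpa using hz)) hxz
  obtain ⟨w, hw, hwu, hzw⟩ := h.exists_sep (U := (F ∙ u) ⊔ F ∙ x) (by simp [hu, hx]) hzW
    (notMem_sup_span_swap hzu hxz)
  simp only [perp_sup, perp_span_singleton, Submodule.mem_inf, mem_pp] at hwu
  have := hN x hx w hw hwu.2 hwu.1 z hz
  simp only [eich, h.B hzW hx, hzw, zero_smul, add_zero, mul_one, mul_zero,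
    N.sub_mem_iff_right hz] at this
  exact (N.smul_mem_iff P.ε_ne_zero).1 this

theorem le_of_inv_three (hm : 3 ≤ finrank F W) {N : Submodule F V}
    (hN : ∀ v ∈ W, ∀ w ∈ W', P.B w v = 0 → ∀ x ∈ N, P.eich v w 0 x ∈ N) (hNW : ¬ N ≤ W') :
    W ≤ N := by
  obtain ⟨x, hx, hx'⟩ := SetLike.not_le_iff_exists.1 hNW
  obtain ⟨a, ha, b, hb, rfl⟩ := h.decomp x
  obtain ⟨w, hw, -, haw⟩ := h.exists_sep (U := ⊥) bot_le ha (by
    rintro rfl; exact hx' (by simpa using hb))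
  obtain ⟨v, hv, hv0⟩ := exists_notMem_of_finrank_lt (U := (⊥ : Submodule F V))
    (W := W ⊓ P.pp w ⊓ P.pp b) (by
      have := finrank_inf_pp_ge (P := P) W w
      have := finrank_inf_pp_ge (P := P) (W ⊓ P.pp w) b
      rw [finrank_bot]; omega)
  have h1 := hN v hv.1.1 w hw (P.B_symm hv.1.2) _ hx
  simp only [eich, map_add, LinearMap.add_apply, h.B ha hv.1.1, P.B_symm hv.2, haw, h.symm.B hb hw,
    zero_smul, add_zero, mul_one, mul_zero, N.sub_mem_iff_right hx] at h1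
  exact h.le_of_inv_two W.zero_mem N.zero_mem (fun v hv w hw h1 _ => hN v hv w hw h1)
    ((N.smul_mem_iff P.ε_ne_zero).1 h1) hv.1.1 (by simpa using hv0)

theorem eq_of_inv_three (hm : 3 ≤ finrank F W) {N : Submodule F V}
    (hN : ∀ v ∈ W, ∀ w ∈ W', P.B w v = 0 → ∀ x ∈ N, P.eich v w 0 x ∈ N)
    (hd : 2 * finrank F N = finrank F V) : N = W ∨ N = W' := by
  have := h.two_mul_finrank
  have := h.symm.two_mul_finrank
  by_cases h1 : N ≤ W'
  · exact Or.inr (Submodule.eq_of_le_of_finrank_eq h1 (by omega))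
  · exact Or.inl (Submodule.eq_of_le_of_finrank_eq (h.le_of_inv_three hm hN h1) (by omega)).symm

include hX

theorem exists_move_of_notMem {u u' : V} (hu : u ∈ W) (hu' : u' ∈ W) (h0 : u ≠ 0)
    (h1 : u' ∉ F ∙ u) : ∃ g ∈ X, g ∈ P.Iso ∧ g ∈ stab W ∧ g ∈ stab W' ∧ g u = u' := by
  have hv := W.smul_mem (-P.ε) (W.sub_mem hu' hu)
  obtain ⟨w, hw, hwv, huw⟩ := h.exists_sep (U := F ∙ (u' - u)) (by simp [W.sub_mem hu' hu]) hu
    fun h2 => h1 (by
      obtain ⟨t, ht⟩ := Submodule.mem_span_singleton.1 h2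
      have ht0 : t ≠ 0 := fun h => h0 (by rw [← ht, h, zero_smul])
      exact Submodule.mem_span_singleton.2 ⟨t⁻¹ + 1, by
        rw [add_smul, one_smul]; nth_rewrite 1 [← ht]; simp [ht0]⟩)
  rw [perp_span_singleton, mem_pp] at hwv
  have hwv' : P.B w (-P.ε • (u' - u)) = 0 := by rw [B_smul_right, hwv, mul_zero]
  refine ⟨eichE (h.sing _ hv) hwv' (h.sing' w hw), (hX _ hv w hw hwv').mem fun _ => rfl,
    eichE_mem_Iso _ _ _, (h.root_mem_stab hv hw _ _ _).1, (h.root_mem_stab hv hw _ _ _).2, ?_⟩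
  simp only [eichE_apply, eich, h.B hu hv, huw, smul_smul]
  rcases P.εε with h | h <;> rw [h] <;> module

theorem exists_move (hm : 2 ≤ finrank F W) {u u' : V} (hu : u ∈ W) (hu' : u' ∈ W) (h0 : u ≠ 0)
    (h0' : u' ≠ 0) : ∃ g ∈ X, g ∈ P.Iso ∧ g ∈ stab W ∧ g ∈ stab W' ∧ g u = u' := by
  by_cases h1 : u' ∈ F ∙ u
  · obtain ⟨z, hz, hzu⟩ := exists_notMem_of_finrank_lt (U := F ∙ u) (W := W) (by
      have := finrank_span_singleton_le (F := F) u; omega)
    obtain ⟨g, hg, hg1, hg2, hg3, hg4⟩ := h.exists_move_of_notMem hX hu hz h0 hzu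
    obtain ⟨g', hg', hg1', hg2', hg3', hg4'⟩ := h.exists_move_of_notMem hX hz hu'
      (fun h => hzu (by simp [h])) fun h2 => hzu (by
        have := notMem_sup_span_swap (U := (⊥ : Submodule F V)) (v := u') (z := z)
          (by simpa using h0')
        simp only [bot_sup_eq] at this
        exact (Submodule.span_singleton_le_iff_mem _ _).2 h1 (not_not.1 (mt this (not_not.2 h2))))
    exact ⟨g' * g, X.mul_mem hg' hg, P.Iso.mul_mem hg1' hg1, (stab W).mul_mem hg2' hg2,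
      (stab W').mul_mem hg3' hg3, by rw [LinearEquiv.mul_apply, hg4, hg4']⟩
  · exact h.exists_move_of_notMem hX hu hu' h0 h1

theorem fullA_or_of_fix (hm : 2 ≤ finrank F W) (hΛ : ∀ c, P.Val 0 c → ∃ a, c = a - P.ε * P.σ a)
    {u : V} (hu : u ∈ W) (hu0 : u ≠ 0) {y : V ≃ₗ[F] V} (hy : y ∈ X) (hy' : y ∈ P.Iso)
    (hyu : y u = u) (hΛ0 : ∃ c, c ≠ 0 ∧ P.Val 0 c) :
    P.FullA X u ∨ ∀ w ∈ W', P.B w u = 0 → y w ∈ W' := by
  have hus := h.sing u hu
  have hsub : ∀ w ∈ W', P.B w u = 0 → w ∈ P.eSub X hus := fun w hw hwu =>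
    ⟨hwu, fun t => ⟨0, h.sing' _ (W'.smul_mem t hw), hX u hu _ (W'.smul_mem t hw) (by simp [hwu])⟩⟩
  have fin : W ≤ P.eSub X hus → P.FullA X u := by
    intro h3
    have h4 : P.pp u ≤ P.eSub X hus := by
      intro x hx
      obtain ⟨p, hp, p', hp', rfl⟩ := h.decomp x
      exact Submodule.add_mem _ (h3 hp) (hsub p' hp' (by simpa [h.B hp hu] using hx))
    refine fullA_of_eSub hus (fun c hc => ?_) h4
    obtain ⟨t, rfl⟩ := hΛ c hc
    refine EI_lam_min hus (by have := h.two_mul_finrank; omega) (fun v hv => ⟨hv, ?_⟩) t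
    simpa using (h4 hv).2 1
  refine or_iff_not_imp_right.2 fun hcon => fin ?_
  push Not at hcon
  obtain ⟨w, hw, hwu, hw'⟩ := hcon
  obtain ⟨z, hz, w', hw'', hzw⟩ := h.decomp (y w)
  have h3 : P.B w' u = 0 := by
    have : P.B (y w) u = 0 := by rw [← hyu, Iso.B hy', hwu]
    rwa [← hzw, map_add, LinearMap.add_apply, h.B hz hu, zero_add] at this
  by_cases hzu : z ∈ F ∙ u
  · obtain ⟨κ, rfl⟩ := Submodule.mem_span_singleton.1 hzu
    have hκ : κ ≠ 0 := fun h => hw' (by rw [← hzw, h]; simpa using hw'')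
    obtain ⟨c, hc0, hc⟩ := hΛ0
    have hT : ∀ c, P.Val 0 c → P.EI X u 0 c := by
      intro c hc
      obtain ⟨t, rfl⟩ := hΛ c hc
      have e1 := (hX u hu ((P.ε * t / κ) • w) (W'.smul_mem _ hw) (by simp [hwu])).conj hy hy'
      rw [hyu, map_smul, ← hzw, smul_add, add_comm, smul_smul, div_mul_cancel₀ _ hκ,
        EI.add_smul_iff] at e1
      have e2 := hX u hu (-((P.ε * t / κ) • w')) (W'.neg_mem (W'.smul_mem _ hw'')) (by simp [h3])
      refine (e1.add e2 hus (by simp [h3]) (by simp [h3])).congr (by simp) ?_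
      simp only [map_neg, B_smul_right, map_smul, LinearMap.smul_apply, h.symm.B hw'' hw'',
        map_mul, σ_ε, ← mul_assoc, ε_mul_ε, smul_eq_mul]
      ring
    have hT' : ∀ v ∈ W, v ≠ 0 → ∀ c, P.Val 0 c → P.EI X v 0 c := by
      intro v hv hv0 c hc
      obtain ⟨g, hg, hg1, -, -, rfl⟩ := h.exists_move hX hm hu hv hu0 hv0
      simpa using (hT c hc).conj hg hg1
    have hT'' : ∀ v ∈ W, ∀ c, P.Val 0 c → Has X (P.eich v 0 c) := by
      intro v hv c hc
      by_cases hv0 : v = 0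
      · exact Has.id.congr fun x => by simp [hv0, eich]
      · exact hT' v hv hv0 c hc
    intro p hp
    refine ⟨h.B hp hu, fun t => ⟨0, h.sing _ (W.smul_mem _ hp), ?_⟩⟩
    have hq := W.smul_mem (-(t / P.σ c)) hp
    refine (((hT'' _ (W.add_mem hu hq) c hc).comp (hT'' _ hu _ (lam_neg hc))).comp
      (hT'' _ hq _ (lam_neg hc))).congr fun x => ?_
    simp only [eich, map_add, map_sub, map_smul, map_neg, LinearMap.add_apply, LinearMap.sub_apply,
      LinearMap.smul_apply, B_smul_right, h.B hu hu, h.B hp hp, h.B hu hp, h.B hp hu, smul_eq_mul,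
      map_zero, LinearMap.zero_apply, map_div₀, map_mul, σ_ε, lam_σ hc]
    rcases P.εε with h | h <;> rw [h] <;> match_scalars <;> field_simp <;> ring
  · have h1 := apply_mem_eSub hus hy hy' hyu (hsub w hw hwu)
    rw [← hzw, Submodule.add_mem_iff_left _ (hsub w' hw'' h3)] at h1
    refine h.le_of_inv_two hu (self_mem_eSub hus) (fun v hv w hw h1 h2 x hx => ?_) h1 hz hzu
    exact apply_mem_eSub hus (g := eichE (h.sing v hv) h1 (h.sing' w hw))
      ((hX v hv w hw h1).mem fun _ => rfl) (eichE_mem_Iso _ _ _)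
      (eich_fix 0 (h.B hu hv) (P.B_symm h2)) hx

theorem E_le_of_fullA_swap {s : V ≃ₗ[F] V} (hsX : s ∈ X) (hsI : s ∈ P.Iso)
    (hs : W.map (s : V →ₗ[F] V) = W') {u : V} (hu : u ∈ W) (hu0 : u ≠ 0) (hF : P.FullA X u) :
    P.E ≤ X := by
  have hsu : s u ∈ W' := hs ▸ Submodule.mem_map_of_mem hu
  have hF' := hF.conj hsX hsI
  by_cases h1 : P.B (s u) u = 0
  · obtain ⟨v, hv, -, hv'⟩ := h.symm.exists_sep (U := ⊥) bot_le hsu (by simpa using hu0)
    obtain ⟨w, hw, hwv, huw⟩ := h.exists_sep (U := F ∙ v) (by simpa using hv) hu (by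
      intro h2
      obtain ⟨t, rfl⟩ := Submodule.mem_span_singleton.1 h2
      rw [B_smul_right, hv', mul_one, σ_eq_zero] at h1
      exact hu0 (by simp [h1]))
    rw [perp_span_singleton, mem_pp] at hwv
    have hI := eichE_mem_Iso (h.sing v hv) hwv (h.sing' w hw)
    refine E_le_of_fullA (Iso.val hI (h.sing u hu)) (h.sing' _ hsu)
      (hF.conj ((hX v hv w hw hwv).mem fun _ => rfl) hI) hF' ?_
    simp [eich, h1, h.B hu hv, huw, hv']
  · exact E_le_of_fullA (h.sing u hu) (h.sing' _ hsu) hF hF' h1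

end TsPair

theorem tsPair_maximal_lam {d : ℕ} (hw : P.Wild d) (hn : d + 4 ≤ finrank F V)
    (hn' : 6 ≤ finrank F V) {D : Fin 2 → Submodule F V} (h : P.TsPair (D 0) (D 1))
    (hΛ : ∀ c, P.Val 0 c → ∃ a, c = a - P.ε * P.σ a) (hΛ0 : ∃ c, c ≠ 0 ∧ P.Val 0 c) :
    Geo.IsMaximalIn P.E (decStab D ⊓ P.E) := by
  have hd := h.two_mul_finrank
  have hd' := h.symm.two_mul_finrank
  refine isMaximalIn_of inf_le_right ?_ fun X hHX hXE g hg hgH => ?_
  · obtain ⟨u, hu, hu0⟩ := exists_notMem_of_finrank_lt (U := (⊥ : Submodule F V)) (W := D 0)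
      (by rw [finrank_bot]; omega)
    obtain ⟨z, hz, hzu⟩ := exists_notMem_of_finrank_lt (U := F ∙ u) (W := D 0)
      (by have := finrank_span_singleton_le (F := F) u; omega)
    obtain ⟨w, hw, hwz, huw⟩ := h.exists_sep (U := F ∙ z) (by simpa using hz) hu (by
      simpa using notMem_sup_span_swap (U := (⊥ : Submodule F V)) (v := u) (z := z) hu0
        (by simpa using hzu))
    rw [perp_span_singleton, mem_pp] at hwz
    refine ⟨_, eichE_mem_E (h.sing u hu) (h.B hz hu) (h.sing z hz), fun hg => ?_⟩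
    have hwu : P.B w u = P.ε := by rw [P.herm, huw]; simp
    have hz0 : z ≠ 0 := by rintro rfl; simp at hzu
    rcases mem_decStab_two.1 hg.1 with h1 | h1
    · have h2 := (mem_stab.1 (mem_stab_iff_map.2 h1.2) w).1 hw
      simp only [eichE_apply, eich, hwu, hwz, mul_zero, map_zero, zero_mul, add_zero, zero_smul,
        sub_zero, Submodule.add_mem_iff_right _ hw, Submodule.smul_mem_iff _ P.ε_ne_zero] at h2
      exact hz0 ((Submodule.disjoint_def.1 h.compl.disjoint) z hz h2)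
    · have h2 : eichE (h.sing u hu) (h.B hz hu) (h.sing z hz) u ∈ D 1 :=
        h1.1.le (Submodule.mem_map_of_mem hu)
      rw [eichE_apply, eich_fix _ (h.B hu hu) (h.B hu hz)] at h2
      exact hu0 ((Submodule.disjoint_def.1 h.compl.disjoint) u hu h2)
  have hgE := hXE hg
  have hg' := E_le_Iso hgE
  have hX : ∀ {W W' : Submodule F V}, P.TsPair W W' →
      (∀ g ∈ P.E, g ∈ stab W → g ∈ stab W' → g ∈ X) →
      ∀ v ∈ W, ∀ w ∈ W', P.B w v = 0 → P.EI X v w 0 := fun h hh v hv w hw hwv =>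
    EI_of_mem (h.sing v hv) hwv (h.sing' w hw) (hh _ (eichE_mem_E _ _ _)
      (h.root_mem_stab hv hw _ _ _).1 (h.root_mem_stab hv hw _ _ _).2)
  have hX0 : ∀ g ∈ P.E, g ∈ stab (D 0) → g ∈ stab (D 1) → g ∈ X := fun g hg h0 h1 =>
    hHX ⟨mem_decStab_two.2 (Or.inl ⟨mem_stab_iff_map.1 h0, mem_stab_iff_map.1 h1⟩), hg⟩
  obtain ⟨s, hsE, hs0, hs1⟩ := h.exists_swap hw hn (Or.inl hΛ0)
  have hsX : s ∈ X := hHX ⟨mem_decStab_two.2 (Or.inr ⟨hs0, hs1⟩), hsE⟩
  by_contra hcon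
  have hP : ∀ {W W' : Submodule F V}, P.TsPair W W' → W.map (s : V →ₗ[F] V) = W' →
      (∀ v ∈ W, ∀ w ∈ W', P.B w v = 0 → P.EI X v w 0) → ∀ y ∈ X, ∀ u ∈ W, u ≠ 0 → y u ∈ W →
      ∀ w ∈ W', P.B w u = 0 → y w ∈ W' := by
    intro W W' h hs hX y hy u hu hu0 hyu w hw hwu
    have hm : 2 ≤ finrank F W := by have := h.two_mul_finrank; omega
    obtain ⟨k, hk, hk1, -, hk3, hk4⟩ := h.exists_move hX hm hyu hu (by simpa using hu0) hu0
    rcases h.fullA_or_of_fix hX hm hΛ hu hu0 (X.mul_mem hk hy)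
      (P.Iso.mul_mem hk1 (E_le_Iso (hXE hy))) hk4 hΛ0 with h1 | h1
    · exact absurd (h.E_le_of_fullA_swap hX hsX (E_le_Iso hsE) hs hu hu0 h1) hcon
    · exact (mem_stab.1 hk3 _).2 (h1 w hw hwu)
  have hQ : ∀ {W W' : Submodule F V}, P.TsPair W W' → ∀ y : V ≃ₗ[F] V,
      (∀ u ∈ W', u ≠ 0 → y u ∈ W' → ∀ w ∈ W, P.B w u = 0 → y w ∈ W) → ∀ u : V,
      (∀ w ∈ W', P.B w u = 0 → y w ∈ W') → y ∈ stab W := by
    intro W W' h y hy u hu
    have := h.symm.two_mul_finrank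
    have := finrank_inf_pp_ge (P := P) W' u
    obtain ⟨w1, hw1, hw10⟩ := exists_notMem_of_finrank_lt (U := (⊥ : Submodule F V))
      (W := W' ⊓ P.pp u) (by rw [finrank_bot]; omega)
    obtain ⟨w2, hw2, hw20⟩ := exists_notMem_of_finrank_lt (U := F ∙ w1)
      (W := W' ⊓ P.pp u) (by have := finrank_span_singleton_le (F := F) w1; omega)
    obtain ⟨p, hp, hp1, hp2⟩ := h.symm.exists_sep (U := F ∙ w1) (by simpa using hw1.1) hw2.1 hw20
    rw [perp_span_singleton, mem_pp] at hp1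
    have hp3 : P.B p w2 = P.ε := by rw [P.herm, hp2]; simp
    refine mem_stab_of_forall fun x hx => ?_
    have e1 := hy w1 hw1.1 hw10 (hu w1 hw1.1 hw1.2) _ (W.smul_mem (P.ε * P.B x w2) hp)
      (by simp [hp1])
    have e2 := hy w2 hw2.1 (fun h => hw20 (by simp [h])) (hu w2 hw2.1 hw2.2) _
      (W.sub_mem hx (W.smul_mem (P.ε * P.B x w2) hp)) (by
        simp only [map_sub, map_smul, LinearMap.sub_apply, LinearMap.smul_apply, hp3, smul_eq_mul]
        linear_combination -P.B x w2 * P.ε_mul_ε)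
    simpa using W.add_mem e2 e1
  have hX1 := hX h hX0
  have hX2 := hX h.symm fun g hg h0 h1 => hX0 g hg h1 h0
  have hR : ∀ y ∈ X, ∀ u ∈ D 0, u ≠ 0 → y u = u → y ∈ stab (D 0) ∧ y ∈ stab (D 1) := by
    intro y hy u hu hu0 hyu
    have h1 := hQ h y (hP h.symm hs1 hX2 y hy) u (hP h hs0 hX1 y hy u hu hu0 (by rwa [hyu]))
    exact ⟨h1, hQ h.symm y (hP h hs0 hX1 y hy) 0 fun w hw _ => (mem_stab.1 h1 w).1 hw⟩
  have hg2 := h.map hg'
  have hm : 3 ≤ finrank F ((D 0).map (g : V →ₗ[F] V)) := by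
    rw [LinearEquiv.finrank_map_eq]; omega
  have hS : ∀ v ∈ (D 0).map (g : V →ₗ[F] V), ∀ w ∈ (D 1).map (g : V →ₗ[F] V), P.B w v = 0 →
      (∀ x ∈ D 0, P.eich v w 0 x ∈ D 0) ∧ ∀ x ∈ D 1, P.eich v w 0 x ∈ D 1 := by
    intro a ha b hb hba
    have hy : eichE (hg2.sing a ha) hba (hg2.sing' b hb) ∈ X := by
      obtain ⟨v, hv, rfl⟩ := ha
      obtain ⟨w, hw, rfl⟩ := hb
      exact ((hX1 v hv w hw (by rwa [← Iso.B hg'])).conj hg hg').mem fun _ => rfl
    obtain ⟨u, hu, hu0⟩ := exists_notMem_of_finrank_lt (U := (⊥ : Submodule F V))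
      (W := D 0 ⊓ P.pp a ⊓ P.pp b) (by
        have := finrank_inf_pp_ge (P := P) (D 0) a
        have := finrank_inf_pp_ge (P := P) (D 0 ⊓ P.pp a) b
        rw [finrank_bot]; omega)
    obtain ⟨h1, h2⟩ := hR _ hy u hu.1.1 hu0 (eich_fix 0 hu.1.2 hu.2)
    exact ⟨fun x hx => (mem_stab.1 h1 x).1 hx, fun x hx => (mem_stab.1 h2 x).1 hx⟩
  have hne : D 0 ≠ D 1 := fun h01 => by
    have := h.compl.inf_eq_bot
    rw [← h01, inf_idem] at this
    rw [this, finrank_bot] at hd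
    omega
  refine hgH ⟨mem_decStab_two.2 ?_, hgE⟩
  rcases hg2.eq_of_inv_three hm (fun v hv w hw h => (hS v hv w hw h).1) hd with h2 | h2 <;>
  rcases hg2.eq_of_inv_three hm (fun v hv w hw h => (hS v hv w hw h).2) hd' with h1 | h1
  · exact absurd (h2.trans h1.symm) hne
  · exact Or.inl ⟨h2.symm, h1.symm⟩
  · exact Or.inr ⟨h1.symm, h2.symm⟩
  · exact absurd (h2.trans h1.symm) hne

end Polar

end Cfsg.Agent.H7
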