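import Cfsg.Agent.H7.Nondeg2
import Cfsg.Agent.H7.NondegO
import Cfsg.Agent.H7.TsPair2
import Cfsg.Agent.H7.Parabolic
import Cfsg.Agent.H7.SubInst

/-!
Maximal subgroups of `SU_n(q)` in matrix form, for small `n`.
-/

set_option autoImplicit false
set_option linter.unusedSectionVars false

namespace Cfsg.Agent.H7.GenSU

open Geo Module

variable {F : Type*} [Field F] [Fintype F] {n q : ℕ} (hF : Fintype.card F = q ^ 2)
include hF

theorem σ_ne : ∃ a, (uStd hF n).σ a ≠ a := unitPowPolar_ne hF (isUnitaryFormPow_hermForm hF n)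

theorem wild : (uStd hF n).Wild 2 := Polar.wild_two_of_unitary (σ_ne hF) rfl

theorem lam : ∃ c, c ≠ 0 ∧ (uStd hF n).Val 0 c := Polar.exists_lam_ne_of_unitary (σ_ne hF) rfl

theorem parabolic (hn : 6 ≤ n) (W : Submodule F (Fin n → F)) (hW0 : W ≠ ⊥)
    (hW : IsTotallySingularFor (hermForm n F q) W) :
    IsMaximalIn (GU n F q ⊓ specialLinear (Fin n) F)
      (subspaceStabilizer W ⊓ (GU n F q ⊓ specialLinear (Fin n) F)) := by
  refine isMaximalIn_of_equiv toLE (mem_SU_iff hF hn) (fun g => ?_)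
    (Polar.parabolic_maximal (P := uStd hF n) hW0
      (fun x hx => (Polar.sing_iff_of_unitary (σ_ne hF) rfl).2 (hW x hx x hx))
      (fun x hx y hy => hW x hx y hy) (Or.inl (lam hF)) (Or.inl (lam hF)))
  rw [Subgroup.mem_inf, mem_SU_iff hF hn, mem_subspaceStabilizer_iff, Subgroup.mem_inf]

theorem nondeg (hn : 6 ≤ n) (W : Submodule F (Fin n → F)) (hW0 : W ≠ ⊥)
    (hW : IsNondegenerateOn (hermForm n F q) W) (hdim : 2 * finrank F W < n) :
    IsMaximalIn (GU n F q ⊓ specialLinear (Fin n) F)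
      (subspaceStabilizer W ⊓ (GU n F q ⊓ specialLinear (Fin n) F)) := by
  have hn' : finrank F (Fin n → F) = n := by simp
  refine isMaximalIn_of_equiv toLE (mem_SU_iff hF hn) (fun g => ?_)
    (Polar.nondeg_maximal_lam (P := uStd hF n) (wild hF)
      (Polar.reflCongr_of (wild hF) (by omega)) (lam hF)
      ((inf_perp_iff_nondegenerateOn _ (fun _ _ => rfl)).2 hW) hW0 (by omega) (by omega) (by omega))
  rw [Subgroup.mem_inf, mem_SU_iff hF hn, mem_subspaceStabilizer_iff, Subgroup.mem_inf]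

theorem tsPair (hn : 6 ≤ n) {k : ℕ} (D : Fin 2 → Submodule F (Fin n → F))
    (hD : IsMDecomposition k D) (hts : ∀ i, IsTotallySingularFor (hermForm n F q) (D i)) :
    IsMaximalIn (GU n F q ⊓ specialLinear (Fin n) F)
      (decompositionStabilizer D ⊓ (GU n F q ⊓ specialLinear (Fin n) F)) := by
  have hn' : finrank F (Fin n → F) = n := by simp
  have hσ := σ_ne (n := n) hF
  refine isMaximalIn_of_equiv toLE (mem_SU_iff hF hn) (fun g => ?_)
    (Polar.tsPair_maximal_lam (P := uStd hF n) (wild hF) (by omega) (by omega)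
      (D := D) ⟨fun x hx => (Polar.sing_iff_of_unitary hσ rfl).2 (hts 0 x hx x hx),
        fun x hx => (Polar.sing_iff_of_unitary hσ rfl).2 (hts 1 x hx x hx),
        fun x hx y hy => hts 0 x hx y hy,
        fun x hx y hy => hts 1 x hx y hy, isCompl_of_two hD.indep hD.iSup_eq_top⟩
      (fun c hc => Polar.lam_of_unitary hσ rfl hc) (lam hF))
  rw [Subgroup.mem_inf, mem_SU_iff hF hn, mem_decompositionStabilizer_iff, Subgroup.mem_inf]

theorem B_mem {F₀ : Subfield F} {P : GL (Fin n) F}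
    (hP : IsFormRationalStructure (hermForm n F q) F₀ 1 P) (x y : Fin n → F)
    (hx : (stdRat F₀ P).τ x = x) (hy : (stdRat F₀ P).τ y = y) : (uStd hF n).B x y ∈ F₀ := by
  obtain ⟨u, hu, rfl⟩ := stdRat_fix hx
  obtain ⟨v, hv, rfl⟩ := stdRat_fix hy
  simpa [unitPowPolar_B] using hP u v hu hv

theorem θσ (F₀ : Subfield F) (P : GL (Fin n) F) (a : F) :
    (stdRat F₀ P).θ ((uStd hF n).σ a) = (uStd hF n).σ ((stdRat F₀ P).θ a) := by
  simp only [stdRat_θ, unitPowPolar_σ, ← pow_mul, mul_comm]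

theorem exists_ne_odd {F₀ : Subfield F} {r : ℕ} (hr : r.Prime) (hro : Odd r)
    (hcard : Fintype.card F = Nat.card F₀ ^ r) : ∃ a ∈ F₀, qFrob hF a ≠ a := by
  have hq := one_lt_q hF
  by_contra! hcon
  have h1 : ∀ a, a ∈ F₀ ↔ a ^ q = a := by
    refine fun a => ⟨fun ha => hcon a ha, fun ha => ?_⟩
    by_contra h
    have := subring_eq_top hr hcard ((qFrob hF).eqLocus (RingHom.id F)) hcon ⟨a, ha, h⟩
    obtain ⟨b, hb⟩ := qFrob_ne hF
    exact hb (show b ∈ (qFrob hF).eqLocus (RingHom.id F) by simp [this])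
  have h2 : Nat.card F₀ = q := by
    rw [← Asch.card_fixed_pow (L := F) q hq (by
      rw [Nat.card_eq_fintype_card, hF]; simpa using Nat.sub_one_dvd_pow_sub_one q 2)]
    exact Nat.card_congr (Equiv.subtypeEquivRight h1)
  rw [h2, hF] at hcard
  have := Nat.pow_right_injective hq hcard
  rw [← this] at hro
  exact absurd hro (by decide)

theorem ratOK_odd {F₀ : Subfield F} {r : ℕ} (hr : r.Prime) (hro : Odd r)
    (hcard : Fintype.card F = Nat.card F₀ ^ r) {P : GL (Fin n) F}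
    (hP : IsFormRationalStructure (hermForm n F q) F₀ 1 P) : (uStd hF n).RatOK (stdRat F₀ P) := by
  have hσ0 : ∀ a ∈ F₀, qFrob hF a ∈ F₀ := fun a ha => F₀.pow_mem ha q
  obtain ⟨a, ha, ha'⟩ := exists_ne_odd hF hr hro hcard
  refine ⟨θσ hF F₀ P, B_mem hF hP, fun x hx => ?_⟩
  obtain ⟨t, ht⟩ := exists_trace_one ((qFrob hF).restrict F₀ F₀ hσ0)
    (fun a => Subtype.ext (qFrob_qFrob hF a)) ⟨⟨a, ha⟩, fun h => ha' (congrArg Subtype.val h)⟩
  refine ⟨t * (uStd hF n).B x x, F₀.mul_mem t.2 (B_mem hF hP x x hx hx), ?_⟩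
  rw [Polar.val_iff_of_unitary (σ_ne hF) rfl, map_mul, Polar.σ_B_self rfl, ← add_mul,
    show (t : F) + (uStd hF n).σ t = 1 from congrArg Subtype.val ht, one_mul]

theorem subfield_odd (hn : 8 ≤ n) (F₀ : Subfield F) (r : ℕ) (P : GL (Fin n) F) (hr : r.Prime)
    (hro : Odd r) (hcard : Fintype.card F = Nat.card F₀ ^ r)
    (hP : IsFormRationalStructure (hermForm n F q) F₀ 1 P) :
    IsMaximalIn (GU n F q ⊓ specialLinear (Fin n) F)
      (subfieldSubgroup F₀ P ⊓ (GU n F q ⊓ specialLinear (Fin n) F)) := by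
  have : Nonempty (Fin n) := ⟨⟨0, by omega⟩⟩
  have hn' : finrank F (Fin n → F) = n := by simp
  have h := ratOK_odd hF hr hro hcard hP
  obtain ⟨a, ha, ha'⟩ := exists_ne_odd hF hr hro hcard
  obtain ⟨c₀, hc₀, hc₀'⟩ := Polar.exists_lam_ne_of_unitary (P := h.restrict)
    ⟨⟨a, ha⟩, fun h => ha' (congrArg Subtype.val h)⟩ rfl
  refine isMaximalIn_of_equiv toLE (mem_SU_iff hF (by omega)) (fun g => ?_)
    (h.N_maximal (h.wild_three (Or.inl rfl)) (by omega) (by omega)
      (exists_notMem_subfield hr hcard) (subring_eq_top hr hcard) (fun c hc => ?_)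
      (Or.inl ⟨c₀, c₀.2, fun h => hc₀ (Subtype.ext h), hc₀'⟩))
  · rw [Subgroup.mem_inf, mem_SU_iff hF (by omega), mem_subfieldSubgroup_iff_N, Subgroup.mem_inf]
  · obtain ⟨a, ha⟩ := Polar.lam_of_unitary (σ_ne hF) rfl hc
    exact ⟨a, 0, 0, F₀.zero_mem, Polar.val_zero, by simpa using ha⟩

theorem ratOK_orth (hodd : Odd q) {F₀ : Subfield F} {P : GL (Fin n) F}
    (hP : IsFormRationalStructure (hermForm n F q) F₀ 1 P) : (uStd hF n).RatOK (stdRat F₀ P) := by
  have h2 : (2 : F) ≠ 0 := two_ne_zero_of_odd_card (by rw [hF]; exact hodd.pow)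
  refine ⟨θσ hF F₀ P, B_mem hF hP, fun x hx => ?_⟩
  refine ⟨(uStd hF n).B x x / 2, F₀.div_mem (B_mem hF hP x x hx hx) (by simp), ?_⟩
  rw [Polar.val_iff_of_unitary (σ_ne hF) rfl, map_div₀, Polar.σ_B_self rfl, map_ofNat]
  field_simp
  ring

theorem subfield_orth (hn : 8 ≤ n) (hodd : Odd q) (F₀ : Subfield F) (P : GL (Fin n) F)
    (hcard : Fintype.card F = Nat.card F₀ ^ 2)
    (hP : IsFormRationalStructure (hermForm n F q) F₀ 1 P) :
    IsMaximalIn (GU n F q ⊓ specialLinear (Fin n) F)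
      (subfieldSubgroup F₀ P ⊓ (GU n F q ⊓ specialLinear (Fin n) F)) := by
  have : Nonempty (Fin n) := ⟨⟨0, by omega⟩⟩
  have hn' : finrank F (Fin n → F) = n := by simp
  have h := ratOK_orth hF hodd hP
  refine isMaximalIn_of_equiv toLE (mem_SU_iff hF (by omega)) (fun g => ?_)
    (h.N_maximal (h.wild_three (Or.inl rfl)) (by omega) (by omega)
      (exists_notMem_subfield Nat.prime_two hcard) (subring_eq_top Nat.prime_two hcard)
      (fun c hc => ?_) (Or.inr (Or.inr (stdRat_τ_τ hcard P))))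
  · rw [Subgroup.mem_inf, mem_SU_iff hF (by omega), mem_subfieldSubgroup_iff_N, Subgroup.mem_inf]
  · obtain ⟨a, ha⟩ := Polar.lam_of_unitary (σ_ne hF) rfl hc
    exact ⟨a, 0, 0, F₀.zero_mem, Polar.val_zero, by simpa using ha⟩

theorem fix_iff {F₀ : Subfield F} (hcard : Fintype.card F = Nat.card F₀ ^ 2) (a : F) :
    (uStd hF n).σ a = a ↔ a ∈ F₀ := by
  have hq : Nat.card F₀ = q := by
    rw [hF] at hcard
    exact (Nat.pow_left_injective two_ne_zero hcard).symm
  rw [← subFrob_iff, subFrob_apply, hq, unitPowPolar_σ]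

theorem σ_skew {ζ : F} (hζ : ζ + ζ ^ q = 0) : (uStd hF n).σ ζ = -1 * ζ := by
  rw [unitPowPolar_σ]; linear_combination hζ

theorem ratOK_sp {F₀ : Subfield F} {P : GL (Fin n) F} {ζ : F} (hζ0 : ζ ≠ 0) (hζ : ζ + ζ ^ q = 0)
    (hP : IsFormRationalStructure (hermForm n F q) F₀ ζ P)
    (halt : ∀ u : Fin n → F, (∀ i, u i ∈ F₀) →
      hermForm n F q (Matrix.mulVec (P : Matrix (Fin n) (Fin n) F) u)
        (Matrix.mulVec (P : Matrix (Fin n) (Fin n) F) u) = 0) :
    ((uStd hF n).scale hζ0 (Or.inr rfl) (σ_skew hF hζ)).RatOK (stdRat F₀ P) :=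
  ⟨θσ hF F₀ P, fun x y hx hy => by
    obtain ⟨u, hu, rfl⟩ := stdRat_fix hx
    obtain ⟨v, hv, rfl⟩ := stdRat_fix hy
    exact hP u v hu hv, fun x hx => by
    obtain ⟨u, hu, rfl⟩ := stdRat_fix hx
    refine ⟨0, F₀.zero_mem, ?_⟩
    rw [Polar.scale_val, zero_div, Polar.sing_iff_of_unitary (σ_ne hF) rfl]
    exact halt u hu⟩

theorem subfield_sp (hn : 8 ≤ n) (F₀ : Subfield F) (P : GL (Fin n) F) (ζ : F)
    (hcard : Fintype.card F = Nat.card F₀ ^ 2) (hζ0 : ζ ≠ 0) (hζ : ζ + ζ ^ q = 0)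
    (hP : IsFormRationalStructure (hermForm n F q) F₀ ζ P)
    (halt : ∀ u : Fin n → F, (∀ i, u i ∈ F₀) →
      hermForm n F q (Matrix.mulVec (P : Matrix (Fin n) (Fin n) F) u)
        (Matrix.mulVec (P : Matrix (Fin n) (Fin n) F) u) = 0) :
    IsMaximalIn (GU n F q ⊓ specialLinear (Fin n) F)
      (subfieldSubgroup F₀ P ⊓ (GU n F q ⊓ specialLinear (Fin n) F)) := by
  have : Nonempty (Fin n) := ⟨⟨0, by omega⟩⟩
  have hn' : finrank F (Fin n → F) = n := by simp
  have h := ratOK_sp hF hζ0 hζ hP halt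
  have := h.N_maximal (h.wild_three (Or.inr fun a ha => (fix_iff (n := n) hF hcard a).2 ha)) (by omega)
    (by omega) (exists_notMem_subfield Nat.prime_two hcard) (subring_eq_top Nat.prime_two hcard)
    (fun c hc => ⟨0, 1, c, ?_, hc, by simp⟩) (Or.inr (Or.inr (stdRat_τ_τ hcard P)))
  · rw [Polar.scale_E] at this
    refine isMaximalIn_of_equiv toLE (mem_SU_iff hF (by omega)) (fun g => ?_) this
    rw [Subgroup.mem_inf, mem_SU_iff hF (by omega), mem_subfieldSubgroup_iff_N, Subgroup.mem_inf]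
  · have := Polar.lam_σ hc
    rw [Polar.scale_σ, Polar.scale_ε, unitPowPolar_ε] at this
    rw [← fix_iff hF hcard (n := n), this]
    ring

end Cfsg.Agent.H7.GenSU
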