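import Cfsg.Agent.H7.OInSp
import Cfsg.Agent.H7.Nondeg2
import Cfsg.Agent.H7.NondegO
import Cfsg.Agent.H7.TsPair2
import Cfsg.Agent.H7.Parabolic
import Cfsg.Agent.H7.SubInst
import Cfsg.Agent.H8.LamBlk
import Cfsg.Agent.Asch.Forms

/-!
Maximal subgroups of `Sp_2m(q)` in matrix form, for small `m`.
-/

set_option autoImplicit false
set_option linter.unusedSectionVars false

namespace Cfsg.Agent.H7

open Module

namespace Polar

variable {F : Type*} [Field F] {V : Type*} [AddCommGroup V] [Module F V] {P S : Polar F V}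
variable [Finite F] [FiniteDimensional F V]

theorem Iso_maximal_sp' (h2 : (2 : F) = 0) (hB : ∀ x y, P.B x y = S.B x y)
    (hσ : ∀ a, P.σ a = a) (hσ' : ∀ a, S.σ a = a) (hS : ∀ x c, S.Val x c)
    (hΛ : ∀ c, P.Val 0 c → c = 0) (hn : 4 ≤ finrank F V) : Geo.IsMaximalIn S.E P.Iso := by
  have hw : P.Wild 3 := wild_three_of_σ hσ
  have hε : ∀ T : Polar F V, T.ε = 1 := fun T =>
    T.εε.elim id fun h => by rw [h]; linear_combination -h2
  have huniq : ∀ x c c', P.Val x c → P.Val x c' → c = c' := fun x c c' h h' =>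
    sub_eq_zero.1 (hΛ _ (val_sub_val h h'))
  have hIso : ∀ g : V ≃ₗ[F] V, g ∈ S.E ↔ ∀ x y, P.B (g x) (g y) = P.B x y := by
    intro g
    rw [E_eq_Iso fun x => hS x 0]
    simp only [hB]
    exact ⟨fun h => h.1, fun h => ⟨h, fun _ _ _ => hS _ _⟩⟩
  have heich : ∀ u w c x, P.eich u w c x = S.eich u w c x := by
    intro u w c x
    simp only [eich, hB, hε, hσ, hσ']
  obtain ⟨u1, -, hu1, hu1s⟩ := hw ⊤ (by rw [finrank_top]; omega)
  refine isMaximalIn_of (fun g hg => (hIso g).2 hg.1) ?_ fun X hHX hXE g hg hgH => ?_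
  · refine ⟨_, eichE_mem_E (P := S) (hS u1 0) (w := 0) (by simp) (hS 0 1), fun h => ?_⟩
    obtain ⟨x, hx⟩ := P.exists_B_ne hu1
    replace hx := P.B_ne_symm hx
    obtain ⟨c, hc⟩ := P.val_ex x
    have h1 := Iso.val h hc
    have h3 := val_add_sing hc hu1s (-P.B x u1)
    have h4 : S.eich u1 0 1 x = x + (-P.B x u1) • u1 := by simp [eich, hB, sub_eq_add_neg]
    rw [eichE_apply, h4] at h1
    have := huniq _ _ _ h1 h3
    simp [hσ, hx] at this
  have hg' := (hIso g).1 (hXE hg)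
  have hgS : g ∈ S.Iso := E_le_Iso (hXE hg)
  obtain ⟨v, c, hc, hc0, hv⟩ : ∃ v c, P.Val v c ∧ c ≠ 0 ∧ P.Val (g v) 0 := by
    by_contra! hcon
    let N : Submodule F V :=
      { carrier := {x | ∀ c, P.Val x c → P.Val (g.symm x) c}
        zero_mem' := fun c hc => by simpa using hc
        add_mem' := fun {x y} hx hy c hc => by
          obtain ⟨a, ha⟩ := P.val_ex x
          obtain ⟨b, hb⟩ := P.val_ex y
          rw [huniq _ _ _ hc (P.val_add ha hb), map_add]
          refine val_congr (P.val_add (hx a ha) (hy b hb)) ?_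
          rw [← hg', g.apply_symm_apply, g.apply_symm_apply]
        smul_mem' := fun a x hx c hc => by
          obtain ⟨b, hb⟩ := P.val_ex x
          rw [huniq _ _ _ hc (P.val_smul a hb), map_smul]
          exact P.val_smul a (hx b hb) }
    have hN : N = ⊤ := eq_top_of_forall_sing hw (by omega) fun x hx c hc => by
      obtain ⟨b, hb⟩ := P.val_ex (g.symm x)
      by_cases h0 : b = 0
      · rw [huniq _ _ _ hc hx, ← h0]; exact hb
      · exact absurd (by simpa using hx) (hcon _ b hb h0)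
    refine hgH (mem_Iso_of hg' fun x => ?_)
    obtain ⟨b, hb⟩ := P.val_ex (g x)
    exact ⟨b, by simpa using (show g x ∈ N by simp [hN]) b hb, hb⟩
  have hv0 : g v ≠ 0 := by
    intro h
    have : v = 0 := by simpa using h
    exact hc0 (hΛ c (this ▸ hc))
  have h1 : S.EI X (g v) 0 c⁻¹ := by
    have : S.EI X v 0 c⁻¹ := ⟨_, hHX (reflE_mem_Iso hc hc0), fun x => by
      rw [reflE_apply, refl_eq_eich, hσ, heich]⟩
    simpa using this.conj hg hgS
  have key : ∀ u, P.Val u 0 → u ≠ 0 → S.FullA X u := by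
    intro u hu hu0 w e hwu _
    obtain ⟨b, hb⟩ := P.val_ex w
    have h3 : S.EI X u w b :=
      ⟨_, hHX (eichE_mem_Iso hu (by rwa [hB]) hb), fun x => by rw [eichE_apply, heich]⟩
    have h4 : S.EI X u 0 (e - b) := by
      by_cases h0 : e - b = 0
      · rw [h0]; exact EI.zero u
      obtain ⟨a, ha⟩ := exists_mul_self_of_two h2 ((e - b) * c)
      have ha0 : a ≠ 0 := by rintro rfl; simp [h0, hc0] at ha
      obtain ⟨t, ht, -, htv⟩ := witt_vec (U := ⊥) hv0 (smul_ne_zero ha0 hu0) (by simp) hv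
        (sing_smul hu a)
      have h5 := h1.conj (hHX ht) (E_le_Iso ((hIso t).2 ht.1))
      rw [htv, map_zero, EI.smul_iff, smul_zero] at h5
      refine h5.congr rfl ?_
      rw [hσ', ha]; field_simp
    exact (h3.add h4 (hS u 0) hwu (by simp)).congr (by simp) (by simp)
  obtain ⟨u2, -, hu2, hu12⟩ := exists_hyperbolic (U := ⊥) hu1s hu1 (by simp [perp_bot]) 1
    one_ne_zero
  exact E_le_of_fullA (hS u2 0) (hS u1 0) (key u2 hu2 (by rintro rfl; simp at hu12))
    (key u1 hu1s hu1) (by rw [← hB, hu12]; exact one_ne_zero)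

end Polar

namespace GenSp

open Geo

variable {F : Type*} [Field F] [Fintype F] {m : ℕ}

theorem parabolic (W : Submodule F (Fin m ⊕ Fin m → F)) (hW0 : W ≠ ⊥)
    (hW : IsTotallySingularFor (sympForm m F) W) :
    IsMaximalIn (spGL m F) (subspaceStabilizer W ⊓ spGL m F) := by
  refine isMaximalIn_of_equiv toLE (mem_spGL_iff m) (fun g => ?_)
    (Polar.parabolic_maximal (P := spStd m F) hW0 (fun _ _ => trivial)
      (fun x hx y hy => hW x hx y hy) (Or.inl ⟨1, one_ne_zero, trivial⟩)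
      (Or.inl ⟨1, one_ne_zero, trivial⟩))
  simp only [Subgroup.mem_inf, mem_spGL_iff, mem_subspaceStabilizer_iff]

theorem nondeg (hm : 3 ≤ m) (W : Submodule F (Fin m ⊕ Fin m → F)) (hW0 : W ≠ ⊥)
    (hW : IsNondegenerateOn (sympForm m F) W) (hdim : finrank F W < m) :
    IsMaximalIn (spGL m F) (subspaceStabilizer W ⊓ spGL m F) := by
  have hn := finrank_sum_fun (F := F) m
  refine isMaximalIn_of_equiv toLE (mem_spGL_iff m) (fun g => ?_)
    (Polar.nondeg_maximal_lam (P := spStd m F) (spPolar_wild _)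
      (Polar.reflCongr_of (spPolar_wild _) (by omega)) ⟨1, one_ne_zero, trivial⟩
      ((inf_perp_iff_nondegenerateOn _ (fun _ _ => rfl)).2 hW) hW0 (by omega) (by omega) (by omega))
  simp only [Subgroup.mem_inf, mem_spGL_iff, mem_subspaceStabilizer_iff]

theorem decomp (hm : 3 ≤ m) {t k : ℕ} (D : Fin t → Submodule F (Fin m ⊕ Fin m → F))
    (hD : IsNondegenerateMDecomposition (sympForm m F) k D)
    (hex : ¬ (k = 2 ∧ Fintype.card F = 2)) :
    IsMaximalIn (spGL m F) (decompositionStabilizer D ⊓ spGL m F) := by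
  have hn := finrank_sum_fun (F := F) m
  refine isMaximalIn_of_equiv toLE (mem_spGL_iff m) (fun g => ?_)
    ((H8.pDec_of_geo (P := spStd m F) (Or.inl fun _ _ => trivial) (fun _ _ => rfl) hD).maximal_sp
      (fun _ _ => trivial) (by omega) (by simpa using hD.decomp.two_le) hex)
  simp only [Subgroup.mem_inf, mem_spGL_iff, mem_decompositionStabilizer_iff]

theorem tsPair (hm : 3 ≤ m) (hodd : Odd (Fintype.card F)) {k : ℕ}
    (D : Fin 2 → Submodule F (Fin m ⊕ Fin m → F)) (hD : IsMDecomposition k D)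
    (hts : ∀ i, IsTotallySingularFor (sympForm m F) (D i)) :
    IsMaximalIn (spGL m F) (decompositionStabilizer D ⊓ spGL m F) := by
  have hn := finrank_sum_fun (F := F) m
  refine isMaximalIn_of_equiv toLE (mem_spGL_iff m) (fun g => ?_)
    (Polar.tsPair_maximal_lam (P := spStd m F) (spPolar_wild _) (by omega) (by omega)
      (D := D) ⟨fun _ _ => trivial, fun _ _ => trivial, fun x hx y hy => hts 0 x hx y hy,
        fun x hx y hy => hts 1 x hx y hy, isCompl_of_two hD.indep hD.iSup_eq_top⟩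
      (fun c _ => ⟨c / 2, ?_⟩) ⟨1, one_ne_zero, trivial⟩)
  · simp only [Subgroup.mem_inf, mem_spGL_iff, mem_decompositionStabilizer_iff]
  · have := two_ne_zero_of_odd_card hodd
    rw [spPolar_σ, spPolar_ε]
    field_simp
    ring

theorem σ_eq (ζ : F) : (spStd m F).σ ζ = 1 * ζ := (one_mul ζ).symm

theorem ratOK {F₀ : Subfield F} {P : GL (Fin m ⊕ Fin m) F} {ζ : F} (hζ : ζ ≠ 0)
    (hP : IsFormRationalStructure (sympForm m F) F₀ ζ P) :
    ((spStd m F).scale hζ (Or.inl rfl) (σ_eq ζ)).RatOK (stdRat F₀ P) :=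
  ⟨fun _ => rfl, fun x y hx hy => by
    obtain ⟨u, hu, rfl⟩ := stdRat_fix hx
    obtain ⟨v, hv, rfl⟩ := stdRat_fix hy
    exact hP u v hu hv, fun x _ => ⟨0, F₀.zero_mem, trivial⟩⟩

theorem subfield (hm : 4 ≤ m) (F₀ : Subfield F) (r : ℕ) (P : GL (Fin m ⊕ Fin m) F) (ζ : F)
    (hr : r.Prime) (hcard : Fintype.card F = Nat.card F₀ ^ r) (hζ : ζ ≠ 0)
    (hP : IsFormRationalStructure (sympForm m F) F₀ ζ P) :
    IsMaximalIn (spGL m F) (subfieldSubgroup F₀ P ⊓ spGL m F) := by
  have : Nonempty (Fin m ⊕ Fin m) := ⟨.inl ⟨0, by omega⟩⟩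
  have hn := finrank_sum_fun (F := F) m
  have h := ratOK hζ hP
  have := h.N_maximal (h.wild_three (Or.inr fun _ _ => rfl)) (by omega) (by omega)
    (exists_notMem_subfield hr hcard) (subring_eq_top hr hcard) (fun c _ => ?_)
    (Or.inl ⟨1, F₀.one_mem, one_ne_zero, trivial⟩)
  · rw [Polar.scale_E] at this
    refine isMaximalIn_of_equiv toLE (mem_spGL_iff m) (fun g => ?_) this
    rw [Subgroup.mem_inf, mem_spGL_iff, mem_subfieldSubgroup_iff_N, Subgroup.mem_inf]
  · simp only [Polar.scale_σ, Polar.scale_ε, spPolar_σ, spPolar_ε]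
    by_cases h2 : (2 : F) = 0
    · obtain ⟨l, hl⟩ := Asch.exists_sq_of_two_eq_zero h2 c
      exact ⟨0, l, 1, F₀.one_mem, trivial, by simp [hl]⟩
    · exact ⟨c / 2, 0, 0, F₀.zero_mem, trivial, by field_simp; ring⟩

theorem orth (hm : 2 ≤ m) (heven : ¬ Odd (Fintype.card F)) (Q : (Fin m ⊕ Fin m → F) → F)
    (hQ : IsNondegenerateQuadraticForm Q)
    (hpol : ∀ u v, QuadraticMap.polar Q u v = sympForm m F u v) :
    IsMaximalIn (spGL m F) (quadSimilarityGroup Q ⊓ spGL m F) := by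
  refine isMaximalIn_of_equiv toLE (mem_spGL_iff m) (fun g => ?_)
    (Polar.Iso_maximal_sp' (P := oPolar hQ) (S := spStd m F)
      (two_eq_zero_of_not_odd_card heven) hpol (fun _ => rfl) (fun _ => rfl)
      (fun _ _ => trivial) (oPolar_lam hQ) (by rw [finrank_sum_fun]; omega))
  rw [Subgroup.mem_inf, mem_spGL_iff_Iso, mem_oPolar_Iso]
  refine ⟨fun ⟨⟨c, hc⟩, h⟩ x => ?_, fun h => ⟨⟨1, by simpa using h⟩, ?_⟩⟩
  · obtain ⟨a, ha⟩ : ∃ a : Fin m ⊕ Fin m → F, a ≠ 0 :=
      ⟨Pi.single (.inl ⟨0, by omega⟩) 1, by simp⟩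
    obtain ⟨b, hb⟩ := (oPolar hQ).exists_B_ne ha
    have h1 := h.1 a b
    simp only [spPolar_B, ← hpol, QuadraticMap.polar, toLE_apply, ← Matrix.mulVec_add,
      hc] at h1
    simp only [oPolar_B, QuadraticMap.polar] at hb
    have : (c : F) = 1 := by
      apply mul_right_cancel₀ hb
      linear_combination h1
    rw [toLE_apply, hc, this, one_mul]
  · rw [mem_spPolar_Iso]
    intro x y
    simp only [← hpol, QuadraticMap.polar, ← map_add, h]

end GenSp

end Cfsg.Agent.H7
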