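import Cfsg.Agent.H8.OBlk

/-!
The odd product trick: a subgroup `H` of `X` controlling a set `Z` of involutions.
-/

set_option autoImplicit false
set_option linter.unusedSectionVars false

namespace Cfsg.Agent.H7

open Module H8 H7.Polar

section abstract

variable {G : Type*} [Group G]

theorem dih_semi {a b : G} (ha : a * a = 1) (hb : b * b = 1) (j : ℕ) :
    a * (a * b) ^ j = ((a * b) ^ j)⁻¹ * a := by
  have h : SemiconjBy a (a * b) (a * b)⁻¹ := by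
    unfold SemiconjBy
    rw [← mul_assoc, ha, one_mul, mul_inv_rev, mul_assoc, inv_mul_cancel, mul_one,
      inv_eq_of_mul_eq_one_right hb]
  have := h.pow_right j
  rw [inv_pow] at this
  exact this

theorem dih_semi' {a b : G} (ha : a * a = 1) (hb : b * b = 1) (j : ℕ) :
    a * ((a * b) ^ j)⁻¹ = (a * b) ^ j * a := by
  rw [mul_inv_eq_iff_eq_mul, mul_assoc, dih_semi ha hb, mul_inv_cancel_left]

theorem dih_conj {a b : G} (ha : a * a = 1) (hb : b * b = 1) {X : Subgroup G} (haX : a ∈ X)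
    (hbX : b ∈ X) (i : ℕ) :
    ∃ d ∈ X, (a * b) ^ i * a = d * a * d⁻¹ ∨ (a * b) ^ i * a = d * b * d⁻¹ := by
  obtain ⟨j, rfl | rfl⟩ := Nat.even_or_odd' i
  · refine ⟨(a * b) ^ j, X.pow_mem (X.mul_mem haX hbX) _, Or.inl ?_⟩
    rw [mul_assoc ((a * b) ^ j), dih_semi' ha hb, ← mul_assoc, ← pow_add, two_mul]
  · refine ⟨(a * b) ^ (j + 1), X.pow_mem (X.mul_mem haX hbX) _, Or.inr ?_⟩
    have h1 : (a * b) ^ (j + 1) * b = (a * b) ^ j * a := by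
      rw [pow_succ, mul_assoc, mul_assoc, hb, mul_one]
    rw [h1, mul_assoc ((a * b) ^ j), dih_semi' ha hb, ← mul_assoc, ← pow_add]
    congr 2
    ring

theorem eq_of_odd_of_sq {x y : G} (hx : Odd (orderOf x)) (hy : Odd (orderOf y))
    (h : x * x = y * y) : x = y := by
  obtain ⟨k, hk⟩ := hx.mul hy
  have h1 : ∀ z : G, orderOf z ∣ 2 * k + 1 → z = (z * z) ^ (k + 1) := fun z hz => by
    rw [← sq, ← pow_mul, show 2 * (k + 1) = 2 * k + 1 + 1 by ring, pow_succ,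
      orderOf_dvd_iff_pow_eq_one.1 hz, one_mul]
  rw [h1 x (hk ▸ Dvd.intro _ rfl), h1 y (hk ▸ Dvd.intro_left _ rfl), h]

/-- conjugates under `X` of elements of `Z` -/
def Cjs (X : Subgroup G) (Z : Set G) (s : G) : Prop := ∃ g ∈ X, ∃ t ∈ Z, s = g * t * g⁻¹

/-- The hypotheses of the odd product trick. -/
structure OddCtx (X H : Subgroup G) (Z : Set G) : Prop where
  le : H ≤ X
  mem : ∀ t ∈ Z, t ∈ H
  sq : ∀ t ∈ Z, t * t = 1
  conj : ∀ h ∈ H, ∀ t ∈ Z, h * t * h⁻¹ ∈ Z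
  hD : ∀ g ∈ X, ∀ t ∈ Z, g * t * g⁻¹ ∈ H → g ∈ H
  hE : ∀ g ∈ X, ∀ t ∈ Z, ∀ t₁ ∈ Z, ∀ τ ∈ Z, ∀ τ₁ ∈ Z, t ≠ t₁ → t * t₁ = t₁ * t →
    t * t₁ = g * (τ * τ₁) * g⁻¹ → g ∈ H

namespace OddCtx

variable {X H : Subgroup G} {Z : Set G} (hC : OddCtx X H Z)
include hC

theorem cjs_mem {s : G} (h : Cjs X Z s) : s ∈ X := by
  obtain ⟨g, hg, t, ht, rfl⟩ := h
  exact X.mul_mem (X.mul_mem hg (hC.le (hC.mem t ht))) (X.inv_mem hg)

theorem cjs_sq {s : G} (h : Cjs X Z s) : s * s = 1 := by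
  obtain ⟨g, -, t, ht, rfl⟩ := h
  rw [conj_mul, hC.sq t ht, mul_one, mul_inv_cancel]

omit hC in
theorem cjs_conj {s : G} (h : Cjs X Z s) {d : G} (hd : d ∈ X) : Cjs X Z (d * s * d⁻¹) := by
  obtain ⟨g, hg, t, ht, rfl⟩ := h
  exact ⟨d * g, X.mul_mem hd hg, t, ht, by group⟩

omit hC in
theorem cjs_self {t : G} (ht : t ∈ Z) : Cjs X Z t := ⟨1, X.one_mem, t, ht, by simp⟩

theorem mem_Z {s : G} (h : Cjs X Z s) (hs : s ∈ H) : s ∈ Z := by
  obtain ⟨g, hg, t, ht, rfl⟩ := h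
  exact hC.conj g (hC.hD g hg t ht hs) t ht

theorem mem_of_comm {x t : G} (hx : x ∈ X) (ht : t ∈ Z) (h : x * t = t * x) : x ∈ H :=
  hC.hD x hx t ht (by rw [h, mul_inv_cancel_right]; exact hC.mem t ht)

theorem cjs_dih {a b : G} (ha : Cjs X Z a) (hb : Cjs X Z b) (i : ℕ) :
    Cjs X Z ((a * b) ^ i * a) := by
  obtain ⟨d, hd, h | h⟩ := dih_conj (hC.cjs_sq ha) (hC.cjs_sq hb) (hC.cjs_mem ha) (hC.cjs_mem hb) i
  · rw [h]; exact cjs_conj ha hd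
  · rw [h]; exact cjs_conj hb hd

variable [Finite G]

theorem odd {g : G} (hg : g ∈ X) (hg' : g ∉ H) {t τ : G} (ht : t ∈ Z) (hτ : τ ∈ Z) :
    Odd (orderOf (t * (g * τ * g⁻¹))) := by
  set b := g * τ * g⁻¹ with hb
  have hbc : Cjs X Z b := ⟨g, hg, τ, hτ, rfl⟩
  have htc : Cjs X Z t := cjs_self ht
  have ht2 := hC.sq t ht
  have hb2 := hC.cjs_sq hbc
  by_contra h
  obtain ⟨k, hk⟩ := Nat.not_odd_iff_even.1 h
  have hpos := orderOf_pos (t * b)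
  set c := (t * b) ^ k with hc
  have hc1 : c ≠ 1 := pow_ne_one_of_lt_orderOf (by omega) (by omega)
  have hc2 : c * c = 1 := by rw [hc, ← pow_add, ← hk, pow_orderOf_eq_one]
  have hci : c⁻¹ = c := inv_eq_of_mul_eq_one_right hc2
  have h1 : t * c = c * t := by rw [hc, dih_semi ht2 hb2, ← hc, hci]
  have hc' : (b * t) ^ k = c := by
    rw [← hci, hc, ← inv_pow, mul_inv_rev, inv_eq_of_mul_eq_one_right ht2,
      inv_eq_of_mul_eq_one_right hb2]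
  have h2 : b * c = c * b := by
    conv_lhs => rw [← hc', dih_semi hb2 ht2, hc', hci]
  have h3 : Cjs X Z (c * t) := hC.cjs_dih htc hbc k
  have h4 : Cjs X Z (c * b) := hc' ▸ hC.cjs_dih hbc htc k
  have h5 : c * t ∈ Z := hC.mem_Z h3 (hC.mem_of_comm (hC.cjs_mem h3) ht (by
    rw [← mul_assoc, h1]))
  have h6 := cjs_conj h4 (X.inv_mem hg)
  have h7 : g⁻¹ * (c * b) * g⁻¹⁻¹ ∈ Z := hC.mem_Z h6 (hC.mem_of_comm (hC.cjs_mem h6) hτ (by
    have : τ = g⁻¹ * b * g⁻¹⁻¹ := by rw [hb]; group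
    rw [this, conj_mul, conj_mul, ← mul_assoc b, h2]))
  have h8 : t * (c * t) = c := by rw [← mul_assoc, h1, mul_assoc, ht2, mul_one]
  refine hg' (hC.hE g hg t ht _ h5 τ hτ _ h7 (fun h => hc1 ?_) ?_ ?_)
  · rw [← h8, ← h, ht2]
  · rw [h8, mul_assoc, ht2, mul_one]
  · rw [h8]
    have : g * (τ * (g⁻¹ * (c * b) * g⁻¹⁻¹)) * g⁻¹ = b * (c * b) := by rw [hb]; group
    rw [this, ← mul_assoc, h2, mul_assoc, hb2, mul_one]

theorem odd' {t s : G} (ht : t ∈ Z) (hs : Cjs X Z s) (hs' : s ∉ H) : Odd (orderOf (t * s)) := by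
  obtain ⟨g, hg, τ, hτ, rfl⟩ := hs
  exact hC.odd hg (fun h => hs' (hC.mem _ (hC.conj g h τ hτ))) ht hτ

theorem exists_swap {t b : G} (ht : t ∈ Z) (hb : Cjs X Z b) (hb' : b ∉ H) :
    ∃ s, Cjs X Z s ∧ s ∉ H ∧ s * t * s = b := by
  obtain ⟨k, hk⟩ := hC.odd' ht hb hb'
  have ht2 := hC.sq t ht
  have hb2 := hC.cjs_sq hb
  have h1 := hC.cjs_dih (cjs_self ht) hb k
  have h2 : (t * b) ^ k * t * t * ((t * b) ^ k * t) = b := by
    rw [mul_assoc _ t t, ht2, mul_one, ← mul_assoc, ← pow_add]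
    have h3 : (t * b) ^ (k + k) * (t * b) = 1 := by
      rw [← pow_succ, ← two_mul, ← hk, pow_orderOf_eq_one]
    rw [eq_inv_of_mul_eq_one_left h3, mul_inv_rev, mul_assoc, inv_mul_cancel, mul_one,
      inv_eq_of_mul_eq_one_right hb2]
  refine ⟨_, h1, fun h => hb' ?_, h2⟩
  rw [← h2]
  exact H.mul_mem (H.mul_mem h (hC.mem t ht)) h

theorem eq_of_comm {s s' t : G} (hs : Cjs X Z s) (hs1 : s ∉ H) (hs' : Cjs X Z s') (hs1' : s' ∉ H)
    (ht : t ∈ Z) (h : s * s' * t = t * (s * s')) : s = s' := by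
  have h1 := hC.cjs_sq hs
  have h2 := hC.cjs_sq hs'
  refine mul_left_cancel (a := t) (eq_of_odd_of_sq (hC.odd' ht hs hs1) (hC.odd' ht hs' hs1') ?_)
  have : s * t * s = s' * t * s' := by
    calc s * t * s = s * (t * (s * s')) * s' := by simp only [mul_assoc, h2, mul_one]
      _ = s' * t * s' := by rw [← h, ← mul_assoc, ← mul_assoc, h1, one_mul]
  simp only [mul_assoc] at this ⊢
  rw [this]

theorem odd_or {s s' : G} (hs : Cjs X Z s) (hs' : Cjs X Z s') :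
    Odd (orderOf (s * s')) ∨ ∃ g ∈ X, ∃ t ∈ Z, ∃ t' ∈ Z, s * s' = g * (t * t') * g⁻¹ := by
  obtain ⟨g, hg, t, ht, rfl⟩ := hs
  have h1 := cjs_conj hs' (X.inv_mem hg)
  have h2 : g * t * g⁻¹ * s' = g * (t * (g⁻¹ * s' * g⁻¹⁻¹)) * g⁻¹ := by group
  by_cases h : g⁻¹ * s' * g⁻¹⁻¹ ∈ H
  · exact Or.inr ⟨g, hg, t, ht, _, hC.mem_Z h1 h, h2⟩
  · left
    have := hC.odd' ht h1 h
    rwa [h2, show g * (t * (g⁻¹ * s' * g⁻¹⁻¹)) * g⁻¹ = MulAut.conj g (t * (g⁻¹ * s' * g⁻¹⁻¹)) from rfl,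
      MulEquiv.orderOf_eq]

/-- The swapping involutions. -/
theorem exists_swaps {g : G} (hg : g ∈ X) (hg' : g ∉ H) {τ : G} (hτ : τ ∈ Z) :
    ∃ s : G → G, (∀ t ∈ Z, Cjs X Z (s t) ∧ s t ∉ H) ∧ ∀ t ∈ Z, ∀ t' ∈ Z,
      s t * s t' ∈ H ∧ s t * s t' * t' = t * (s t * s t') ∧
        (t ≠ t' → ∀ z ∈ Z, s t * s t' * z ≠ z * (s t * s t')) := by
  have hb : Cjs X Z (g * τ * g⁻¹) := ⟨g, hg, τ, hτ, rfl⟩
  have hb' : g * τ * g⁻¹ ∉ H := fun h => hg' (hC.hD g hg τ hτ h)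
  choose! s h1 h2 h3 using fun t (ht : t ∈ Z) => hC.exists_swap ht hb hb'
  refine ⟨s, fun t ht => ⟨h1 t ht, h2 t ht⟩, fun t ht t' ht' => ?_⟩
  have e1 := hC.cjs_sq (h1 t ht)
  have e2 := hC.cjs_sq (h1 t' ht')
  have h4 : s t * s t' * t' = t * (s t * s t') := by
    calc s t * s t' * t' = s t * (s t' * t' * s t') * s t' := by
          simp only [mul_assoc, e2, mul_one]
      _ = s t * (s t * t * s t) * s t' := by rw [h3 t ht, h3 t' ht']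
      _ = _ := by rw [← mul_assoc, ← mul_assoc, e1, one_mul, mul_assoc]
  refine ⟨hC.hD _ (X.mul_mem (hC.cjs_mem (h1 t ht)) (hC.cjs_mem (h1 t' ht'))) t' ht' ?_, h4,
    fun hne z hz h => hne ?_⟩
  · rw [h4, mul_inv_cancel_right]; exact hC.mem t ht
  · have := hC.eq_of_comm (h1 t ht) (h2 t ht) (h1 t' ht') (h2 t' ht') hz h
    rw [this, e2, one_mul, mul_one] at h4
    exact h4.symm

theorem le_of {t t' : G} (ht : t ∈ Z) (ht' : t' ∈ Z) (hne : t ≠ t')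
    (hB : ∀ s s', Cjs X Z s → s ∉ H → Cjs X Z s' → s * s' ∈ H →
      ∃ z ∈ Z, s * s' * z = z * (s * s')) : X ≤ H := by
  intro g hg
  by_contra hg'
  obtain ⟨s, h1, h2⟩ := hC.exists_swaps hg hg' ht
  obtain ⟨h3, -, h4⟩ := h2 t ht t' ht'
  obtain ⟨z, hz, h⟩ := hB _ _ (h1 t ht).1 (h1 t ht).2 (h1 t' ht').1 h3
  exact h4 hne z hz h

end OddCtx

end abstract

end Cfsg.Agent.H7
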