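import Cfsg.Agent.H7.C2Dick

/-!
Orthonormal frames: the standard form, monomial maps, roots.
-/

set_option autoImplicit false
set_option linter.unusedSectionVars false

namespace Cfsg.Agent.H7.Fr

open Module H8 H7.Polar QuadraticMap Matrix Equiv

variable {F : Type*} [Field F] {κ : Type} [Fintype κ] [DecidableEq κ]

variable (F κ) in
/-- the sum of squares -/
def Q0 : QuadraticForm F (κ → F) := LinearMap.BilinMap.toQuadraticMap (dotProductBilin F F)

theorem Q0_apply (x : κ → F) : Q0 F κ x = x ⬝ᵥ x := rfl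

theorem polar_Q0 (x y : κ → F) : polar (Q0 F κ) x y = 2 * (x ⬝ᵥ y) := by
  rw [Q0, LinearMap.BilinMap.polar_toQuadraticMap]
  simp [dotProduct_comm y x, two_mul]

/-- the standard basis -/
def e (i : κ) : κ → F := Pi.single i 1

theorem e_apply (i j : κ) : (e i : κ → F) j = if j = i then 1 else 0 := by
  simp [e, Pi.single_apply]

@[simp] theorem e_self (i : κ) : (e i : κ → F) i = 1 := by simp [e]

theorem e_ne {i j : κ} (h : j ≠ i) : (e i : κ → F) j = 0 := by simp [e, h]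

@[simp] theorem dot_e (x : κ → F) (i : κ) : x ⬝ᵥ e i = x i := by simp [e]

@[simp] theorem e_dot (x : κ → F) (i : κ) : e i ⬝ᵥ x = x i := by simp [e]

theorem e_ne_zero (i : κ) : (e i : κ → F) ≠ 0 := fun h => by simpa using congrFun h i

theorem sum_e (x : κ → F) : ∑ i, x i • e i = x := by
  ext j
  simp [e_apply]

theorem nd0 (h2 : (2 : F) ≠ 0) : ND (Q0 F κ) := fun x hx => by
  ext i
  simpa [polar_Q0, h2] using hx (e i)

theorem rQ0_apply (a x : κ → F) (j : κ) :
    rQ (Q0 F κ) a x j = x j - (a ⬝ᵥ a)⁻¹ * (2 * (x ⬝ᵥ a)) * a j := by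
  simp [rQ_apply, polar_Q0, Q0_apply]

theorem rQ0_e (i : κ) (x : κ → F) (j : κ) :
    rQ (Q0 F κ) (e i) x j = if j = i then -x j else x j := by
  rw [rQ0_apply]
  split_ifs with h
  · simp [h]; ring
  · simp [e_ne h]

variable (F) in
/-- the coordinate lines -/
def D0 (i : κ) : Submodule F (κ → F) := F ∙ e i

theorem mem_D0 {i : κ} {x : κ → F} : x ∈ D0 F i ↔ ∀ l, l ≠ i → x l = 0 := by
  rw [D0, Submodule.mem_span_singleton]
  refine ⟨?_, fun h => ⟨x i, ?_⟩⟩
  · rintro ⟨a, rfl⟩ l hl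
    simp [e_ne hl]
  · ext l
    by_cases hl : l = i
    · simp [hl]
    · simp [e_ne hl, h l hl]

theorem e_mem (i : κ) : e i ∈ D0 F i := Submodule.mem_span_singleton_self _

theorem eq_of_mem_D0 {i : κ} {x : κ → F} (h : x ∈ D0 F i) : x = x i • e i := by
  obtain ⟨a, rfl⟩ := Submodule.mem_span_singleton.1 h
  simp

variable (F κ) in
theorem dec0 : Dec 1 (D0 F : κ → _) where
  pos := one_pos
  dim i := finrank_span_singleton (e_ne_zero i)
  indep := by
    have := (Pi.basisFun F κ).linearIndependent.iSupIndep_span_singleton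
    simp only [Pi.basisFun_apply] at this
    exact this
  top := eq_top_iff.2 fun x _ => by
    rw [← sum_e x]
    exact Submodule.sum_mem _ fun i _ =>
      Submodule.smul_mem _ _ (Submodule.mem_iSup_of_mem i (e_mem i))

theorem pr0 (i : κ) (x : κ → F) : (dec0 F κ).pr i x = x i • e i := by
  conv_lhs => rw [← sum_e x]
  simp [(dec0 F κ).pr_of_mem (e_mem _)]

theorem mem_VS0 {S : Finset κ} {x : κ → F} : x ∈ VS (dec0 F κ) S ↔ ∀ m, m ∉ S → x m = 0 := by
  simp [mem_VS, pr0, e_ne_zero]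

theorem map_D0 {g : (κ → F) ≃ₗ[F] (κ → F)} {i : κ} {W : Submodule F (κ → F)} :
    (∀ x ∈ D0 F i, g x ∈ W) ↔ g (e i) ∈ W := by
  refine ⟨fun h => h _ (e_mem i), fun h x hx => ?_⟩
  rw [eq_of_mem_D0 hx, map_smul]
  exact W.smul_mem _ h

theorem mem_mon {g : (κ → F) ≃ₗ[F] (κ → F)} :
    g ∈ decStab (D0 F : κ → _) ↔ ∀ i, ∃ j, g (e i) ∈ D0 F j :=
  ⟨fun h i => Dec.exists_mem h (e_mem i), fun h => (dec0 F κ).mem_decStab fun i =>
    (h i).imp fun _ => map_D0.2⟩

theorem sgn0_apply (S : Finset κ) (x : κ → F) (j : κ) :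
    sgn (dec0 F κ) S x j = if j ∈ S then -x j else x j := by
  conv_lhs => rw [← sum_e x]
  simp only [map_sum, map_smul, sgn_apply (hD := dec0 F κ) S (e_mem _), Finset.sum_apply,
    Pi.smul_apply]
  rw [Finset.sum_eq_single j (fun l _ hl => by split_ifs <;> simp [e_ne hl.symm]) (by simp)]
  split_ifs <;> simp

theorem rQ_e (i : κ) : rQ (Q0 F κ) (e i) = sgn (dec0 F κ) {i} := by
  ext x j
  simp [rQ0_e, sgn0_apply]

variable (F) in
/-- permutation matrices -/
def pm (σ : Perm κ) : (κ → F) ≃ₗ[F] (κ → F) := LinearEquiv.funCongrLeft F F σ.symm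

@[simp] theorem pm_apply (σ : Perm κ) (x : κ → F) (j : κ) : pm F σ x j = x (σ.symm j) := rfl

theorem pm_mul (σ τ : Perm κ) : pm F (σ * τ) = pm F σ * pm F τ := rfl

theorem pm_one : pm F (1 : Perm κ) = 1 := rfl

theorem pm_e (σ : Perm κ) (i : κ) : pm F σ (e i) = e (σ i) := by
  ext j
  simp [e_apply, Equiv.symm_apply_eq]

theorem pm_mem_mon (σ : Perm κ) : pm F σ ∈ decStab (D0 F : κ → _) :=
  mem_mon.2 fun i => ⟨_, by rw [pm_e]; exact e_mem _⟩

theorem pm_swap (h2 : (2 : F) ≠ 0) {i j : κ} (h : i ≠ j) :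
    pm F (swap i j) = rQ (Q0 F κ) (e i - e j) := by
  ext x l
  rw [rQ0_apply]
  simp only [pm_apply, symm_swap, sub_dotProduct, dotProduct_sub, dot_e, e_self, e_ne h,
    e_ne h.symm, Pi.sub_apply, swap_apply_def, e_apply]
  have : (1 - 0 - (0 - 1) : F) = 2 := by ring
  rw [this]
  split_ifs with h1 h3 h3
  · exact absurd (h1.symm.trans h3) h
  all_goals (try subst h1); (try subst h3); field_simp; ring

theorem pm_swap_fix {i j : κ} {x : κ → F} (h : x i = x j) : pm F (swap i j) x = x := by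
  ext l
  simp only [pm_apply, symm_swap, swap_apply_def]
  split_ifs with h1 h3
  · rw [h1, h]
  · rw [h3, h]
  · rfl

variable (h2 : (2 : F) ≠ 0)

theorem pm_mem_Iso (σ : Perm κ) : pm F σ ∈ (qP (nd0 h2)).Iso :=
  (mem_qP_Iso _).2 fun x => by
    simp only [Q0_apply, dotProduct, pm_apply]
    exact Equiv.sum_comp σ.symm fun i => x i * x i

variable {h2} in
theorem dot_iso {g : (κ → F) ≃ₗ[F] (κ → F)} (hg : g ∈ (qP (nd0 h2)).Iso) (x y : κ → F) :
    g x ⬝ᵥ g y = x ⬝ᵥ y := by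
  have := Iso.B hg x y
  simpa [polar_Q0, h2] using this

variable [Fintype F]

variable (κ) in
theorem pDec0 : PDec (qP (nd0 h2)) 1 (D0 F : κ → _) where
  toDec := dec0 F κ
  nd i := eq_bot_iff.2 fun x hx => by
    have := hx.2 _ (e_mem i)
    simp [polar_Q0, h2] at this
    rw [eq_of_mem_D0 hx.1, this, zero_smul]
    exact zero_mem _
  orth := by
    intro i j h x y hx hy
    rw [eq_of_mem_D0 hx, eq_of_mem_D0 hy]
    simp [polar_Q0, e_ne h, e_ne h.symm]
  iso i j := ⟨_, pm_mem_Iso h2 (swap i j), map_D0.2 (by rw [pm_e, swap_apply_left]; exact e_mem _)⟩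

theorem pm_swap_mul_mem_E (hn : 7 ≤ Fintype.card κ) {a b c d : κ} (h : a ≠ b) (h' : c ≠ d) :
    pm F (swap a b * swap c d) ∈ (qP (nd0 h2)).E := by
  rw [pm_mul, pm_swap h2 h, pm_swap h2 h']
  refine rQ_mul_mem_E _ (by simpa) ?_
  simp [Q0_apply, e_ne h, e_ne h.symm, e_ne h', e_ne h'.symm]

omit [Fintype F] in
theorem pm_mem_of_even {Y : Subgroup ((κ → F) ≃ₗ[F] (κ → F))}
    (hY : ∀ a b c d : κ, a ≠ b → c ≠ d → pm F (swap a b * swap c d) ∈ Y) (σ : Perm κ) :
    (Perm.sign σ = 1 → pm F σ ∈ Y) ∧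
      (Perm.sign σ = -1 → ∀ a b, a ≠ b → pm F (swap a b * σ) ∈ Y) := by
  induction σ using Perm.swap_induction_on with
  | one => exact ⟨fun _ => one_mem _, fun h => by simp at h⟩
  | swap_mul σ x y hxy ih =>
    rw [map_mul, Perm.sign_swap hxy]
    refine ⟨fun h => ih.2 (by simpa [neg_eq_iff_eq_neg] using h) x y hxy, fun h a b hab => ?_⟩
    rw [← mul_assoc, pm_mul]
    exact mul_mem (hY a b x y hab hxy) (ih.1 (by simpa using h))

omit [Fintype F] in
theorem exists_move {Y : Subgroup ((κ → F) ≃ₗ[F] (κ → F))}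
    (hY : ∀ a b c d : κ, a ≠ b → c ≠ d → pm F (swap a b * swap c d) ∈ Y) (σ : Perm κ) {l m : κ}
    (h : l ≠ m) : ∃ g ∈ Y, ∀ x : κ → F, x l = x m → g x = pm F σ x := by
  rcases Int.units_eq_one_or (Perm.sign σ) with hs | hs
  · exact ⟨_, (pm_mem_of_even hY σ).1 hs, fun _ _ => rfl⟩
  · refine ⟨_, (pm_mem_of_even hY (σ * swap l m)).1 (by simp [hs, Perm.sign_swap h]),
      fun x hx => ?_⟩
    rw [pm_mul, LinearEquiv.mul_apply, pm_swap_fix hx]

open Classical in
/-- the support of a vector -/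
noncomputable def supp (x : κ → F) : Finset κ := Finset.univ.filter fun i => x i ≠ 0

@[simp] theorem mem_supp {x : κ → F} {i : κ} : i ∈ supp x ↔ x i ≠ 0 := by simp [supp]

theorem card_supp_add {x y : κ → F} (h : ∀ l, x l = 0 ∨ y l = 0) {s : F} (hs : s ≠ 0) :
    (supp (s • (x + y))).card = (supp x).card + (supp y).card := by
  rw [← Finset.card_union_of_disjoint (Finset.disjoint_left.2 fun l h1 h3 => by
    have := h l; simp at h1 h3; tauto)]
  congr 1
  ext l
  rcases h l with h | h <;> simp [h, hs]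

theorem supp_e (i : κ) : supp (e i : κ → F) = {i} := by
  ext l
  simp [e_apply]

theorem exists_mem_D0 {x : κ → F} (h : (supp x).card = 1) : ∃ j, x ∈ D0 F j := by
  obtain ⟨j, hj⟩ := Finset.card_eq_one.1 h
  exact ⟨j, mem_D0.2 fun l hl => by
    by_contra h1
    exact hl (by simpa [hj] using mem_supp.2 h1)⟩

theorem exists_notMem_three {S : Finset κ} (h : S.card + 3 ≤ Fintype.card κ) :
    ∃ a b c, a ≠ b ∧ a ≠ c ∧ b ≠ c ∧ a ∉ S ∧ b ∉ S ∧ c ∉ S := by
  obtain ⟨a, b, c, ha, hb, hc, h⟩ := Finset.two_lt_card_iff.1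
    (show 2 < Sᶜ.card by rw [Finset.card_compl]; omega)
  simp only [Finset.mem_compl] at ha hb hc
  exact ⟨a, b, c, h.1, h.2.1, h.2.2, ha, hb, hc⟩

/-- A unit vector which is not the root of a monomial reflection. -/
def Good (a : κ → F) : Prop :=
  3 ≤ (supp a).card ∨ ((supp a).card = 2 ∧ ∃ i, a i ≠ 0 ∧ 2 * (a i * a i) ≠ 1)

theorem of_not_good {a : κ → F} (ha : a ⬝ᵥ a = 1) (h : ¬ Good a) :
    (supp a).card = 1 ∨ ((supp a).card = 2 ∧ ∀ i, a i ≠ 0 → 2 * (a i * a i) = 1) := by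
  have : (supp a).card ≠ 0 := fun h0 => by
    have : a = 0 := funext fun i => by
      by_contra h1
      simpa [Finset.card_eq_zero.1 h0] using mem_supp.2 h1
    simp [this] at ha
  simp only [Good, not_or, not_and, not_exists, not_not] at h
  by_cases h1 : (supp a).card = 1
  · exact Or.inl h1
  · exact Or.inr ⟨by omega, h.2 (by omega)⟩

theorem not_good_e (i : κ) : ¬ Good (e i : κ → F) := by simp [Good, supp_e]

include h2 in
theorem not_good_of_mon {a : κ → F} (ha : a ⬝ᵥ a = 1)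
    (h : rQ (Q0 F κ) a ∈ decStab (D0 F : κ → _)) : ¬ Good a := by
  have key : ∀ i, a i ≠ 0 → ∃ j, supp a ⊆ {i, j} ∧ (i ≠ j → 2 * (a i * a i) = 1) := by
    intro i hi
    obtain ⟨j, hj⟩ := mem_mon.1 h i
    simp only [mem_D0, rQ0_apply, ha, e_dot] at hj
    refine ⟨j, fun l hl => ?_, fun hij => ?_⟩
    · by_contra h3
      simp only [Finset.mem_insert, Finset.mem_singleton, not_or] at h3
      have := hj l h3.2
      simp [e_ne h3.1, h2, hi, mem_supp.1 hl] at this
    · have := hj i hij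
      simp at this
      linear_combination -this
  rintro (h3 | ⟨h3, i, hi, h4⟩)
  · obtain ⟨i, hi⟩ := Finset.card_pos.1 (show 0 < (supp a).card by omega)
    obtain ⟨j, hj, -⟩ := key i (mem_supp.1 hi)
    have := (Finset.card_le_card hj).trans Finset.card_le_two
    omega
  · obtain ⟨j, hj, h5⟩ := key i hi
    by_cases hij : i = j
    · have := Finset.card_le_card hj
      simp [hij, h3] at this
    · exact h4 (h5 hij)

end Cfsg.Agent.H7.Fr
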