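import Cfsg.Agent.H7.C2Fr

/-!
Groups containing the monomial reflection group of an orthonormal frame: reduction of supports.
-/

set_option autoImplicit false
set_option linter.unusedSectionVars false

namespace Cfsg.Agent.H7.Fr

open Module H8 H7.Polar QuadraticMap Matrix Equiv

variable {F : Type*} [Field F] [Fintype F] {κ : Type} [Fintype κ] [DecidableEq κ]

/-- unit vectors whose reflection lies in `Y` -/
def Root (Y : Subgroup ((κ → F) ≃ₗ[F] (κ → F))) (a : κ → F) : Prop :=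
  a ⬝ᵥ a = 1 ∧ rQ (Q0 F κ) a ∈ Y

/-- a group of isometries containing the sign changes and the even permutations -/
structure RCtx (h2 : (2 : F) ≠ 0) (Y : Subgroup ((κ → F) ≃ₗ[F] (κ → F))) : Prop where
  iso : Y ≤ (qP (nd0 h2)).Iso
  perm : ∀ a b c d : κ, a ≠ b → c ≠ d → pm F (swap a b * swap c d) ∈ Y
  refl : ∀ i, rQ (Q0 F κ) (e i) ∈ Y

namespace RCtx

variable {h2 : (2 : F) ≠ 0} {Y : Subgroup ((κ → F) ≃ₗ[F] (κ → F))} (hY : RCtx h2 Y)
include hY

theorem root_e (i : κ) : Root Y (e i) := ⟨by simp, hY.refl i⟩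

theorem dot {g : (κ → F) ≃ₗ[F] (κ → F)} (hg : g ∈ Y) (x y : κ → F) : g x ⬝ᵥ g y = x ⬝ᵥ y :=
  dot_iso (h2 := h2) (hY.iso hg) x y

theorem dot' {g : (κ → F) ≃ₗ[F] (κ → F)} (hg : g ∈ Y) (x y : κ → F) : g⁻¹ x ⬝ᵥ y = x ⬝ᵥ g y := by
  rw [← hY.dot hg, show g (g⁻¹ x) = x from g.apply_symm_apply x]

theorem map {g : (κ → F) ≃ₗ[F] (κ → F)} (hg : g ∈ Y) {a : κ → F} (ha : Root Y a) : Root Y (g a) :=
  ⟨(hY.dot hg a a).trans ha.1, rQ_conj (hY.iso hg) a ▸ mul_mem (mul_mem hg ha.2) (inv_mem hg)⟩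

theorem move (σ : Perm κ) {l m : κ} (h : l ≠ m) :
    ∃ g ∈ Y, ∀ x : κ → F, x l = x m → g x = pm F σ x := exists_move hY.perm σ h

theorem root_pm (σ : Perm κ) {l m : κ} (h : l ≠ m) {a : κ → F} (ha : Root Y a) (hlm : a l = a m) :
    Root Y (pm F σ a) := by
  obtain ⟨g, hg, h1⟩ := hY.move σ h
  exact h1 a hlm ▸ hY.map hg ha

theorem two_sq {a : κ → F} (ha : Root Y a) (h : (supp a).card = 2)
    (h' : ∀ i, a i ≠ 0 → 2 * (a i * a i) = 1) :
    ∃ s : F, s ≠ 0 ∧ ∀ i k, i ≠ k → Root Y (s • (e i + e k)) := by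
  obtain ⟨i, j, hij, hs⟩ := Finset.card_eq_two.1 h
  have hi : a i ≠ 0 := mem_supp.1 (by simp [hs])
  have hj : a j ≠ 0 := mem_supp.1 (by simp [hs])
  have h0 : ∀ l, l ≠ i → l ≠ j → a l = 0 := fun l h1 h3 => by
    by_contra h4
    simpa [hs, h1, h3] using mem_supp.2 h4
  have h1 : Root Y (a i • (e i + e j)) := by
    rcases mul_self_eq_mul_self_iff.1 (mul_left_cancel₀ h2 ((h' i hi).trans (h' j hj).symm))
      with h3 | h3
    · convert ha using 1
      ext l
      by_cases e1 : l = i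
      · simp [e1, e_ne hij]
      by_cases e2 : l = j
      · simp [e2, e_ne hij.symm, h3]
      · simp [e_ne e1, e_ne e2, h0 l e1 e2]
    · convert hY.map (hY.refl j) ha using 1
      ext l
      rw [rQ0_e]
      by_cases e1 : l = i
      · simp [e1, e_ne hij, hij]
      by_cases e2 : l = j
      · simp [e2, e_ne hij.symm, h3]
      · simp [e_ne e1, e_ne e2, h0 l e1 e2]
  refine ⟨a i, hi, fun i' k hk => ?_⟩
  obtain ⟨σ, hσ⟩ := Perm.exists_extending_pair (fun b : Bool => cond b i j) (fun b => cond b i' k)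
    (by rintro (_ | _) (_ | _) <;> simp [hij, hij.symm])
    (by rintro (_ | _) (_ | _) <;> simp [hk, hk.symm])
  have := hY.root_pm σ hij h1 (by simp [e_ne hij, e_ne hij.symm])
  rwa [map_smul, map_add, pm_e, pm_e, show σ i = i' from hσ true, show σ j = k from hσ false]
    at this

theorem small_good {g : (κ → F) ≃ₗ[F] (κ → F)} (hg : g ∈ Y) {i k : κ} (hik : i ≠ k)
    (h1 : (supp (g (e i))).card = 2) (h3 : ¬ Good (g (e i))) (h4 : ¬ Good (g (e k)))
    (h5 : ∀ l, g (e i) l = 0 ∨ g (e k) l = 0) :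
    ∃ c, Root Y c ∧ Good c ∧ (supp c).card ≤ 4 := by
  have ri := hY.map hg (hY.root_e i)
  have rk := hY.map hg (hY.root_e k)
  obtain ⟨s, hs, h⟩ := hY.two_sq ri h1 ((of_not_good ri.1 h3).resolve_left (by omega)).2
  have h6 := hY.map hg (h i k hik)
  rw [map_smul, map_add] at h6
  have h7 := card_supp_add h5 hs
  have h8 := of_not_good rk.1 h4
  exact ⟨_, h6, Or.inl (by omega), by omega⟩

theorem coord_eq_zero {g : (κ → F) ≃ₗ[F] (κ → F)} (hg : g ∈ Y) {i j : κ} (h : g (e i) ∈ D0 F j)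
    {x : κ → F} (hx : x i = 0) : g x j = 0 := by
  have h1 := hY.dot hg x (e i)
  have h3 : g (e i) j ≠ 0 := fun h0 => by
    have := eq_of_mem_D0 h
    rw [h0, zero_smul] at this
    exact e_ne_zero i (by simpa using this)
  rw [eq_of_mem_D0 h] at h1
  simpa [hx, h3] using h1

theorem good_of_fix {g : (κ → F) ≃ₗ[F] (κ → F)} (hg : g ∈ Y) {i j : κ} (h : g (e i) ∈ D0 F j)
    (hg' : g ∉ decStab (D0 F : κ → _)) :
    (∃ k, Good (g (e k)) ∧ g (e k) j = 0) ∨ ∃ c, Root Y c ∧ Good c ∧ (supp c).card ≤ 4 := by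
  rw [mem_mon] at hg'
  push Not at hg'
  obtain ⟨k, hk⟩ := hg'
  have hik : k ≠ i := by rintro rfl; exact hk j h
  have h0 : g (e k) j = 0 := hY.coord_eq_zero hg h (e_ne hik.symm)
  by_cases h1 : Good (g (e k))
  · exact Or.inl ⟨k, h1, h0⟩
  have h3 : supp (g (e i)) ⊆ {j} := fun l hl => by
    by_contra h4
    exact mem_supp.1 hl (mem_D0.1 h l (by simpa using h4))
  have h4 := Finset.card_le_card h3
  refine Or.inr (hY.small_good hg hik ?_ h1 (by simp at h4; rintro (h | h) <;> omega) fun l => ?_)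
  · refine ((of_not_good (hY.map hg (hY.root_e k)).1 h1).resolve_left fun h5 => ?_).1
    obtain ⟨j, hj⟩ := exists_mem_D0 h5
    exact hk j hj
  · by_cases hl : l = j
    · exact Or.inl (hl ▸ h0)
    · exact Or.inr (mem_D0.1 h l hl)

/-- The second odd product trick. -/
theorem exists_good_four {a : κ → F} (ha : Root Y a) (ha' : Good a) :
    ∃ c, Root Y c ∧ Good c ∧ (supp c).card ≤ 4 := by
  classical
  by_contra H
  have hex : ∃ n, ∃ a, Root Y a ∧ Good a ∧ (supp a).card = n := ⟨_, a, ha, ha', rfl⟩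
  obtain ⟨a, ha, ha', hn⟩ := Nat.find_spec hex
  have hmin : ∀ c, Root Y c → (supp c).card < (supp a).card → ¬ Good c := fun c h1 h3 h4 =>
    Nat.find_min hex (hn ▸ h3) ⟨c, h1, h4, rfl⟩
  have h5 : 5 ≤ (supp a).card := by
    by_contra h
    exact H ⟨a, ha, ha', by omega⟩
  set J := supp a with hJ
  let G : Subgroup ((κ → F) ≃ₗ[F] (κ → F)) :=
    { carrier := {g | g ∈ Y ∧ ∀ m, m ∉ J → g (e m) = e m}
      mul_mem' := fun hg hh => ⟨mul_mem hg.1 hh.1, fun m hm => by
        rw [LinearEquiv.mul_apply, hh.2 m hm, hg.2 m hm]⟩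
      one_mem' := ⟨one_mem _, fun _ _ => rfl⟩
      inv_mem' := fun {g} hg => ⟨inv_mem hg.1, fun m hm => by
        conv_lhs => rw [← hg.2 m hm]
        exact g.symm_apply_apply _⟩ }
  have hG : ∀ g ∈ G, ∀ x : κ → F, ∀ m, m ∉ J → g x m = x m := fun g hg x m hm => by
    rw [← dot_e (g x), ← hg.2 m hm, hY.dot hg.1, dot_e]
  have hGe : ∀ g ∈ G, ∀ i ∈ J, ∀ m, m ∉ J → g (e i) m = 0 := fun g hg i hi m hm => by
    rw [hG g hg _ m hm, e_ne (by rintro rfl; exact hm hi)]
  have hsm : ∀ c, Root Y c → (∀ m, m ∉ J → c m = 0) → ∀ j ∈ J, c j = 0 → ¬ Good c :=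
    fun c h1 h3 j hj h4 => hmin c h1 (Finset.card_lt_card ⟨fun l hl => by
      by_contra h; exact mem_supp.1 hl (h3 l h), fun h => mem_supp.1 (h hj) h4⟩)
  have hrG : ∀ c, Root Y c → (∀ m, m ∉ J → c m = 0) → rQ (Q0 F κ) c ∈ G := fun c h1 h3 =>
    ⟨h1.2, fun m hm => rQ_fix (by simp [polar_Q0, h3 m hm])⟩
  have S : ∀ g ∈ G, ∀ i ∈ J, ¬ Good (g (e i)) → g ∈ decStab (D0 F : κ → _) := by
    intro g hg i hi hng
    by_contra hg'
    have ri := hY.map hg.1 (hY.root_e i)
    rcases of_not_good ri.1 hng with h | ⟨h, h'⟩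
    · obtain ⟨j, hj⟩ := exists_mem_D0 h
      rcases hY.good_of_fix hg.1 hj hg' with ⟨k, h1, h3⟩ | h1
      · by_cases hk : k ∈ J
        · refine hsm _ (hY.map hg.1 (hY.root_e k)) (hGe g hg k hk) j ?_ h3 h1
          by_contra h4
          have := eq_of_mem_D0 hj
          rw [hGe g hg i hi j h4, zero_smul] at this
          exact e_ne_zero i (by simpa using this)
        · exact not_good_e k (hg.2 k hk ▸ h1)
      · exact H h1
    · obtain ⟨p, q, hpq, hs⟩ := Finset.card_eq_two.1 h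
      set β := g (e i) with hβ
      have hp : β p ≠ 0 := mem_supp.1 (by simp [hs])
      have hq : β q ≠ 0 := mem_supp.1 (by simp [hs])
      have h0 : ∀ l, l ≠ p → l ≠ q → β l = 0 := fun l h1 h3 => by
        by_contra h4
        simpa [hs, h1, h3] using mem_supp.2 h4
      have hpJ : p ∈ J := by by_contra h; exact hp (hGe g hg i hi p h)
      have hg1 := inv_mem hg
      set β' := rQ (Q0 F κ) (e q) β with hβ'
      have rγ := hY.map hg1.1 (hY.map (hY.refl q) ri)
      rw [← hβ'] at rγ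
      set γ := g⁻¹ β' with hγ
      have γi : γ i = 0 := by
        rw [← dot_e γ, hγ, hY.dot' hg.1, ← hβ, hβ', rQ_apply]
        simp [polar_Q0, Q0_apply, ri.1]
        linear_combination -h' q hq
      have γJ : ∀ m, m ∉ J → γ m = 0 := fun m hm => by
        rw [hγ, hG _ hg1 _ m hm, hβ', rQ0_e, hβ, hGe g hg i hi m hm]; simp
      have ng := hsm γ rγ γJ i hi γi
      have ep : g⁻¹ (e p) = β p • (e i + γ) := by
        rw [show e i = g⁻¹ β from (g.symm_apply_apply _).symm, hγ, ← map_add, ← map_smul]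
        congr 1
        ext l
        simp only [Pi.smul_apply, Pi.add_apply, hβ', rQ0_e, smul_eq_mul]
        by_cases e1 : l = p
        · simp only [e1, e_self, hpq, if_false]; linear_combination -h' p hp
        by_cases e2 : l = q
        · simp [e2, e_ne hpq.symm]
        · simp [e_ne e1, e2, h0 l e1 e2]
      have cp := card_supp_add (x := e i) (y := γ) (fun l => by
        by_cases hl : l = i
        · exact Or.inr (hl ▸ γi)
        · exact Or.inl (e_ne hl)) hp
      rw [← ep, supp_e, Finset.card_singleton] at cp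
      have rp := hY.map hg1.1 (hY.root_e p)
      rcases of_not_good rγ.1 ng with h6 | h6
      · obtain ⟨m, hm⟩ := exists_mem_D0 h6
        obtain ⟨c, hc, hc'⟩ : ∃ c ∈ J, c ∉ ({p, q} : Finset κ) :=
          Finset.exists_mem_notMem_of_card_lt_card (Finset.card_le_two.trans_lt (by omega))
        simp only [Finset.mem_insert, Finset.mem_singleton, not_or] at hc'
        have δi : g⁻¹ (e c) i = 0 := by
          rw [← dot_e (g⁻¹ (e c)), hY.dot' hg.1, ← hβ, e_dot, h0 c hc'.1 hc'.2]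
        have δm : g⁻¹ (e c) m = 0 := by
          have h7 := hY.dot hg1.1 (e c) β'
          have h8 : γ m ≠ 0 := fun h => by
            have := rγ.1
            rw [eq_of_mem_D0 hm, h] at this
            simp at this
          rw [← hγ, eq_of_mem_D0 hm, e_dot, hβ', rQ0_e, h0 c hc'.1 hc'.2] at h7
          simpa [h8] using h7
        refine H (hY.small_good hg1.1 (Ne.symm hc'.1) (by omega) (hmin _ rp (by omega))
          (hsm _ (hY.map hg1.1 (hY.root_e c)) (hGe _ hg1 c hc) i hi δi) fun l => ?_)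
        by_cases e1 : l = i
        · exact Or.inr (e1 ▸ δi)
        by_cases e2 : l = m
        · exact Or.inr (e2 ▸ δm)
        · left
          simp [ep, e_ne e1, mem_D0.1 hm l e2]
      · exact H ⟨_, rp, Or.inl (by omega), by omega⟩
  have hC : OddCtx G (decStab (D0 F : κ → _) ⊓ G) {z | ∃ i ∈ J, z = sgn (dec0 F κ) {i}} :=
    { le := inf_le_right
      mem := by
        rintro _ ⟨i, hi, rfl⟩
        exact ⟨sgn_mem_decStab _, rQ_e (F := F) i ▸ hrG _ (hY.root_e i) fun m hm =>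
          e_ne (by rintro rfl; exact hm hi)⟩
      sq := by
        rintro _ ⟨i, -, rfl⟩
        exact sgn_mul_self _
      conj := by
        rintro h hh _ ⟨i, hi, rfl⟩
        obtain ⟨σ, hσ⟩ := Dec.exists_perm hh.1
        refine ⟨σ i, ?_, by rw [conj_sgn hσ, mul_inv_cancel_right]; simp⟩
        by_contra h1
        have := eq_of_mem_D0 (hσ i _ (e_mem i))
        rw [hGe h hh.2 i hi _ h1, zero_smul] at this
        exact e_ne_zero i (by simpa using this)
      hD := by
        rintro g hg _ ⟨i, hi, rfl⟩ h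
        rw [← rQ_e, rQ_conj (hY.iso hg.1)] at h
        exact ⟨S g hg i hi (not_good_of_mon h2 (hY.map hg.1 (hY.root_e i)).1 h.1), hg⟩
      hE := by
        rintro g hg _ ⟨i, hi, rfl⟩ _ ⟨j, hj, rfl⟩ _ ⟨k, hk, rfl⟩ _ ⟨l, hl, rfl⟩ hne - h
        have hkl : k ≠ l := by
          rintro rfl
          rw [sgn_mul_self, mul_one, mul_inv_cancel] at h
          exact hne (by
            rw [eq_inv_of_mul_eq_one_left h, inv_eq_of_mul_eq_one_right (sgn_mul_self _)])
        have h1 := mem_VS_of_neg (pDec0 κ h2) h2 (mul_mem (sgn_mem_Iso (pDec0 κ h2) {i})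
          (sgn_mem_Iso (pDec0 κ h2) {j})) (S := {i, j}) (y := g (e k)) (fun q hq y hy => by
            simp only [Finset.mem_insert, Finset.mem_singleton, not_or] at hq
            rw [LinearEquiv.mul_apply, sgn_apply _ (sgn_mem _ q y hy), sgn_apply _ hy]
            simp [hq]) (by
            rw [h, LinearEquiv.mul_apply, LinearEquiv.mul_apply,
              show g⁻¹ (g (e k)) = e k from g.symm_apply_apply _, LinearEquiv.mul_apply,
              sgn_apply {l} (e_mem k), if_neg (by simpa), sgn_apply _ (e_mem k), if_pos (by simp),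
              map_neg])
        refine ⟨S g hg k hk (hmin _ (hY.map hg.1 (hY.root_e k)) ?_), hg⟩
        have : supp (g (e k)) ⊆ {i, j} := fun m hm => by
          by_contra h3
          exact mem_supp.1 hm (mem_VS0.1 h1 m h3)
        have := (Finset.card_le_card this).trans Finset.card_le_two
        omega }
  have := finite_linearEquiv (F := F) (V := κ → F)
  obtain ⟨i, hi, j, hj, hij⟩ := Finset.one_lt_card.1 (show 1 < J.card by omega)
  refine not_good_of_mon h2 ha.1 (hC.le_of ⟨i, hi, rfl⟩ ⟨j, hj, rfl⟩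
    (fun h => hij (by simpa using sgn_inj h2 h)) ?_ (hrG a ha fun m hm => by simpa [hJ] using hm)).1
    ha'
  rintro _ _ ⟨g, hg, _, ⟨k, -, rfl⟩, rfl⟩ - ⟨g', hg', _, ⟨l, -, rfl⟩, rfl⟩ h
  rw [← rQ_e, ← rQ_e, rQ_conj (hY.iso hg.1), rQ_conj (hY.iso hg'.1)] at h ⊢
  set s := rQ (Q0 F κ) (g (e k)) * rQ (Q0 F κ) (g' (e l)) with hs
  obtain ⟨σ, hσ⟩ := Dec.exists_perm h.1
  have h6 := card_le_rank (dec0 F κ) (by norm_num) hσ (M := (F ∙ g (e k)) ⊔ F ∙ g' (e l))
    (fun x => by
      have := add_mem (Submodule.mem_sup_left (T := F ∙ g' (e l)) (rQ_sub_mem (Q := Q0 F κ)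
        (g (e k)) (rQ (Q0 F κ) (g' (e l)) x)))
        (Submodule.mem_sup_right (S := F ∙ g (e k)) (rQ_sub_mem (Q := Q0 F κ) (g' (e l)) x))
      simpa [hs] using this) (Finset.univ.filter fun m => ∃ x ∈ D0 F m, s x ≠ x) (by simp)
  have h7 := finrank_span_pair_le (F := F) (g (e k)) (g' (e l))
  obtain ⟨m, hm, hm'⟩ : ∃ m ∈ J, m ∉ Finset.univ.filter fun m => ∃ x ∈ D0 F m, s x ≠ x :=
    Finset.exists_mem_notMem_of_card_lt_card (by omega)
  refine ⟨_, ⟨m, hm, rfl⟩, ?_⟩
  have h8 : σ m = m := by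
    have := hσ m _ (e_mem m)
    simp only [Finset.mem_filter, Finset.mem_univ, true_and, not_exists, not_and, not_not] at hm'
    rw [hm' _ (e_mem m)] at this
    exact (dec0 F κ).eq_of_mem this (e_mem m) (e_ne_zero m)
  rw [conj_sgn hσ]
  simp [h8]

end RCtx

end Cfsg.Agent.H7.Fr
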