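import Cfsg.Agent.H7.C2Fr2

/-!
Groups containing the monomial reflection group of an orthonormal frame over a prime field.
-/

set_option autoImplicit false
set_option linter.unusedSectionVars false

namespace Cfsg.Agent.H7.Fr

open Module H8 H7.Polar QuadraticMap Matrix Equiv

variable {F : Type*} [Field F] [Fintype F] {κ : Type} [Fintype κ] [DecidableEq κ]

namespace RCtx

variable {h2 : (2 : F) ≠ 0} {Y : Subgroup ((κ → F) ≃ₗ[F] (κ → F))} (hY : RCtx h2 Y)
include hY

theorem root_add {u : κ → F} {hu : Q0 F κ u = 0} {l : κ} (hl : e l ∈ AS (nd0 h2) Y hu) (s : F) :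
    Root Y (e l + s • u) := by
  obtain ⟨g, hg, h⟩ := AS.exists (Submodule.smul_mem _ (-(s / 2)) hl)
  have h1 := AS.polar hl
  convert hY.map hg (hY.root_e l) using 1
  rw [h, h1]
  simp only [polar_Q0, dotProduct_smul, dot_e, e_self, smul_eq_mul]
  match_scalars <;> field_simp <;> ring

theorem fin_step {u : κ → F} {hu : Q0 F κ u = 0} {l l' m : κ} (hll : l ≠ l')
    (hm : e m ∈ AS (nd0 h2) Y hu) (hlm : l ≠ m) (hl : u l ≠ 0) (hl' : u l' ≠ 0) {η : F}
    (hη : η ≠ 0) (hN : u l * u l + η * (u l' * u l') ≠ 0) {w : κ → F} (hw : w ∈ AS (nd0 h2) Y hu)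
    {u' : κ → F} {hu' : Q0 F κ u' = 0} (he : e l ∈ AS (nd0 h2) Y hu')
    (h : u' = u - u l • e l - (η * u l') • e l' + w) (hm' : u' m = u l) :
    u l' • e l - u l • e l' ∈ AS (nd0 h2) Y hu := by
  set N := u l * u l + η * (u l' * u l') with hN'
  have rb := hY.root_add he (u l / N)
  have h1 := AS.polar hw
  simp only [polar_Q0, mul_eq_zero, h2, false_or] at h1
  have h3 := mem_AS_of_rQ hY.iso hm rb.2 (by simp [Q0_apply, rb.1]) (by
    rw [Q0_apply] at hu
    simp only [polar_Q0, h, dotProduct_add, dotProduct_smul, dotProduct_sub, dot_e, hu,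
      dotProduct_comm u w, h1, smul_eq_mul]
    field_simp
    ring) (by simp [polar_Q0, h2, e_ne hlm.symm, e_ne hlm, hm', hl, hN])
  have h4 := sub_mem (sub_mem h3 (Submodule.smul_mem _ (u l / N) hw))
    (Submodule.smul_mem _ (u l / N) (self_mem_AS Y hu))
  rw [← Submodule.smul_mem_iff _ (show η * u l' / N ≠ 0 by simp [hη, hl', hN])]
  convert h4 using 1
  rw [h]
  match_scalars <;> field_simp <;> ring

theorem fin {u : κ → F} {hu : Q0 F κ u = 0} (h0 : u ≠ 0) {l : κ} (hl : e l ∈ AS (nd0 h2) Y hu)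
    (hn : (supp u).card + 3 ≤ Fintype.card κ) : (qP (nd0 h2)).E ≤ Y := by
  have hul : u l = 0 := by simpa [polar_Q0, h2] using AS.polar hl
  have two : ∀ z, u z = 0 → ∃ p q, p ≠ q ∧ p ≠ z ∧ q ≠ z ∧ u p = 0 ∧ u q = 0 := fun z hz => by
    obtain ⟨a, b, c, h1, h3, h4, ha, hb, hc⟩ := exists_notMem_three hn
    simp only [mem_supp, not_not] at ha hb hc
    by_cases e1 : a = z
    · exact ⟨b, c, h4, e1 ▸ h1.symm, e1 ▸ h3.symm, hb, hc⟩
    by_cases e2 : b = z
    · exact ⟨a, c, h3, e1, e2 ▸ h4.symm, ha, hc⟩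
    · exact ⟨a, b, h1, e1, e2, ha, hb⟩
  obtain ⟨p, q, hpq, hp, hq, up, uq⟩ := two l hul
  have hz : ∀ z, u z = 0 → e z ∈ AS (nd0 h2) Y hu := fun z hz => by
    obtain ⟨g, hg, h⟩ := hY.move (swap l z) hpq
    have := AS_apply hY.iso hl hg hu (by rw [h u (by rw [up, uq]), pm_swap_fix (by rw [hul, hz])])
    rwa [h _ (by rw [e_ne hp, e_ne hq]), pm_e, swap_apply_left] at this
  have key : ∀ i j, i ≠ j → u i ≠ 0 → u j ≠ 0 → u j • e i - u i • e j ∈ AS (nd0 h2) Y hu := by
    intro i j hij hi hj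
    have il : i ≠ l := by rintro rfl; exact hi hul
    have jl : j ≠ l := by rintro rfl; exact hj hul
    have ip : i ≠ p := by rintro rfl; exact hi up
    have jp : j ≠ p := by rintro rfl; exact hj up
    by_cases hN : u i * u i + 1 * (u j * u j) = 0
    · obtain ⟨g, hg, h⟩ := hY.move (swap i l) hpq
      have hg' := mul_mem (hY.refl j) hg
      have h1 := AS_apply hY.iso hl hg' (((mem_qP_Iso _).1 (hY.iso hg') u).trans hu) rfl
      have h3 : (rQ (Q0 F κ) (e j) * g) (e l) = e i := by
        rw [LinearEquiv.mul_apply, h _ (by rw [e_ne hp, e_ne hq]), pm_e, swap_apply_right,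
          rQ_fix (by simp [polar_Q0, e_ne hij.symm])]
      rw [h3] at h1
      refine hY.fin_step hij hl il hi hj h2 (fun h => hj ?_) (Submodule.smul_mem _ (u i) hl) h1
        ?_ ?_
      · exact mul_self_eq_zero.1 (by linear_combination h - hN)
      · ext m
        rw [LinearEquiv.mul_apply, h u (by rw [up, uq]), rQ0_e]
        by_cases e1 : m = j
        · simp [e1, swap_apply_of_ne_of_ne hij.symm jl, e_ne hij.symm, e_ne jl]; ring
        by_cases e2 : m = i
        · simp [e2, hij, hul, e_ne hij, e_ne il]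
        by_cases e3 : m = l
        · simp [e3, jl.symm, hul, e_ne il.symm, e_ne jl.symm]
        · simp [e1, swap_apply_of_ne_of_ne e2 e3, e_ne e1, e_ne e2, e_ne e3]
      · rw [LinearEquiv.mul_apply, h u (by rw [up, uq]), rQ0_e]
        simp [jl.symm]
    · have hg := hY.perm i l j p il jp
      have h1 := AS_apply hY.iso hl hg (((mem_qP_Iso _).1 (hY.iso hg) u).trans hu) rfl
      rw [pm_e, Perm.mul_apply, swap_apply_of_ne_of_ne jl.symm hp.symm, swap_apply_right] at h1
      refine hY.fin_step hij hl il hi hj one_ne_zero hN (add_mem (Submodule.smul_mem _ (u i) hl)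
        (Submodule.smul_mem _ (u j) (hz p up))) h1 ?_ ?_
      · ext m
        rw [pm_mul, LinearEquiv.mul_apply]
        by_cases e1 : m = j
        · simp [e1, swap_apply_of_ne_of_ne hij.symm jl, e_ne hij.symm, e_ne jl, e_ne jp, up]
        by_cases e2 : m = i
        · simp [e2, swap_apply_of_ne_of_ne jl.symm hp.symm, hul, e_ne hij, e_ne il, e_ne ip]
        by_cases e3 : m = l
        · simp [e3, swap_apply_of_ne_of_ne hij ip, hul, e_ne il.symm, e_ne jl.symm, e_ne hp.symm]
        by_cases e4 : m = p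
        · simp [e4, swap_apply_of_ne_of_ne ip.symm hp, up, e_ne ip.symm, e_ne jp.symm, e_ne hp]
        · simp [swap_apply_of_ne_of_ne e2 e3, swap_apply_of_ne_of_ne e1 e4, e_ne e1, e_ne e2,
            e_ne e3, e_ne e4]
      · simp [pm_mul, swap_apply_of_ne_of_ne hij ip]
  obtain ⟨i, hi⟩ : ∃ i, u i ≠ 0 := by
    by_contra! h; exact h0 (funext h)
  have hf : (qP (nd0 h2)).FullA Y u := fullA_of_AS hu fun w hw => by
    have : u i • w = ∑ j, w j • (u i • e j - u j • e i) := by
      simp only [polar_Q0, mul_eq_zero, h2, false_or, dotProduct] at hw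
      simp only [smul_sub, Finset.sum_sub_distrib, smul_comm _ (u i)]
      simp only [smul_smul (w _), ← Finset.smul_sum, sum_e, ← Finset.sum_smul, hw]
      simp
    rw [← Submodule.smul_mem_iff _ hi, this]
    refine Submodule.sum_mem _ fun j _ => Submodule.smul_mem _ _ ?_
    by_cases e1 : j = i
    · simp [e1]
    by_cases e2 : u j = 0
    · simpa [e2] using Submodule.smul_mem _ _ (hz j e2)
    · exact key j i e1 e2 hi
  refine E_le_of_fullA (qP_sing _ hu) (qP_sing _ ((Q_rQ _ _).trans hu)) hf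
    (hf.conj (hY.refl i) (rQ_mem_Iso _ _)) ?_
  rw [Q0_apply] at hu
  simp [rQ_apply, polar_Q0, Q0_apply, hu, h2, hi]

theorem mem_AS_of_two (hp : (Fintype.card F).Prime) {u w : κ → F} (hu : Q0 F κ u = 0)
    (hw : w ⬝ᵥ u = 0) (h0 : w ⬝ᵥ w ≠ 0) (h : rQ (Q0 F κ) (w + u) * rQ (Q0 F κ) w ∈ Y) :
    w ∈ AS (nd0 h2) Y hu :=
  have hw' : polar (Q0 F κ) w u = 0 := by simp [polar_Q0, hw]
  mem_AS_of_prime hp hu hw' (by simpa [Q0_apply]) (EI_of_rQ hu hw' h0 h)

theorem fin_one (hp : (Fintype.card F).Prime) {a : κ → F} (ha : Root Y a) (ha' : Good a) {i : κ}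
    (hi : a i * a i = 1) (hn : (supp a).card + 2 ≤ Fintype.card κ) : (qP (nd0 h2)).E ≤ Y := by
  have hi0 : a i ≠ 0 := by rintro h; simp [h] at hi
  have hu : Q0 F κ (a - a i • e i) = 0 := by simp [Q0_apply, ha.1, hi]
  have hs : supp (a - a i • e i) = (supp a).erase i := by
    ext l
    by_cases h : l = i
    · simp [h]
    · simp [h, e_ne h]
  have hc := Finset.card_erase_add_one (mem_supp.2 hi0)
  have h1 := hY.mem_AS_of_two hp hu (w := a i • e i) (by simp) (by simp [hi0]) (by
    rw [add_sub_cancel, rQ_smul hi0]; exact mul_mem ha.2 (hY.refl i))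
  refine hY.fin (fun h => ?_) ((Submodule.smul_mem_iff _ hi0).1 h1) (by rw [hs]; omega)
  rw [h, show supp (0 : κ → F) = ∅ by ext; simp] at hs
  rw [← hs] at hc
  rcases ha' with h | h <;> simp at hc <;> omega

theorem exists_pair (hp : (Fintype.card F).Prime) (h3 : (3 : F) ≠ 0) {a : κ → F} (ha : Root Y a)
    {i : κ} (hi : a i ≠ 0) (hi1 : a i * a i ≠ 1) (hi2 : 2 * (a i * a i) ≠ 1)
    (hn : (supp a).card + 2 ≤ Fintype.card κ) :
    ∃ u, ∃ hu : Q0 F κ u = 0, u ≠ 0 ∧ (supp u).card ≤ (supp a).card + 1 ∧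
      ∃ l, e l ∈ AS (nd0 h2) Y hu := by
  obtain ⟨k, hk, l, hl, hkl⟩ := Finset.one_lt_card.1
    (show 1 < (supp a)ᶜ.card by rw [Finset.card_compl]; omega)
  simp only [Finset.mem_compl, mem_supp, not_not] at hk hl
  set a' := a - a i • e i with ha'
  set ν := 1 - a i * a i with hν
  have hν0 : ν ≠ 0 := sub_ne_zero.2 hi1.symm
  have q3 : a' ⬝ᵥ a' = ν := by simp [ha', hν, ha.1]
  have a'i : a' i = 0 := by simp [ha']
  have hz : ∀ k, a k = 0 → a' k = 0 ∧ i ≠ k := fun k hk =>
    have : i ≠ k := by rintro rfl; exact hi hk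
    ⟨by simp [ha', hk, e_ne this.symm], this⟩
  have dick : ∀ m, a m = 0 → ∀ a₁ a₂ a₃ b₁ b₂ b₃ : F,
      a₁ * a₁ + a₂ * a₂ + a₃ * a₃ * ν = b₁ * b₁ + b₂ * b₂ + b₃ * b₃ * ν →
      b₁ * b₁ + b₂ * b₂ + b₃ * b₃ * ν ≠ 0 → rQ (Q0 F κ) (a₁ • e i + a₂ • e m + a₃ • a') *
        rQ (Q0 F κ) (b₁ • e i + b₂ • e m + b₃ • a') ∈ Y := by
    intro m hm a₁ a₂ a₃ b₁ b₂ b₃ h h'
    obtain ⟨a'm, him⟩ := hz m hm
    have hQ : ∀ x y z : F, Q0 F κ (x • e i + y • e m + z • a') = x * x + y * y + z * z * ν := by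
      intro x y z
      simp [Q0_apply, e_ne him, e_ne him.symm, a'i, a'm, q3, mul_assoc]
    refine Dick.rQ_mul_mem hp h2 h3 (by simp [Q0_apply]) (by simp [Q0_apply]) q3
      (by simp [polar_Q0, e_ne him.symm]) (by simp [polar_Q0, a'i]) (by simp [polar_Q0, a'm]) hi hν0
      (by simp [hν]) hi2 (hY.refl i) (hY.refl m) (by simpa [ha'] using ha.2) ?_
      (by rw [hQ, hQ, h]) (by rwa [hQ])
    convert (hY.root_pm (swap i m) hkl ha (by rw [hk, hl])).2 using 2
    ext r
    by_cases e1 : r = i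
    · simp [e1, e_ne him, a'i, hm]
    by_cases e2 : r = m
    · simp [e2, a'm]
    · simp [swap_apply_of_ne_of_ne e1 e2, e_ne e1, e_ne e2, ha']
  obtain ⟨β, γ, α, h0, h⟩ := exists_ternary_zero (1 : F) 1 ν 0 0 0
  replace h : β * β + γ * γ + α * α * ν = 0 := by linear_combination h
  obtain ⟨a'k, hik⟩ := hz k hk
  obtain ⟨a'l, hil⟩ := hz l hl
  have hu : Q0 F κ (β • e i + γ • e k + α • a') = 0 := by
    simp [Q0_apply, e_ne hik, e_ne hik.symm, a'i, a'k, q3]
    linear_combination h
  refine ⟨_, hu, fun h1 => h0 ?_, ?_, ?_⟩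
  · have e1 := congrFun h1 i
    have e2 := congrFun h1 k
    have e3 := congrArg (· ⬝ᵥ a') h1
    simp [e_ne hik, e_ne hik.symm, a'i, a'k, q3, hν0] at e1 e2 e3
    exact ⟨e1, e2, e3⟩
  · refine (Finset.card_le_card (t := insert k (supp a)) fun r hr => ?_).trans
      (Finset.card_insert_le _ _)
    by_contra h1
    simp only [Finset.mem_insert, mem_supp, not_or, not_not] at h1
    obtain ⟨h4, h5⟩ := hz r h1.2
    simp [e_ne h1.1, e_ne h5.symm, h4] at hr
  by_cases hγ : γ = 0
  · refine ⟨k, hY.mem_AS_of_two hp hu (by simp [e_ne hik.symm, e_ne hik, a'k, hγ]) (by simp) ?_⟩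
    have := dick k hk β 1 α 0 1 0 (by rw [hγ] at h; linear_combination h) (by simp)
    convert this using 3
    · rw [hγ]; module
    · module
  have hD : ν * (γ * γ) ≠ 0 := by simp [hν0, hγ]
  have hw : (-(α * ν)) • e i + β • a' ∈ AS (nd0 h2) Y hu := by
    have h1 : α * ν * (α * ν) + β * β * ν = -(ν * (γ * γ)) := by linear_combination ν * h
    refine hY.mem_AS_of_two hp hu ?_ ?_ ?_
    · simp [e_ne hik, e_ne hik.symm, a'i, a'k, q3]; ring
    · simp only [add_dotProduct, dotProduct_add, smul_dotProduct, dotProduct_smul, e_dot, dot_e,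
        a'i, q3, e_self, smul_eq_mul, Pi.add_apply, Pi.smul_apply]
      exact fun h4 => hD (by linear_combination h1 - h4)
    · have := dick k hk (β - α * ν) γ (α + β) (-(α * ν)) 0 β (by linear_combination h)
        (fun h4 => hD (by linear_combination h1 - h4))
      convert this using 3 <;> module
  obtain ⟨s, s0, s1, s2⟩ : ∃ s : F, s ≠ 0 ∧ 1 + ν * (γ * γ) * (s * s) ≠ 0 ∧
      1 - ν * (γ * γ) * (s * s) ≠ 0 := by
    by_cases h5 : 5 < Fintype.card F
    · obtain ⟨s, s1, s2, s3⟩ := avoid221 h5 (a := ν * (γ * γ)) (b := 0) (c := 1)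
        (a' := -(ν * (γ * γ))) (b' := 0) (c' := 1) (d := 1) (e := 0) (by simp) (by simp) (by simp)
      exact ⟨s, by simpa using s3, fun h => s1 (by linear_combination h),
        fun h => s2 (by linear_combination h)⟩
    · have := charP_of_card_eq_prime (R := F) (p := Fintype.card F) (hp := ⟨hp⟩) rfl
      have h6 := CharP.cast_eq_zero F (Fintype.card F)
      have h7 : Fintype.card F = 5 := by
        have := hp.two_le
        interval_cases hc : Fintype.card F
        · exact absurd (by simpa using h6) h2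
        · exact absurd (by simpa using h6) h3
        · exact absurd hp (by decide)
        · rfl
      have f := fun x : F => FiniteField.pow_card_sub_one_eq_one x
      rw [h7] at f h6
      have f1 := f _ hi
      have f2 := f _ hγ
      have f3 : a i * a i = -1 := (mul_self_eq_one_iff.1 (by linear_combination f1)).resolve_left hi1
      have f4 : ν * (γ * γ) * (ν * (γ * γ)) ≠ 1 := fun h => h3 (by
        rw [hν, f3] at h
        linear_combination h - 4 * f2)
      exact ⟨1, one_ne_zero, fun h => f4 (by linear_combination (ν * (γ * γ) - 1) * h),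
        fun h => f4 (by linear_combination (-ν * (γ * γ) - 1) * h)⟩
  have h1 := dick l hl (-(2 * s * (α * ν))) (1 + ν * (γ * γ) * (s * s)) (2 * s * β) 0
    (1 - ν * (γ * γ) * (s * s)) 0 (by linear_combination 4 * s * s * ν * h) (by simpa using s2)
  rw [zero_smul, zero_smul, zero_add, add_zero, rQ_smul s2, Y.mul_mem_cancel_right (hY.refl l)]
    at h1
  have h4 := mem_AS_of_rQ hY.iso hw h1 (by
    simp only [Q0_apply, add_dotProduct, dotProduct_add, smul_dotProduct, dotProduct_smul, e_dot,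
      dot_e, a'i, a'l, q3, e_self, smul_eq_mul, e_ne hil, e_ne hil.symm, Pi.add_apply,
      Pi.smul_apply]
    exact fun h4 => mul_ne_zero s2 s2 (by linear_combination h4 - 4 * s * s * ν * h)) (by
    simp only [polar_Q0, add_dotProduct, dotProduct_add, smul_dotProduct, dotProduct_smul, e_dot,
      dot_e, a'i, a'l, a'k, q3, e_self, smul_eq_mul, e_ne hil, e_ne hil.symm, Pi.add_apply,
      Pi.smul_apply, e_ne hik, e_ne hik.symm, e_ne hkl, e_ne hkl.symm]
    ring) (by
    simp only [polar_Q0, add_dotProduct, dotProduct_add, smul_dotProduct, dotProduct_smul, e_dot,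
      dot_e, a'i, a'l, q3, e_self, smul_eq_mul, e_ne hil, e_ne hil.symm, Pi.add_apply,
      Pi.smul_apply]
    exact fun h4 => mul_ne_zero (mul_ne_zero (mul_ne_zero h2 h2) s0) hD
      (by linear_combination 4 * s * ν * h - h4))
  refine ⟨l, (Submodule.smul_mem_iff _ s1).1 ?_⟩
  convert sub_mem h4 (Submodule.smul_mem _ (2 * s) hw) using 1
  module

theorem exists_three (hp : (Fintype.card F).Prime) (h3 : (3 : F) ≠ 0) {u : κ → F}
    {hu : Q0 F κ u = 0} (h0 : u ≠ 0) {l : κ} (hl : e l ∈ AS (nd0 h2) Y hu) :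
    ∃ c, Root Y c ∧ (supp c).card = 3 := by
  have hul : u l = 0 := by simpa [polar_Q0, h2] using AS.polar hl
  obtain ⟨i, hi⟩ : ∃ i, u i ≠ 0 := by
    by_contra! h; exact h0 (funext h)
  obtain ⟨j, hij, hj⟩ : ∃ j, j ≠ i ∧ u j ≠ 0 := by
    by_contra! h
    rw [eq_of_mem_D0 (mem_D0.2 h)] at hu
    simp [Q0_apply, hi] at hu
  have il : i ≠ l := by rintro rfl; exact hi hul
  have jl : j ≠ l := by rintro rfl; exact hj hul
  set σ := u i * u i + u j * u j with hσ
  obtain ⟨c, c0, c1, c2⟩ : ∃ c : F, c ≠ 0 ∧ 1 + 4 * σ * (c * c) ≠ 0 ∧ 1 - 4 * σ * (c * c) ≠ 0 := by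
    by_cases h5 : 5 < Fintype.card F
    · obtain ⟨s, s1, s2, s3⟩ := avoid221 h5 (a := 4 * σ) (b := 0) (c := 1)
        (a' := -(4 * σ)) (b' := 0) (c' := 1) (d := 1) (e := 0) (by simp) (by simp) (by simp)
      exact ⟨s, by simpa using s3, fun h => s1 (by linear_combination h),
        fun h => s2 (by linear_combination h)⟩
    · have := charP_of_card_eq_prime (R := F) (p := Fintype.card F) (hp := ⟨hp⟩) rfl
      have h6 := CharP.cast_eq_zero F (Fintype.card F)
      have h7 : Fintype.card F = 5 := by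
        have := hp.two_le
        interval_cases hc : Fintype.card F
        · exact absurd (by simpa using h6) h2
        · exact absurd (by simpa using h6) h3
        · exact absurd hp (by decide)
        · rfl
      have f := fun x : F => FiniteField.pow_card_sub_one_eq_one x
      rw [h7] at f h6
      have f1 := mul_self_eq_one_iff.1 (show u i * u i * (u i * u i) = 1 by
        linear_combination f _ hi)
      have f2 := mul_self_eq_one_iff.1 (show u j * u j * (u j * u j) = 1 by
        linear_combination f _ hj)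
      have f4 : 4 * σ * (4 * σ) ≠ 1 := fun h => by
        rw [hσ] at h
        push_cast at h6
        rcases f1 with f1 | f1 <;> rcases f2 with f2 | f2 <;> rw [f1, f2] at h
        · exact h3 (by linear_combination h - 12 * h6)
        · exact one_ne_zero (α := F) (by linear_combination -h)
        · exact one_ne_zero (α := F) (by linear_combination -h)
        · exact h3 (by linear_combination h - 12 * h6)
      exact ⟨1, one_ne_zero, fun h => f4 (by linear_combination (4 * σ - 1) * h),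
        fun h => f4 (by linear_combination (-4 * σ - 1) * h)⟩
  set d := 2 * c / (1 + 4 * σ * (c * c)) with hd
  have r1 := hY.root_add hl c
  have r2 := hY.map (hY.refl i) (hY.map (hY.refl j) (hY.root_add hl d))
  have r3 := hY.map r1.2 r2
  refine ⟨_, r3, ?_⟩
  have e1 : rQ (Q0 F κ) (e i) (rQ (Q0 F κ) (e j) (e l + d • u)) =
      e l + d • (u - (2 * u i) • e i - (2 * u j) • e j) := by
    ext m
    simp only [rQ0_e]
    by_cases e1 : m = i
    · simp [e1, hij.symm, e_ne il, e_ne hij.symm]; ring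
    by_cases e2 : m = j
    · simp [e2, hij, e_ne jl, e_ne hij]; ring
    · simp [e1, e2, e_ne e1, e_ne e2]
  have e2 : rQ (Q0 F κ) (e l + c • u) (e l + d • (u - (2 * u i) • e i - (2 * u j) • e j)) =
      (-((1 - 4 * σ * (c * c)) / (1 + 4 * σ * (c * c)))) • e l - (2 * d * u i) • e i -
        (2 * d * u j) • e j := by
    rw [Q0_apply] at hu
    rw [rQ_apply, Q0_apply, r1.1]
    simp only [polar_Q0, add_dotProduct, dotProduct_add, smul_dotProduct, dotProduct_smul,
      sub_dotProduct, e_dot, dot_e, e_self, smul_eq_mul, hul, hu, e_ne il.symm, e_ne jl.symm,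
      e_ne il, e_ne jl, hd, Pi.add_apply, Pi.smul_apply, Pi.sub_apply]
    have hi := mul_inv_cancel₀ c1
    simp only [div_eq_mul_inv]
    generalize (1 + 4 * σ * (c * c))⁻¹ = q at hi
    rw [hσ] at hi ⊢
    match_scalars
    · linear_combination hi
    · linear_combination 2 * c * hi
    all_goals ring
  rw [e1, e2, Finset.card_eq_three]
  refine ⟨l, i, j, il.symm, jl.symm, hij.symm, ?_⟩
  ext m
  by_cases e1 : m = i
  · simp [e1, e_ne il, e_ne hij.symm, hd, h2, c0, c1, hi]
  by_cases e2 : m = j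
  · simp [e2, e_ne jl, e_ne hij, hd, h2, c0, c1, hj]
  by_cases e3 : m = l
  · simp [e3, e_ne il.symm, e_ne jl.symm, c1, c2]
  · simp [e1, e2, e3, e_ne e1, e_ne e2, e_ne e3]

omit hY in
theorem exists_index (h2 : (2 : F) ≠ 0) {a : κ → F} (ha : a ⬝ᵥ a = 1) (ha' : Good a)
    (h4 : (supp a).card ≤ 4) : ∃ i, a i ≠ 0 ∧ 2 * (a i * a i) ≠ 1 := by
  rcases ha' with h | h
  · by_contra! H
    have h1 : 2 * (a ⬝ᵥ a) = (supp a).card := by
      rw [dotProduct, Finset.mul_sum, Finset.card_eq_sum_ones, Nat.cast_sum,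
        ← Finset.sum_subset (Finset.subset_univ (supp a)) fun i _ hi => by
          simp at hi; simp [hi]]
      exact Finset.sum_congr rfl fun i hi => by simpa using H i (mem_supp.1 hi)
    rw [ha] at h1
    interval_cases (supp a).card
    · exact one_ne_zero (α := F) (by push_cast at h1; linear_combination -h1)
    · exact h2 (by push_cast at h1; linear_combination -h1)
  · exact h.2

/-- The reflection theorem. -/
theorem E_le (hp : (Fintype.card F).Prime) (hn : 7 ≤ Fintype.card κ) {a : κ → F} (ha : Root Y a)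
    (ha' : Good a) : (qP (nd0 h2)).E ≤ Y := by
  obtain ⟨a, ha, ha', h4⟩ := hY.exists_good_four ha ha'
  obtain ⟨i, hi, hi2⟩ := exists_index h2 ha.1 ha' h4
  by_cases hi1 : a i * a i = 1
  · exact hY.fin_one hp ha ha' hi1 (by omega)
  have h3 : (3 : F) ≠ 0 := fun h => hi1 (by
    have := charP_of_card_eq_prime (R := F) (p := Fintype.card F) (hp := ⟨hp⟩) rfl
    have h5 := (CharP.cast_eq_zero_iff F (Fintype.card F) 3).1 (by simpa using h)
    have h6 := FiniteField.pow_card_sub_one_eq_one _ hi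
    rw [(Nat.prime_dvd_prime_iff_eq hp Nat.prime_three).1 h5] at h6
    linear_combination h6)
  obtain ⟨u, hu, h0, -, l, hl⟩ := hY.exists_pair hp h3 ha hi hi1 hi2 (by omega)
  obtain ⟨c, hc, hc3⟩ := hY.exists_three hp h3 h0 hl
  obtain ⟨i, hi, hi2⟩ := exists_index h2 hc.1 (Or.inl hc3.ge) (by omega)
  by_cases hi1 : c i * c i = 1
  · exact hY.fin_one hp hc (Or.inl hc3.ge) hi1 (by omega)
  obtain ⟨u, hu, h0, h5, l, hl⟩ := hY.exists_pair hp h3 hc hi hi1 hi2 (by omega)
  exact hY.fin h0 hl (by omega)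

end RCtx

end Cfsg.Agent.H7.Fr
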