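import Cfsg.Agent.H7.C2Fr4

/-!
Matrix form of the maximality of stabilisers of orthogonal decompositions.
-/

set_option autoImplicit false

namespace Cfsg.Agent.H7

open Module H8

variable {F : Type*} [Field F] [Fintype F] {ι : Type} [Fintype ι] [DecidableEq ι]
  {Q : (ι → F) → F} (hQ : Geo.IsNondegenerateQuadraticForm Q)

theorem omegaGL_dec_of (hn : 7 ≤ Fintype.card ι) {t : ℕ} {D : Fin t → Submodule F (ι → F)}
    (h : Geo.IsMaximalIn (qP (nd_toQF hQ)).E (decStab D ⊓ (qP (nd_toQF hQ)).E)) :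
    Geo.IsMaximalIn (Geo.omegaGL Q) (Geo.decompositionStabilizer D ⊓ Geo.omegaGL Q) := by
  refine isMaximalIn_of_equiv toLE (mem_omegaGL_iff' (nd_toQF hQ) hn) (fun g => ?_) h
  simp only [Subgroup.mem_inf, mem_decompositionStabilizer_iff]
  exact and_congr_right' (mem_omegaGL_iff' (nd_toQF hQ) hn g)

include hQ in
theorem omegaGL_frame_maximal (hn : 7 ≤ Fintype.card ι) (h8 : Fintype.card ι ≠ 8)
    (hp : (Fintype.card F).Prime) (hodd : Odd (Fintype.card F)) {t : ℕ}
    (D : Fin t → Submodule F (ι → F)) (hD : Geo.IsOrthogonalMDecomposition Q 1 D) :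
    Geo.IsMaximalIn (Geo.omegaGL Q) (Geo.decompositionStabilizer D ⊓ Geo.omegaGL Q) := by
  have hD' := pDec_of_od (nd_toQF hQ) hD
  have hmul := hD'.mul_eq
  simp only [Fintype.card_fin, mul_one, finrank_fintype_fun_eq_card] at hmul
  exact omegaGL_dec_of hQ hn (maximal_frame _ hD' hp (two_ne_zero_of_odd_card hodd)
    (by simpa [hmul]) (by simpa [hmul]))

end Cfsg.Agent.H7
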