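import Cfsg.Agent.H7.C2Refl
import Cfsg.Agent.H8.Fld

/-!
Non-degenerate planes over a finite field which are large enough.
-/

set_option autoImplicit false
set_option linter.unusedSectionVars false

namespace Cfsg.Agent.H7

open Module H8 H7.Polar QuadraticMap

variable {F : Type*} [Field F] [Fintype F] {V : Type*} [AddCommGroup V] [Module F V]
variable [FiniteDimensional F V] {Q : QuadraticForm F V}

/-- `W` is anisotropic -/
def Aniso (Q : QuadraticForm F V) (W : Submodule F V) : Prop := ∀ x ∈ W, Q x = 0 → x = 0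

theorem Q_line (z d : V) (s : F) : Q (z + s • d) = Q d * s * s + polar Q z d * s + Q z := by
  rw [Q_add, Q_smul, polar_smul_right, smul_eq_mul]; ring

theorem disc_ne {W : Submodule F V} (h : NDOn Q W) (hd : finrank F W = 2) {z d : V} (hz : z ∈ W)
    (hdW : d ∈ W) (h0 : d ≠ 0) (h1 : z ∉ F ∙ d) : polar Q z d ^ 2 ≠ 4 * Q z * Q d := by
  intro h2
  have hW := eq_pair_of_finrank hd hdW hz h0 h1
  have key : ∀ v ∈ W, polar Q d v = 0 → polar Q z v = 0 → v = 0 := fun v hv a1 a2 =>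
    h v hv fun x hx => by
      rw [hW] at hx
      obtain ⟨a, b, rfl⟩ := mem_span_pair'.1 hx
      simp [a1, a2]
  have h3 := key (polar Q z d • d + (-(2 * Q d)) • z) (add_mem (W.smul_mem _ hdW) (W.smul_mem _ hz))
    (by simp only [polar_add_right, polar_smul_right, polar_self', smul_eq_mul, polar_comm Q d z]
        ring)
    (by simp only [polar_add_right, polar_smul_right, polar_self', smul_eq_mul]
        linear_combination h2)
  obtain ⟨h4, h5⟩ := eq_zero_of_pair h0 h1 h3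
  exact h0 (key d hdW (by rw [polar_self']; linear_combination -h5) h4)

theorem exists_line (hQ : ND Q) {W : Submodule F V} (h : NDOn Q W) (hd : finrank F W = 2) {x : V}
    (hx : x ∈ W) (h0 : x ≠ 0) : ∃ z ∈ W, ∃ d ∈ W, polar Q z x = 1 ∧ polar Q d x = 0 ∧ d ≠ 0 ∧
      (∀ y ∈ W, ∃ s : F, y = polar Q y x • z + s • d) ∧ polar Q z d ^ 2 ≠ 4 * Q z * Q d := by
  obtain ⟨z, hz, hzx⟩ := h.exists_ne hx h0
  have h1 := h.finrank_inf_pp hQ hx h0
  obtain ⟨d, hd1, hd0⟩ := Submodule.exists_mem_ne_zero_of_ne_bot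
    (p := W ⊓ (qP hQ).pp x) (by rintro h2; rw [h2] at h1; simp at h1; omega)
  have hdx : polar Q d x = 0 := hd1.2
  have hz' : polar Q ((polar Q z x)⁻¹ • z) x = 1 := by simp [hzx]
  have h2 : (polar Q z x)⁻¹ • z ∉ F ∙ d := fun h => by
    obtain ⟨c, hc⟩ := Submodule.mem_span_singleton.1 h
    rw [← hc] at hz'
    simp [hdx] at hz'
  refine ⟨_, W.smul_mem _ hz, d, hd1.1, hz', hdx, hd0, fun y hy => ?_,
    disc_ne h hd (W.smul_mem _ hz) hd1.1 hd0 h2⟩
  rw [eq_pair_of_finrank hd hd1.1 (W.smul_mem _ hz) hd0 h2] at hy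
  obtain ⟨a, b, rfl⟩ := mem_span_pair'.1 hy
  refine ⟨a, ?_⟩
  rw [polar_add_left, polar_smul_left, polar_smul_left, hdx, hz', add_comm]
  simp

/-- a non-degenerate plane over a field which is large enough -/
structure Pl (Q : QuadraticForm F V) (W : Submodule F V) : Prop where
  nd : NDOn Q W
  dim : finrank F W = 2
  big : (Aniso Q W ∧ ((2 : F) = 0 ∨ 5 ≤ Fintype.card F)) ∨ 7 ≤ Fintype.card F

theorem quad_ne {a b c : F} (h : b ^ 2 ≠ 4 * c * a) : ¬ (a = 0 ∧ b = 0 ∧ c = 0) := by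
  rintro ⟨rfl, rfl, rfl⟩
  simp at h

theorem exists_param (hq : 6 ≤ Fintype.card F) {k : F} (hk : k ≠ 0) :
    ∃ l m : F, l ≠ 0 ∧ l ≠ 1 ∧ m ≠ 0 ∧ m ≠ 1 ∧ (l - 1) ^ 2 * m = k * (m - 1) ^ 2 * l := by
  obtain ⟨s, h1, h2, h3⟩ := avoid221 (F := F) (by omega) (a := 1) (b := -1) (c := 0) (a' := 1)
    (b' := 0) (c' := -k) (d := 1) (e := -k) (by simp) (by simp) (by simp)
  have s0 : s ≠ 0 := by rintro rfl; simp at h1
  have s1 : 1 - s ≠ 0 := fun h => h1 (by linear_combination -s * h)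
  have s2 : s - k ≠ 0 := fun h => h3 (by linear_combination h)
  refine ⟨s * (1 - s) / (s - k), k * (1 - s) / (s * (s - k)), by simp [*], fun h => h2 ?_,
    by simp [*], fun h => h2 ?_, ?_⟩
  · field_simp at h
    linear_combination -h
  · field_simp at h
    linear_combination -h
  · field_simp
    ring

namespace Pl

variable (hQ : ND Q) {W : Submodule F V} (h : Pl Q W)
include hQ h

theorem exists_good {x : V} (hx : x ∈ W) (h0 : x ≠ 0) :
    ∃ z ∈ W, polar Q z x = 1 ∧ Q z ≠ 0 ∧ 2 * Q x * Q z ≠ 1 ∧ z ∉ F ∙ x := by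
  obtain ⟨z, hz, d, hd, h1, h2, h3, h4, h5⟩ := exists_line hQ h.nd h.dim hx h0
  obtain ⟨s₀, hs₀⟩ := h4 x hx
  rw [polar_self'] at hs₀
  have c2 : ¬ (2 * Q x * Q d = 0 ∧ 2 * Q x * polar Q z d = 0 ∧ 2 * Q x * Q z - 1 = 0) := by
    rintro ⟨a1, a2, a3⟩
    have : 2 * Q x ≠ 0 := fun h => by simp [h] at a3
    exact h5 (by rw [(mul_eq_zero.1 a1).resolve_left this, (mul_eq_zero.1 a2).resolve_left this]
                 simp)
  have c3 : ¬ (2 * Q x = 0 ∧ -s₀ = 0) := by
    rintro ⟨a1, a2⟩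
    exact h0 (by rw [hs₀, a1, neg_eq_zero.1 a2]; simp)
  have hm : ∀ s : F, z + s • d ∈ W := fun s => add_mem hz (W.smul_mem _ hd)
  have hp : ∀ s : F, polar Q (z + s • d) x = 1 := fun s => by simp [h1, h2]
  have fin : ∀ s : F, Q (z + s • d) ≠ 0 → 2 * Q x * Q d * s * s + 2 * Q x * polar Q z d * s +
      (2 * Q x * Q z - 1) ≠ 0 → 2 * Q x * s + -s₀ ≠ 0 →
      ∃ z ∈ W, polar Q z x = 1 ∧ Q z ≠ 0 ∧ 2 * Q x * Q z ≠ 1 ∧ z ∉ F ∙ x := fun s a1 a2 a3 => by
    refine ⟨_, hm s, hp s, a1, fun h => a2 (by rw [Q_line] at h; linear_combination h), fun h => ?_⟩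
    obtain ⟨c, hc⟩ := Submodule.mem_span_singleton.1 h
    have b1 := hp s
    rw [← hc, polar_smul_left, polar_self', smul_eq_mul] at b1
    have b2 : (2 * Q x * s - s₀) • d = 0 := by
      have : (2 * Q x) • (c • x) = (2 * Q x) • (z + s • d) := by rw [hc]
      rw [smul_smul, mul_comm, b1, one_smul] at this
      linear_combination (norm := module) hs₀ - this
    exact a3 (by rw [← sub_eq_add_neg]; exact (smul_eq_zero.1 b2).resolve_right h3)
  have hne : ∀ s : F, z + s • d ≠ 0 := fun s h => by simpa [h] using hp s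
  rcases h.big with ⟨ha, h2 | h5'⟩ | h7
  · exact fin 0 (fun h => hne 0 (ha _ (hm 0) h)) (by simp [h2]) (by simpa [h2] using c3)
  · obtain ⟨s, a2, a3⟩ := avoid21 (by omega) c2 c3
    exact fin s (fun h => hne s (ha _ (hm s) h)) a2 a3
  · obtain ⟨s, a1, a2, a3⟩ := avoid221 (by omega) (quad_ne h5) c2 c3
    exact fin s (by rwa [Q_line]) a2 a3

theorem exists_two {x : V} (hx : x ∈ W) (h0 : x ≠ 0) {β : F} (hβ : β ≠ 0) :
    ∃ a ∈ W, ∃ d ∈ W, polar Q a x = β ∧ Q a ≠ 0 ∧ Q (a + d) ≠ 0 ∧ polar Q d x = 0 ∧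
      ∀ y ∈ W, polar Q y x = 0 → y ∈ F ∙ d := by
  obtain ⟨z, hz, d, hd, h1, h2, -, h4, h5⟩ := exists_line hQ h.nd h.dim hx h0
  have hm : ∀ s : F, z + s • d ∈ W := fun s => add_mem hz (W.smul_mem _ hd)
  have hp : ∀ s : F, polar Q (z + s • d) x = 1 := fun s => by simp [h1, h2]
  have hne : ∀ s : F, z + s • d ≠ 0 := fun s h => by simpa [h] using hp s
  obtain ⟨s, s', a1, a2, a3⟩ : ∃ s s' : F, Q (z + s • d) ≠ 0 ∧ Q (z + s' • d) ≠ 0 ∧ s' - s ≠ 0 := by
    rcases h.big with ⟨ha, -⟩ | h7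
    · exact ⟨0, 1, fun h => hne 0 (ha _ (hm 0) h), fun h => hne 1 (ha _ (hm 1) h), by simp⟩
    · obtain ⟨s, a1⟩ := avoid2 (by omega) (quad_ne h5)
      obtain ⟨s', a2, a3⟩ := avoid21 (by omega) (quad_ne h5) (d := 1) (e := -s) (by simp)
      exact ⟨s, s', by rwa [Q_line], by rwa [Q_line], by simpa [sub_eq_add_neg] using a3⟩
  refine ⟨β • (z + s • d), W.smul_mem _ (hm s), (β * (s' - s)) • d, W.smul_mem _ hd,
    by rw [polar_smul_left, hp, smul_eq_mul, mul_one], by rw [Q_smul]; simp [hβ, a1], ?_, by simp [h2],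
    fun y hy hy' => ?_⟩
  · rw [show β • (z + s • d) + (β * (s' - s)) • d = β • (z + s' • d) by module]
    rw [Q_smul]
    simp [hβ, a2]
  · obtain ⟨c, hc⟩ := h4 y hy
    rw [hy', zero_smul, zero_add] at hc
    exact Submodule.mem_span_singleton.2 ⟨c / (β * (s' - s)), by
      rw [hc, smul_smul, div_mul_cancel₀ _ (mul_ne_zero hβ a3)]⟩

theorem exists_one {x : V} (hx : x ∈ W) (h0 : Q x ≠ 0) (β : F) :
    ∃ a ∈ W, polar Q a x = β ∧ Q a ≠ 0 := by
  have hx0 : x ≠ 0 := by rintro rfl; simp at h0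
  by_cases hβ : β = 0
  · obtain ⟨z, hz, d, hd, h1, h2, -, h4, h5⟩ := exists_line hQ h.nd h.dim hx hx0
    refine ⟨d, hd, hβ ▸ h2, fun h6 => ?_⟩
    obtain ⟨s, hs⟩ := h4 x hx
    rw [polar_self'] at hs
    have h7 : polar Q z d ≠ 0 := fun h => h5 (by simp [h, h6])
    have h8 : 2 * Q x = 0 := by
      rw [hs, polar_add_right, polar_smul_right, polar_smul_right, polar_self', h6,
        polar_comm Q d z] at h2
      simpa [h7] using h2
    rw [h8, zero_smul, zero_add] at hs
    exact h0 (by rw [hs, Q_smul, h6, mul_zero])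
  · obtain ⟨a, ha, -, -, h1, h2, -⟩ := h.exists_two hQ hx hx0 hβ
    exact ⟨a, ha, h1, h2⟩

/-- The reflections of a plane act irreducibly on its additive group. -/
theorem le_of_add {A : AddSubgroup V} (hA : ∀ z ∈ W, ∀ w ∈ A, rQ Q z w ∈ A) {w : V} (hw : w ∈ A)
    (hwW : w ∈ W) (h0 : w ≠ 0) : ∀ y ∈ W, y ∈ A := by
  classical
  let R : Subfield F :=
    { carrier := {s | ∀ y ∈ A, y ∈ W → s • y ∈ A}
      mul_mem' := fun {a b} ha hb y hy hy' => by
        rw [mul_smul]; exact ha _ (hb y hy hy') (W.smul_mem _ hy')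
      one_mem' := fun y hy _ => by simpa using hy
      add_mem' := fun {a b} ha hb y hy hy' => by
        rw [add_smul]; exact add_mem (ha y hy hy') (hb y hy hy')
      zero_mem' := fun y _ _ => by simp
      neg_mem' := fun {a} ha y hy hy' => by rw [neg_smul]; exact neg_mem (ha y hy hy')
      inv_mem' := fun a ha => by
        have hp : ∀ n : ℕ, ∀ y ∈ A, y ∈ W → a ^ n • y ∈ A := fun n => by
          induction n with
          | zero => intro y hy _; simpa using hy
          | succ n ih =>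
            intro y hy hy'
            rw [pow_succ', mul_smul]
            exact ha _ (ih y hy hy') (W.smul_mem _ hy')
        by_cases h0 : a = 0
        · simpa [h0] using fun y _ _ => A.zero_mem
        · have h1 := FiniteField.pow_card_sub_one_eq_one a h0
          have h2 := Fintype.one_lt_card (α := F)
          rw [show Fintype.card F - 1 = Fintype.card F - 2 + 1 by omega, pow_succ] at h1
          rw [← eq_inv_of_mul_eq_one_left h1]
          exact hp _ }
  obtain ⟨x, hx, hxw, hx0, -, hxw'⟩ := h.exists_good hQ hwW h0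
  have hx1 : x ≠ 0 := by rintro rfl; simp at hx0
  have hwx : w ∉ F ∙ x := fun h => by
    obtain ⟨c, rfl⟩ := Submodule.mem_span_singleton.1 h
    have : c ≠ 0 := by rintro rfl; simp at h0
    exact hxw' (Submodule.mem_span_singleton.2 ⟨c⁻¹, by simp [smul_smul, this]⟩)
  have hW := eq_pair_of_finrank h.dim hx hwW hx1 hwx
  have hdisc := disc_ne h.nd h.dim hwW hx hx1 hwx
  have hR : R = ⊤ := by
    by_contra hR
    have c1 := sq_le_card_of_ne_top hR
    let φ : F → F := fun s => polar Q (w + s • x) x ^ 2 / (Q x * Q (w + s • x))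
    have c2 : ∀ s, Q (w + s • x) ≠ 0 → φ s ∈ R ∧ φ s ≠ 4 := fun s hs => by
      refine ⟨?_, fun h4 => hdisc ?_⟩
      · have : φ s - 2 ∈ R := fun y hy hy' => by
          have hm : w + s • x ∈ W := add_mem hwW (W.smul_mem _ hx)
          convert add_mem (hA _ hx _ (hA _ hm y hy)) (hA _ hm _ (hA _ hx y hy)) using 1
          rw [hW] at hy'
          obtain ⟨a, b, rfl⟩ := mem_span_pair'.1 hy'
          have e1 : polar Q w (w + s • x) = 2 * Q (w + s • x) - s * polar Q (w + s • x) x := by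
            rw [← polar_self', polar_comm Q _ x, ← smul_eq_mul s, ← polar_smul_left,
              ← polar_sub_left, add_sub_cancel_right]
          have e2 : polar Q w x = polar Q (w + s • x) x - s * (2 * Q x) := by
            rw [polar_add_left, polar_smul_left, polar_self', smul_eq_mul]; ring
          have e3 : w = (w + s • x) - s • x := by simp
          simp only [φ]
          generalize w + s • x = v at *
          subst e3
          simp only [rQ_apply, polar_sub_left, polar_add_left, polar_smul_left, polar_self',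
            smul_eq_mul, polar_comm Q x v]
          match_scalars <;> field_simp <;> ring
        simpa using add_mem this (natCast_mem R 2)
      · simp only [φ] at h4
        rw [div_eq_iff (mul_ne_zero hx0 hs), Q_line, polar_add_left, polar_smul_left, polar_self',
          smul_eq_mul] at h4
        linear_combination h4
    have c3 := Finset.card_le_mul_card_image (f := φ)
      (Finset.univ.filter fun s => Q (w + s • x) ≠ 0) 2 fun r hr => by
        obtain ⟨s, hs, rfl⟩ := Finset.mem_image.1 hr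
        have hs4 := (c2 s (by simpa using hs)).2
        refine le_trans (Finset.card_le_card fun s' hs' => ?_)
          (card_quad_le (a := (4 - φ s) * Q x * Q x) (b := (4 - φ s) * Q x * polar Q w x)
            (c := polar Q w x ^ 2 - φ s * Q x * Q w) (by simp [sub_ne_zero.2 hs4.symm, hx0]))
        simp only [Finset.mem_filter, Finset.mem_univ, true_and] at hs' ⊢
        obtain ⟨a1, a2⟩ := hs'
        rw [← a2]
        have a3 : φ s' * (Q x * Q (w + s' • x)) = polar Q (w + s' • x) x ^ 2 :=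
          div_mul_cancel₀ _ (mul_ne_zero hx0 a1)
        rw [Q_line, polar_add_left, polar_smul_left, polar_self', smul_eq_mul] at a3
        linear_combination -a3
    have c4 : ((Finset.univ.filter fun s => Q (w + s • x) ≠ 0).image φ).card + 1 ≤ Nat.card R := by
      rw [← Finset.card_insert_of_notMem (a := 4) (fun h => by
        obtain ⟨s, hs, h4⟩ := Finset.mem_image.1 h
        exact (c2 s (by simpa using hs)).2 h4), Nat.card_eq_fintype_card, Fintype.card_subtype]
      refine Finset.card_le_card fun r hr => ?_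
      simp only [Finset.mem_insert, Finset.mem_image, Finset.mem_filter, Finset.mem_univ,
        true_and] at hr ⊢
      rcases hr with rfl | ⟨s, hs, rfl⟩
      · simpa using natCast_mem R 4
      · exact (c2 s hs).1
    have c5 := Finset.card_filter_add_card_filter_not (s := Finset.univ)
      fun s : F => Q (w + s • x) ≠ 0
    rw [Finset.card_univ] at c5
    rw [Nat.card_eq_fintype_card (α := F)] at c1
    rcases h.big with ⟨ha, -⟩ | h7
    · rw [(Finset.filter_eq_empty_iff (p := fun s : F => ¬ Q (w + s • x) ≠ 0)).2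
        fun s _ h => hwx ?_, Finset.card_empty] at c5
      · nlinarith
      · have := ha _ (add_mem hwW (W.smul_mem s hx)) (by simpa using h)
        exact Submodule.mem_span_singleton.2 ⟨-s, by linear_combination (norm := module) -this⟩
    · have c6 := card_quad_le (quad_ne hdisc)
      have c7 : (Finset.univ.filter fun s : F => ¬ Q (w + s • x) ≠ 0).card ≤ 2 := by
        convert c6 using 3
        simp [Q_line]
      nlinarith
  have hs : ∀ s : F, ∀ y ∈ A, y ∈ W → s • y ∈ A := fun s => (hR ▸ Subfield.mem_top s : s ∈ R)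
  have hxA : x ∈ A := by
    have := hs (Q x) _ (sub_mem hw (hA x hx w hw)) (sub_mem hwW (rQ_apply_mem hx hwW))
    rwa [rQ_apply, sub_sub_cancel, polar_comm, hxw, smul_smul, mul_one, mul_inv_cancel₀ hx0,
      one_smul] at this
  intro y hy
  rw [hW] at hy
  obtain ⟨a, b, rfl⟩ := mem_span_pair'.1 hy
  exact add_mem (hs a x hxA hx) (hs b w hw hwW)

end Pl

theorem exists_pair_aniso (hQ : ND Q) {W W' : Submodule F V} (h : Pl Q W) (h' : Pl Q W')
    (ha : Aniso Q W) (ha' : Aniso Q W') {c c' : V} (hc : c ∈ W) (hc' : c' ∈ W') (h0 : c ≠ 0)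
    (h0' : c' ≠ 0) : ∃ x ∈ W, ∃ x' ∈ W', polar Q x c = 1 ∧ polar Q x' c' = 1 ∧ Q x ≠ 0 ∧
      Q x + Q x' = 0 := by
  classical
  have key : ∀ {W : Submodule F V}, Pl Q W → Aniso Q W → ∀ c ∈ W, c ≠ 0 → ∀ ε : F, ε ≠ 0 →
      ∃ S : Finset F, S ⊆ Finset.univ.erase 0 ∧ Fintype.card F ≤ 2 * S.card ∧
        ∀ r ∈ S, ∃ x ∈ W, polar Q x c = 1 ∧ ε * Q x = r := by
    intro W h ha c hc h0 ε hε
    obtain ⟨z, hz, d, hd, h1, h2, h3, -, -⟩ := exists_line hQ h.nd h.dim hc h0
    have hm : ∀ s : F, z + s • d ∈ W := fun s => add_mem hz (W.smul_mem _ hd)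
    have hp : ∀ s : F, polar Q (z + s • d) c = 1 := fun s => by simp [h1, h2]
    refine ⟨Finset.univ.image fun s : F => ε * Q (z + s • d), fun r hr => ?_,
      Finset.card_le_mul_card_image Finset.univ 2 fun r _ => ?_, fun r hr => ?_⟩
    · obtain ⟨s, -, rfl⟩ := Finset.mem_image.1 hr
      simpa [hε] using fun h => by simpa [ha _ (hm s) h] using hp s
    · convert card_quad_le (a := ε * Q d) (b := ε * polar Q z d) (c := ε * Q z - r)
        (by simpa [hε] using fun h => absurd (ha d hd h) h3) using 3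
      rw [Q_line, ← sub_eq_zero]
      congr! 1
      ring
    · obtain ⟨s, -, rfl⟩ := Finset.mem_image.1 hr
      exact ⟨_, hm s, hp s, rfl⟩
  obtain ⟨S, a1, a2, a3⟩ := key h ha c hc h0 1 one_ne_zero
  obtain ⟨T, b1, b2, b3⟩ := key h' ha' c' hc' h0' (-1) (by simp)
  obtain ⟨r, hr, hr'⟩ := exists_mem_of_card a1 b1 (by
    rw [Finset.card_erase_of_mem (Finset.mem_univ _), Finset.card_univ]
    have := Fintype.card_pos (α := F)
    omega)
  obtain ⟨x, hx, c1, c2⟩ := a3 r hr
  obtain ⟨x', hx', c3, c4⟩ := b3 r hr'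
  refine ⟨x, hx, x', hx', c1, c3, fun h => ?_, by linear_combination c2 - c4⟩
  simpa [← c2, h] using a1 hr

theorem exists_pair_sing (hQ : ND Q) {W W' : Submodule F V} (h : Pl Q W) (h' : Pl Q W')
    {c c' : V} (hc : c ∈ W) (hc' : c' ∈ W') (h0 : c ≠ 0) (h0' : c' ≠ 0) (hs : Q c = 0) :
    ∃ x ∈ W, ∃ x' ∈ W', polar Q x c = 1 ∧ polar Q x' c' = 1 ∧ Q x ≠ 0 ∧ Q x + Q x' = 0 := by
  obtain ⟨x', hx', a1, a2, -⟩ := h'.exists_good hQ hc' h0'
  obtain ⟨z, hz, b1, -⟩ := h.exists_good hQ hc h0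
  have b2 : Q (z + (-Q x' - Q z) • c) = -Q x' := by rw [Q_line, hs, b1]; ring
  exact ⟨z + (-Q x' - Q z) • c, add_mem hz (W.smul_mem _ hc), x', hx', by simp [b1, polar_self', hs],
    a1, by simpa [b2], by rw [b2]; ring⟩

theorem exists_pair_hyp (hQ : ND Q) {W W' : Submodule F V} (h : Pl Q W) (h' : Pl Q W')
    (hq : 6 ≤ Fintype.card F) (hp : Plus Q W) (hp' : Plus Q W') {c c' : V} (hc : c ∈ W)
    (hc' : c' ∈ W') (h0 : c ≠ 0) (h0' : c' ≠ 0) :
    ∃ x ∈ W, ∃ x' ∈ W', polar Q x c = 1 ∧ polar Q x' c' = 1 ∧ Q x ≠ 0 ∧ Q x + Q x' = 0 := by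
  by_cases hs : Q c = 0
  · exact exists_pair_sing hQ h h' hc hc' h0 h0' hs
  by_cases hs' : Q c' = 0
  · obtain ⟨x, hx, x', hx', a1, a2, a3, a4⟩ := exists_pair_sing hQ h' h hc' hc h0' h0 hs'
    exact ⟨x', hx', x, hx, a2, a1, fun h => a3 (by simpa [h] using a4), by rw [add_comm, a4]⟩
  have key : ∀ {W : Submodule F V}, Pl Q W → Plus Q W → ∀ c ∈ W, Q c ≠ 0 → ∀ l : F, l ≠ 1 →
      ∃ x ∈ W, polar Q x c = 1 ∧ Q x * (Q c * (l - 1) ^ 2) = -l := by
    intro W h hp c hc hs l hl
    obtain ⟨e, f, hef, rfl⟩ := hp.exists_hyp_plane h.nd h.dim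
    obtain ⟨a, b, rfl⟩ := mem_span_pair'.1 hc
    rw [hef.val] at hs ⊢
    have := left_ne_zero_of_mul hs
    have := right_ne_zero_of_mul hs
    have := sub_ne_zero.2 hl
    refine ⟨(l / (b * (l - 1))) • e + (-1 / (a * (l - 1))) • f, mem_span_pair'.2 ⟨_, _, rfl⟩, ?_,
      by rw [hef.val]; field_simp⟩
    simp only [polar_add_left, polar_add_right, polar_smul_left, polar_smul_right, hef.pol,
      hef.pol', hef.pol_left, hef.pol_right, smul_eq_mul]
    field_simp
    ring
  obtain ⟨l, m, l0, l1, m0, m1, hlm⟩ := exists_param hq (k := -Q c' / Q c) (by simp [hs, hs'])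
  obtain ⟨x, hx, a1, a2⟩ := key h hp c hc hs l l1
  obtain ⟨x', hx', b1, b2⟩ := key h' hp' c' hc' hs' m m1
  refine ⟨x, hx, x', hx', a1, b1, fun h => l0 (by simpa [h] using a2), ?_⟩
  have := sub_ne_zero.2 l1
  have := sub_ne_zero.2 m1
  field_simp at hlm
  refine mul_right_cancel₀ (b := Q c * (l - 1) ^ 2 * (Q c' * (m - 1) ^ 2)) (by simp [*]) ?_
  linear_combination (Q c' * (m - 1) ^ 2) * a2 + (Q c * (l - 1) ^ 2) * b2 - hlm

end Cfsg.Agent.H7
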