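import Cfsg.Agent.H7.C2Pl
import Cfsg.Agent.H8.LamBlk

/-!
Rotations stabilising an orthogonal decomposition; decompositions into `4`-spaces of minus type in
characteristic two.
-/

set_option autoImplicit false
set_option linter.unusedSectionVars false

namespace Cfsg.Agent.H7

open Module H8 H7.Polar QuadraticMap

theorem exists_core {G : Type*} [Group G] {X E H I : Subgroup G} (hH : H ≤ I) (hX : X ≤ I)
    (hHE : H ⊓ E ≤ X) (hXE : X ≤ E) {x : G} (hx : ∀ h ∈ H, h * x * h⁻¹ ∈ X) :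
    ∃ Y : Subgroup G, Y ≤ I ∧ H ≤ Y ∧ x ∈ Y ∧ Y ⊓ E ≤ X := by
  let Y : Subgroup G :=
    { carrier := {y | ∃ h ∈ H, ∀ h' ∈ H, h' * (y * h⁻¹) * h'⁻¹ ∈ X}
      mul_mem' := by
        rintro a b ⟨h, hh, ha⟩ ⟨k, hk, hb⟩
        refine ⟨h * k, H.mul_mem hh hk, fun l hl => ?_⟩
        convert X.mul_mem (ha l hl) (hb (l * h) (H.mul_mem hl hh)) using 1
        group
      one_mem' := ⟨1, H.one_mem, fun h _ => by simp⟩
      inv_mem' := by
        rintro a ⟨h, hh, ha⟩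
        refine ⟨h⁻¹, H.inv_mem hh, fun l hl => ?_⟩
        convert X.inv_mem (ha (l * h⁻¹) (H.mul_mem hl (H.inv_mem hh))) using 1
        group }
  have key : ∀ y ∈ Y, ∃ h ∈ H, y * h⁻¹ ∈ X := fun y ⟨h, hh, hy⟩ =>
    ⟨h, hh, by simpa using hy 1 H.one_mem⟩
  refine ⟨Y, fun y hy => ?_, fun h hh => ⟨h, hh, fun l _ => by simp⟩,
    ⟨1, H.one_mem, by simpa using hx⟩, fun y hy => ?_⟩
  · obtain ⟨h, hh, h1⟩ := key y hy
    simpa using I.mul_mem (hX h1) (hH hh)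
  · obtain ⟨h, hh, h1⟩ := key y hy.1
    have h2 : h ∈ E := by simpa using E.mul_mem (E.inv_mem (hXE h1)) hy.2
    simpa using X.mul_mem h1 (hHE ⟨hh, h2⟩)

variable {F : Type*} [Field F] [Fintype F] {V : Type*} [AddCommGroup V] [Module F V]
variable [FiniteDimensional F V] {Q : QuadraticForm F V}

theorem rank_one {W : Submodule F V} (hW : NDOn Q W) {g : V ≃ₗ[F] V} (hg : ∀ x, Q (g x) = Q x)
    {m : V} (hm : m ∈ W) (h : ∀ x ∈ W, g x - x ∈ F ∙ m) :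
    (∀ x ∈ W, g x = x) ∨ (Q m ≠ 0 ∧ ∀ x ∈ W, g x = rQ Q m x) := by
  refine or_iff_not_imp_left.2 fun h0 => ?_
  push_neg at h0
  obtain ⟨x₀, hx₀, h0⟩ := h0
  have key : ∀ x ∈ W, g x ≠ x → ∃ c : F, c ≠ 0 ∧ g x = x + c • m ∧ polar Q x m = -c * Q m :=
    fun x hx hne => by
      obtain ⟨c, hc⟩ := Submodule.mem_span_singleton.1 (h x hx)
      have c0 : c ≠ 0 := by rintro rfl; exact hne (sub_eq_zero.1 (by simpa using hc.symm))
      have h1 : g x = x + c • m := by rw [hc]; simp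
      have h2 := hg x
      rw [h1, Q_line] at h2
      exact ⟨c, c0, h1, mul_left_cancel₀ c0 (by linear_combination h2)⟩
  have fix : ∀ x, g x = x → polar Q x m = 0 := fun x hx => by
    obtain ⟨c, c0, h1, -⟩ := key x₀ hx₀ h0
    have := polar_eq_of_isom (g := (g : V →ₗ[F] V)) (W := ⊤) (fun x _ => hg x) (x := x) (y := x₀)
      trivial trivial
    simp only [LinearEquiv.coe_coe, hx, h1, polar_add_right, polar_smul_right] at this
    simpa [c0] using this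
  have hm0 : Q m ≠ 0 := fun h1 => by
    obtain ⟨c, -, h2, -⟩ := key x₀ hx₀ h0
    have h5 := hW m hm fun x hx => by
      by_cases h3 : g x = x
      · exact fix x h3
      · obtain ⟨c, -, -, h4⟩ := key x hx h3
        simp [h4, h1]
    exact h0 (by rw [h2, h5]; simp)
  refine ⟨hm0, fun x hx => ?_⟩
  by_cases h3 : g x = x
  · rw [h3, rQ_fix (fix x h3)]
  · obtain ⟨c, -, h4, h5⟩ := key x hx h3
    rw [h4, rQ_apply, h5]
    match_scalars <;> field_simp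

theorem rQ_mul_sub_mem (x y z : V) : (rQ Q x * rQ Q y) z - z ∈ (F ∙ x) ⊔ F ∙ y := by
  have := add_mem (Submodule.mem_sup_left (T := F ∙ y) (rQ_sub_mem (Q := Q) x (rQ Q y z)))
    (Submodule.mem_sup_right (S := F ∙ x) (rQ_sub_mem (Q := Q) y z))
  simpa using this

theorem rot_sq_ne {x y : V} (hx : Q x ≠ 0) (hy : Q y ≠ 0) (hxy : polar Q x y ≠ 0)
    (h : y ∉ F ∙ x) : ¬ ∀ z, (rQ Q x * rQ Q y) ((rQ Q x * rQ Q y) z) = z := fun H => by
  have h1 := congrArg (fun z => rQ Q y (rQ Q x z)) (H y)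
  simp only [LinearEquiv.mul_apply, rQ_rQ] at h1
  have x0 : x ≠ 0 := by rintro rfl; simp at hx
  have h2 : (2 * polar Q x y / Q x) • x + (-polar Q x y ^ 2 / (Q x * Q y)) • y = 0 := by
    rw [← sub_eq_zero.2 h1]
    simp only [rQ_apply, polar_sub_left, polar_smul_left, polar_self', smul_eq_mul,
      polar_comm Q y x]
    match_scalars <;> field_simp <;> ring
  simpa [hx, hy, hxy] using (eq_zero_of_pair x0 h h2).2

variable {κ : Type} [Fintype κ] [DecidableEq κ] {hQ : ND Q} {k : ℕ} {D : κ → Submodule F V}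

/-- A rotation which stabilises the decomposition lives in one block. -/
theorem rot_mem (hD : PDec (qP hQ) k D) (hk : 2 ≤ k) {x y : V} (hx : Q x ≠ 0) (hy : Q y ≠ 0)
    (hxy : polar Q x y ≠ 0) (h : y ∉ F ∙ x) (hρ : rQ Q x * rQ Q y ∈ decStab D) :
    ∃ m, x ∈ D m ∧ y ∈ D m := by
  set ρ := rQ Q x * rQ Q y with hρ'
  have hM : ∀ z, ρ z - z ∈ (F ∙ x) ⊔ F ∙ y := rQ_mul_sub_mem x y
  have hsq : ¬ ∀ z, ρ (ρ z) = z := rot_sq_ne hx hy hxy h
  have hd := finrank_pair (F := F) (v := x) (by rintro rfl; simp at hx) h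
  have hiso : ∀ z, Q (ρ z) = Q z := fun z => by simp [hρ', Q_rQ]
  obtain ⟨σ, hσ⟩ := Dec.exists_perm hρ
  by_cases hmv : ∀ i, σ i = i
  · obtain ⟨i, z, hz, hz'⟩ : ∃ i, ∃ z ∈ D i, ρ (ρ z) ≠ z := by
      by_contra! H
      exact hsq fun z => LinearEquiv.congr_fun (equiv_ext hD.toDec (g := ρ * ρ) (h := 1) H) z
    have hi : ∀ v ∈ D i, ρ v - v ∈ D i := fun v hv => sub_mem (hmv i ▸ hσ i v hv) hv
    have h0 : ρ z - z ≠ 0 := fun h => hz' (by rw [sub_eq_zero.1 h, sub_eq_zero.1 h])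
    by_cases h1 : ∀ v ∈ D i, ρ v - v ∈ F ∙ (ρ z - z)
    · rcases rank_one (hD.ndOn i) hiso (hi z hz) h1 with h2 | ⟨-, h2⟩
      · exact absurd (sub_eq_zero.2 (h2 z hz)) h0
      · exact absurd ((h2 _ (hmv i ▸ hσ i z hz)).trans
          ((congrArg _ (h2 z hz)).trans (rQ_rQ _ _))) hz'
    · push_neg at h1
      obtain ⟨v, hv, h1⟩ := h1
      have h2 := eq_pair_of_finrank hd (hM z) (hM v) h0 h1
      have h3 : (F ∙ x) ⊔ (F ∙ y) ≤ D i := h2 ▸ pair_le (hi z hz) (hi v hv)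
      exact ⟨i, h3 (left_mem_pair _ _), h3 (right_mem_pair _ _)⟩
  · push_neg at hmv
    obtain ⟨i, hi⟩ := hmv
    set T : V →ₗ[F] V := (ρ : V →ₗ[F] V) - LinearMap.id with hT
    have h1 : finrank F ((D i).map T) = k := by
      rw [finrank_map_of_inj fun v hv h0 => ?_, hD.dim]
      have := congrArg (hD.pr i) h0
      rwa [show T v = ρ v - v from rfl, map_sub, hD.pr_ne hi (hσ i v hv), hD.pr_self hv, zero_sub,
        map_zero, neg_eq_zero] at this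
    have h2 : (D i).map T = (F ∙ x) ⊔ F ∙ y := Submodule.eq_of_le_of_finrank_le
      (by rintro _ ⟨v, -, rfl⟩; exact hM v) (by omega)
    have h3 : ∀ z, ∃ v ∈ D i, ρ v - v = ρ z - z := fun z => by
      have := hM z
      rw [← h2] at this
      exact this
    have h4 : ∀ v ∈ D i, ρ (ρ v) = v := fun v hv => by
      obtain ⟨v', hv', h5⟩ := h3 (-ρ v)
      have h6 := congrArg (hD.pr (σ i)) h5
      have h7 := hσ i v hv
      rw [map_sub, map_sub, hD.pr_self (hσ i v' hv'), hD.pr_ne hi.symm hv',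
        hD.pr_ne (σ.injective.ne hi) (hσ _ _ (neg_mem h7)), hD.pr_self (neg_mem h7), sub_zero,
        zero_sub, neg_neg, ρ.injective.eq_iff] at h6
      rw [h6, map_neg] at h5
      linear_combination (norm := module) h5
    refine absurd (fun z => ?_) hsq
    obtain ⟨v, hv, h5⟩ := h3 z
    have h6 := congrArg ρ h5
    rw [map_sub, map_sub, h4 v hv] at h6
    linear_combination (norm := module) -h5 - h6

theorem PDec.rQ_mem (hD : PDec (qP hQ) k D) {i : κ} {a : V} (ha : a ∈ D i) :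
    rQ Q a ∈ decStab D ⊓ (qP hQ).Iso :=
  ⟨hD.FixIso_le i (rQ_mem_FixIso hQ ha), rQ_mem_Iso hQ a⟩

variable (hQ D) in
/-- every overgroup of the full stabiliser containing a new reflection is large -/
def RMax : Prop := ∀ Y : Subgroup (V ≃ₗ[F] V), decStab D ⊓ (qP hQ).Iso ≤ Y → Y ≤ (qP hQ).Iso →
  ∀ c, Q c ≠ 0 → (∀ j, c ∉ D j) → rQ Q c ∈ Y → (qP hQ).E ≤ Y

variable (hQ D) in
/-- the decomposition is determined by the non-singular vectors of its blocks -/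
def Conn : Prop := ∀ g ∈ (qP hQ).Iso, (∀ i, ∀ a ∈ D i, Q a ≠ 0 → ∃ j, g a ∈ D j) → g ∈ decStab D

variable {X : Subgroup (V ≃ₗ[F] V)}

theorem RMax.E_le (hR : RMax hQ D) (hD : PDec (qP hQ) k D) (hH : decStab D ⊓ (qP hQ).E ≤ X)
    (hX : X ≤ (qP hQ).E) {c a : V} (hc : Q c ≠ 0) (hc' : ∀ j, c ∉ D j) {i : κ} (ha : a ∈ D i)
    (h : ∀ h ∈ decStab D ⊓ (qP hQ).Iso, h * (rQ Q c * rQ Q a) * h⁻¹ ∈ X) : (qP hQ).E ≤ X := by
  obtain ⟨Y, h1, h2, h3, h4⟩ := exists_core (inf_le_right : decStab D ⊓ (qP hQ).Iso ≤ _)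
    (hX.trans E_le_Iso) (le_trans (inf_le_inf_right _ inf_le_left) hH) hX h
  have h5 := hR Y h2 h1 c hc hc' (by
    simpa [mul_assoc, rQ_mul_self] using Y.mul_mem h3 (h2 (PDec.rQ_mem hD ha)))
  exact fun e he => h4 ⟨h5 he, he⟩

theorem conn_of (hD : PDec (qP hQ) k D) (h : ∀ i, ∃ a ∈ D i, Q a ≠ 0 ∧ ∀ N : Submodule F V, a ∈ N →
    (∀ b ∈ D i, Q b ≠ 0 → polar Q a b ≠ 0 → b ∈ N) → D i ≤ N) : Conn hQ D := by
  intro g hg H
  refine hD.mem_decStab fun i => ?_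
  obtain ⟨a, ha, ha0, h⟩ := h i
  obtain ⟨j, hj⟩ := H i a ha ha0
  refine ⟨j, h ((D j).comap (g : V →ₗ[F] V)) hj fun b hb hb0 hab => ?_⟩
  obtain ⟨l, hl⟩ := H i b hb hb0
  by_cases hjl : j = l
  · exact hjl ▸ hl
  · exact absurd ((Iso.polar_eq hg a b).symm.trans (hD.pol hjl hj hl)) hab

section two

variable (h2 : (2 : F) = 0)
include h2

theorem exists_mul_self (c : F) : ∃ s, s * s = c := by
  have : CharP F 2 := CharTwo.of_one_ne_zero_of_two_eq_zero one_ne_zero h2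
  obtain ⟨s, hs⟩ := FiniteField.isSquare_of_char_two (ringChar.eq F 2) c
  exact ⟨s, hs.symm⟩

theorem rQ_mul_mem_E2 (hn : 7 ≤ finrank F V) {a b : V} (ha : Q a ≠ 0) (hb : Q b ≠ 0) :
    rQ Q a * rQ Q b ∈ (qP hQ).E := by
  obtain ⟨s, hs⟩ := exists_mul_self h2 (Q b / Q a)
  have s0 : s ≠ 0 := by rintro rfl; exact div_ne_zero hb ha (by simpa using hs.symm)
  rw [← rQ_smul s0 a]
  exact rQ_mul_mem_E hQ hn (by rw [Q_smul, hs, div_mul_cancel₀ _ ha])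

variable (hD : PDec (qP hQ) k D) (hn : 7 ≤ finrank F V) (hR : RMax hQ D) (hC : Conn hQ D)
  (hH : decStab D ⊓ (qP hQ).E ≤ X) (hX : X ≤ (qP hQ).E) (hE : ¬ (qP hQ).E ≤ X)
include hD hn hR hC hH hX hE

omit hC in
theorem mem_block2 {c a : V} (hc : Q c ≠ 0) {i : κ} (ha : a ∈ D i) (ha0 : Q a ≠ 0)
    (h : rQ Q c * rQ Q a ∈ X) : ∃ j, c ∈ D j := by
  by_contra! hc'
  refine hE (hR.E_le hD hH hX hc hc' ha fun g hg => ?_)
  obtain ⟨f, hf, hgf⟩ := hD.exists_comp (qP_wild hQ) hn (W := F ∙ a) (fun c => Or.inr (by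
    obtain ⟨s, hs⟩ := exists_mul_self h2 (c / Q a)
    exact ⟨s • a, Submodule.smul_mem _ _ (Submodule.mem_span_singleton_self a),
      (qP_val hQ).2 (by rw [Q_smul, hs, div_mul_cancel₀ _ ha0])⟩)) (by simpa using ha) hg.2 hg.1
  have h1 : f⁻¹ * (rQ Q c * rQ Q a) * f ∈ X := by
    rcases rank_one hQ.ndOn_top (Iso.Q_eq hf.1) (m := a) trivial
      (fun x _ => FixIso.sub_mem hf x) with h3 | ⟨-, h3⟩
    · rwa [show f = 1 from LinearEquiv.ext fun x => h3 x trivial, inv_one, one_mul, mul_one]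
    · rw [show f = rQ Q a from LinearEquiv.ext fun x => h3 x trivial, rQ_inv, mul_assoc, mul_assoc,
        rQ_mul_self, mul_one]
      simpa [rQ_inv] using X.inv_mem h
  convert X.mul_mem (X.mul_mem (hH hgf) h1) (X.inv_mem (hH hgf)) using 1
  group

theorem star2 {g : V ≃ₗ[F] V} (hg : g ∈ X) {i j : κ} {a : V} (ha : a ∈ D i) (ha0 : Q a ≠ 0)
    (h : g a ∈ D j) : g ∈ decStab D := by
  have hg' := E_le_Iso (hX hg)
  refine hC g hg' fun l b hb hb0 => mem_block2 h2 hD hn hR hH hX hE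
    (by rwa [Iso.Q_eq hg']) h (by rwa [Iso.Q_eq hg']) ?_
  rw [← rQ_conj hg', ← rQ_conj hg', conj_mul]
  exact X.mul_mem (X.mul_mem hg (hH ⟨Subgroup.mul_mem _ (PDec.rQ_mem hD hb).1 (PDec.rQ_mem hD ha).1,
    rQ_mul_mem_E2 h2 hn hb0 ha0⟩)) (X.inv_mem hg)

theorem conj_mem2 {g : V ≃ₗ[F] V} (hg : g ∈ X) {i l m : κ} {a x y : V} (ha : a ∈ D i)
    (ha0 : Q a ≠ 0) (hx : x ∈ D l) (hy : y ∈ D m) (hx0 : Q x ≠ 0) (hy0 : Q y ≠ 0)
    (h1 : polar Q (g a) x = 0) (h3 : polar Q (g a) y = 0) :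
    rQ Q (g⁻¹ x) * rQ Q (g⁻¹ y) ∈ decStab D := by
  have hg' := E_le_Iso (hX (X.inv_mem hg))
  rw [← rQ_conj hg', ← rQ_conj hg', conj_mul]
  refine star2 h2 hD hn hR hC hH hX hE (X.mul_mem (X.mul_mem (X.inv_mem hg) (hH
    ⟨Subgroup.mul_mem _ (PDec.rQ_mem hD hx).1 (PDec.rQ_mem hD hy).1,
    rQ_mul_mem_E2 h2 hn hx0 hy0⟩)) (X.inv_mem (X.inv_mem hg))) ha ha0 (j := i) ?_
  simpa [rQ_fix h1, rQ_fix h3, show g⁻¹ (g a) = a from g.symm_apply_apply a]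

theorem rot2 (hk : 2 ≤ k) {g : V ≃ₗ[F] V} (hg : g ∈ X) {i l : κ} {a x y : V} (ha : a ∈ D i)
    (ha0 : Q a ≠ 0) (hx : x ∈ D l) (hy : y ∈ D l) (hx0 : Q x ≠ 0) (hy0 : Q y ≠ 0)
    (hxy : polar Q x y ≠ 0) (h1 : polar Q (g a) x = 0) (h3 : polar Q (g a) y = 0) :
    g ∈ decStab D := by
  have hg' := E_le_Iso (hX (X.inv_mem hg))
  obtain ⟨m, hm, -⟩ := rot_mem hD hk (by rwa [Iso.Q_eq hg']) (by rwa [Iso.Q_eq hg'])
    (by rwa [Iso.polar_eq hg']) (fun h => by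
      obtain ⟨c, hc⟩ := Submodule.mem_span_singleton.1 h
      rw [← Iso.polar_eq hg', ← hc] at hxy
      simp [polar_self', h2] at hxy)
    (conj_mem2 h2 hD hn hR hC hH hX hE hg ha ha0 hx hy hx0 hy0 h1 h3)
  simpa using (decStab D).inv_mem (star2 h2 hD hn hR hC hH hX hE (X.inv_mem hg) hx hx0 hm)

end two

section four

theorem exists_aniso_perp (hQ : ND Q) {W : Submodule F V} (hW : NDOn Q W) (hd : finrank F W = 4)
    (hm : ¬ Plus Q W) {e f : V} (he : e ∈ W) (hf : f ∈ W) (h : Hyp Q e f) (h2 : (2 : F) = 0) :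
    ∃ a ∈ W, ∃ b ∈ W, Q a ≠ 0 ∧ Q b ≠ 0 ∧ polar Q a b ≠ 0 ∧ polar Q a e = 0 ∧ polar Q a f = 0 ∧
      polar Q b e = 0 ∧ polar Q b f = 0 ∧ W ≤ ((F ∙ e) ⊔ F ∙ f) ⊔ ((F ∙ a) ⊔ F ∙ b) := by
  have h1 := pair_le he hf
  have h3 := hW.inf_perp hQ h.ndOn h1
  have h4 := hW.finrank_inf_perp hQ h1
  rw [h.finrank_eq, hd] at h4
  have h5 := h.ndOn.sup_inf_perp hQ h1
  have h6 : Aniso Q (W ⊓ (qP hQ).perp ((F ∙ e) ⊔ F ∙ f)) := fun x hx =>
    aniso_of_not_plus (by omega) (fun hp => hm (h5 ▸ Plus.sup h.ndOn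
      ((orth_perp hQ _).mono le_rfl inf_le_right) h.plus hp)) hx
  have hP : Pl Q _ := ⟨h3, by omega, Or.inl ⟨h6, Or.inl h2⟩⟩
  obtain ⟨a, ha, ha0⟩ := Submodule.exists_mem_ne_zero_of_ne_bot
    (p := W ⊓ (qP hQ).perp ((F ∙ e) ⊔ F ∙ f)) (by rintro h; rw [h] at h4; simp at h4)
  obtain ⟨b, hb, b1, b2, -, b3⟩ := hP.exists_good hQ ha ha0
  refine ⟨a, ha.1, b, hb.1, fun h => ha0 (h6 a ha h), b2, by simp [polar_comm Q a, b1],
    ha.2 e (left_mem_pair _ _), ha.2 f (right_mem_pair _ _), hb.2 e (left_mem_pair _ _),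
    hb.2 f (right_mem_pair _ _), ?_⟩
  rw [← eq_pair_of_finrank hP.dim ha hb ha0 b3, h5]

theorem conn_four (hD : PDec (qP hQ) 4 D) (h2 : (2 : F) = 0) (hm : ∀ i, ¬ Plus Q (D i)) :
    Conn hQ D := conn_of hD fun i => by
  obtain ⟨e, he, e0, e1⟩ := exists_sing_ne_zero hQ (W := D i) (by rw [hD.dim]; omega)
  obtain ⟨f, hf, h⟩ := (hD.ndOn i).exists_hyp he e0 e1
  obtain ⟨a, ha, b, hb, a0, b0, hab, a1, a2, b1, b2, hle⟩ :=
    exists_aniso_perp hQ (hD.ndOn i) (hD.dim i) (hm i) he hf h h2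
  refine ⟨a, ha, a0, fun N haN hN => hle.trans ?_⟩
  have hbN := hN b hb b0 hab
  refine sup_le (pair_le ?_ ?_) (pair_le haN hbN)
  · simpa using sub_mem (hN (b + e) (add_mem hb he) (by simpa [Q_add, e1, b1]) (by simpa [a1])) hbN
  · simpa using sub_mem (hN (b + f) (add_mem hb hf) (by simpa [Q_add, h.right, b2])
      (by simpa [a2])) hbN

theorem rMax_four (hD : PDec (qP hQ) 4 D) (hn : 7 ≤ finrank F V) : RMax hQ D := by
  intro Y hH hY c hc hc' hcY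
  obtain ⟨i, hi⟩ : ∃ i, Q (hD.pr i c) ≠ 0 := by
    by_contra! H
    exact hc (by simp [hD.Q_sum c, H])
  have h0 : hD.pr i c ≠ 0 := by rintro h; simp [h] at hi
  have h1 := (hD.ndOn i).finrank_inf_pp hQ (hD.pr_mem i c) h0
  rw [hD.dim] at h1
  obtain ⟨u, hu, u0, u1⟩ := exists_sing_ne_zero hQ (W := D i ⊓ (qP hQ).pp (hD.pr i c)) (by omega)
  have hH' : decStab D ⊓ (qP hQ).E ≤ Y := le_trans (inf_le_inf_left _ E_le_Iso) hH
  obtain ⟨w, hw, w1, w2⟩ := exists_perp_ne (hD.nd i) hu.1 (hD.pr_mem i c) (fun h => by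
    obtain ⟨s, hs⟩ := Submodule.mem_span_singleton.1 h
    exact hi (by rw [← hs, Q_smul, u1, mul_zero]))
  refine hD.E_le_of_eSub hH' hY (qP_wild hQ) hn (fun j => ?_) (hD.univ (by omega)) hu.1
    (qP_sing hQ u1) u0 (mem_AS_of_rQ (hu := u1) hY (hD.mem_eSub hH' (qP_sing hQ u1) w1 hu.1 hw) hcY hc
      ((hD.pol_pr hu.1 c).symm.trans hu.2) (by rwa [← hD.pol_pr hw c])) (hc' i)
  obtain ⟨e, he, e0, e1⟩ := exists_sing_ne_zero hQ (W := D j) (by rw [hD.dim]; omega)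
  exact irr_of_three (hD.nd j) he (qP_sing hQ e1) e0 (by rw [hD.dim]; omega)

theorem exists_good_four (hQ : ND Q) {W : Submodule F V} (hW : NDOn Q W) (hd : finrank F W = 4)
    (hm : ¬ Plus Q W) (h2 : (2 : F) = 0) {v : V} (hv : v ∈ W) :
    ∃ x ∈ W, ∃ y ∈ W, Q x ≠ 0 ∧ Q y ≠ 0 ∧ polar Q x y ≠ 0 ∧ polar Q x v = 0 ∧ polar Q y v = 0 := by
  by_cases h0 : Q v = 0
  · obtain ⟨e, he, e0, e1, e2⟩ : ∃ e ∈ W, e ≠ 0 ∧ Q e = 0 ∧ ∀ x, polar Q x e = 0 →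
        polar Q x v = 0 := by
      by_cases h1 : v = 0
      · obtain ⟨e, he, e0, e1⟩ := exists_sing_ne_zero hQ (W := W) (by omega)
        exact ⟨e, he, e0, e1, by simp [h1]⟩
      · exact ⟨v, hv, h1, h0, fun _ h => h⟩
    obtain ⟨f, hf, h⟩ := hW.exists_hyp he e0 e1
    obtain ⟨a, ha, b, hb, a0, b0, hab, a1, -, b1, -⟩ := exists_aniso_perp hQ hW hd hm he hf h h2
    exact ⟨a, ha, b, hb, a0, b0, hab, e2 a a1, e2 b b1⟩
  · have v0 : v ≠ 0 := by rintro rfl; simp at h0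
    have hvv : polar Q v v = 0 := by simp [polar_self', h2]
    have h1 := hW.finrank_inf_pp hQ hv v0
    obtain ⟨x, hx, hx'⟩ : ∃ x ∈ W ⊓ (qP hQ).pp v, x ∉ F ∙ v := by
      by_contra! H
      have := Submodule.finrank_mono (H : W ⊓ (qP hQ).pp v ≤ F ∙ v)
      rw [finrank_span_singleton v0] at this
      omega
    obtain ⟨y, hy, y1, y2⟩ := exists_perp_ne ((ndOn_iff hQ).1 hW) hv hx.1 hx'
    have key : ∀ x ∈ W, polar Q x v = 0 → ∃ x' ∈ W, Q x' ≠ 0 ∧ polar Q x' v = 0 ∧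
        ∀ z, polar Q v z = 0 → polar Q x' z = polar Q x z := fun x hx h => by
      by_cases h3 : Q x = 0
      · exact ⟨x + v, add_mem hx hv, by simpa [Q_add, h3, h], by simp [h, hvv],
          fun z hz => by simp [hz]⟩
      · exact ⟨x, hx, h3, h, fun _ _ => rfl⟩
    obtain ⟨x', a1, a2, a3, a4⟩ := key x hx.1 hx.2
    obtain ⟨y', b1, b2, b3, b4⟩ := key y hy y1
    refine ⟨x', a1, y', b1, a2, b2, ?_, a3, b3⟩
    rwa [a4 _ (by rwa [polar_comm]), polar_comm, b4 _ (by rw [polar_comm]; exact hx.2)]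

theorem maximal_four (hD : PDec (qP hQ) 4 D) (h2 : (2 : F) = 0) (hm : ∀ i, ¬ Plus Q (D i))
    (ht : 2 ≤ Fintype.card κ) : Geo.IsMaximalIn (qP hQ).E (decStab D ⊓ (qP hQ).E) := by
  have hn := hD.mul_eq
  refine hD.maximal_of (qP_wild hQ) (by omega) (by omega) ht fun X hH hX g hg hg' => ?_
  by_contra hE
  obtain ⟨i⟩ : Nonempty κ := Fintype.card_pos_iff.1 (by omega)
  obtain ⟨a, ha, -, -, a0, -⟩ := exists_good_four hQ (hD.ndOn i) (hD.dim i) (hm i) h2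
    (Submodule.zero_mem _)
  obtain ⟨x, hx, y, hy, x0, y0, hxy, h1, h3⟩ := exists_good_four hQ (hD.ndOn i) (hD.dim i) (hm i) h2
    (hD.pr_mem i (g a))
  exact hg' (rot2 h2 hD (by omega) (rMax_four hD (by omega)) (conn_four hD h2 hm) hH hX hE
    (by omega) hg ha a0 hx hy x0 y0 hxy (by rwa [polar_comm, ← hD.pol_pr hx])
    (by rwa [polar_comm, ← hD.pol_pr hy]))

end four

end Cfsg.Agent.H7
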