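import Cfsg.Agent.H7.C2Pl2

/-!
Overgroups of the stabiliser of an orthogonal decomposition into planes containing a new
reflection.
-/

set_option autoImplicit false
set_option linter.unusedSectionVars false

namespace Cfsg.Agent.H7

open Module H8 H7.Polar QuadraticMap

variable {F : Type*} [Field F] [Fintype F] {V : Type*} [AddCommGroup V] [Module F V]
variable [FiniteDimensional F V] {Q : QuadraticForm F V}
variable {κ : Type} [Fintype κ] [DecidableEq κ] {hQ : ND Q} {D : κ → Submodule F V}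

theorem root_map {Y : Subgroup (V ≃ₗ[F] V)} (hY : Y ≤ (qP hQ).Iso) {c : V} (hc : rQ Q c ∈ Y)
    {g : V ≃ₗ[F] V} (hg : g ∈ Y) : rQ Q (g c) ∈ Y := by
  rw [← rQ_conj (hY hg)]
  exact Y.mul_mem (Y.mul_mem hg hc) (Y.inv_mem hg)

variable (hD : PDec (qP hQ) 2 D) (hP : ∀ i, Pl Q (D i))
include hD hP

theorem exists_pair {i j : κ} {c c' : V} (hc : c ∈ D i) (hc' : c' ∈ D j) (h0 : c ≠ 0)
    (h0' : c' ≠ 0) : ∃ x ∈ D i, ∃ x' ∈ D j, polar Q x c = 1 ∧ polar Q x' c' = 1 ∧ Q x ≠ 0 ∧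
      Q x + Q x' = 0 := by
  have key : ∀ i j, ¬ Aniso Q (D i) → Plus Q (D j) := fun i j h => by
    simp only [Aniso, not_forall] at h
    obtain ⟨x, hx, h1, h2⟩ := h
    obtain ⟨e, he, h3, h4⟩ := hD.exists_sing hx (qP_sing hQ h1) h2 j
    exact (plus_plane_iff (hD.dim j)).2 ⟨e, he, h4, ((qP_val hQ).1 h3).symm⟩
  by_cases h : Aniso Q (D i)
  · refine exists_pair_aniso hQ (hP i) (hP j) h (by_contra fun h' => ?_) hc hc' h0 h0'
    obtain ⟨e, he, h1, h2⟩ := (plus_plane_iff (hD.dim i)).1 (key j i h')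
    exact h1 (h e he h2)
  · exact exists_pair_hyp hQ (hP i) (hP j) (by have := (hP i).big.resolve_left (h ·.1); omega)
      (key i i h) (key i j h) hc hc' h0 h0'

variable {Y : Subgroup (V ≃ₗ[F] V)} (hH : decStab D ⊓ (qP hQ).Iso ≤ Y) (hY : Y ≤ (qP hQ).Iso)
include hH hY

theorem exists_root_three (ht : 3 ≤ Fintype.card κ) {c : V} (hc : Q c ≠ 0) (hc' : ∀ j, c ∉ D j)
    (hcY : rQ Q c ∈ Y) : ∃ c, Q c ≠ 0 ∧ rQ Q c ∈ Y ∧ ∃ i j l, i ≠ j ∧ l ≠ i ∧ l ≠ j ∧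
      hD.pr i c ≠ 0 ∧ hD.pr j c ≠ 0 ∧ hD.pr l c ≠ 0 := by
  have : Nonempty κ := Fintype.card_pos_iff.1 (by omega)
  obtain ⟨i, j, hij, hi, hj⟩ := hD.exists_two hc'
  obtain ⟨l, hl⟩ := Finset.exists_mem_notMem_of_card_lt_card (s := {i, j}) (t := Finset.univ)
    (by rw [Finset.card_pair hij, Finset.card_univ]; omega)
  replace hl : l ≠ i ∧ l ≠ j := by simpa using hl
  by_cases H : ∃ m, m ≠ i ∧ m ≠ j ∧ hD.pr m c ≠ 0
  · obtain ⟨m, h1, h2, h3⟩ := H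
    exact ⟨c, hc, hcY, i, j, m, hij, h1, h2, hi, hj, h3⟩
  push_neg at H
  have hx := hD.pr_mem i c
  have hy := hD.pr_mem j c
  have hcc : c = hD.pr i c + hD.pr j c := hD.ext fun m => by
    by_cases h1 : m = i
    · rw [h1, map_add, hD.pr_pr, hD.pr_pr_ne hij.symm, add_zero]
    by_cases h2 : m = j
    · rw [h2, map_add, hD.pr_pr, hD.pr_pr_ne hij, zero_add]
    · rw [H m h1 h2, map_add, hD.pr_pr_ne (Ne.symm h1), hD.pr_pr_ne (Ne.symm h2), add_zero]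
  generalize hD.pr i c = x at *
  generalize hD.pr j c = y at *
  obtain ⟨g, hg, hg'⟩ := hD.iso j l
  obtain ⟨s, hs, hs', s1, -, s3⟩ := hD.exists_swap hl.2.symm hg hg'
  obtain ⟨z, hz, z1, z2, z3, z4⟩ := (hP i).exists_good hQ hx hi
  have hw := hg' y hy
  have h1 : rQ Q z (s c) = x - (Q z)⁻¹ • z + g y := by
    rw [hcc, map_add, s1 y hy, s3 i hij hl.1.symm x hx, map_add, rQ_fix (hD.pol hl.1 hw hz),
      rQ_apply, polar_comm, z1, mul_one]
  obtain ⟨a, ha, h2⟩ : ∃ a : F, a ≠ 0 ∧ rQ Q c (rQ Q z (s c)) =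
      (x - (Q z)⁻¹ • z - a • x) + -a • y + g y := by
    refine ⟨(Q c)⁻¹ * (2 * Q x - (Q z)⁻¹), mul_ne_zero (inv_ne_zero hc) fun h => z3 ?_, ?_⟩
    · rw [sub_eq_zero.1 h, inv_mul_cancel₀ z2]
    · rw [h1, rQ_apply]
      have : polar Q (x - (Q z)⁻¹ • z + g y) c = 2 * Q x - (Q z)⁻¹ := by
        rw [hcc]
        simp [polar_self', z1, hD.pol hij hx hy, hD.pol hij hz hy, hD.pol hl.1 hw hx,
          hD.pol hl.2 hw hy]
      rw [this]
      linear_combination (norm := module) -((Q c)⁻¹ * (2 * Q x - (Q z)⁻¹)) • hcc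
  have hx' : x - (Q z)⁻¹ • z - a • x ∈ D i :=
    sub_mem (sub_mem hx ((D i).smul_mem _ hz)) ((D i).smul_mem _ hx)
  have hy' : -a • y ∈ D j := (D j).smul_mem _ hy
  refine ⟨rQ Q c (rQ Q z (s c)), by rwa [Q_rQ, Q_rQ, Iso.Q_eq hs], root_map hY (root_map hY
    (root_map hY hcY (hH ⟨hs', hs⟩)) (hH (PDec.rQ_mem hD hz))) hcY, i, j, l, hij, hl.1, hl.2, ?_, ?_,
    ?_⟩ <;> rw [h2, map_add, map_add]
  · rw [hD.pr_self hx', hD.pr_ne hij.symm hy', hD.pr_ne hl.1 hw, add_zero, add_zero]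
    exact fun h => z4 (Submodule.mem_span_singleton.2 ⟨Q z * (1 - a), by
      have h3 := mul_inv_cancel₀ z2
      linear_combination (norm := module) Q z • h + h3 • z⟩)
  · rw [hD.pr_ne hij hx', hD.pr_self hy', hD.pr_ne hl.2 hw, add_zero, zero_add]
    simp [ha, hj]
  · rw [hD.pr_ne hl.1.symm hx', hD.pr_ne hl.2.symm hy', hD.pr_self hw, add_zero, zero_add]
    simpa using hj

theorem exists_le_AS {c : V} (hc : Q c ≠ 0) (hcY : rQ Q c ∈ Y) {i j l : κ} (hij : i ≠ j)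
    (hli : l ≠ i) (hlj : l ≠ j) (hi : hD.pr i c ≠ 0) (hj : hD.pr j c ≠ 0) (hl : hD.pr l c ≠ 0) :
    ∃ p ∈ D i, ∃ p' ∈ D j, Q p ≠ 0 ∧ ∃ hu : Q (p + p') = 0, D l ≤ AS hQ Y hu := by
  obtain ⟨x, hx, x', hx', h1, h2, h3, h4⟩ := exists_pair hD hP (hD.pr_mem i c) (hD.pr_mem j c) hi hj
  rw [hD.pol_pr hx] at h1
  rw [hD.pol_pr hx'] at h2
  have h5 : Q x' = -Q x := by linear_combination h4
  have hxx := hD.pol hij hx hx'
  set u := -(Q x)⁻¹ • x + (Q x)⁻¹ • x' with hu'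
  have hu : Q u = 0 := by rw [hu', Q_comb, hxx, h5]; ring
  have hcu : polar Q c u = 0 := by simp [hu', polar_comm Q c, h1, h2]
  have h6 : rQ Q x (rQ Q x' c) = c + u := by
    simp only [rQ_apply, polar_sub_left, polar_smul_left, polar_comm Q c, h1, h2, h5, hu',
      polar_comm Q x', hxx, inv_neg]
    module
  have h7 := EI_of_rQ (hQ := hQ) hu hcu hc (Y.mul_mem (h6 ▸ root_map hY (root_map hY hcY
    (hH (PDec.rQ_mem hD hx'))) (hH (PDec.rQ_mem hD hx))) hcY)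
  have hzu : ∀ z ∈ D l, polar Q z u = 0 := fun z hz => by
    simp [hu', hD.pol hli hz hx, hD.pol hlj hz hx']
  let A : AddSubgroup V :=
    { carrier := {w | polar Q w u = 0 ∧ (qP hQ).EI Y u w (Q w)}
      add_mem' := fun ha hb => ⟨by simp [ha.1, hb.1], EI.add' hu ha.1 hb.1 ha.2 hb.2⟩
      zero_mem' := ⟨by simp, by rw [map_zero]; exact EI.zero u⟩
      neg_mem' := fun ha => ⟨by simp [ha.1], EI.neg' hu ha.1 ha.2⟩ }
  have hA : ∀ z ∈ D l, ∀ w ∈ A, rQ Q z w ∈ A := fun z hz w hw => by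
    have h8 : rQ Q z u = u := rQ_fix (by rw [polar_comm, hzu z hz])
    refine ⟨by rw [← h8, polar_rQ]; exact hw.1, ?_⟩
    have := hw.2.conj (hH (PDec.rQ_mem hD hz)) (rQ_mem_Iso hQ z)
    rwa [h8, ← Q_rQ z w] at this
  obtain ⟨z, hz, z1, z2, -⟩ := (hP l).exists_good hQ (hD.pr_mem l c) hl
  rw [hD.pol_pr hz] at z1
  have h8 : -(Q c)⁻¹ • c ∈ A := ⟨by simp [hcu], h7⟩
  have h9 := (hP l).le_of_add hQ hA (sub_mem h8 (hA z hz _ h8)) (by
    rw [rQ_apply, sub_sub_cancel]; exact (D l).smul_mem _ hz) (by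
    have : z ≠ 0 := by rintro rfl; simp at z2
    simp [rQ_apply, polar_comm Q c, z1, z2, hc, this])
  exact ⟨_, (D i).smul_mem _ hx, _, (D j).smul_mem _ hx', by rw [Q_smul]; simp [h3], hu,
    fun w hw => (mem_AS_iff hu).2 ⟨hzu w hw, fun a => (h9 _ ((D l).smul_mem a hw)).2⟩⟩

theorem E_le_of_le_AS {i j l : κ} (hij : i ≠ j) (hli : l ≠ i) (hlj : l ≠ j) {p p' : V}
    (hp : p ∈ D i) (hp' : p' ∈ D j) (h0 : Q p ≠ 0) (hu : Q (p + p') = 0)
    (hl : D l ≤ AS hQ Y hu) : (qP hQ).E ≤ Y := by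
  have hpp := hD.pol hij hp hp'
  have h0' : Q p' ≠ 0 := fun h => h0 (by simpa [Q_add, h, hpp] using hu)
  have p0 : p ≠ 0 := by rintro rfl; simp at h0
  have p0' : p' ≠ 0 := by rintro rfl; simp at h0'
  have hD1 : ∀ m, m ≠ i → m ≠ j → D m ≤ AS hQ Y hu := fun m hmi hmj => by
    by_cases hlm : l = m
    · exact hlm ▸ hl
    obtain ⟨g, hg, hg'⟩ := hD.iso l m
    obtain ⟨s, hs, hs', s1, -, s3⟩ := hD.exists_swap hlm hg hg'
    rw [← hD.map_eq_of_le hg']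
    rintro _ ⟨x, hx, rfl⟩
    exact (s1 x hx : s x = g x) ▸ AS_apply hY (hl hx) (hH ⟨hs', hs⟩) hu (by
      rw [map_add, s3 i hli.symm hmi.symm p hp, s3 j hlj.symm hmj.symm p' hp'])
  have hE0 : ∀ a ∈ D l, Q a ≠ 0 → rQ Q (a + (p + p')) ∈ Y := fun a ha ha0 => by
    obtain ⟨w, hw, h1, -⟩ := (hP l).exists_good hQ ha (by rintro rfl; simp at ha0)
    obtain ⟨g, hg, h2⟩ := AS.exists (hl (neg_mem hw))
    convert root_map hY (hH (PDec.rQ_mem hD ha)) hg using 2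
    simp [h2, hD.pol hli ha hp, hD.pol hlj ha hp', polar_comm Q a w, h1, -neg_add_rev, -smul_add]
  obtain ⟨z, hz, z1, z2, z3, z4⟩ := (hP i).exists_good hQ hp p0
  have hy := rQ_apply_mem (Q := Q) hz hp
  have hE1 : ∀ a ∈ D j, Q a ≠ 0 → polar Q a p' = -polar Q (rQ Q z p) p →
      rQ Q z p + a ∈ AS hQ Y hu := fun a ha ha0 h => by
    obtain ⟨g, hg, hg'⟩ := hD.iso j l
    obtain ⟨s, hs, hs', s1, s2, s3⟩ := hD.exists_swap hlj.symm hg hg'
    have hw := hg' p' hp'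
    have h1 := root_map hY (root_map hY (hE0 _ (hg' a ha) (by rwa [Iso.Q_eq hg]))
      (hH ⟨hs', hs⟩)) (hH (PDec.rQ_mem hD hz))
    have h2 : Q (rQ Q z (s (g a + (p + p')))) ≠ 0 := by
      rw [Q_rQ, Iso.Q_eq hs, Q_add, hu, Iso.Q_eq hg]
      simpa [hD.pol hli (hg' a ha) hp, hD.pol hlj (hg' a ha) hp']
    rw [map_add s, map_add s, s2 a ha, s1 p' hp', s3 i hij hli.symm p hp, map_add (rQ Q z),
      map_add (rQ Q z), rQ_fix (hD.pol hij.symm ha hz), rQ_fix (hD.pol hli hw hz)] at h1 h2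
    obtain ⟨w, hw', h3, -⟩ := (hP l).exists_good hQ hw (by simpa using p0')
    have h4 := mem_AS_of_rQ hY (hl hw') h1 h2 (by
      rw [polar_comm]
      simp [h, hD.pol hij.symm ha hp, hD.pol hij hy hp', hD.pol hli hw hp, hD.pol hlj hw hp'])
      (by simp [h3, hD.pol hlj hw' ha, hD.pol hli hw' hy])
    convert sub_mem h4 (hl hw) using 1
    abel
  have hβ : -polar Q (rQ Q z p) p ≠ 0 := by
    rw [rQ_apply, polar_comm Q p z, z1, mul_one, polar_sub_left, polar_smul_left, z1, polar_self',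
      smul_eq_mul, mul_one, neg_ne_zero]
    exact fun h => z3 (by rw [sub_eq_zero.1 h, inv_mul_cancel₀ z2])
  obtain ⟨a, ha, d, hd, a1, a2, a3, a4, a5⟩ := (hP j).exists_two hQ hp' p0' hβ
  have F0 := hE1 a ha a2 a1
  have F1 : ∀ y ∈ D j, polar Q y p' = 0 → y ∈ AS hQ Y hu := fun y hy hy' => by
    refine (Submodule.span_singleton_le_iff_mem _ _).2 ?_ (a5 y hy hy')
    simpa using sub_mem (hE1 (a + d) (add_mem ha hd) a3 (by simp [a1, a4])) F0
  have F2 : ∀ y ∈ D i, ∃ y' ∈ D j, y + y' ∈ AS hQ Y hu := fun y hy => by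
    rw [eq_pair_of_finrank (hD.dim i) hp hz p0 z4] at hy
    obtain ⟨α, β, rfl⟩ := mem_span_pair'.1 hy
    refine ⟨α • p' + (β * Q z) • (p' - a), add_mem ((D j).smul_mem _ hp')
      ((D j).smul_mem _ (sub_mem hp' ha)), ?_⟩
    have h1 := self_mem_AS (hQ := hQ) Y hu
    convert add_mem (Submodule.smul_mem _ α h1) (Submodule.smul_mem _ (β * Q z) (sub_mem h1 F0))
      using 1
    rw [rQ_apply, polar_comm Q p z, z1]
    match_scalars <;> field_simp <;> ring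
  have F3 := fullA_of_AS hu fun w hw => by
    obtain ⟨y, hy, h1⟩ := F2 _ (hD.pr_mem i w)
    have h2 := AS.polar h1
    have h3 := F1 (hD.pr j w - y) (sub_mem (hD.pr_mem j w) hy) (by
      rw [polar_add_right, ← hD.pr_pol hp, ← hD.pr_pol hp'] at hw
      simp only [polar_add_left, polar_add_right, hD.pol hij (hD.pr_mem i w) hp',
        hD.pol hij.symm hy hp] at h2
      rw [polar_sub_left]
      linear_combination hw - h2)
    rw [← hD.sum_pr w, ← Finset.add_sum_erase _ _ (Finset.mem_univ i),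
      ← Finset.add_sum_erase _ _ (Finset.mem_erase.2 ⟨hij.symm, Finset.mem_univ j⟩), ← add_assoc]
    refine add_mem (by simpa using add_mem h1 h3) (Submodule.sum_mem _ fun m hm => ?_)
    simp only [Finset.mem_erase] at hm
    exact hD1 m hm.2.1 hm.1 (hD.pr_mem m w)
  refine E_le_of_fullA (qP_sing hQ hu) (qP_sing hQ ((Q_rQ z _).trans hu)) F3
    (F3.conj (hH (PDec.rQ_mem hD hz)) (rQ_mem_Iso hQ z)) ?_
  rw [qP_B, rQ_apply, polar_sub_left, polar_self', hu, polar_smul_left, polar_comm Q _ z]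
  simp [z1, z2, hD.pol hij hz hp']

omit hH hY in
theorem rMax_two (ht : 3 ≤ Fintype.card κ) : RMax hQ D := by
  intro Y hH hY c hc hc' hcY
  obtain ⟨c, hc, hcY, i, j, l, hij, hli, hlj, hi, hj, hl⟩ :=
    exists_root_three hD hP hH hY ht hc hc' hcY
  obtain ⟨p, hp, p', hp', h0, hu, h⟩ := exists_le_AS hD hP hH hY hc hcY hij hli hlj hi hj hl
  exact E_le_of_le_AS hD hP hH hY hij hli hlj hp hp' h0 hu h

omit hH hY in
theorem conn_two : Conn hQ D := conn_of hD fun i => by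
  obtain ⟨x, hx, h0⟩ := hD.exists_ne_zero i
  obtain ⟨a, ha, -, a0, -⟩ := (hP i).exists_good hQ hx h0
  have a1 : a ≠ 0 := by rintro rfl; simp at a0
  obtain ⟨b, hb, b1, b2, -, b3⟩ := (hP i).exists_good hQ ha a1
  refine ⟨a, ha, a0, fun N h1 h2 => ?_⟩
  rw [eq_pair_of_finrank (hD.dim i) ha hb a1 b3]
  exact pair_le h1 (h2 b hb b2 (by simp [polar_comm Q a, b1]))

end Cfsg.Agent.H7
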