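import Cfsg.Agent.H7.C2Pl3
import Cfsg.Agent.H7.C2Mat

/-!
Maximality of the stabiliser of an orthogonal decomposition into planes.
-/

set_option autoImplicit false
set_option linter.unusedSectionVars false

namespace Cfsg.Agent.H7

open Module H8 H7.Polar QuadraticMap

section

variable {F : Type*} [Field F] [Fintype F] {V : Type*} [AddCommGroup V] [Module F V]
variable [FiniteDimensional F V] {Q : QuadraticForm F V}
variable {κ : Type} [Fintype κ] [DecidableEq κ] {hQ : ND Q} {D : κ → Submodule F V}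
variable {X : Subgroup (V ≃ₗ[F] V)}

theorem star_block {k : ℕ} (hD : PDec (qP hQ) k D) (hk : 2 ≤ k) (hn : 7 ≤ finrank F V)
    (hR : RMax hQ D) (hC : Conn hQ D) (hH : decStab D ⊓ (qP hQ).E ≤ X) (hX : X ≤ (qP hQ).E)
    (hE : ¬ (qP hQ).E ≤ X) {g : V ≃ₗ[F] V} (hg : g ∈ X) {i j : κ} (h : ∀ x ∈ D i, g x ∈ D j) :
    g ∈ decStab D := by
  have hg' := E_le_Iso (hX hg)
  have hr : ∀ {l m a b}, a ∈ D l → b ∈ D m → Q a = Q b → rQ Q a * rQ Q b ∈ X :=
    fun ha hb h => hH ⟨Subgroup.mul_mem _ (PDec.rQ_mem hD ha).1 (PDec.rQ_mem hD hb).1,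
      rQ_mul_mem_E hQ hn h⟩
  refine hC g hg' fun l b hb hb0 => ?_
  by_cases hl : l = i
  · exact ⟨j, h b (hl ▸ hb)⟩
  by_contra! hc
  obtain ⟨a, ha, ha0⟩ := (hD.ndOn i).exists_val (by rw [hD.dim]; exact hk) (Q b)
  refine hE (hR.E_le hD hH hX (by rwa [Iso.Q_eq hg']) hc (h a ha) fun s hs => ?_)
  obtain ⟨f, hf, hsf⟩ := hD.exists_comp (qP_wild hQ) hn (hD.univ hk j) le_rfl hs.2 hs.1
  have hf' := (FixIso _ _).inv_mem hf
  have h1 : f⁻¹ (g b) = g b := hf'.2 _ fun y hy => by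
    rw [← hD.map_eq_of_le h] at hy
    obtain ⟨y, hy, rfl⟩ := hy
    exact (Iso.B hg' b y).trans (hD.orth hl hb hy)
  have h2 : rQ Q (g b) * rQ Q (g a) ∈ X := by
    rw [← rQ_conj hg', ← rQ_conj hg', conj_mul]
    exact X.mul_mem (X.mul_mem hg (hr hb ha ha0.symm)) (X.inv_mem hg)
  have h3 : f⁻¹ * (rQ Q (g b) * rQ Q (g a)) * f⁻¹⁻¹ ∈ X := by
    rw [← conj_mul, rQ_conj hf'.1, rQ_conj hf'.1, h1]
    have := X.mul_mem h2 (hr (h a ha) (hD.FixIso_apply_mem hf' j _ (h a ha)) (Iso.Q_eq hf'.1 _).symm)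
    rwa [mul_assoc, ← mul_assoc (rQ Q (g a)), rQ_mul_self, one_mul] at this
  convert X.mul_mem (X.mul_mem (hH hsf) h3) (X.inv_mem (hH hsf)) using 1
  group

theorem Pl.exists_rot {W : Submodule F V} (hQ : ND Q) (h : Pl Q W) :
    ∃ x ∈ W, ∃ y ∈ W, Q x ≠ 0 ∧ Q y = Q x ∧ polar Q x y ≠ 0 ∧ y ∉ F ∙ x := by
  obtain ⟨v, hv, h0⟩ := Submodule.exists_mem_ne_zero_of_ne_bot (p := W) (by
    rintro rfl; simpa using h.dim)
  obtain ⟨x, hx, -, x0, -⟩ := h.exists_good hQ hv h0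
  obtain ⟨z, hz, z1, z2, z3, z4⟩ := h.exists_good hQ hx (by rintro rfl; simp at x0)
  refine ⟨x, hx, rQ Q z x, rQ_apply_mem hz hx, x0, Q_rQ z x, ?_, fun h => z4 ?_⟩
  · rw [rQ_apply, polar_comm Q x z, z1, mul_one, polar_sub_right, polar_smul_right, polar_comm Q x z,
      z1, polar_self', smul_eq_mul, mul_one]
    exact fun h => z3 (by rw [sub_eq_zero.1 h, inv_mul_cancel₀ z2])
  · have := (F ∙ x).smul_mem (Q z) (sub_mem (Submodule.mem_span_singleton_self x) h)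
    rwa [rQ_apply, sub_sub_cancel, polar_comm Q x z, z1, mul_one, smul_smul, mul_inv_cancel₀ z2,
      one_smul] at this

theorem sing_three {W : Submodule F V} (h : NDOn Q W) (hd : finrank F W = 2) {a b c : V}
    (ha : a ∈ W) (hb : b ∈ W) (hc : c ∈ W) (a0 : a ≠ 0) (b0 : b ≠ 0) (a1 : Q a = 0) (b1 : Q b = 0)
    (c1 : Q c = 0) : b ∈ F ∙ a ∨ c ∈ F ∙ a ∨ c ∈ F ∙ b := by
  refine or_iff_not_imp_left.2 fun h1 => ?_
  have h2 := disc_ne h hd hb ha a0 h1
  rw [eq_pair_of_finrank hd ha hb a0 h1] at hc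
  obtain ⟨α, β, rfl⟩ := mem_span_pair'.1 hc
  rw [Q_comb, a1, b1, polar_comm] at c1
  have h3 : α = 0 ∨ β = 0 := by simpa [show polar Q b a ≠ 0 by simpa [a1] using h2] using c1
  rcases h3 with rfl | rfl
  · exact Or.inr (Submodule.mem_span_singleton.2 ⟨β, by simp⟩)
  · exact Or.inl (Submodule.mem_span_singleton.2 ⟨α, by simp⟩)

variable (hD : PDec (qP hQ) 2 D) (hP : ∀ i, Pl Q (D i)) (hH : decStab D ⊓ (qP hQ).E ≤ X)
  (hX : X ≤ (qP hQ).E) (hE : ¬ (qP hQ).E ≤ X)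
include hD hP hH hX hE

theorem le_of_odd (h2 : (2 : F) ≠ 0) (ht : 5 ≤ Fintype.card κ) : X ≤ decStab D := by
  have hn : 7 ≤ finrank F V := by have := hD.mul_eq; omega
  have hs := fun g => star_block hD le_rfl hn (rMax_two hD hP (by omega)) (conn_two hD hP) hH hX hE
    (g := g)
  refine ztrick hD h2 le_rfl ht (qP_wild hQ) hn hH (hX.trans E_le_Iso) fun g hg i S hS h => ?_
  obtain ⟨l, -, hl⟩ := Finset.exists_mem_notMem_of_card_lt_card (s := S) (t := Finset.univ)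
    (by rw [Finset.card_univ]; omega)
  obtain ⟨x, hx, y, hy, x0, y0, hxy, hxy'⟩ := (hP l).exists_rot hQ
  have hg' := E_le_Iso (hX (X.inv_mem hg))
  obtain ⟨m, h1, h3⟩ := rot_mem hD le_rfl (x := g⁻¹ x) (y := g⁻¹ y) (by rwa [Iso.Q_eq hg'])
    (by rwa [Iso.Q_eq hg', y0]) (by rwa [Iso.polar_eq hg']) (fun h => hxy' (by
      obtain ⟨c, hc⟩ := Submodule.mem_span_singleton.1 h
      exact Submodule.mem_span_singleton.2 ⟨c, g⁻¹.injective (by rwa [map_smul])⟩)) (by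
      rw [← rQ_conj hg', ← rQ_conj hg', conj_mul]
      refine hs _ (X.mul_mem (X.mul_mem (X.inv_mem hg) (hH ⟨Subgroup.mul_mem _
        (PDec.rQ_mem hD hx).1 (PDec.rQ_mem hD hy).1, rQ_mul_mem_E hQ hn y0.symm⟩))
        (X.inv_mem (X.inv_mem hg))) (i := i) (j := i) fun a ha => ?_
      have h4 := hD.mem_perp_iff.2 (h a ha l hl)
      simpa [rQ_fix (h4 x hx), rQ_fix (h4 y hy), show g⁻¹ (g a) = a from g.symm_apply_apply a])
  refine (decStab D).inv_mem_iff.1 (hs _ (X.inv_mem hg) (i := l) (j := m) fun z hz => ?_)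
  rw [eq_pair_of_finrank (hD.dim l) hx hy (by rintro rfl; simp at x0) hxy'] at hz
  obtain ⟨α, β, rfl⟩ := mem_span_pair'.1 hz
  simpa using add_mem ((D m).smul_mem α h1) ((D m).smul_mem β h3)

variable (h2 : (2 : F) = 0) (ht : 4 ≤ Fintype.card κ)
include h2 ht

theorem mem_of_pr_eq_zero {g : V ≃ₗ[F] V} (hg : g ∈ X) {i l : κ} {a : V} (ha : a ∈ D i)
    (ha0 : Q a ≠ 0) (h : hD.pr l (g a) = 0) : g ∈ decStab D := by
  obtain ⟨x, hx, y, hy, x0, y0, hxy, -⟩ := (hP l).exists_rot hQ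
  have h4 := hD.mem_perp_iff.2 h
  exact rot2 h2 hD (by have := hD.mul_eq; omega) (rMax_two hD hP (by omega)) (conn_two hD hP) hH hX
    hE le_rfl hg ha ha0 hx hy x0 (by rwa [y0]) hxy (h4 x hx) (h4 y hy)

theorem mem_of_two_nonsing {g : V ≃ₗ[F] V} (hg : g ∈ X) {l i j : κ} {a : V} (ha : a ∈ D l)
    (ha0 : Q a ≠ 0) (hij : i ≠ j) (hi : Q (hD.pr i (g a)) ≠ 0) (hj : Q (hD.pr j (g a)) ≠ 0) :
    g ∈ decStab D := by
  classical
  have hx := hD.pr_mem i (g a)
  have hy := hD.pr_mem j (g a)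
  have h1 := conj_mem2 h2 hD (by have := hD.mul_eq; omega) (rMax_two hD hP (by omega))
    (conn_two hD hP) hH hX hE hg ha ha0 hx hy hi hj
    (by rw [← hD.pr_pol hx, polar_self', h2, zero_mul])
    (by rw [← hD.pr_pol hy, polar_self', h2, zero_mul])
  generalize hD.pr i (g a) = x at *
  generalize hD.pr j (g a) = y at *
  have hg' := E_le_Iso (hX (X.inv_mem hg))
  obtain ⟨σ, hσ⟩ := Dec.exists_perm h1
  have h3 := card_le_rank hD.toDec le_rfl hσ (rQ_mul_sub_mem _ _) (Finset.univ.filter fun m =>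
    ∃ z ∈ D m, (rQ Q (g⁻¹ x) * rQ Q (g⁻¹ y)) z ≠ z) fun m hm => (Finset.mem_filter.1 hm).2
  have h4 := finrank_span_pair_le (F := F) (g⁻¹ x) (g⁻¹ y)
  obtain ⟨m, -, hm⟩ := Finset.exists_mem_notMem_of_card_lt_card (t := Finset.univ)
    (lt_of_le_of_lt (Nat.le_of_mul_le_mul_right (h3.trans (show _ ≤ 2 * 2 by omega)) two_pos)
      (by rw [Finset.card_univ]; omega))
  refine (decStab D).inv_mem_iff.1 (mem_of_pr_eq_zero hD hP hH hX hE h2 ht (X.inv_mem hg) hx hi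
    (l := m) (hD.mem_perp_iff.1 fun z hz => ?_))
  have h5 : rQ Q (g⁻¹ x) (rQ Q (g⁻¹ y) z) = z := by
    by_contra h
    exact hm (Finset.mem_filter.2 ⟨Finset.mem_univ _, z, hz, h⟩)
  have h6 := congrArg (rQ Q (g⁻¹ x)) h5
  rw [rQ_rQ, rQ_apply, rQ_apply, sub_right_inj, ← map_smul, ← map_smul,
    g⁻¹.injective.eq_iff] at h6
  have h7 := congrArg (hD.pr i) h6
  rw [map_smul, map_smul, hD.pr_self hx, hD.pr_ne hij.symm hy, smul_zero, eq_comm, smul_eq_zero,
    Iso.Q_eq hg'] at h7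
  rw [qP_B, polar_comm]
  simpa [hi, show x ≠ 0 by rintro rfl; simp at hi] using h7

theorem le_of_even : X ≤ decStab D := by
  classical
  intro g hg
  by_contra hg0
  have hg' := E_le_Iso (hX hg)
  have hn : 7 ≤ finrank F V := by have := hD.mul_eq; omega
  obtain ⟨l⟩ : Nonempty κ := Fintype.card_pos_iff.1 (by omega)
  let K : κ → Prop := fun m => ∃ z ∈ D l, z ≠ 0 ∧ hD.pr m (g z) = 0
  have h1 : (Finset.univ.filter fun m => ¬ K m).card ≤ 1 := Finset.card_le_one.2 fun i hi j hj => by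
    by_contra hij
    simp only [Finset.mem_filter, Finset.mem_univ, true_and] at hi hj
    obtain ⟨x, hx, y, hy, x0, -, -, hxy⟩ := (hP l).exists_rot hQ
    have x1 : x ≠ 0 := by rintro rfl; simp at x0
    have hm : ∀ s : F, y + s • x ∈ D l := fun s => add_mem hy ((D l).smul_mem _ hx)
    have hne : ∀ s : F, y + s • x ≠ 0 := fun s h => hxy (Submodule.mem_span_singleton.2
      ⟨-s, by linear_combination (norm := module) -h⟩)
    have key : ∀ m, ¬ K m → polar Q (hD.pr m (g y)) (hD.pr m (g x)) ^ 2 ≠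
        4 * Q (hD.pr m (g y)) * Q (hD.pr m (g x)) := fun m hm' =>
      disc_ne (hD.ndOn m) (hD.dim m) (hD.pr_mem _ _) (hD.pr_mem _ _) (fun h => hm' ⟨x, hx, x1, h⟩)
        fun h => by
          obtain ⟨c, hc⟩ := Submodule.mem_span_singleton.1 h
          exact hm' ⟨_, hm (-c), hne _, by simp [← hc]⟩
    obtain ⟨s, a1, a2, a3⟩ : ∃ s : F, Q (y + s • x) ≠ 0 ∧ Q (hD.pr i (g (y + s • x))) ≠ 0 ∧
        Q (hD.pr j (g (y + s • x))) ≠ 0 := by
      by_cases h7 : 7 ≤ Fintype.card F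
      · obtain ⟨s, a1, a2, a3⟩ := avoid222 (by omega)
          (quad_ne (disc_ne (hD.ndOn l) (hD.dim l) hy hx x1 hxy)) (quad_ne (key i hi))
          (quad_ne (key j hj))
        exact ⟨s, by rwa [Q_line], by rwa [map_add, map_add, map_smul, map_smul, Q_line],
          by rwa [map_add, map_add, map_smul, map_smul, Q_line]⟩
      · have ha : ∀ m, Aniso Q (D m) := fun m => ((hP m).big.resolve_right h7).1
        exact ⟨0, fun h => hne 0 (ha l _ (hm 0) h),
          fun h => hi ⟨_, hm 0, hne 0, ha i _ (hD.pr_mem _ _) h⟩,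
          fun h => hj ⟨_, hm 0, hne 0, ha j _ (hD.pr_mem _ _) h⟩⟩
    exact hg0 (mem_of_two_nonsing hD hP hH hX hE h2 ht hg (hm s) a1 hij a2 a3)
  have h3 := Finset.card_filter_add_card_filter_not (s := Finset.univ) K
  rw [Finset.card_univ] at h3
  have hs : ∀ m, ∀ z ∈ D l, hD.pr m (g z) = 0 → Q z = 0 := fun m z hz h => by_contra fun h0 =>
    hg0 (mem_of_pr_eq_zero hD hP hH hX hE h2 ht hg hz h0 h)
  obtain ⟨m, m', e, he, hmm, e0, e1, e2⟩ : ∃ m m', ∃ e ∈ D l, m ≠ m' ∧ e ≠ 0 ∧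
      hD.pr m (g e) = 0 ∧ hD.pr m' (g e) = 0 := by
    obtain ⟨a, b, c, ha, hb, hc, hab, hac, hbc⟩ :=
      (Finset.two_lt_card_iff (s := Finset.univ.filter K)).1 (by omega)
    obtain ⟨x, hx, x0, x1⟩ := (Finset.mem_filter.1 ha).2
    obtain ⟨y, hy, y0, y1⟩ := (Finset.mem_filter.1 hb).2
    obtain ⟨z, hz, z0, z1⟩ := (Finset.mem_filter.1 hc).2
    rcases sing_three (hD.ndOn l) (hD.dim l) hx hy hz x0 y0 (hs a x hx x1) (hs b y hy y1)
      (hs c z hz z1) with h | h | h <;> obtain ⟨s, rfl⟩ := Submodule.mem_span_singleton.1 h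
    · exact ⟨a, b, _, hy, hab, y0, by simp [x1], y1⟩
    · exact ⟨a, c, _, hz, hac, z0, by simp [x1], z1⟩
    · exact ⟨b, c, _, hz, hbc, z0, by simp [y1], z1⟩
  obtain ⟨f, hf, hef⟩ := (hD.ndOn l).exists_hyp he e0 (hs m e he e1)
  have h7 := (hP l).big.resolve_left fun h => e0 (h.1 e he hef.left)
  obtain ⟨s, s0, s1⟩ := exists_ne_zero_one (F := F) (by omega)
  have hx : e + f ∈ D l := add_mem he hf
  have hy : e + s • f ∈ D l := add_mem he ((D l).smul_mem _ hf)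
  have x0 : Q (e + f) = 1 := by simpa using hef.val 1 1
  have y0 : Q (e + s • f) = s := by simpa using hef.val 1 s
  have hxy : polar Q (e + f) (e + s • f) ≠ 0 := by
    simp only [polar_add_left, polar_add_right, polar_smul_right, hef.pol, hef.pol', hef.pol_left,
      hef.pol_right, smul_eq_mul]
    exact fun h => s1 (by linear_combination h - h2)
  obtain ⟨z, hz, -, -, z0, -⟩ := (hP m).exists_rot hQ
  obtain ⟨z, rfl⟩ := g.surjective z
  have z1 : polar Q z e = 0 := by rw [← Iso.polar_eq hg', ← hD.pol_pr hz, e1, polar_zero_right]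
  have h4 := mem_of_pr_eq_zero hD hP hH hX hE h2 ht (X.mul_mem (X.mul_mem hg (hH ⟨Subgroup.mul_mem _
    (PDec.rQ_mem hD hx).1 (PDec.rQ_mem hD hy).1, rQ_mul_mem_E2 h2 hn (by simp [x0])
    (by simpa [y0])⟩)) (X.inv_mem hg)) hz z0 (l := m') (by
      have : rQ Q (e + f) (rQ Q (e + s • f) z) = z + ((s - 1) * polar Q z f) • e := by
        simp only [rQ_apply, x0, y0, polar_add_left, polar_add_right, polar_smul_right,
          polar_sub_left, polar_smul_left, hef.pol, hef.pol', hef.pol_left, hef.pol_right,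
          smul_eq_mul, z1]
        match_scalars <;> field_simp <;> ring
      simp [show g⁻¹ (g z) = z from g.symm_apply_apply z, this, e2, hD.pr_ne hmm hz])
  rw [← conj_mul, rQ_conj hg', rQ_conj hg'] at h4
  obtain ⟨r, hr, -⟩ := rot_mem hD le_rfl (by simp [Iso.Q_eq hg', x0, -map_add])
    (by simpa [Iso.Q_eq hg', y0, -map_add]) (by rwa [Iso.polar_eq hg']) (fun h => by
      obtain ⟨c, hc⟩ := Submodule.mem_span_singleton.1 h
      rw [← Iso.polar_eq hg', ← hc, polar_smul_right, polar_self', h2] at hxy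
      simp at hxy) h4
  exact hg0 (star2 h2 hD hn (rMax_two hD hP (by omega)) (conn_two hD hP) hH hX hE hg hx
    (by simp [x0]) hr)

omit hH hX hE h2 ht in
theorem maximal_two (ht : 5 ≤ Fintype.card κ) :
    Geo.IsMaximalIn (qP hQ).E (decStab D ⊓ (qP hQ).E) := by
  have hn := hD.mul_eq
  refine hD.maximal_of (qP_wild hQ) (by omega) (by omega) (by omega) fun X hH hX g hg hg' => ?_
  by_contra hE
  by_cases h2 : (2 : F) = 0
  · exact hg' (le_of_even hD hP hH hX hE h2 (by omega) hg)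
  · exact hg' (le_of_odd hD hP hH hX hE h2 ht hg)

end

variable {F : Type*} [Field F] [Fintype F] {ι : Type} [Fintype ι] [DecidableEq ι]
  {Q : (ι → F) → F} (hQ : Geo.IsNondegenerateQuadraticForm Q)
include hQ

theorem omegaGL_planes_maximal (hn : 10 ≤ Fintype.card ι) {t : ℕ}
    (D : Fin t → Submodule F (ι → F)) (hD : Geo.IsOrthogonalMDecomposition Q 2 D)
    (h : ((∀ i, ¬ Geo.IsPlusTypeOn Q (D i)) ∧ Fintype.card F ≠ 3) ∨ 7 ≤ Fintype.card F) :
    Geo.IsMaximalIn (Geo.omegaGL Q) (Geo.decompositionStabilizer D ⊓ Geo.omegaGL Q) := by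
  have hD' := pDec_of_od (nd_toQF hQ) hD
  have hmul := hD'.mul_eq
  simp only [Fintype.card_fin, finrank_fintype_fun_eq_card] at hmul
  refine omegaGL_dec_of hQ (by omega) (maximal_two hD' (fun i => ⟨hD'.ndOn i, hD'.dim i,
    h.imp_left fun h => ⟨fun x hx => aniso_of_not_plus (hD'.dim i)
      (mt (plus_toQF hQ).1 (h.1 i)) hx, ?_⟩⟩) (by simp; omega))
  by_cases ho : Odd (Fintype.card F)
  · have := Fintype.one_lt_card (α := F)
    obtain ⟨r, hr⟩ := ho
    exact Or.inr (by have := h.2; omega)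
  · exact Or.inl (two_eq_zero_of_not_odd_card ho)

theorem omegaGL_dec_maximal (hn : 8 ≤ Fintype.card ι) {t k : ℕ}
    (D : Fin t → Submodule F (ι → F)) (hD : Geo.IsOrthogonalMDecomposition Q k D) (hk : 3 ≤ k)
    (h3 : k = 3 → Fintype.card F ≠ 3)
    (h4 : k = 4 → Fintype.card F ≠ 2 ∨ ∀ i, ¬ Geo.IsPlusTypeOn Q (D i)) :
    Geo.IsMaximalIn (Geo.omegaGL Q) (Geo.decompositionStabilizer D ⊓ Geo.omegaGL Q) := by
  have hD' := pDec_of_od (nd_toQF hQ) hD
  have ht : 2 ≤ Fintype.card (Fin t) := by simpa using hD.decomp.decomp.two_le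
  have h1 := Fintype.one_lt_card (α := F)
  refine omegaGL_dec_of hQ (by omega) ?_
  by_cases h : k = 4 ∧ Fintype.card F = 2
  · obtain ⟨rfl, h⟩ := h
    exact maximal_four hD' (two_eq_zero_of_not_odd_card (by rw [h]; decide))
      (fun i => mt (plus_toQF hQ).1 (((h4 rfl).resolve_left (· h)) i)) ht
  · refine hD'.maximal_o (by simpa) ht hk (fun h5 => ?_) fun h5 => by
      have : Fintype.card F ≠ 2 := fun h6 => h ⟨h5, h6⟩
      omega
    have h6 := (hD'.ndOn ⟨0, by simpa using (by omega : 0 < Fintype.card (Fin t))⟩).two_ne_zero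
      (nd_toQF hQ) (by rw [hD'.dim, h5]; decide)
    have : Fintype.card F ≠ 2 := fun h7 =>
      h6 (two_eq_zero_of_not_odd_card (by rw [h7]; decide))
    have := h3 h5
    omega

theorem plus_all_or_none {t k : ℕ} {D : Fin t → Submodule F (ι → F)}
    (hD : Geo.IsOrthogonalMDecomposition Q k D) :
    (∀ i, Geo.IsPlusTypeOn Q (D i)) ∨ ∀ i, ¬ Geo.IsPlusTypeOn Q (D i) :=
  or_iff_not_imp_right.2 fun h j => by
    push_neg at h
    obtain ⟨i, hi⟩ := h
    exact (plus_toQF hQ).1 (((isom_toQF hQ).2 (hD.isometric i j)).plus (nd_toQF hQ)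
      ((plus_toQF hQ).2 hi))

theorem omegaGL_od_maximal (hn : 10 ≤ Fintype.card ι) {t k : ℕ} (hk : 2 ≤ k)
    (D : Fin t → Submodule F (ι → F)) (hD : Geo.IsOrthogonalMDecomposition Q k D)
    (hex : ¬ ((k = 2 ∧ (Fintype.card F = 3 ∨ ((∀ i, Geo.IsPlusTypeOn Q (D i)) ∧
      (Fintype.card F = 2 ∨ Fintype.card F = 4 ∨ Fintype.card F = 5)))) ∨
      (k = 3 ∧ Fintype.card F = 3) ∨
      (k = 4 ∧ Fintype.card F = 2 ∧ ∀ i, Geo.IsPlusTypeOn Q (D i)))) :
    Geo.IsMaximalIn (Geo.omegaGL Q) (Geo.decompositionStabilizer D ⊓ Geo.omegaGL Q) := by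
  have h := plus_all_or_none hQ hD
  by_cases h2 : k = 2
  · subst h2
    refine omegaGL_planes_maximal hQ hn D hD (h.symm.imp (fun h => ⟨h, by tauto⟩) fun h => ?_)
    have h1 := Fintype.one_lt_card (α := F)
    have h6 : Fintype.card F ≠ 6 := fun h6 => by
      have := FiniteField.isPrimePow_card F
      rw [h6] at this
      exact absurd this (by decide)
    have : Fintype.card F ≠ 2 ∧ Fintype.card F ≠ 3 ∧ Fintype.card F ≠ 4 ∧ Fintype.card F ≠ 5 := by
      tauto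
    omega
  · exact omegaGL_dec_maximal hQ (by omega) D hD (by omega) (by tauto) (by tauto)

theorem not_plus_of_odd {t k : ℕ} {D : Fin t → Submodule F (ι → F)}
    (hD : Geo.IsOrthogonalMDecomposition Q k D) (hm : ¬ Geo.IsPlusTypeOn Q ⊤) (i : Fin t) :
    ¬ Geo.IsPlusTypeOn Q (D i) := fun h => by
  have hD' := pDec_of_od (nd_toQF hQ) hD
  have h1 := (plus_toQF hQ).2 h
  have := (plus_iSup_iff_of_even (nd_toQF hQ) hD'.ndOn (fun i j hij _ hx _ hy => hD'.pol hij hx hy)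
    (fun i j => (isom_toQF hQ).2 (hD.isometric i j)) i h1.even).2 (Or.inl h1)
  rw [hD.decomp.decomp.iSup_eq_top] at this
  exact hm ((plus_toQF hQ).1 this)

end Cfsg.Agent.H7
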