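import Cfsg.Agent.H7.C2Odd

/-!
The rank lemma for elements permuting the blocks of a decomposition, and the odd product trick
for the sign changes of pairs of blocks.
-/

set_option autoImplicit false
set_option linter.unusedSectionVars false

namespace Cfsg.Agent.H7

open Module H8 H7.Polar

variable {F : Type*} [Field F] {V : Type*} [AddCommGroup V] [Module F V]
variable {κ : Type} [Fintype κ] [DecidableEq κ]

theorem finrank_map_of_inj {W : Type*} [AddCommGroup W] [Module F W] {T : V →ₗ[F] W}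
    {A : Submodule F V} (h : ∀ x ∈ A, T x = 0 → x = 0) : finrank F (A.map T) = finrank F A := by
  rw [← LinearMap.range_domRestrict]
  refine LinearMap.finrank_range_of_inj ?_
  rw [← LinearMap.ker_eq_bot, eq_bot_iff]
  intro x hx
  exact Subtype.ext (h x x.2 hx)

theorem finite_linearEquiv [Finite F] [FiniteDimensional F V] : Finite (V ≃ₗ[F] V) :=
  have : Finite V := Module.finite_of_finite F
  Finite.of_injective (fun g : V ≃ₗ[F] V => (g : V → V)) DFunLike.coe_injective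

section dec

variable {k : ℕ} {D : κ → Submodule F V} (hD : Dec k D)

/-- the vectors supported on a set of blocks -/
def VS (E : Finset κ) : Submodule F V where
  carrier := {x | ∀ m, m ∉ E → hD.pr m x = 0}
  add_mem' ha hb m hm := by rw [map_add, ha m hm, hb m hm, add_zero]
  zero_mem' m _ := map_zero _
  smul_mem' c x hx m hm := by rw [map_smul, hx m hm, smul_zero]

/-- the sign change on a set of blocks -/
noncomputable def sgn (S : Finset κ) : V ≃ₗ[F] V :=
  LinearEquiv.ofInvolutive (hD.glue fun i => if i ∈ S then -LinearMap.id else LinearMap.id)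
    fun x => by
      induction x using hD.induction with
      | h i x hx =>
        rw [hD.glue_apply _ hx]
        split_ifs with h
        · simp [hD.glue_apply _ hx, h]
        · simp [hD.glue_apply _ hx, h]
      | h0 => simp
      | hadd x y hx hy => simp only [map_add, hx, hy]

variable {hD}

theorem mem_VS {E : Finset κ} {x : V} : x ∈ VS hD E ↔ ∀ m, m ∉ E → hD.pr m x = 0 := Iff.rfl

theorem VS_mono {E E' : Finset κ} (h : E ⊆ E') : VS hD E ≤ VS hD E' :=
  fun _ hx m hm => hx m fun h' => hm (h h')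

theorem mem_VS_of_mem {E : Finset κ} {i : κ} (hi : i ∈ E) {x : V} (hx : x ∈ D i) : x ∈ VS hD E :=
  fun _ hm => hD.pr_ne (by rintro rfl; exact hm hi) hx

theorem sgn_apply (S : Finset κ) {i : κ} {x : V} (hx : x ∈ D i) :
    sgn hD S x = if i ∈ S then -x else x := by
  have : sgn hD S x = hD.glue (fun i => if i ∈ S then -LinearMap.id else LinearMap.id) x := rfl
  rw [this, hD.glue_apply _ hx]
  split_ifs <;> rfl

theorem equiv_ext (hD : Dec k D) {g h : V ≃ₗ[F] V} (H : ∀ i, ∀ x ∈ D i, g x = h x) : g = h :=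
  LinearEquiv.toLinearMap_injective (hD.hom_ext H)

theorem sgn_mem (S : Finset κ) (i : κ) : ∀ x ∈ D i, sgn hD S x ∈ D i := fun x hx => by
  rw [sgn_apply S hx]
  split_ifs
  exacts [neg_mem hx, hx]

theorem sgn_mul_self (S : Finset κ) : sgn hD S * sgn hD S = 1 :=
  equiv_ext hD fun i x hx => by
    rw [LinearEquiv.mul_apply, sgn_apply S (sgn_mem S i x hx), sgn_apply S hx]
    split_ifs <;> simp

theorem sgn_comm (S T : Finset κ) : sgn hD S * sgn hD T = sgn hD T * sgn hD S :=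
  equiv_ext hD fun i x hx => by
    rw [LinearEquiv.mul_apply, LinearEquiv.mul_apply, sgn_apply S (sgn_mem T i x hx),
      sgn_apply T (sgn_mem S i x hx), sgn_apply T hx, sgn_apply S hx]
    split_ifs <;> rfl

theorem conj_sgn {h : V ≃ₗ[F] V} {σ : Equiv.Perm κ} (hσ : ∀ i, ∀ x ∈ D i, h x ∈ D (σ i))
    (S : Finset κ) : h * sgn hD S = sgn hD (S.map σ.toEmbedding) * h :=
  equiv_ext hD fun i x hx => by
    rw [LinearEquiv.mul_apply, LinearEquiv.mul_apply, sgn_apply S hx, sgn_apply _ (hσ i x hx)]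
    simp [apply_ite h]

theorem sgn_inj (h2 : (2 : F) ≠ 0) {S T : Finset κ} (h : sgn hD S = sgn hD T) : S = T := by
  ext i
  obtain ⟨x, hx, h0⟩ := hD.exists_ne_zero i
  have h1 : sgn hD S x = sgn hD T x := by rw [h]
  have h3 : -x ≠ x := fun h => h0 (by
    have : (2 : F) • x = 0 := by linear_combination (norm := module) -h
    simpa [h2] using this)
  rw [sgn_apply S hx, sgn_apply T hx] at h1
  by_cases hS : i ∈ S <;> by_cases hT : i ∈ T <;> simp only [hS, hT, if_true, if_false] at h1 ⊢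
  exacts [absurd h1 h3, absurd h1.symm h3]

theorem sgn_sub_mem (S : Finset κ) (x : V) : sgn hD S x - x ∈ ⨆ i ∈ S, D i := by
  induction x using hD.induction with
  | h i x hx =>
    rw [sgn_apply S hx]
    split_ifs with h
    · have : x ∈ ⨆ i ∈ S, D i := Submodule.mem_iSup_of_mem i (Submodule.mem_iSup_of_mem h hx)
      exact sub_mem (neg_mem this) this
    · simp
  | h0 => simp
  | hadd x y hx hy => simpa [map_add, add_sub_add_comm] using add_mem hx hy

variable [FiniteDimensional F V]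

theorem sgn_mem_decStab (S : Finset κ) : sgn hD S ∈ decStab D := hD.mem_decStab' (sgn_mem S)

theorem rank_step {h : V ≃ₗ[F] V} {σ : κ → κ} (hσ : ∀ i, ∀ x ∈ D i, h x ∈ D (σ i))
    {M : Submodule F V} (hM : ∀ x, h x - x ∈ M) {E : Finset κ} {i : κ} (hi : i ∉ E)
    {A : Submodule F V} (hA : A ≤ D i) (hne : ∀ x ∈ A, hD.pr i (h x - x) = 0 → x = 0) :
    finrank F ↥(M ⊓ VS hD E) + finrank F A ≤
      finrank F ↥(M ⊓ VS hD (insert i (insert (σ i) E))) := by
  set T : V →ₗ[F] V := (h : V →ₗ[F] V) - LinearMap.id with hT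
  have h1 : finrank F (A.map T) = finrank F A :=
    finrank_map_of_inj fun x hx h0 => hne x hx (by
      rw [show h x - x = T x from rfl, h0, map_zero])
  have h2 : Disjoint (M ⊓ VS hD E) (A.map T) := by
    rw [Submodule.disjoint_def]
    rintro _ h3 ⟨x, hx, rfl⟩
    rw [hne x hx (h3.2 i hi), map_zero]
  rw [← h1, ← finrank_sup_of_disjoint h2]
  refine Submodule.finrank_mono (sup_le (inf_le_inf_left _ (VS_mono fun m hm => by simp [hm])) ?_)
  rintro _ ⟨x, hx, rfl⟩
  exact ⟨hM x, Submodule.sub_mem _ (mem_VS_of_mem (by simp) (hσ i x (hA hx)))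
    (mem_VS_of_mem (by simp) (hA hx))⟩

theorem rank_step_move {h : V ≃ₗ[F] V} {σ : κ → κ} (hσ : ∀ i, ∀ x ∈ D i, h x ∈ D (σ i))
    {M : Submodule F V} (hM : ∀ x, h x - x ∈ M) {E : Finset κ} {i : κ} (hi : i ∉ E)
    (hne : σ i ≠ i) :
    finrank F ↥(M ⊓ VS hD E) + k ≤ finrank F ↥(M ⊓ VS hD (insert i (insert (σ i) E))) := by
  have := rank_step (hD := hD) hσ hM hi le_rfl fun x hx h0 => by
    rwa [map_sub, hD.pr_ne hne (hσ i x hx), hD.pr_self hx, zero_sub, neg_eq_zero] at h0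
  rwa [hD.dim] at this

/-- The rank lemma. -/
theorem card_le_rank (hD : Dec k D) (hk : k ≤ 2) {h : V ≃ₗ[F] V} {σ : κ → κ} (hσ : ∀ i, ∀ x ∈ D i, h x ∈ D (σ i))
    {M : Submodule F V} (hM : ∀ x, h x - x ∈ M) (S : Finset κ)
    (hS : ∀ i ∈ S, ∃ x ∈ D i, h x ≠ x) : S.card * k ≤ 2 * finrank F M := by
  suffices H : ∃ E, S ⊆ E ∧ E.card * k ≤ 2 * finrank F ↥(M ⊓ VS hD E) by
    obtain ⟨E, h1, h2⟩ := H
    have := Submodule.finrank_mono (inf_le_left : M ⊓ VS hD E ≤ M)
    have := Nat.mul_le_mul_right k (Finset.card_le_card h1)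
    omega
  induction S using Finset.induction_on with
  | empty => exact ⟨∅, subset_rfl, by simp⟩
  | insert i S hi ih =>
    obtain ⟨E, h1, h2⟩ := ih fun j hj => hS j (Finset.mem_insert_of_mem hj)
    by_cases hiE : i ∈ E
    · exact ⟨E, Finset.insert_subset hiE h1, h2⟩
    refine ⟨insert i (insert (σ i) E), Finset.insert_subset_insert _
      (h1.trans (Finset.subset_insert _ _)), ?_⟩
    by_cases hne : σ i = i
    · obtain ⟨x, hx, hx'⟩ := hS i (Finset.mem_insert_self _ _)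
      have h0 : x ≠ 0 := by rintro rfl; simp at hx'
      have h3 := rank_step (hD := hD) hσ hM hiE (A := F ∙ x) (by simpa) (by
        intro y hy h4
        obtain ⟨a, rfl⟩ := Submodule.mem_span_singleton.1 hy
        rw [map_smul, ← smul_sub, map_smul, hD.pr_self (sub_mem (hne ▸ hσ i x hx) hx),
          smul_eq_zero, sub_eq_zero] at h4
        rw [h4.resolve_right hx', zero_smul])
      rw [finrank_span_singleton h0] at h3
      rw [hne] at h3 ⊢
      rw [Finset.insert_idem] at h3 ⊢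
      rw [Finset.card_insert_of_notMem hiE, add_mul]
      omega
    · have h3 := rank_step_move (hD := hD) hσ hM hiE hne
      have h4 : (insert i (insert (σ i) E)).card ≤ E.card + 2 :=
        (Finset.card_insert_le _ _).trans (by have := Finset.card_insert_le (σ i) E; omega)
      have := Nat.mul_le_mul_right k h4
      rw [add_mul] at this
      omega

theorem finrank_biSup_le (hD : Dec k D) (S : Finset κ) : finrank F ↥(⨆ i ∈ S, D i) ≤ S.card * k := by
  induction S using Finset.induction_on with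
  | empty => simp
  | insert i S hi ih =>
    rw [Finset.iSup_insert, Finset.card_insert_of_notMem hi, add_mul]
    have := Submodule.finrank_add_le_finrank_add_finrank (D i) (⨆ i ∈ S, D i)
    rw [hD.dim] at this
    omega

end dec

/-- A permutation fixing exactly one point and no pair. -/
theorem perm_aux (ht : 5 ≤ Fintype.card κ) {σ : Equiv.Perm κ} {j : κ} (hj : σ j = j)
    (h1 : ∀ i, i ≠ j → σ i ≠ i) (h2 : ∀ i, i ≠ j → σ (σ i) ≠ i)
    (hm : (∃ m, Odd m ∧ σ ^ m = 1) ∨ σ * σ = 1) :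
    ∃ a x, a ≠ j ∧ x ≠ j ∧ x ≠ a ∧ x ≠ σ a ∧ x ≠ σ (σ a) ∧ x ≠ σ (σ (σ a)) := by
  obtain ⟨a, ha⟩ : ∃ a, a ≠ j := by
    have : Nontrivial κ := Fintype.one_lt_card_iff_nontrivial.1 (by omega)
    exact exists_ne j
  by_contra! H
  have hn : ∀ i, i ≠ j → σ i ≠ j := fun i hi h => hi (σ.injective (h.trans hj.symm))
  have h3 : (Finset.univ : Finset κ) ⊆ {j, a, σ a, σ (σ a), σ (σ (σ a))} := by
    intro x _
    by_contra hx
    simp only [Finset.mem_insert, Finset.mem_singleton, not_or] at hx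
    exact hx.2.2.2.2 (H a x ha hx.1 hx.2.1 hx.2.2.1 hx.2.2.2.1)
  have h4 : σ (σ (σ a)) ≠ a := fun h => by
    have := Finset.card_le_card h3
    rw [h, Finset.card_univ] at this
    have h5 : ({j, a, σ a, σ (σ a), a} : Finset κ) = {j, a, σ a, σ (σ a)} := by
      ext; simp; tauto
    rw [h5] at this
    have := Finset.card_le_four (a := j) (b := a) (c := σ a) (d := σ (σ a))
    omega
  have h5 : σ (σ (σ (σ a))) = a := by
    by_contra h
    refine h1 _ (hn _ (hn _ (hn _ ha))) (H a _ ha (hn _ (hn _ (hn _ (hn _ ha)))) h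
      (fun h => h4 (σ.injective h)) (h2 _ (hn _ (hn _ ha))))
  rcases hm with ⟨m, hm, h⟩ | h
  · have h6 : ∀ r : ℕ, (σ ^ (4 * r)) a = a := fun r => by
      induction r with
      | zero => simp
      | succ r ih => rw [mul_add, pow_add, Equiv.Perm.mul_apply]; simp [pow_succ, h5, ih]
    have h7 : (σ ^ (m % 4)) a = a := by
      conv_rhs => rw [show a = (σ ^ m) a by rw [h]; rfl, ← Nat.mod_add_div m 4, pow_add,
        Equiv.Perm.mul_apply, h6]
    have : m % 4 = 1 ∨ m % 4 = 3 := by obtain ⟨r, rfl⟩ := hm; omega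
    rcases this with h8 | h8 <;> rw [h8] at h7
    · exact h1 a ha (by simpa using h7)
    · exact h4 (by simpa [pow_succ] using h7)
  · exact h2 a ha (by rw [← Equiv.Perm.mul_apply, h]; rfl)

section pdec

variable {P : Polar F V} [Finite F] [FiniteDimensional F V]
variable {k : ℕ} {D : κ → Submodule F V} (hD : PDec P k D)
include hD

omit hD in
theorem neg_mem_Iso : LinearEquiv.neg F ∈ P.Iso :=
  mem_Iso_of (fun x y => by simp) fun x => (P.val_ex x).imp fun _ h => ⟨h, val_neg h⟩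

theorem sgn_mem_Iso (S : Finset κ) : sgn hD.toDec S ∈ P.Iso := by
  obtain ⟨g, hg, -, h⟩ := hD.exists_glue_iso 1 (fun i => if i ∈ S then LinearEquiv.neg F else 1)
    (fun i => by split_ifs; exacts [neg_mem_Iso, P.Iso.one_mem])
    (fun i x hx => by split_ifs; exacts [neg_mem hx, hx])
  rwa [equiv_ext hD.toDec (g := sgn hD.toDec S) (h := g) fun i x hx => by
    rw [h i x hx, sgn_apply S hx]; split_ifs <;> rfl]

theorem sgn_pair_mem_E {d : ℕ} (hw : P.Wild d) (hn : d + 4 ≤ finrank F V) {i j : κ} (hij : i ≠ j) :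
    sgn hD.toDec {i, j} ∈ P.E := by
  obtain ⟨g, hg, h⟩ := hD.iso i j
  obtain ⟨s, hs, -, h1, h2, h3⟩ := hD.exists_swap hij hg h
  have hσ : ∀ l, ∀ x ∈ D l, s x ∈ D (Equiv.swap i j l) := fun l x hx => by
    by_cases hi : l = i
    · subst hi; rw [Equiv.swap_apply_left, h1 x hx]; exact h x hx
    by_cases hj : l = j
    · subst hj
      rw [← hD.map_eq_of_le h] at hx
      obtain ⟨y, hy, rfl⟩ := hx
      rw [Equiv.swap_apply_right]
      exact (h2 y hy).symm ▸ hy
    · rw [Equiv.swap_apply_of_ne_of_ne hi hj, h3 l hi hj x hx]; exact hx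
  have h4 := comm_mem_E hw hn hs (sgn_mem_Iso hD {i})
  rw [conj_sgn hσ, mul_inv_cancel_right, inv_eq_of_mul_eq_one_right (sgn_mul_self _)] at h4
  convert h4 using 1
  refine equiv_ext hD.toDec fun l x hx => ?_
  rw [LinearEquiv.mul_apply, sgn_apply _ (sgn_mem _ l x hx), sgn_apply _ hx, sgn_apply _ hx]
  by_cases hi : l = i
  · simp [hi, hij]
  by_cases hj : l = j
  · simp [hj, hij.symm]
  · simp [hi, hj]

theorem mem_VS_of_neg (h2 : (2 : F) ≠ 0) {h : V ≃ₗ[F] V} (hh : h ∈ P.Iso) {S : Finset κ}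
    (hS : ∀ m, m ∉ S → ∀ x ∈ D m, h x = x) {y : V} (hy : h y = -y) : y ∈ VS hD.toDec S := by
  intro m hm
  refine hD.mem_perp_iff.1 fun x hx => ?_
  have := Iso.B hh y x
  rw [hy, hS m hm x hx, map_neg, LinearMap.neg_apply] at this
  have h3 : 2 * P.B y x = 0 := by linear_combination -this
  simpa [h2] using h3

omit hD in
theorem fix_of_perp {s : V ≃ₗ[F] V} (hs : s ∈ P.Iso) {x : V} (h : ∀ y, P.B (s y - y) x = 0) :
    s x = x := by
  rw [← sub_eq_zero]
  refine P.nondeg _ fun y => ?_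
  obtain ⟨y, rfl⟩ := s.surjective y
  have := h y
  rw [map_sub, LinearMap.sub_apply] at this
  rw [map_sub, Iso.B hs]
  linear_combination -this

theorem fix_of_VS {s : V ≃ₗ[F] V} (hs : s ∈ P.Iso) {E : Finset κ} (h : ∀ y, s y - y ∈ VS hD.toDec E)
    {j : κ} (hj : j ∉ E) {x : V} (hx : x ∈ D j) : s x = x :=
  fix_of_perp hs fun y => hD.mem_perp_iff.2 (h y j hj) x hx

/-- the sign changes on pairs of blocks -/
def ZP : Set (V ≃ₗ[F] V) := {z | ∃ i j, i ≠ j ∧ z = sgn hD.toDec {i, j}}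

theorem cjs_rank {X : Subgroup (V ≃ₗ[F] V)} {s : V ≃ₗ[F] V} (hs : Cjs X (ZP hD) s) :
    ∃ M : Submodule F V, finrank F M ≤ 2 * k ∧ ∀ x, s x - x ∈ M := by
  obtain ⟨g, -, _, ⟨i, j, hij, rfl⟩, rfl⟩ := hs
  refine ⟨(⨆ l ∈ ({i, j} : Finset κ), D l).map (g : V →ₗ[F] V), ?_, fun x => ?_⟩
  · rw [LinearEquiv.finrank_map_eq, ← Finset.card_pair hij]
    exact finrank_biSup_le hD.toDec _
  · refine ⟨_, sgn_sub_mem (hD := hD.toDec) _ (g⁻¹ x), ?_⟩
    simp [show g (g⁻¹ x) = x from g.apply_symm_apply x]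

variable {X : Subgroup (V ≃ₗ[F] V)}

theorem oddCtx_ZP (h2 : (2 : F) ≠ 0) (hk : k ≤ 2) {d : ℕ} (hw : P.Wild d)
    (hn : d + 4 ≤ finrank F V) (hH : decStab D ⊓ P.E ≤ X) (hX : X ≤ P.Iso)
    (ha : ∀ g ∈ X, ∀ i, ∀ S : Finset κ, S.card ≤ 4 → (∀ x ∈ D i, g x ∈ VS hD.toDec S) →
      g ∈ decStab D) : OddCtx X (decStab D ⊓ X) (ZP hD) where
  le := inf_le_right
  mem := by
    rintro _ ⟨i, j, hij, rfl⟩
    exact ⟨sgn_mem_decStab _, hH ⟨sgn_mem_decStab _, sgn_pair_mem_E hD hw hn hij⟩⟩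
  sq := by
    rintro _ ⟨i, j, -, rfl⟩
    exact sgn_mul_self _
  conj := by
    rintro h hh _ ⟨i, j, hij, rfl⟩
    obtain ⟨σ, hσ⟩ := Dec.exists_perm hh.1
    exact ⟨σ i, σ j, σ.injective.ne hij, by rw [conj_sgn hσ, mul_inv_cancel_right]; simp⟩
  hD := by
    classical
    rintro g hg t ht hh
    obtain ⟨M, hM, hM'⟩ := cjs_rank hD ⟨g, hg, t, ht, rfl⟩
    obtain ⟨i, j, hij, rfl⟩ := ht
    obtain ⟨σ, hσ⟩ := Dec.exists_perm hh.1
    set h := g * sgn hD.toDec {i, j} * g⁻¹ with hh'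
    have h3 := card_le_rank hD.toDec hk hσ hM' (Finset.univ.filter fun m => ∃ x ∈ D m, h x ≠ x)
      (by simp)
    refine ⟨ha g hg i _ (Nat.le_of_mul_le_mul_right (h3.trans (by omega)) hD.pos) fun x hx =>
      mem_VS_of_neg hD h2 (hX hh.2) (by simp) ?_, hg⟩
    simp [hh', sgn_apply _ hx]
  hE := by
    rintro g hg _ ⟨a, b, -, rfl⟩ _ ⟨c, e, -, rfl⟩ _ ⟨i, j, -, rfl⟩ _ ⟨l, m, -, rfl⟩ hne - h
    obtain ⟨r, hr⟩ : ∃ r, ∀ x ∈ D r, (sgn hD.toDec {i, j} * sgn hD.toDec {l, m}) x = -x := by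
      by_contra! H
      have h3 : sgn hD.toDec {i, j} * sgn hD.toDec {l, m} = 1 := equiv_ext hD.toDec fun r x hx => by
        obtain ⟨y, hy, hy'⟩ := H r
        rw [LinearEquiv.mul_apply, sgn_apply _ (sgn_mem _ r y hy), sgn_apply _ hy] at hy'
        rw [LinearEquiv.mul_apply, sgn_apply _ (sgn_mem _ r x hx), sgn_apply _ hx]
        split_ifs at hy' ⊢ <;> simp_all
      rw [h3, mul_one, mul_inv_cancel] at h
      exact hne (by rw [eq_inv_of_mul_eq_one_left h, inv_eq_of_mul_eq_one_right (sgn_mul_self _)])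
    refine ⟨ha g hg r {a, b, c, e} Finset.card_le_four fun x hx => mem_VS_of_neg hD h2
      (P.Iso.mul_mem (sgn_mem_Iso hD {a, b}) (sgn_mem_Iso hD {c, e})) (fun q hq y hy => ?_) ?_, hg⟩
    · simp only [Finset.mem_insert, Finset.mem_singleton, not_or] at hq
      rw [LinearEquiv.mul_apply, sgn_apply _ (sgn_mem _ q y hy), sgn_apply _ hy]
      simp [hq]
    · rw [h, LinearEquiv.mul_apply, LinearEquiv.mul_apply,
        show g⁻¹ (g x) = x from g.symm_apply_apply x, hr x hx, map_neg]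

/-- The odd product trick for sign changes. -/
theorem ztrick (h2 : (2 : F) ≠ 0) (hk : k ≤ 2) (ht : 5 ≤ Fintype.card κ) {d : ℕ} (hw : P.Wild d)
    (hn : d + 4 ≤ finrank F V) (hH : decStab D ⊓ P.E ≤ X) (hX : X ≤ P.Iso)
    (ha : ∀ g ∈ X, ∀ i, ∀ S : Finset κ, S.card ≤ 4 → (∀ x ∈ D i, g x ∈ VS hD.toDec S) →
      g ∈ decStab D) : X ≤ decStab D := by
  have hC := oddCtx_ZP hD h2 hk hw hn hH hX ha
  have := finite_linearEquiv (F := F) (V := V)
  intro g hg
  by_contra hg'
  obtain ⟨e, he⟩ : ∃ e : Fin 4 → κ, Function.Injective e := by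
    obtain ⟨e⟩ := Function.Embedding.nonempty_of_card_le (α := Fin 4) (β := κ) (by simp; omega)
    exact ⟨e, e.injective⟩
  have hz : ∀ i j, i ≠ j → sgn hD.toDec {i, j} ∈ ZP hD := fun i j h => ⟨i, j, h, rfl⟩
  obtain ⟨s, h1, h3⟩ := hC.exists_swaps hg (fun h => hg' h.1) (hz _ _ (he.ne (by decide : (0 : Fin 4) ≠ 1)))
  have main : ∀ t ∈ ZP hD, ∀ t' ∈ ZP hD, t ≠ t' → ∀ j,
      ¬ ∀ x ∈ D j, (s t * s t') x ∈ D j := by
    intro t ht0 t' ht' hne j hj
    obtain ⟨h4, -, h5⟩ := h3 t ht0 t' ht'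
    obtain ⟨σ, hσ⟩ := Dec.exists_perm h4.1
    have hσ' : ∀ a b, (∀ x ∈ D a, (s t * s t') x ∈ D b) → σ a = b := fun a b h => by
      obtain ⟨x, hx, h0⟩ := hD.exists_ne_zero a
      exact hD.eq_of_mem (hσ a x hx) (h x hx) (by simpa using h0)
    have hjj := hσ' j j hj
    have hp : ∀ a b, a ≠ b → ({σ a, σ b} : Finset κ) ≠ {a, b} := fun a b hab h =>
      h5 hne _ (hz a b hab) (by rw [conj_sgn hσ]; simp [h])
    have f1 : ∀ i, i ≠ j → σ i ≠ i := fun i hi h => hp i j hi (by rw [h, hjj])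
    have f2 : ∀ i, i ≠ j → σ (σ i) ≠ i := fun i hi h =>
      hp i (σ i) (f1 i hi).symm (by rw [h, Finset.pair_comm])
    have hpow : ∀ m : ℕ, ∀ a, ∀ x ∈ D a, ((s t * s t') ^ m) x ∈ D ((σ ^ m) a) := fun m => by
      induction m with
      | zero => simp
      | succ m ih => intro a x hx; rw [pow_succ', pow_succ']; exact hσ _ _ (ih a x hx)
    have hpow' : ∀ m : ℕ, (s t * s t') ^ m = 1 → σ ^ m = 1 := fun m h => by
      ext a
      obtain ⟨x, hx, h0⟩ := hD.exists_ne_zero a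
      have := hpow m a x hx
      rw [h] at this
      exact hD.eq_of_mem this hx h0
    obtain ⟨a, x, a1, a2, a3, a4, a5, a6⟩ := perm_aux ht hjj f1 f2 (by
      rcases hC.odd_or (h1 t ht0).1 (h1 t' ht').1 with h | ⟨g, -, _, ⟨a, b, -, rfl⟩, _,
        ⟨c, e, -, rfl⟩, h⟩
      · exact Or.inl ⟨_, h, hpow' _ (pow_orderOf_eq_one _)⟩
      · right
        rw [← sq]
        refine hpow' 2 ?_
        rw [sq, h, conj_mul, mul_assoc (sgn _ _), ← mul_assoc (sgn _ {c, e}), ← sgn_comm,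
          mul_assoc (sgn _ {a, b}), sgn_mul_self, mul_one, sgn_mul_self, mul_one, mul_inv_cancel])
    obtain ⟨y, rfl⟩ := σ.surjective x
    have hn : ∀ i, i ≠ j → σ i ≠ j := fun i hi h => hi (σ.injective (h.trans hjj.symm))
    have hy : y ≠ j := fun h => a2 (by rw [h, hjj])
    obtain ⟨M, hM, hM1⟩ := cjs_rank hD (h1 t ht0).1
    obtain ⟨M', hM', hM1'⟩ := cjs_rank hD (h1 t' ht').1
    have hMM : ∀ x, (s t * s t') x - x ∈ M ⊔ M' := fun x => by
      have := add_mem (Submodule.mem_sup_left (T := M') (hM1 (s t' x)))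
        (Submodule.mem_sup_right (S := M) (hM1' x))
      simpa using this
    have r1 := rank_step_move (hD := hD.toDec) hσ hMM (E := ∅) (i := σ a) (by simp)
      (f1 _ (hn a a1))
    have r2 := rank_step_move (hD := hD.toDec) hσ hMM (E := {σ a, σ (σ a)}) (i := a)
      (by simp [(f1 a a1).symm, (f2 a a1).symm]) (f1 a a1)
    have r3 := rank_step_move (hD := hD.toDec) hσ hMM (E := {a, σ a, σ a, σ (σ a)}) (i := σ y)
      (by simp only [Finset.mem_insert, Finset.mem_singleton, not_or]; tauto) (f1 _ a2)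
    have r4 := rank_step_move (hD := hD.toDec) hσ hMM
      (E := {σ y, σ (σ y), a, σ a, σ a, σ (σ a)}) (i := y) (by
        simp only [Finset.mem_insert, Finset.mem_singleton, not_or]
        exact ⟨(f1 y hy).symm, (f2 y hy).symm, fun h => a4 (by rw [h]), fun h => a5 (by rw [h]),
          fun h => a5 (by rw [h]), fun h => a6 (by rw [h])⟩) (f1 y hy)
    have r5 := Submodule.finrank_add_le_finrank_add_finrank M M'
    rw [show (insert (σ a) (insert (σ (σ a)) ∅) : Finset κ) = {σ a, σ (σ a)} by simp] at r1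
    have r6 := Submodule.eq_of_le_of_finrank_le (inf_le_left (b := VS hD.toDec
      {y, σ y, σ y, σ (σ y), a, σ a, σ a, σ (σ a)}) (a := M ⊔ M')) (by omega)
    have r7 : ∀ x ∈ D j, s t x = x := fun x hx => fix_of_VS hD (hX (hC.cjs_mem (h1 t ht0).1))
      (fun z => (r6.ge (Submodule.mem_sup_left (hM1 z))).2) (by
        simp only [Finset.mem_insert, Finset.mem_singleton, not_or]
        exact ⟨hy.symm, a2.symm, a2.symm, (hn _ a2).symm, a1.symm, (hn _ a1).symm,
          (hn _ a1).symm, (hn _ (hn _ a1)).symm⟩) hx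
    exact (h1 t ht0).2 ⟨ha _ (hC.cjs_mem (h1 t ht0).1) j {j} (by simp) fun x hx => by
      rw [r7 x hx]; exact mem_VS_of_mem (by simp) hx, hC.cjs_mem (h1 t ht0).1⟩
  have key : ∀ a b : Fin 4, a ≠ 0 → b ≠ 0 → a ≠ b →
      (∀ x ∈ D (e 0), (s (sgn hD.toDec {e 0, e a}) * s (sgn hD.toDec {e 0, e b})) x ∈ D (e a)) ∧
      ∀ x ∈ D (e b), (s (sgn hD.toDec {e 0, e a}) * s (sgn hD.toDec {e 0, e b})) x ∈ D (e 0) := by
    intro a b ha0 hb0 hab
    have hza := hz _ _ (he.ne ha0.symm)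
    have hzb := hz _ _ (he.ne hb0.symm)
    obtain ⟨h4, h5, -⟩ := h3 _ hza _ hzb
    obtain ⟨σ, hσ⟩ := Dec.exists_perm h4.1
    rw [conj_sgn hσ, mul_left_inj] at h5
    have h6 := sgn_inj h2 h5
    have h7 : σ (e 0) ≠ e 0 := fun h => main _ hza _ hzb (fun h => by
      have : e b ∈ ({e 0, e a} : Finset κ) := by rw [sgn_inj h2 h]; simp
      simp [he.eq_iff, hb0, hab.symm] at this) (e 0) (by simpa [h] using hσ (e 0))
    have h8 : σ (e 0) = e a := by
      have : σ (e 0) ∈ ({e 0, e a} : Finset κ) := by rw [← h6]; simp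
      simpa [h7] using this
    have h9 : σ (e b) = e 0 := by
      have : σ (e b) ∈ ({e 0, e a} : Finset κ) := by rw [← h6]; simp
      rw [← h8] at this
      simpa [he.eq_iff, hb0] using this
    exact ⟨h8 ▸ hσ (e 0), h9 ▸ hσ (e b)⟩
  have k1 := (key 1 2 (by decide) (by decide) (by decide)).2
  have k2 := (key 2 3 (by decide) (by decide) (by decide)).1
  have k3 := (key 1 3 (by decide) (by decide) (by decide)).1
  obtain ⟨x, hx, h0⟩ := hD.exists_ne_zero (e 0)
  have k4 := k1 _ (k2 x hx)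
  rw [← LinearEquiv.mul_apply, mul_assoc, ← mul_assoc (s (sgn _ {e 0, e 2})),
    hC.cjs_sq (h1 _ (hz _ _ (he.ne (by decide)))).1, one_mul] at k4
  exact absurd (he (hD.eq_of_mem k4 (k3 x hx) (by simpa using h0))) (by decide)

end pdec

end Cfsg.Agent.H7
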