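import Cfsg.Agent.H7.C2Odd

/-!
General group-theoretic lemmas: invariant Sylow subgroups, coprime action of an elementary
abelian group of order nine, and an application of Burnside's transfer theorem.
-/

set_option autoImplicit false

namespace Cfsg.Agent.H7.C6

open Subgroup
open scoped Pointwise

variable {G : Type*} [Group G]

theorem mem_normalizer_of [Finite G] {H : Subgroup G} {g : G}
    (h : ∀ x ∈ H, g * x * g⁻¹ ∈ H) : g ∈ normalizer (H : Set G) :=
  mem_normalizer_fintype (S := (H : Set G)) h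

theorem conj_mem_of {H : Subgroup G} {g x : G} (h : g ∈ normalizer (H : Set G)) (hx : x ∈ H) :
    g * x * g⁻¹ ∈ H := (mem_normalizer_iff.1 h x).1 hx

theorem exists_inv_sylow [Finite G] {O E : Subgroup G} {p r : ℕ} [Fact p.Prime] [Fact r.Prime]
    (hE : IsPGroup p E) (hn : E ≤ normalizer (O : Set G)) (h : ¬ p ∣ Nat.card (Sylow r O)) :
    ∃ Q : Sylow r O, E ≤ normalizer (((Q : Subgroup O).map O.subtype : Subgroup G) : Set G) := by
  have hE' : IsPGroup p (E.subgroupOf (normalizer (O : Set G))) :=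
    hE.of_equiv (subgroupOfEquivOfLe hn).symm
  obtain ⟨Q, hQ⟩ := hE'.nonempty_fixed_point_of_prime_not_dvd_card (Sylow r O) h
  refine ⟨Q, fun e he => mem_normalizer_of ?_⟩
  rintro _ ⟨x, hx, rfl⟩
  have h1 : (⟨⟨e, hn he⟩, he⟩ : E.subgroupOf (normalizer (O : Set G))) • (Q : Subgroup O) = Q :=
    congrArg (fun S : Sylow r O => (S : Subgroup O)) (hQ ⟨⟨e, hn he⟩, he⟩)
  have h2 := Subgroup.smul_mem_pointwise_smul x
    (⟨⟨e, hn he⟩, he⟩ : E.subgroupOf (normalizer (O : Set G))) (Q : Subgroup O) hx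
  exact ⟨_, h1.le h2, rfl⟩

theorem le_of_sylow [Finite G] {O N : Subgroup G}
    (h : ∀ (r : ℕ) [Fact r.Prime], ∃ Q : Sylow r O, (Q : Subgroup O).map O.subtype ≤ N) :
    O ≤ N := by
  rw [← subgroupOf_eq_top, ← index_eq_one]
  by_contra hne
  obtain ⟨r, hr, hd⟩ := Nat.exists_prime_and_dvd hne
  have := Fact.mk hr
  obtain ⟨Q, hQ⟩ := h r
  exact Q.not_dvd_index (hd.trans (index_dvd_of_le (map_le_iff_le_comap.1 hQ)))

theorem conj_three {e : G} (he : e ^ 3 = 1) (x : G) :
    e * (e * (e * x * e⁻¹) * e⁻¹) * e⁻¹ = x := by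
  rw [show e * (e * (e * x * e⁻¹) * e⁻¹) * e⁻¹ = e ^ 3 * x * (e ^ 3)⁻¹ by
    simp only [pow_succ, pow_zero, one_mul, mul_inv_rev, mul_assoc], he]
  simp

theorem nine_aux {A : Type*} [CommGroup A] {a b c d e f g h i : A} (h1 : a * b * c = 1)
    (h2 : d * e * f = 1) (h3 : g * h * i = 1) (h4 : a * d * g = 1) (h5 : a * e * i = 1)
    (h6 : a * h * f = 1) : a * a * a = 1 := by
  have : a * a * a = (a * b * c) * (a * d * g) * (a * e * i) * (a * h * f) *
      ((a * b * c) * (d * e * f) * (g * h * i))⁻¹ := by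
    apply Additive.ofMul.injective
    simp only [ofMul_mul, ofMul_inv]
    abel
  rw [this, h1, h2, h3, h4, h5, h6]
  simp

theorem eq_one_of_pow_three [Finite G] {Q : Subgroup G} (hQ : ¬ 3 ∣ Nat.card Q) {x : G}
    (hx : x ∈ Q) {D : Subgroup G} (h : x ^ 3 ∈ D) : x ∈ D := by
  have h1 : x ^ Nat.card Q = 1 := by
    exact congrArg Subtype.val (pow_card_eq_one' (x := (⟨x, hx⟩ : Q)))
  have h2 : Nat.card Q % 3 = 1 ∨ Nat.card Q % 3 = 2 := by omega
  have h3 := Nat.div_add_mod (Nat.card Q) 3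
  rw [← h3, pow_add, pow_mul] at h1
  have h4 := D.pow_mem h (Nat.card Q / 3)
  rcases h2 with h2 | h2 <;> rw [h2] at h1
  · rw [pow_one] at h1
    rw [eq_inv_of_mul_eq_one_right h1]
    exact D.inv_mem h4
  · have h5 : x ^ 2 ∈ D := by
      rw [eq_inv_of_mul_eq_one_right h1]
      exact D.inv_mem h4
    have := D.mul_mem h (D.inv_mem h5)
    rwa [show x ^ 3 * (x ^ 2)⁻¹ = x by group] at this

/-- Coprime action of an elementary abelian group of order nine on a nilpotent group. -/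
theorem le_of_free [Finite G] {Q D : Subgroup G} [Group.IsNilpotent Q] (hQ : ¬ 3 ∣ Nat.card Q)
    (hD : D ≤ Q) {a b : G} (hab : a * b = b * a) (ha : a ^ 3 = 1) (hb : b ^ 3 = 1)
    (ha1 : a ∈ normalizer (Q : Set G)) (hb1 : b ∈ normalizer (Q : Set G))
    (ha2 : ∀ d ∈ D, a * d * a⁻¹ = d) (hb2 : ∀ d ∈ D, b * d * b⁻¹ = d)
    (h : ∀ e, e = a ∨ e = b ∨ e = a * b ∨ e = a * b * b → ∀ x ∈ Q, e * x * e⁻¹ = x → x ∈ D) :
    Q ≤ D := by
  let Z : Subgroup G :=
    { carrier := {x | x ∈ Q ∧ ∀ y ∈ Q, x * y * x⁻¹ * y⁻¹ ∈ D}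
      one_mem' := ⟨Q.one_mem, fun y _ => by simp⟩
      mul_mem' := fun {x x'} hx hx' => ⟨Q.mul_mem hx.1 hx'.1, fun y hy => by
        have h1 := hx'.2 y hy
        have := D.mul_mem (D.mul_mem (hx.2 _ (hD h1)) h1) (hx.2 y hy)
        convert this using 1
        group⟩
      inv_mem' := fun {x} hx => ⟨Q.inv_mem hx.1, fun y hy => by
        have := D.inv_mem (hx.2 _ (Q.mul_mem (Q.mul_mem (Q.inv_mem hx.1) hy) hx.1))
        convert this using 1
        group⟩ }
  have hZ : ∀ e ∈ normalizer (Q : Set G), (∀ d ∈ D, e * d * e⁻¹ = d) →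
      ∀ x ∈ Z, e * x * e⁻¹ ∈ Z := fun e he he2 x hx => ⟨conj_mem_of he hx.1, fun y hy => by
    have h1 := hx.2 _ (conj_mem_of (inv_mem he) hy)
    rw [← he2 _ h1] at h1
    convert h1 using 1
    group⟩
  haveI hn : (D.subgroupOf Z).Normal := ⟨fun d hd x => by
    rw [mem_subgroupOf] at hd ⊢
    have := D.mul_mem (x.2.2 d (hD hd)) hd
    simpa using this⟩
  let π := QuotientGroup.mk' (D.subgroupOf Z)
  have hπ : ∀ x : Z, π x = 1 ↔ (x : G) ∈ D := fun x => by
    rw [QuotientGroup.mk'_apply, QuotientGroup.eq_one_iff, mem_subgroupOf]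
  have hc : ∀ x y : Z, π x * π y = π y * π x := fun x y => by
    have := (hπ (x * y * x⁻¹ * y⁻¹)).2 (x.2.2 y y.2.1)
    simp only [map_mul, map_inv] at this
    rw [mul_inv_eq_one, mul_inv_eq_iff_eq_mul] at this
    exact this
  letI : CommGroup (Z ⧸ D.subgroupOf Z) :=
    { (inferInstance : Group (Z ⧸ D.subgroupOf Z)) with
      mul_comm := fun x y => by
        obtain ⟨x, rfl⟩ := QuotientGroup.mk'_surjective _ x
        obtain ⟨y, rfl⟩ := QuotientGroup.mk'_surjective _ y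
        exact hc x y }
  have hT : ∀ e, e = a ∨ e = b ∨ e = a * b ∨ e = a * b * b → e ^ 3 = 1 →
      (∀ d ∈ D, e * d * e⁻¹ = d) → ∀ x y z : Z, e * x * e⁻¹ = y → e * y * e⁻¹ = z →
      π x * π y * π z = 1 := fun e he he3 he2 x y z hy hz => by
    have hx : e * z * e⁻¹ = x := by
      rw [← hz, ← hy, conj_three he3]
    have h1 : e * (x * y * z : Z) * e⁻¹ = (y * z * x : Z) := by
      push_cast
      rw [show e * (x * y * z) * e⁻¹ = (e * x * e⁻¹) * (e * y * e⁻¹) * (e * z * e⁻¹) by group,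
        hx, hy, hz]
    have h2 : ((x * y * z)⁻¹ * (y * z * x) : Z) ∈ D.subgroupOf Z := by
      rw [mem_subgroupOf, ← hπ]
      simp only [map_mul, map_inv]
      rw [mul_comm (π y * π z), mul_assoc (π x), inv_mul_cancel]
    rw [mem_subgroupOf] at h2
    set t : G := ((x * y * z : Z) : G) with ht
    set d : G := (((x * y * z)⁻¹ * (y * z * x) : Z) : G) with hd
    have h3 : e * t * e⁻¹ = t * d := by rw [h1, ht, hd]; push_cast; group
    have h4 : d ^ 3 ∈ (⊥ : Subgroup G) := by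
      have h6 : ∀ u v : G, e * (u * v) * e⁻¹ = (e * u * e⁻¹) * (e * v * e⁻¹) := by
        intro u v; group
      have := conj_three he3 t
      rw [h3, h6 t d, h3, he2 d h2, h6 (t * d) d, h6 t d, h3, he2 d h2, mul_assoc, mul_assoc,
        mul_eq_left] at this
      simpa [pow_succ, mul_assoc] using this
    have h5 : d = 1 := mem_bot.1 (eq_one_of_pow_three hQ (hD h2) h4)
    rw [h5, mul_one] at h3
    rw [← map_mul, ← map_mul, hπ]
    exact h e he t (x * y * z).2.1 h3
  have hZD : Z ≤ D := fun x hx => by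
    have hA := hZ a ha1 ha2
    have hB := hZ b hb1 hb2
    let A : Z → Z := fun x => ⟨_, hA x x.2⟩
    let B : Z → Z := fun x => ⟨_, hB x x.2⟩
    have hab' : ∀ y : G, a * (b * y * b⁻¹) * a⁻¹ = b * (a * y * a⁻¹) * b⁻¹ := fun y => by
      rw [show a * (b * y * b⁻¹) * a⁻¹ = (a * b) * y * (a * b)⁻¹ by group, hab]; group
    have hb3 := conj_three hb
    have hc' : Commute a b := hab
    let x0 : Z := ⟨x, hx⟩
    have e1 := fun y => hT a (Or.inl rfl) ha ha2 y (A y) (A (A y)) rfl rfl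
    have e2 := hT b (Or.inr (Or.inl rfl)) hb hb2 x0 (B x0) (B (B x0)) rfl rfl
    have e3 := hT (a * b) (by simp) (by rw [hc'.mul_pow, ha, hb, one_mul])
      (fun d hd => by rw [show a * b * d * (a * b)⁻¹ = a * (b * d * b⁻¹) * a⁻¹ by group, hb2 d hd,
        ha2 d hd]) x0 (A (B x0)) (A (A (B (B x0)))) (by simp only [A, B]; group) (by
      simp only [A, B]
      rw [show ∀ y, a * b * y * (a * b)⁻¹ = a * (b * y * b⁻¹) * a⁻¹ by intro y; group, ← hab'])
    have e4 := hT (a * b * b) (by simp)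
      (by rw [(hc'.mul_left (Commute.refl b)).mul_pow, hc'.mul_pow, ha, hb]; simp)
      (fun d hd => by
        rw [show a * b * b * d * (a * b * b)⁻¹ = a * (b * (b * d * b⁻¹) * b⁻¹) * a⁻¹ by group,
          hb2 d hd, hb2 d hd, ha2 d hd]) x0 (A (B (B x0))) (A (A (B x0)))
      (by simp only [A, B]; group) (by
      simp only [A, B]
      rw [show ∀ y, a * b * b * y * (a * b * b)⁻¹ = a * (b * (b * y * b⁻¹) * b⁻¹) * a⁻¹ by
        intro y; group, ← hab', ← hab', hb3])
    have h1 := nine_aux (e1 x0) (e1 (B x0)) (e1 (B (B x0))) e2 e3 e4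
    rw [← map_mul, ← map_mul, hπ] at h1
    exact eq_one_of_pow_three hQ hx.1 (by simpa [pow_succ] using h1)
  obtain ⟨n, hn⟩ := Group.IsNilpotent.nilpotent Q
  have key : ∀ n, Subgroup.upperCentralSeries Q n ≤ D.subgroupOf Q := fun n => by
    induction n with
    | zero => simp
    | succ n ih =>
      intro x hx
      rw [Subgroup.mem_upperCentralSeries_succ_iff] at hx
      exact hZD ⟨x.2, fun y hy => ih (hx ⟨y, hy⟩)⟩
  intro x hx
  exact key n (x := ⟨x, hx⟩) (by rw [hn]; trivial)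

/-- A subgroup with cyclic Sylow `3`-subgroups normalised by an elementary abelian group of order
nine. -/
theorem le_of_transfer [Finite G] {K N E : Subgroup G} (hE : IsPGroup 3 E)
    (hn : E ≤ normalizer (K : Set G)) {a b : G} (haE : a ∈ E) (hbE : b ∈ E)
    (hab : a * b = b * a) (ha : a ^ 3 = 1) (hb : b ^ 3 = 1)
    (h1 : ∀ e, e = a ∨ e = b ∨ e = a * b ∨ e = a * b * b → ∀ x, e * x * e⁻¹ = x → x ∈ N)
    (h2 : ∀ e ∈ E, ∀ d ∈ K, d ∈ N → e * d * e⁻¹ = d)
    (h3 : ∀ P : Subgroup G, IsPGroup 3 P → E ≤ P → P ≤ N)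
    (h4 : ∀ P : Subgroup G, IsPGroup 3 P → P ≤ K → P ≤ N → ∀ x y, y ∈ P → x * y * x⁻¹ ∈ P →
      x * y * x⁻¹ = y) : K ≤ N := by
  obtain ⟨P, hP⟩ := exists_inv_sylow (r := 3) hE hn (not_dvd_card_sylow 3 K)
  have hP1 : IsPGroup 3 ((P : Subgroup K).map K.subtype) := P.2.map _
  have hP2 : (P : Subgroup K).map K.subtype ≤ N :=
    le_sup_left.trans (h3 _ (hP1.to_sup_of_normal_left' hE hP) le_sup_right)
  have hP3 : normalizer ((P : Subgroup K) : Set K) ≤ centralizer (P : Set K) := fun x hx y hy => by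
    have := h4 _ hP1 (map_subtype_le _) hP2 x y ⟨y, hy, rfl⟩ ⟨_, conj_mem_of hx hy, rfl⟩
    rw [mul_inv_eq_iff_eq_mul] at this
    exact Subtype.ext this.symm
  have hc := MonoidHom.ker_transferSylow_isComplement' P hP3
  have hd := MonoidHom.not_dvd_card_ker_transferSylow P hP3
  set O := (MonoidHom.transferSylow P hP3).ker with hO
  have hd' : ¬ 3 ∣ Nat.card (O.map K.subtype) := by rwa [card_map_of_injective K.subtype_injective]
  have hOn : E ≤ normalizer ((O.map K.subtype : Subgroup G) : Set G) := fun e he =>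
    mem_normalizer_of (by
      rintro _ ⟨x, hx, rfl⟩
      let y : K := ⟨_, conj_mem_of (hn he) x.2⟩
      refine ⟨y, ?_, rfl⟩
      have e1 : y ^ Nat.card O = 1 := by
        have := congrArg Subtype.val (pow_card_eq_one' (x := (⟨x, hx⟩ : O)))
        have h5 : (x : G) ^ Nat.card O = 1 := congrArg Subtype.val this
        apply Subtype.ext
        simp [y, h5]
      obtain ⟨k, hk⟩ := P.2 (MonoidHom.transferSylow P hP3 y)
      have e2 : MonoidHom.transferSylow P hP3 y ^ Nat.card O = 1 := by rw [← map_pow, e1, map_one]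
      have e3 := pow_gcd_eq_one.2 ⟨e2, hk⟩
      rw [Nat.Coprime.gcd_eq_one
        (((Nat.Prime.coprime_iff_not_dvd Nat.prime_three).2 hd).symm.pow_right k), pow_one] at e3
      exact e3)
  have hON : O.map K.subtype ≤ N := le_of_sylow fun r _ => by
    obtain ⟨Q, hQ⟩ := exists_inv_sylow (r := r) hE hOn fun h =>
      hd' (h.trans ((Sylow.card_dvd_index default).trans (index_dvd_card _)))
    refine ⟨Q, ?_⟩
    set Q' := (Q : Subgroup (O.map K.subtype)).map (O.map K.subtype).subtype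
    have hQ1 : IsPGroup r Q' := Q.2.map _
    have := hQ1.isNilpotent
    have hQ2 : Q' ≤ K := (map_subtype_le _).trans (map_subtype_le _)
    exact (le_of_free (D := Q' ⊓ N) (fun h => hd' (h.trans (card_dvd_of_le (map_subtype_le _))))
      inf_le_left hab ha hb (hQ haE) (hQ hbE) (fun d hd => h2 a haE d (hQ2 hd.1) hd.2)
      (fun d hd => h2 b hbE d (hQ2 hd.1) hd.2)
      fun e he x hx hx' => ⟨hx, h1 e he x hx'⟩).trans inf_le_right
  intro x hx
  have : (⟨x, hx⟩ : K) ∈ O ⊔ (P : Subgroup K) := by rw [hc.sup_eq_top]; trivial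
  exact (sup_le (map_le_iff_le_comap.1 hON) (map_le_iff_le_comap.1 hP2)) this

/-- two involutions are conjugate by an involution or centralised by an involution -/
theorem dih_cases [Finite G] {a b : G} (ha : a * a = 1) (hb : b * b = 1) :
    (∃ i, i ≠ 1 ∧ i * i = 1 ∧ i * a = a * i ∧ i * b = b * i) ∨
      ∃ s, s * s = 1 ∧ s * a * s⁻¹ = b := by
  have h1 := fun k => dih_semi ha hb k
  rcases Nat.even_or_odd' (orderOf (a * b)) with ⟨k, hk | hk⟩
  · have h2 : (a * b) ^ k * (a * b) ^ k = 1 := by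
      rw [← pow_add, ← two_mul, ← hk, pow_orderOf_eq_one]
    have h3 : (a * b) ^ k * a = a * (a * b) ^ k := by
      rw [h1, inv_eq_of_mul_eq_one_right h2]
    refine Or.inl ⟨(a * b) ^ k, pow_ne_one_of_lt_orderOf ?_ ?_, h2, h3, ?_⟩
    · have := orderOf_pos (a * b); omega
    · have := orderOf_pos (a * b); omega
    · have h4 : b = a * (a * b) := by rw [← mul_assoc, ha, one_mul]
      nth_rw 2 [h4]
      nth_rw 3 [h4]
      rw [← mul_assoc, h3, mul_assoc, mul_assoc, ← pow_succ, ← pow_succ']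
  · have h2 : (a * b) ^ k * a * ((a * b) ^ k * a) = 1 := by
      rw [mul_assoc, ← mul_assoc a, h1, mul_assoc, ha]; simp
    refine Or.inr ⟨(a * b) ^ k * a, h2, ?_⟩
    have h3 : (a * b) ^ k * (a * b) ^ k * (a * b) = 1 := by
      rw [← pow_add, ← pow_succ, ← two_mul, ← hk, pow_orderOf_eq_one]
    rw [inv_eq_of_mul_eq_one_right h2, mul_assoc _ a a, ha, mul_one, ← mul_assoc,
      eq_inv_of_mul_eq_one_left h3, mul_inv_rev, inv_mul_cancel_right,
      inv_eq_of_mul_eq_one_right hb]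

end Cfsg.Agent.H7.C6
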