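import Cfsg.Agent.H7.C6A
import Cfsg.Agent.H8.LamBlk

/-!
Symplectic spaces over the field with three elements.
-/

set_option autoImplicit false
set_option linter.unusedSectionVars false

namespace Cfsg.Agent.H7.C6

open Module H7.Polar H8

theorem finrank_le_map_add {K V : Type*} [Field K] [AddCommGroup V] [Module K V]
    [FiniteDimensional K V] (f : V →ₗ[K] V) (U : Submodule K V) :
    finrank K U ≤ finrank K (U.map f) + finrank K (LinearMap.ker f) := by
  have h1 := LinearMap.finrank_range_add_finrank_ker (f.domRestrict U)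
  rw [LinearMap.range_domRestrict, LinearMap.ker_domRestrict,
    ← Submodule.finrank_map_subtype_eq U, Submodule.map_comap_subtype] at h1
  have := Submodule.finrank_mono (inf_le_right : U ⊓ LinearMap.ker f ≤ _)
  omega

variable {A : Type*} [AddCommGroup A] [Module (ZMod 3) A]

theorem add_three (x : A) : x + x + x = 0 := by
  have : x + x + x = (3 : ZMod 3) • x := by module
  rw [this, show (3 : ZMod 3) = 0 from rfl, zero_smul]

theorem add_self_eq_neg (x : A) : x + x = -x := eq_neg_of_add_eq_zero_left (add_three x)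

theorem eq_zero_of_neg {x : A} (h : -x = x) : x = 0 := by
  have := add_three x
  rwa [add_self_eq_neg, h, add_self_eq_neg, h] at this

theorem z3_cases (a : ZMod 3) : a = 0 ∨ a = 1 ∨ a = -1 := by revert a; decide

@[simp] theorem sig_apply (P : Polar (ZMod 3) A) (a : ZMod 3) : P.σ a = a := by
  rcases z3_cases a with rfl | rfl | rfl <;> simp

/-- a symplectic space -/
structure S3 (P : Polar (ZMod 3) A) : Prop where
  val : ∀ x c, P.Val x c

namespace S3

variable {P : Polar (ZMod 3) A} (h : S3 P)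
include h

theorem self (x : A) : P.B x x = 0 := sing_B (h.val x 0)

theorem eps : P.ε = -1 := by
  have := P.val_self (h.val 0 1)
  rw [h.self, map_one, mul_one] at this
  linear_combination -this

theorem skew (x y : A) : P.B y x = -P.B x y := by rw [P.herm x y, h.eps]; simp

theorem mem_Iso {g : A ≃ₗ[ZMod 3] A} (hg : ∀ x y, P.B (g x) (g y) = P.B x y) : g ∈ P.Iso :=
  ⟨hg, fun _ _ _ => h.val _ _⟩

theorem neg_mem : LinearEquiv.neg (ZMod 3) ∈ P.Iso := h.mem_Iso fun x y => by simp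

variable [FiniteDimensional (ZMod 3) A]

theorem trans {u v : A} (hu : u ≠ 0) (hv : v ≠ 0) : ∃ g ∈ P.Iso, g u = v := by
  obtain ⟨t, h1, -, h2⟩ := witt_vec (P := P) (U := ⊥) (v := u) (v' := v) (by simpa) (by simpa)
    (by simp) (h.val _ 0) (h.val _ 0)
  exact ⟨t, h1, h2⟩

theorem exists_one {u : A} (hu : u ≠ 0) : ∃ v, P.B u v = 1 := by
  obtain ⟨v, -, hv⟩ := exists_sep (P := P) (U := ⊥) (v := u) (by simpa) 1
  exact ⟨v, hv⟩

theorem Iso_le {X : Subgroup (A ≃ₗ[ZMod 3] A)}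
    (hX : ∀ v, ∃ g ∈ X, ∀ x, g x = x + P.B x v • v) : P.Iso ≤ X := by
  have h1 : ∀ v, TX P X v := fun v => ⟨h.val _ _, fun c _ => by
    obtain ⟨g, hg, h1⟩ := hX v
    rcases z3_cases c with rfl | rfl | rfl
    · exact EI.zero v
    · refine ⟨g * g, mul_mem hg hg, fun x => ?_⟩
      rw [eich_tv, LinearEquiv.mul_apply, h1, h1, map_add, map_smul]
      simp only [LinearMap.add_apply, LinearMap.smul_apply, h.self, smul_zero, add_zero, map_one,
        one_mul]
      rw [add_assoc, add_self_eq_neg, sub_eq_add_neg]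
    · exact ⟨g, hg, fun x => by rw [eich_tv, h1]; simp⟩⟩
  rw [← E_eq_Iso fun x => h.val x 0]
  refine E_le_of_EI fun u w c hu hw _ => ?_
  have h2 := (h1 u).EI (h1 w) (h1 _) (P.B_symm hw) (h.val 0 (-1))
  have h3 := EI.add h2 ((h1 u).2 c (h.val _ _)) hu (by simp [hw]) (by simp)
  exact h3.congr (by simp) (by simp)

theorem expand (h4 : finrank (ZMod 3) A = 4) {a b c d : A} (hab : P.B a b = 1) (hcd : P.B c d = 1)
    (hac : P.B a c = 0) (had : P.B a d = 0) (hbc : P.B b c = 0) (hbd : P.B b d = 0) (x : A) :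
    x = P.B x b • a - P.B x a • b + P.B x d • c - P.B x c • d := by
  have hba := h.skew a b
  have hdc := h.skew c d
  have hca := P.B_symm hac
  have hda := P.B_symm had
  have hcb := P.B_symm hbc
  have hdb := P.B_symm hbd
  have hs := h.self
  have hi : LinearIndependent (ZMod 3) ![a, b, c, d] := by
    rw [Fintype.linearIndependent_iff]
    intro g hg i
    have e := fun y => congrArg (fun z => P.B z y) hg
    have e1 := e a
    have e2 := e b
    have e3 := e c
    have e4 := e d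
    clear e hg
    simp [Fin.sum_univ_four, *] at e1 e2 e3 e4
    fin_cases i <;> simpa
  have ht := hi.span_eq_top_of_card_eq_finrank' (by simp [h4])
  rw [← sub_eq_zero]
  refine P.nondeg _ fun y => ?_
  have hy : y ∈ Submodule.span (ZMod 3) (Set.range ![a, b, c, d]) := by rw [ht]; trivial
  obtain ⟨g, rfl⟩ := (Submodule.mem_span_range_iff_exists_fun _).1 hy
  simp [Fin.sum_univ_four, h.skew x, *]

theorem exists_pair {τ : A ≃ₗ[ZMod 3] A} (hτ : τ ∈ P.Iso) (h2 : ∀ x, τ (τ x) = x)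
    (h1 : ∃ x, τ x ≠ -x) : ∃ a b, τ a = a ∧ τ b = b ∧ P.B a b = 1 := by
  obtain ⟨x, hx⟩ := h1
  have ha : τ (τ x + x) = τ x + x := by rw [map_add, h2, add_comm]
  obtain ⟨v, hv⟩ := h.exists_one (u := τ x + x) fun e => hx (eq_neg_of_add_eq_zero_left e)
  refine ⟨_, -(τ v + v), ha, by rw [map_neg, map_add, h2, add_comm], ?_⟩
  have : P.B (τ x + x) (τ v) = 1 := by rw [← ha, Iso.B hτ, hv]
  rw [map_neg, map_add, this, hv]
  rfl

theorem invol_conj (h4 : finrank (ZMod 3) A = 4) {τ ν : A ≃ₗ[ZMod 3] A} (hτ : τ ∈ P.Iso)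
    (hν : ν ∈ P.Iso) (h1 : ∀ x, τ (τ x) = x) (h2 : ∃ x, τ x ≠ -x) (h3 : ∃ x, τ x ≠ x)
    (h1' : ∀ x, ν (ν x) = x) (h2' : ∃ x, ν x ≠ -x) (h3' : ∃ x, ν x ≠ x) :
    ∃ θ ∈ P.Iso, ∀ x, θ (τ x) = ν (θ x) := by
  have key : ∀ {τ : A ≃ₗ[ZMod 3] A}, τ ∈ P.Iso → (∀ x, τ (τ x) = x) → (∃ x, τ x ≠ -x) →
      (∃ x, τ x ≠ x) → ∃ a b c d, τ a = a ∧ τ b = b ∧ τ c = -c ∧ τ d = -d ∧ P.B a b = 1 ∧
      P.B c d = 1 ∧ P.B a c = 0 ∧ P.B a d = 0 ∧ P.B b c = 0 ∧ P.B b d = 0 := by
    intro τ hτ h1 h2 h3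
    obtain ⟨a, b, ha, hb, hab⟩ := h.exists_pair hτ h1 h2
    obtain ⟨c, d, hc, hd, hcd⟩ := h.exists_pair (mul_mem h.neg_mem hτ) (fun x => by simp [h1])
      (by simpa using h3)
    simp only [LinearEquiv.mul_apply, LinearEquiv.neg_apply, neg_eq_iff_eq_neg] at hc hd
    have k : ∀ x y, τ x = x → τ y = -y → P.B x y = 0 := fun x y hx hy => by
      have := Iso.B hτ x y
      rw [hx, hy, map_neg] at this
      exact eq_zero_of_neg this
    exact ⟨a, b, c, d, ha, hb, hc, hd, hab, hcd, k _ _ ha hc, k _ _ ha hd, k _ _ hb hc,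
      k _ _ hb hd⟩
  obtain ⟨a, b, c, d, ha, hb, hc, hd, hab, hcd, hac, had, hbc, hbd⟩ := key hτ h1 h2 h3
  obtain ⟨a', b', c', d', ha', hb', hc', hd', hab', hcd', hac', had', hbc', hbd'⟩ :=
    key hν h1' h2' h3'
  let φ : A →ₗ[ZMod 3] A :=
    { toFun := fun x => P.B x b • a' - P.B x a • b' + P.B x d • c' - P.B x c • d'
      map_add' := fun x y => by simp only [map_add, LinearMap.add_apply]; module
      map_smul' := fun t x => by
        simp only [map_smul, LinearMap.smul_apply, smul_eq_mul, RingHom.id_apply]; module }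
  have hφ : ∀ x, φ x = P.B x b • a' - P.B x a • b' + P.B x d • c' - P.B x c • d' := fun _ => rfl
  have hB : ∀ x y, P.B (φ x) (φ y) = P.B x y := fun x y => by
    have e := h.expand h4 hab hcd hac had hbc hbd y
    conv_rhs => rw [e]
    simp [hφ, h.self, h.skew a' b', h.skew c' d', P.B_symm hac', P.B_symm had', P.B_symm hbc',
      P.B_symm hbd', hab', hcd', hac', had', hbc', hbd']
    ring
  obtain ⟨θ, hθ, h5⟩ := witt (P := P) φ ⊤
    (fun u _ hu => P.nondeg' fun y => by rw [← hB, hu]; simp) (fun u _ v _ => hB u v)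
    (fun u _ => ⟨0, h.val _ _, h.val _ _⟩)
  refine ⟨θ, hθ, fun x => ?_⟩
  have k : ∀ y, P.B (τ x) y = P.B x (τ y) := fun y => by rw [← Iso.B hτ x, h1]
  rw [h5 _ trivial, h5 _ trivial, hφ, hφ]
  simp [k, *]

end S3

end Cfsg.Agent.H7.C6
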