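import Cfsg.Agent.H7.C6B

/-!
An elementary abelian subgroup `A` of order `3 ^ 4` whose automiser is the full symplectic group
and whose normaliser contains the centralisers of the non-trivial elements of `A`.
-/

set_option autoImplicit false
set_option linter.unusedSectionVars false

namespace Cfsg.Agent.H7.C6

open Module H7.Polar H8

variable {A : Type*} [AddCommGroup A] [Module (ZMod 3) A]

theorem conj_shift {Γ : Type*} [Group Γ] {g x a b : Γ}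
    (h : g * (x * a * x⁻¹) * g⁻¹ = x * b * x⁻¹) : x⁻¹ * g * x * a * (x⁻¹ * g * x)⁻¹ = b := by
  rw [show b = x⁻¹ * (x * b * x⁻¹) * x by group, ← h]; group

/-- the abstract configuration -/
structure Sys (Γ : Type*) [Group Γ] (P : Polar (ZMod 3) A) where
  w : A → Γ
  s3 : S3 P
  four : finrank (ZMod 3) A = 4
  w_add : ∀ u v, w (u + v) = w u * w v
  inj0 : ∀ u, w u = 1 → u = 0
  sp : ∀ g u v u' v', g * w u * g⁻¹ = w u' → g * w v * g⁻¹ = w v' → P.B u' v' = P.B u v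
  cent : ∀ g, (∀ u, g * w u * g⁻¹ = w u) → ∃ u, g = w u
  surj : ∀ σ ∈ P.Iso, ∃ g, ∀ u, g * w u * g⁻¹ = w (σ u)
  M : ∀ u, u ≠ 0 → ∀ g, g * w u * g⁻¹ = w u → ∀ v, ∃ v', g * w v * g⁻¹ = w v'

namespace Sys

variable {Γ : Type*} [Group Γ] {P : Polar (ZMod 3) A} (S : Sys Γ P)

@[simp] theorem w_zero : S.w 0 = 1 := by simpa using S.w_add 0 0

theorem w_neg (u : A) : S.w (-u) = (S.w u)⁻¹ :=
  eq_inv_of_mul_eq_one_left (by rw [← S.w_add]; simp)

theorem w_comm (u v : A) : S.w u * S.w v = S.w v * S.w u := by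
  rw [← S.w_add, add_comm, S.w_add]

theorem w_inj {u v : A} (h : S.w u = S.w v) : u = v :=
  sub_eq_zero.1 (S.inj0 _ (by rw [sub_eq_add_neg, S.w_add, S.w_neg, h, mul_inv_cancel]))

theorem w_three (u : A) : S.w u ^ 3 = 1 := by
  rw [pow_succ, sq, ← S.w_add, ← S.w_add, add_three, S.w_zero]

include S in
theorem fd : FiniteDimensional (ZMod 3) A := .of_finrank_pos (by rw [S.four]; norm_num)

/-- `g` induces `σ` -/
def Lift (g : Γ) (σ : A → A) : Prop := ∀ u, g * S.w u * g⁻¹ = S.w (σ u)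

variable {S} in
theorem Lift.mul {g g' : Γ} {σ σ' : A → A} (h : S.Lift g σ) (h' : S.Lift g' σ') :
    S.Lift (g * g') (fun u => σ (σ' u)) := fun u => by rw [← h, ← h']; group

variable {S} in
theorem Lift.uniq {g : Γ} {σ σ' : A → A} (h : S.Lift g σ) (h' : S.Lift g σ') (u : A) :
    σ u = σ' u := S.w_inj ((h u).symm.trans (h' u))

variable {S} in
theorem Lift.congr {g g' : Γ} {σ σ' : A → A} (h : S.Lift g σ) (e : g = g') (h' : ∀ u, σ u = σ' u) :
    S.Lift g' σ' := fun u => by rw [← e, h, h']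

variable {S} in
theorem Lift.inv {g : Γ} {σ σ' : A → A} (h : S.Lift g σ) (h' : ∀ u, σ (σ' u) = u) :
    S.Lift g⁻¹ σ' := fun u => by
  nth_rw 1 [← h' u]
  rw [← h]; group

theorem lift_w (u : A) : S.Lift (S.w u) fun v => v := fun v => by
  rw [S.w_comm, mul_inv_cancel_right]

theorem lift_one : S.Lift 1 fun v => v := fun v => by simp

theorem exists_lift' {g : Γ} (h : ∀ v, ∃ v', g * S.w v * g⁻¹ = S.w v') :
    ∃ σ ∈ P.Iso, S.Lift g σ := by
  have := S.fd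
  choose f hf using h
  let φ : A →+ A := AddMonoidHom.mk' f fun u v => S.w_inj (by
    rw [S.w_add, ← hf, ← hf, ← hf, S.w_add]; group)
  have hφ : Function.Injective (φ.toZModLinearMap 3) := (injective_iff_map_eq_zero _).2
    fun u hu => S.inj0 u (by
      have := hf u
      rw [show f u = 0 from hu, S.w_zero] at this
      simpa using this)
  exact ⟨LinearEquiv.ofInjectiveEndo _ hφ, S.s3.mem_Iso fun x y => S.sp g _ _ _ _ (hf x) (hf y), hf⟩

/-- the normaliser -/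
def N : Subgroup Γ where
  carrier := {g | ∀ v, ∃ v', g * S.w v * g⁻¹ = S.w v'}
  one_mem' v := ⟨v, by simp⟩
  mul_mem' {a b} ha hb v := by
    obtain ⟨v', h⟩ := hb v
    obtain ⟨v'', h'⟩ := ha v'
    exact ⟨v'', by rw [← h', ← h]; group⟩
  inv_mem' {a} ha v := by
    obtain ⟨σ, -, h⟩ := S.exists_lift' ha
    exact ⟨_, Lift.inv h σ.apply_symm_apply v⟩

theorem exists_lift {g : Γ} (h : g ∈ S.N) : ∃ σ ∈ P.Iso, S.Lift g σ := S.exists_lift' h

variable {S} in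
theorem Lift.mem {g : Γ} {σ : A → A} (h : S.Lift g σ) : g ∈ S.N := fun v => ⟨_, h v⟩

theorem w_mem (u : A) : S.w u ∈ S.N := (S.lift_w u).mem

theorem mem_of_comm {u : A} (hu : u ≠ 0) {g : Γ} (h : g * S.w u * g⁻¹ = S.w u) : g ∈ S.N :=
  S.M u hu g h

/-- trivial intersection -/
theorem ti {u v : A} (hu : u ≠ 0) {g : Γ} (h : g * S.w u * g⁻¹ = S.w v) : g ∈ S.N := by
  have := S.fd
  have hv : v ≠ 0 := by
    rintro rfl
    exact hu (S.inj0 u (by simpa using h))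
  obtain ⟨σ, hσ, e⟩ := S.s3.trans hv hu
  obtain ⟨n, hn⟩ := S.surj σ hσ
  have := S.mem_of_comm hu (g := n * g) (by
    rw [show n * g * S.w u * (n * g)⁻¹ = n * (g * S.w u * g⁻¹) * n⁻¹ by group, h, hn, e])
  exact (S.N.mul_mem_cancel_left (Lift.mem hn)).1 this

/-- conjugate configuration -/
def conj (x : Γ) : Sys Γ P where
  w u := x * S.w u * x⁻¹
  s3 := S.s3
  four := S.four
  w_add u v := by rw [S.w_add]; group
  inj0 u h := S.inj0 u (by simpa using h)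
  sp g u v u' v' h h' := S.sp (x⁻¹ * g * x) u v u' v'
    (conj_shift h) (conj_shift h')
  cent g h := by
    obtain ⟨u, hu⟩ := S.cent (x⁻¹ * g * x) fun u => conj_shift (h u)
    exact ⟨u, by rw [← hu]; group⟩
  surj σ hσ := by
    obtain ⟨g, hg⟩ := S.surj σ hσ
    exact ⟨x * g * x⁻¹, fun u => by rw [← hg]; group⟩
  M u hu g h v := by
    obtain ⟨v', hv⟩ := S.M u hu (x⁻¹ * g * x) (conj_shift h) v
    exact ⟨v', by rw [← hv]; group⟩

theorem conj_w (x : Γ) (u : A) : (S.conj x).w u = x * S.w u * x⁻¹ := rfl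

theorem lift_conj {x g : Γ} {σ : A → A} : (S.conj x).Lift g σ ↔ S.Lift (x⁻¹ * g * x) σ := by
  refine forall_congr' fun u => ?_
  rw [conj_w, conj_w, ← mul_left_inj x, ← mul_right_inj x⁻¹]
  constructor <;> intro h <;> (convert h using 1 <;> group)

theorem mem_conj {x g : Γ} : g ∈ (S.conj x).N ↔ x⁻¹ * g * x ∈ S.N :=
  ⟨fun h => let ⟨_, _, h⟩ := (S.conj x).exists_lift h; (S.lift_conj.1 h).mem,
    fun h => let ⟨_, _, h⟩ := S.exists_lift h; (S.lift_conj.2 h).mem⟩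

/-- the part of `A` normalising a second configuration -/
def Bs (S S' : Sys Γ P) : Submodule (ZMod 3) A :=
  AddSubgroup.toZModSubmodule 3
    { carrier := {u | S.w u ∈ S'.N}
      zero_mem' := by simp
      add_mem' := fun {a b} ha hb => by
        simp only [Set.mem_setOf_eq, S.w_add]; exact mul_mem ha hb
      neg_mem' := fun {a} ha => by simp only [Set.mem_setOf_eq, S.w_neg]; exact inv_mem ha }

theorem mem_Bs {S S' : Sys Γ P} {u : A} : u ∈ Bs S S' ↔ S.w u ∈ S'.N := Iff.rfl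

/-- disjoint configurations -/
def Dj (S S' : Sys Γ P) : Prop := ∀ u v, S.w u = S'.w v → u = 0

variable {S} {S' : Sys Γ P}

theorem Dj.symm (h : Dj S S') : Dj S' S := fun u v e => by
  have := h v u e.symm
  rw [this, S.w_zero] at e
  exact S'.inj0 u e

namespace Dj

variable (h : Dj S S')
include h

theorem comm {u v : A} (hu : u ∈ Bs S S') (hv : v ∈ Bs S' S) :
    S'.w v * S.w u * (S'.w v)⁻¹ = S.w u := by
  obtain ⟨u', h1⟩ := hv u
  obtain ⟨v', h2⟩ := hu (-v)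
  have := h (-u + u') (-(-v') + v) (by
    rw [add_comm, add_comm _ v, S.w_add, S'.w_add, ← h1, neg_neg, ← h2, S.w_neg, S'.w_neg]; group)
  rw [h1, ← neg_add_eq_zero.1 this]

theorem comm' {u v : A} (hu : u ∈ Bs S S') (hv : v ∈ Bs S' S) :
    S.w u * S'.w v = S'.w v * S.w u := by
  rw [← h.comm hu hv, inv_mul_cancel_right, h.comm hu hv]

theorem fix {v : A} (hv : v ∈ Bs S' S) (v0 : v ≠ 0) {σ : A → A} (hσ : S.Lift (S'.w v) σ) (u : A) :
    σ u = u ↔ u ∈ Bs S S' := by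
  refine ⟨fun e => S'.mem_of_comm v0 ?_, fun hu => S.w_inj ((hσ u).symm.trans (h.comm hu hv))⟩
  have := hσ u
  rw [e, mul_inv_eq_iff_eq_mul] at this
  rw [← this, mul_inv_cancel_right]

theorem ker {v : A} (hv : v ∈ Bs S' S) (v0 : v ≠ 0) {σ : A ≃ₗ[ZMod 3] A}
    (hσ : S.Lift (S'.w v) σ) :
    LinearMap.ker ((σ : A →ₗ[ZMod 3] A) - LinearMap.id) = Bs S S' := by
  ext u
  rw [← h.fix hv v0 hσ]
  simp [sub_eq_zero]

theorem three {v : A} {σ : A → A} (hσ : S.Lift (S'.w v) σ) (u : A) : σ (σ (σ u)) = u :=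
  ((hσ.mul (hσ.mul hσ)).congr (g' := 1) (by rw [← S'.w_three v, pow_succ', sq]) fun _ => rfl).uniq
    S.lift_one u

theorem cube {v : A} {σ : A ≃ₗ[ZMod 3] A} (hσ : S.Lift (S'.w v) σ) (u : A) :
    σ (σ (σ u - u) - (σ u - u)) - (σ (σ u - u) - (σ u - u)) = 0 := by
  simp only [map_sub, h.three hσ]
  have h1 := add_three (σ u)
  have h2 := add_three (σ (σ u))
  rw [← sub_self (0 : A)]
  nth_rw 1 [← h1]
  rw [← h2]
  abel

theorem two_le {v : A} (hv : v ∈ Bs S' S) (v0 : v ≠ 0) : 2 ≤ finrank (ZMod 3) (Bs S S') := by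
  have := S.fd
  obtain ⟨σ, -, hσ⟩ := S.exists_lift hv
  rw [← h.ker hv v0 hσ]
  set f := (σ : A →ₗ[ZMod 3] A) - LinearMap.id with hf
  have h1 := finrank_le_map_add f ⊤
  have h2 := finrank_le_map_add f (Submodule.map f ⊤)
  have h3 := finrank_le_map_add f (Submodule.map f (Submodule.map f ⊤))
  have h4 : Submodule.map f (Submodule.map f (Submodule.map f ⊤)) = ⊥ := by
    rw [eq_bot_iff]
    rintro _ ⟨_, ⟨_, ⟨u, -, rfl⟩, rfl⟩, rfl⟩
    exact h.cube hσ u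
  rw [h4, finrank_bot] at h3
  rw [finrank_top, S.four] at h1
  omega

theorem exists_out {v : A} (hv : v ∈ Bs S' S) (v0 : v ≠ 0) : ∃ a, a ∉ Bs S S' := by
  by_contra! hc
  obtain ⟨u, hu⟩ := S.cent (S'.w v) fun u => h.comm (hc u) hv
  exact v0 (h.symm _ _ hu)

theorem sub_mem {v : A} (hv : v ∈ Bs S' S) {σ : A ≃ₗ[ZMod 3] A} (hσ' : σ ∈ P.Iso)
    (hσ : S.Lift (S'.w v) σ) (a : A) : σ a - a ∈ P.perp (Bs S S') := mem_perp.2 fun b hb => by
  have : σ b = b := S.w_inj ((hσ b).symm.trans (h.comm hb hv))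
  rw [map_sub, LinearMap.sub_apply, ← Iso.B hσ' a b, this, sub_self]

theorem le_four {v : A} (hv : v ∈ Bs S' S) (v0 : v ≠ 0) :
    finrank (ZMod 3) (Bs S' S) + finrank (ZMod 3) (Bs S S') ≤ 4 := by
  have := S.fd
  obtain ⟨a, ha⟩ := h.exists_out hv v0
  have : Finite A := Module.finite_of_finite (ZMod 3)
  choose σ hσ' hσ using fun x : Bs S' S => S.exists_lift x.2
  have hi : Function.Injective fun x : Bs S' S =>
      (⟨_, h.sub_mem x.2 (hσ' x) (hσ x) a⟩ : P.perp (Bs S S')) := fun x y e => by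
    have e1 : σ x a = σ y a := sub_left_inj.1 (congrArg Subtype.val e)
    by_contra hne
    refine ha ((h.fix (-y + x).2 (fun e => hne (Subtype.ext (neg_add_eq_zero.1 e).symm))
      (σ := fun u => (σ y).symm (σ x u)) ?_ a).1 (by simp [e1]))
    exact (((hσ y).inv (σ y).apply_symm_apply).mul (hσ x)).congr
      (by simp [S'.w_add, S'.w_neg]) fun _ => rfl
  have h1 := Nat.card_le_card_of_injective _ hi
  rw [Module.natCard_eq_pow_finrank (K := ZMod 3) (V := Bs S' S),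
    Module.natCard_eq_pow_finrank (K := ZMod 3) (V := P.perp (Bs S S')),
    Nat.card_zmod, Nat.pow_le_pow_iff_right (by norm_num)] at h1
  have h2 := P.finrank_perp (Bs S S')
  rw [S.four] at h2
  omega

theorem finrank_eq {v : A} (hv : v ∈ Bs S' S) (v0 : v ≠ 0) :
    finrank (ZMod 3) (Bs S S') = 2 ∧ ∃ u ∈ Bs S S', u ≠ 0 := by
  have h1 := h.two_le hv v0
  obtain ⟨u, hu, u0⟩ := Submodule.exists_mem_ne_zero_of_ne_bot (p := Bs S S') fun e => by
    rw [e, finrank_bot] at h1; omega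
  have h2 := h.symm.two_le hu u0
  have h3 := h.le_four hv v0
  exact ⟨by omega, u, hu, u0⟩

theorem perp_eq {v : A} (hv : v ∈ Bs S' S) (v0 : v ≠ 0) : P.perp (Bs S S') = Bs S S' := by
  have := S.fd
  obtain ⟨σ, hσ', hσ⟩ := S.exists_lift hv
  obtain ⟨a, ha⟩ := h.exists_out hv v0
  have h2 := (h.finrank_eq hv v0).1
  obtain ⟨y, y0, hy, hy'⟩ : ∃ y, y ≠ 0 ∧ y ∈ Bs S S' ∧ y ∈ P.perp (Bs S S') := by
    by_cases e : σ (σ a - a) - (σ a - a) = 0
    · exact ⟨σ a - a, fun e => ha ((h.fix hv v0 hσ a).1 (sub_eq_zero.1 e)),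
        (h.fix hv v0 hσ _).1 (sub_eq_zero.1 e), h.sub_mem hv hσ' hσ a⟩
    · exact ⟨_, e, (h.fix hv v0 hσ _).1 (sub_eq_zero.1 (h.cube hσ a)), h.sub_mem hv hσ' hσ _⟩
  obtain ⟨z, hz, hz'⟩ := exists_notMem_of_finrank_lt (U := (ZMod 3) ∙ y) (W := Bs S S')
    (by have := finrank_span_singleton_le (F := ZMod 3) y; omega)
  have h3 : ((ZMod 3) ∙ y) ⊔ (ZMod 3) ∙ z = Bs S S' := by
    refine Submodule.eq_of_le_of_finrank_le (by simp [hy, hz]) ?_
    have := Submodule.finrank_lt_finrank_of_lt (s := (ZMod 3) ∙ y)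
      (t := ((ZMod 3) ∙ y) ⊔ (ZMod 3) ∙ z) (lt_of_le_of_ne le_sup_left fun e => hz' (by
        rw [e]; exact Submodule.mem_sup_right (Submodule.mem_span_singleton_self z)))
    rw [finrank_span_singleton y0] at this
    omega
  have h4 : z ∈ P.perp (Bs S S') := by
    rw [← h3, perp_sup, perp_span_singleton, perp_span_singleton]
    exact ⟨P.B_symm (mem_perp.1 hy' z hz), S.s3.self z⟩
  refine (Submodule.eq_of_le_of_finrank_le ?_ ?_).symm
  · nth_rw 1 [← h3]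
    simp [hy', h4]
  · have := P.finrank_perp (Bs S S')
    rw [S.four] at this
    omega

theorem act {v : A} (hv : v ∈ Bs S' S) (a : A) :
    ∃ b ∈ Bs S S', S.w a * S'.w v * (S.w a)⁻¹ = S'.w v * S.w b ∧
      (a ∉ Bs S S' → v ≠ 0 → b ≠ 0) := by
  by_cases v0 : v = 0
  · exact ⟨0, zero_mem _, by simp [v0], fun _ h => absurd v0 h⟩
  obtain ⟨σ, hσ', hσ⟩ := S.exists_lift (neg_mem hv : -v ∈ Bs S' S)
  refine ⟨σ a - a, h.perp_eq hv v0 ▸ h.sub_mem (neg_mem hv) hσ' hσ a, ?_, fun ha _ e =>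
    ha ((h.fix (neg_mem hv) (neg_ne_zero.2 v0) hσ a).1 (sub_eq_zero.1 e))⟩
  rw [sub_eq_add_neg, S.w_add, ← hσ, S'.w_neg, S.w_neg]
  group

theorem onto {v : A} (hv : v ∈ Bs S' S) (v0 : v ≠ 0) {b : A} (hb : b ∈ Bs S S') :
    ∃ a, S.w a * S'.w v * (S.w a)⁻¹ = S'.w v * S.w b := by
  have := S.fd
  obtain ⟨σ, hσ', hσ⟩ := S.exists_lift (neg_mem hv : -v ∈ Bs S' S)
  have h1 := LinearMap.finrank_range_add_finrank_ker ((σ : A →ₗ[ZMod 3] A) - LinearMap.id)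
  rw [h.ker (neg_mem hv) (neg_ne_zero.2 v0) hσ, S.four, (h.finrank_eq hv v0).1] at h1
  have h2 : LinearMap.range ((σ : A →ₗ[ZMod 3] A) - LinearMap.id) = Bs S S' :=
    Submodule.eq_of_le_of_finrank_le (by
      rintro _ ⟨a, rfl⟩
      exact h.perp_eq hv v0 ▸ h.sub_mem (neg_mem hv) hσ' hσ a)
      (by rw [(h.finrank_eq hv v0).1]; omega)
  rw [← h2] at hb
  obtain ⟨a, rfl⟩ := hb
  refine ⟨a, ?_⟩
  rw [show ((σ : A →ₗ[ZMod 3] A) - LinearMap.id : A →ₗ[ZMod 3] A) a = σ a + -a from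
    sub_eq_add_neg _ _, S.w_add, ← hσ, S'.w_neg, S.w_neg]
  group

theorem eq_zero (hT : ∀ y u v, u ≠ 0 → y * S.w u * y⁻¹ = S'.w v →
    ∀ u, ∃ v, y * S.w u * y⁻¹ = S'.w v) {v : A} (hv : v ∈ Bs S' S) : v = 0 := by
  by_contra v0
  obtain ⟨-, b₀, hb₀, b0⟩ := h.finrank_eq hv v0
  obtain ⟨a', ha'⟩ := h.symm.exists_out hb₀ b0
  obtain ⟨ψ₀, hψ₀, e₀, ψ0⟩ := h.symm.act hb₀ a'
  obtain ⟨a, ha⟩ := h.onto hψ₀ (ψ0 ha' b0) (neg_mem hb₀)
  have hwa : ∀ b, S.w a * S.w b * (S.w a)⁻¹ = S.w b := S.lift_w a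
  have hwa' : ∀ b, S'.w a' * S'.w b * (S'.w a')⁻¹ = S'.w b := S'.lift_w a'
  set y := S.w a * S'.w a' with hy
  have c1 : ∀ t, y * t * y⁻¹ = S.w a * (S'.w a' * t * (S'.w a')⁻¹) * (S.w a)⁻¹ := fun t => by
    rw [hy]; group
  have c2 : ∀ g s t : Γ, g * (s * t) * g⁻¹ = (g * s * g⁻¹) * (g * t * g⁻¹) := fun g s t => by group
  have c3 : ∀ g s : Γ, g * s⁻¹ * g⁻¹ = (g * s * g⁻¹)⁻¹ := fun g s => by group
  have k0 : y * S.w b₀ * y⁻¹ = S'.w ψ₀ := by
    rw [c1, e₀, c2, hwa, ha, ← mul_assoc, h.comm' hb₀ hψ₀, S.w_neg, mul_inv_cancel_right]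
  have k1 : ∀ b ∈ Bs S S', y * (y * (y * S.w b * y⁻¹) * y⁻¹) * y⁻¹ = S.w (-b) := fun b hb => by
    obtain ⟨ψ, hψ, e, -⟩ := h.symm.act hb a'
    obtain ⟨φ, hφ, e', -⟩ := h.act hψ a
    obtain ⟨v₁, e1⟩ := hT y _ _ b0 k0 b
    have e2 : y * S.w b * y⁻¹ = S'.w ψ * S.w (b + φ) := by
      rw [c1, e, c2, hwa, e', ← mul_assoc, h.comm' hb hψ, S.w_add, mul_assoc]
    have e3 := h (b + φ) (-ψ + v₁) (by rw [S'.w_add, S'.w_neg, ← e1, e2]; group)
    rw [e3, S.w_zero, mul_one] at e2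
    have e4 : y * S'.w ψ * y⁻¹ = S'.w ψ * S.w (-b) := by
      rw [c1, hwa', e', eq_neg_of_add_eq_zero_right e3]
    rw [e2, e4, c2, e4, S.w_neg, c3, e2, ← S.w_neg, ← h.comm' (neg_mem hb) hψ,
      mul_inv_cancel_right]
  have c4 : ∀ t, y * y * y * t * (y * y * y)⁻¹ = y * (y * (y * t * y⁻¹) * y⁻¹) * y⁻¹ := fun t => by
    group
  obtain ⟨ν, hν', hν⟩ := S.exists_lift (S.ti b0 ((c4 _).trans (k1 b₀ hb₀)))
  obtain ⟨σ, hσ', hσ⟩ := S.exists_lift hψ₀
  have k2 : ∀ b ∈ Bs S S', ν b = -b := fun b hb =>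
    S.w_inj ((hν b).symm.trans ((c4 _).trans (k1 b hb)))
  have k3 : S'.w ψ₀ * (y * y * y * S'.w ψ₀) = y * y * y := by
    have : y * y * y * S'.w ψ₀ * (y * y * y)⁻¹ = (S'.w ψ₀)⁻¹ := by
      rw [← k0, ← c3, ← S.w_neg, ← k1 b₀ hb₀]; group
    rw [mul_inv_eq_iff_eq_mul.1 this, mul_inv_cancel_left]
  have k4 := ((hσ.mul (hν.mul hσ)).congr k3 fun _ => rfl).uniq hν
  have hp := h.perp_eq hv v0
  obtain ⟨u, hu⟩ := h.exists_out hv v0
  have hf := h.fix hψ₀ (ψ0 ha' b0) hσ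
  have s1 : σ u - u ∈ Bs S S' := hp ▸ h.sub_mem hψ₀ hσ' hσ u
  have s2 : ν u + u ∈ Bs S S' := hp ▸ mem_perp.2 fun b hb => by
    have := Iso.B hν' u b
    rw [k2 b hb, map_neg] at this
    rw [map_add, LinearMap.add_apply, ← this, add_neg_cancel]
  have s3 := k4 u
  have s4 := k2 _ s1
  have s5 := (hf _).2 s1
  have s6 := (hf _).2 s2
  rw [map_sub, sub_eq_iff_eq_add] at s4
  rw [s4, map_add, map_neg, s5, eq_sub_of_add_eq ((map_add σ _ _).symm.trans s6)] at s3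
  refine hu ((hf u).1 (sub_eq_zero.1 (eq_zero_of_neg ?_)))
  rw [← sub_eq_zero, ← sub_eq_zero.2 s3]
  abel

end Dj

variable (S)

theorem dj {x : Γ} (hx : x ∉ S.N) : Dj S (S.conj x) := fun u v e => by
  by_contra hu
  refine hx ((inv_mem_iff).1 (S.ti hu (v := v) ?_))
  rw [e, conj_w]; group

/-- strong closure -/
theorem sc {u : A} (hu : u ≠ 0) {x : Γ} (h : x * S.w u * x⁻¹ ∈ S.N) : x ∈ S.N := by
  by_contra hx
  refine hu ((S.dj hx).eq_zero (fun y u v hu e u' => ?_) h)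
  obtain ⟨v', hv⟩ := S.ti hu (g := x⁻¹ * y) (v := v) (by
    rw [show S.w v = x⁻¹ * (x * S.w v * x⁻¹) * x by group, ← S.conj_w x, ← e]
    group) u'
  exact ⟨v', by rw [conj_w, ← hv]; group⟩

theorem pg_le [Finite Γ] {Q : Subgroup Γ} (hQ : IsPGroup 3 Q) {u : A} (hu : u ≠ 0)
    (h : S.w u ∈ Q) : Q ≤ S.N := by
  have := hQ.isNilpotent
  rw [← Subgroup.subgroupOf_eq_top]
  by_contra hne
  obtain ⟨x, hx, hx'⟩ := SetLike.exists_of_lt
    (normalizerCondition_of_isNilpotent (G := Q) _ (lt_top_iff_ne_top.2 hne))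
  exact hx' (S.sc hu (conj_mem_of (x := ⟨_, h⟩) hx (S.w_mem u)))

end Sys

end Cfsg.Agent.H7.C6
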