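import Cfsg.Agent.H7.C6C

/-!
The final counting argument with involutions.
-/

set_option autoImplicit false
set_option linter.unusedSectionVars false

namespace Cfsg.Agent.H7.C6

open Module H7.Polar H8

variable {A : Type*} [AddCommGroup A] [Module (ZMod 3) A]

namespace Sys

variable {Γ : Type*} [Group Γ] {P : Polar (ZMod 3) A} (S : Sys Γ P)

/-- a non-central involution whose centraliser normalises `A` -/
structure Inv (j : Γ) (τ : A ≃ₗ[ZMod 3] A) : Prop where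
  iso : τ ∈ P.Iso
  lift : S.Lift j τ
  sq : j * j = 1
  ne_neg : ∃ x, τ x ≠ -x
  ne : ∃ x, τ x ≠ x
  cj : ∀ g, g * j = j * g → g ∈ S.N
  nf : ∀ g, ¬ S.Lift (g * j * g⁻¹) fun u => -u

variable {S}

theorem Lift.invol {i : Γ} {ν : A → A} (h : S.Lift i ν) (hi : i * i = 1) (x : A) : ν (ν x) = x :=
  ((h.mul h).congr hi fun _ => rfl).uniq S.lift_one x

theorem Lift.w_mul {i : Γ} {ν : A → A} (h : S.Lift i ν) (u : A) :
    i * S.w u = S.w (ν u) * i := by rw [← h]; group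

theorem Lift.eq_mul {i i' : Γ} {ν : A → A} (h : S.Lift i ν) (h' : S.Lift i' ν)
    (hi' : i' * i' = 1) : ∃ u, i = S.w u * i' := by
  obtain ⟨u, hu⟩ := S.cent (i' * i) ((h'.mul h).congr rfl (h'.invol hi'))
  exact ⟨ν u, by rw [← h'.w_mul, ← hu, ← mul_assoc, hi', one_mul]⟩

theorem Lift.conj_w {i i' : Γ} {ν : A ≃ₗ[ZMod 3] A} (h : S.Lift i ν) (h' : S.Lift i' ν)
    (hi : i * i = 1) (hi' : i' * i' = 1) : ∃ v, i = S.w v * i' * (S.w v)⁻¹ := by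
  obtain ⟨u, rfl⟩ := h.eq_mul h' hi'
  rw [mul_assoc, ← mul_assoc i', h'.w_mul, mul_assoc, hi', mul_one, ← S.w_add] at hi
  have := eq_neg_of_add_eq_zero_right (S.inj0 _ hi)
  refine ⟨-u, ?_⟩
  rw [← S.w_neg, neg_neg, mul_assoc, h'.w_mul, this, ← mul_assoc, ← S.w_add, add_self_eq_neg,
    neg_neg]

namespace Inv

variable {j : Γ} {τ : A ≃ₗ[ZMod 3] A} (h : S.Inv j τ)
include h

theorem tt (x : A) : τ (τ x) = x := h.lift.invol h.sq x

theorem conj_sq (n : Γ) : n * j * n⁻¹ * (n * j * n⁻¹) = 1 := by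
  rw [show n * j * n⁻¹ * (n * j * n⁻¹) = n * (j * j) * n⁻¹ by group, h.sq]; simp

theorem exists_conj {ν : A ≃ₗ[ZMod 3] A} (hν : ν ∈ P.Iso) (h1 : ∀ x, ν (ν x) = x)
    (h2 : ∃ x, ν x ≠ -x) (h3 : ∃ x, ν x ≠ x) : ∃ n ∈ S.N, S.Lift (n * j * n⁻¹) ν := by
  have := S.fd
  obtain ⟨θ, hθ, e⟩ := S.s3.invol_conj S.four h.iso hν h.tt h.ne_neg h.ne h1 h2 h3
  obtain ⟨n, hn⟩ := S.surj θ hθ
  exact ⟨n, Lift.mem hn, ((Lift.mul hn h.lift).mul (Lift.inv hn θ.apply_symm_apply)).congr rfl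
    fun u => by simp [e]⟩

theorem cases {i : Γ} (hi : i ∈ S.N) (h2 : i * i = 1) :
    i = 1 ∨ S.Lift i (fun u => -u) ∨ ∃ n ∈ S.N, i = n * j * n⁻¹ := by
  obtain ⟨ν, hν, hl⟩ := S.exists_lift hi
  by_cases e1 : ∀ x, ν x = x
  · obtain ⟨u, rfl⟩ := S.cent i (hl.congr rfl e1)
    rw [← S.w_add, add_self_eq_neg] at h2
    exact Or.inl (by rw [neg_eq_zero.1 (S.inj0 _ h2), S.w_zero])
  by_cases e2 : ∀ x, ν x = -x
  · exact Or.inr (Or.inl (hl.congr rfl e2))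
  obtain ⟨n, hn, hn'⟩ := h.exists_conj hν (hl.invol h2) (not_forall.1 e2) (not_forall.1 e1)
  obtain ⟨v, hv⟩ := hl.conj_w hn' h2 (h.conj_sq n)
  exact Or.inr (Or.inr ⟨S.w v * n, mul_mem (S.w_mem v) hn, by rw [hv]; group⟩)

theorem cj' {g n : Γ} (hn : n ∈ S.N) (e : g * j * g⁻¹ = n * j * n⁻¹) : g ∈ S.N := by
  have := h.cj (n⁻¹ * g) (by
    rw [show n⁻¹ * g * j = n⁻¹ * (g * j * g⁻¹) * g by group, e]; group)
  exact (S.N.mul_mem_cancel_left (inv_mem hn)).1 this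

theorem cj'' {g n : Γ} (hn : n ∈ S.N) (e : g * (n * j * n⁻¹) = n * j * n⁻¹ * g) : g ∈ S.N :=
  (S.N.mul_mem_cancel_right hn).1 (h.cj' hn (by rw [← mul_inv_eq_iff_eq_mul.2 e]; group))

theorem fp {g : Γ} (hg : g * j * g⁻¹ ∈ S.N) : g ∈ S.N := by
  rcases h.cases hg (h.conj_sq g) with e | e | ⟨n, hn, e⟩
  · obtain ⟨x, hx⟩ := h.ne
    have : j = 1 := by simpa using e
    exact absurd ((h.lift.congr this fun _ => rfl).uniq S.lift_one x) hx
  · exact absurd e (h.nf g)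
  · exact h.cj' hn e

theorem neg_of {x i : Γ} (hx : x ∉ S.N) (h1 : i ∈ S.N) (h2 : x⁻¹ * i * x ∈ S.N) (h3 : i * i = 1)
    (h4 : i ≠ 1) : S.Lift i fun u => -u := by
  rcases h.cases h1 h3 with e | e | ⟨n, hn, rfl⟩
  · exact absurd e h4
  · exact e
  · have := h.fp (g := x⁻¹ * n) (by convert h2 using 1; group)
    exact absurd ((S.N.mul_mem_cancel_right hn).1 this) (by simpa)

theorem uniq {x i i' : Γ} (hx : x ∉ S.N) (h1 : i ∈ S.N) (h2 : x⁻¹ * i * x ∈ S.N) (h3 : i * i = 1)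
    (h4 : i ≠ 1) (h1' : i' ∈ S.N) (h2' : x⁻¹ * i' * x ∈ S.N) (h3' : i' * i' = 1)
    (h4' : i' ≠ 1) : i = i' := by
  obtain ⟨u, hu⟩ := (h.neg_of hx h1 h2 h3 h4).eq_mul (h.neg_of hx h1' h2' h3' h4') h3'
  by_cases u0 : u = 0
  · simp [hu, u0]
  have : x⁻¹ * S.w u * x⁻¹⁻¹ ∈ S.N := by
    convert mul_mem h2 (inv_mem h2') using 1
    rw [hu]; group
  exact absurd (S.sc u0 this) (by simpa)

theorem exists_not_comm {i : Γ} (hi : S.Lift i fun u => -u) :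
    ∃ n ∈ S.N, i * (n * j * n⁻¹) ≠ n * j * n⁻¹ * i := by
  by_contra! hc
  obtain ⟨v, hv⟩ := h.ne
  have h1 := hc 1 (one_mem _)
  have h2 := hc _ (S.w_mem v)
  simp only [one_mul, inv_one, mul_one] at h1
  rw [← S.w_neg, mul_assoc (S.w v), h.lift.w_mul, ← mul_assoc (S.w v), ← S.w_add, ← mul_assoc,
    hi.w_mul, mul_assoc, mul_assoc, h1, mul_left_inj] at h2
  have := eq_zero_of_neg (S.w_inj h2)
  rw [map_neg, add_neg_eq_zero] at this
  exact hv this.symm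

theorem exists_comm {i : Γ} (hi : S.Lift i fun u => -u) (h2 : i * i = 1) :
    ∃ n ∈ S.N, i * (n * j * n⁻¹) = n * j * n⁻¹ * i := by
  have hj := inv_eq_of_mul_eq_one_right h.sq
  obtain ⟨u, hu⟩ := Lift.eq_mul (i := j * i * j) (((h.lift.mul hi).mul h.lift).congr rfl
    fun u => by simp [h.tt]) hi h2
  have h3 : j * i = S.w u * i * j := by rw [← hu, mul_assoc, mul_assoc, h.sq, mul_one]
  have h4 : τ u = -u := by
    have : j * (j * i) = S.w (τ u + u) * i := by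
      calc _ = j * S.w u * i * j := by rw [h3]; group
        _ = S.w (τ u) * (j * i * j) := by rw [h.lift.w_mul]; group
        _ = _ := by rw [hu, S.w_add, mul_assoc]
    rw [← mul_assoc, h.sq, one_mul, eq_comm, mul_eq_right] at this
    exact eq_neg_of_add_eq_zero_left (S.inj0 _ this)
  refine ⟨S.w (-u), S.w_mem _, ?_⟩
  have h5 : S.w (-u) * j * (S.w (-u))⁻¹ = S.w u * j := by
    rw [← S.w_neg, neg_neg, mul_assoc, h.lift.w_mul, ← mul_assoc, ← S.w_add, h4, add_self_eq_neg,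
      neg_neg]
  rw [h5, ← mul_assoc, hi.w_mul, mul_assoc (S.w u), h3, ← mul_assoc, ← mul_assoc, ← S.w_add,
    add_self_eq_neg]

theorem top [Finite Γ] (x : Γ) : x ∈ S.N := by
  by_contra hx
  have hx' : x⁻¹ ∉ S.N := by simpa
  have key : ∀ n ∈ S.N, (∀ i, i ∈ S.N → x⁻¹ * i * x ∈ S.N → i * i = 1 → i ≠ 1 →
      i * (n * j * n⁻¹) ≠ n * j * n⁻¹ * i) → ∀ m ∈ S.N, ∀ m' ∈ S.N, ∃ d ∈ S.N,
      x * d * x⁻¹ ∈ S.N ∧ d * (m * j * m⁻¹) * d⁻¹ = m' * j * m'⁻¹ := by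
    intro n hn hc
    have k : ∀ m ∈ S.N, ∃ s, s * s = 1 ∧ x⁻¹ * s ∈ S.N ∧
        s * (n * j * n⁻¹) * s⁻¹ = x * m * j * (x * m)⁻¹ := fun m hm => by
      rcases dih_cases (h.conj_sq n) (h.conj_sq (x * m)) with ⟨i, h1, h2, h3, h4⟩ | ⟨s, h1, h2⟩
      · refine absurd h3 (hc i (h.cj'' hn h3) (h.cj'' hm ?_) h2 h1)
        rw [show x⁻¹ * i * x * (m * j * m⁻¹) = x⁻¹ * (i * (x * m * j * (x * m)⁻¹)) * x by group, h4]
        group
      · refine ⟨s, h1, (S.N.mul_mem_cancel_right hn).1 (h.cj' hm ?_), h2⟩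
        rw [show m * j * m⁻¹ = x⁻¹ * (x * m * j * (x * m)⁻¹) * x by group, ← h2]
        group
    intro m hm m' hm'
    obtain ⟨s, h1, h2, h3⟩ := k m hm
    obtain ⟨s', h1', h2', h3'⟩ := k m' hm'
    refine ⟨x⁻¹ * s' * (x⁻¹ * s)⁻¹, mul_mem h2' (inv_mem h2), ?_, ?_⟩
    · convert mul_mem (inv_mem h2') h2 using 1
      rw [mul_inv_rev, mul_inv_rev, inv_eq_of_mul_eq_one_right h1,
        inv_eq_of_mul_eq_one_right h1']
      group
    · rw [show m' * j * m'⁻¹ = x⁻¹ * (x * m' * j * (x * m')⁻¹) * x by group, ← h3',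
        show m * j * m⁻¹ = x⁻¹ * (x * m * j * (x * m)⁻¹) * x by group, ← h3]
      group
  by_cases hD : ∃ i, i ∈ S.N ∧ x⁻¹ * i * x ∈ S.N ∧ i * i = 1 ∧ i ≠ 1
  · obtain ⟨i, h1, h2, h3, h4⟩ := hD
    obtain ⟨n, hn, hn'⟩ := h.exists_not_comm (h.neg_of hx h1 h2 h3 h4)
    have h3' : x⁻¹ * i * x * (x⁻¹ * i * x) = 1 := by
      rw [show x⁻¹ * i * x * (x⁻¹ * i * x) = x⁻¹ * (i * i) * x by group, h3]; simp
    have h4' : x⁻¹ * i * x ≠ 1 := fun e => h4 (by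
      rw [show i = x * (x⁻¹ * i * x) * x⁻¹ by group, e]; simp)
    have h5 : x⁻¹⁻¹ * (x⁻¹ * i * x) * x⁻¹ ∈ S.N := by convert h1 using 1; group
    have hl := h.neg_of hx' h2 h5 h3' h4'
    obtain ⟨m, hm, e⟩ := h.exists_comm hl h3'
    obtain ⟨m', hm', e'⟩ := h.exists_not_comm hl
    obtain ⟨d, hd, hd', e2⟩ := key n hn (fun i' a b c d => by
      rwa [← h.uniq hx h1 h2 h3 h4 a b c d]) m hm m' hm'
    have e3 := h.uniq hx' (i := d * (x⁻¹ * i * x) * d⁻¹) (mul_mem (mul_mem hd h2) (inv_mem hd))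
      (by convert mul_mem (mul_mem hd' h1) (inv_mem hd') using 1; group)
      (by rw [show d * (x⁻¹ * i * x) * d⁻¹ * (d * (x⁻¹ * i * x) * d⁻¹) =
        d * ((x⁻¹ * i * x) * (x⁻¹ * i * x)) * d⁻¹ by group, h3']; simp)
      (fun e => h4' (by simpa using e)) h2 h5 h3' h4'
    apply e'
    rw [← e2, ← e3]
    calc _ = d * (x⁻¹ * i * x * (m * j * m⁻¹)) * d⁻¹ := by group
      _ = _ := by rw [e]; group
  · obtain ⟨m', hm', e⟩ := h.exists_conj (mul_mem S.s3.neg_mem h.iso) (fun x => by simp [h.tt])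
      (by simpa using h.ne) (by simpa [neg_eq_iff_eq_neg] using h.ne_neg)
    obtain ⟨d, hd, hd', e2⟩ := key 1 (one_mem _) (fun i a b c d => (hD ⟨i, a, b, c, d⟩).elim)
      1 (one_mem _) m' hm'
    simp only [one_mul, inv_one, mul_one] at e2
    obtain ⟨δ, -, hδ⟩ := S.exists_lift hd
    have e3 : ∀ u, δ (τ u) = -τ (δ u) := fun u =>
      (hδ.mul h.lift).uniq ((e.mul hδ).congr (by rw [← e2]; group) fun _ => rfl) u
    have e4 : ∀ k : ℕ, S.Lift (d ^ k) (δ ^ k : A ≃ₗ[ZMod 3] A) ∧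
        ∀ u, (δ ^ (2 * k)) (τ u) = τ ((δ ^ (2 * k)) u) := fun k => by
      induction k with
      | zero => exact ⟨S.lift_one.congr (by simp) (by simp), by simp⟩
      | succ k ih =>
        refine ⟨(hδ.mul ih.1).congr (pow_succ' _ _).symm fun u => by rw [pow_succ']; rfl,
          fun u => ?_⟩
        simp [mul_add, pow_succ', ih.2, e3]
    rcases Nat.even_or_odd' (orderOf d) with ⟨k, hk | hk⟩
    · have := orderOf_pos d
      refine hD ⟨x * d ^ k * x⁻¹, ?_, ?_, ?_, fun e => ?_⟩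
      · rw [← conj_pow]; exact pow_mem hd' k
      · convert pow_mem hd k using 1; group
      · rw [show x * d ^ k * x⁻¹ * (x * d ^ k * x⁻¹) = x * d ^ (2 * k) * x⁻¹ by
          rw [two_mul, pow_add]; group, ← hk, pow_orderOf_eq_one]; simp
      · exact pow_ne_one_of_lt_orderOf (x := d) (n := k) (by omega) (by omega) (by simpa using e)
    · have e5 := ((e4 (2 * k + 1)).1.congr (by rw [← hk, pow_orderOf_eq_one]) fun _ => rfl).uniq
        S.lift_one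
      obtain ⟨u, hu⟩ := h.ne
      have e6 := e5 (τ (τ u - u))
      rw [pow_succ', LinearEquiv.mul_apply, (e4 k).2, e3, ← LinearEquiv.mul_apply δ, ← pow_succ',
        e5] at e6
      have := eq_zero_of_neg e6
      rw [map_eq_zero_iff _ τ.injective, sub_eq_zero] at this
      exact hu this

end Inv

/-- the transfer argument in the configuration -/
theorem le_N [Finite Γ] {K : Subgroup Γ} {a b : A} (ha : a ≠ 0) (hb : b ≠ 0) (hab : a + b ≠ 0)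
    (hab' : a + b + b ≠ 0) (ha1 : S.w a ∈ Subgroup.normalizer (K : Set Γ))
    (hb1 : S.w b ∈ Subgroup.normalizer (K : Set Γ))
    (h2 : ∀ d ∈ K, d ∈ S.N → S.w a * d * (S.w a)⁻¹ = d ∧ S.w b * d * (S.w b)⁻¹ = d)
    (h4 : ∀ Q : Subgroup Γ, IsPGroup 3 Q → Q ≤ K → Q ≤ S.N → ∀ x y, y ∈ Q → x * y * x⁻¹ ∈ Q →
      x * y * x⁻¹ = y) : K ≤ S.N := by
  let E : Subgroup Γ :=
    { carrier := {g | (∃ u, g = S.w u) ∧ g ∈ Subgroup.normalizer (K : Set Γ) ∧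
        ∀ d ∈ K, d ∈ S.N → g * d * g⁻¹ = d}
      one_mem' := ⟨⟨0, by simp⟩, one_mem _, by simp⟩
      mul_mem' := fun {g g'} ⟨⟨u, hu⟩, h1, h2⟩ ⟨⟨u', hu'⟩, h1', h2'⟩ =>
        ⟨⟨u + u', by rw [hu, hu', S.w_add]⟩, mul_mem h1 h1', fun d hd hd' => by
          rw [show g * g' * d * (g * g')⁻¹ = g * (g' * d * g'⁻¹) * g⁻¹ by group, h2' d hd hd',
            h2 d hd hd']⟩
      inv_mem' := fun {g} ⟨⟨u, hu⟩, h1, h2⟩ =>
        ⟨⟨-u, by rw [hu, S.w_neg]⟩, inv_mem h1, fun d hd hd' => by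
          nth_rw 1 [← h2 d hd hd']; group⟩ }
  have haE : S.w a ∈ E := ⟨⟨a, rfl⟩, ha1, fun d hd hd' => (h2 d hd hd').1⟩
  refine le_of_transfer (E := E) (fun g => ⟨1, ?_⟩) (fun g hg => hg.2.1) haE
    ⟨⟨b, rfl⟩, hb1, fun d hd hd' => (h2 d hd hd').2⟩ (S.w_comm a b) (S.w_three a) (S.w_three b)
    (fun e he x hx => ?_) (fun e he => he.2.2) (fun Q hQ hE => S.pg_le hQ ha (hE haE)) h4
  · obtain ⟨g, ⟨u, rfl⟩, -⟩ := g
    exact Subtype.ext (by simpa using S.w_three u)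
  · obtain ⟨u, hu, rfl⟩ : ∃ u, u ≠ 0 ∧ e = S.w u := by
      rcases he with rfl | rfl | rfl | rfl
      exacts [⟨a, ha, rfl⟩, ⟨b, hb, rfl⟩, ⟨_, hab, (S.w_add _ _).symm⟩,
        ⟨_, hab', by rw [S.w_add, S.w_add]⟩]
    exact S.mem_of_comm hu (by rw [← mul_inv_eq_iff_eq_mul.1 hx, mul_inv_cancel_right])

end Sys

end Cfsg.Agent.H7.C6
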