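import Cfsg.Agent.H7.C6B

/-!
Weyl systems: absolutely irreducible projective representations of a symplectic space over the
field with three elements.
-/

set_option autoImplicit false
set_option linter.unusedSectionVars false

namespace Cfsg.Agent.H7.C6

open Matrix H7.Polar

variable {F : Type*} [Field F]

/-- a primitive cube root of unity -/
structure Om (w : F) : Prop where
  eq : w ^ 2 + w + 1 = 0
  three : (3 : F) ≠ 0

/-- the character of `ZMod 3` -/
def chi (w : F) (a : ZMod 3) : F := w ^ a.val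

@[simp] theorem chi_zero (w : F) : chi w 0 = 1 := pow_zero w
@[simp] theorem chi_one (w : F) : chi w 1 = w := pow_one w
@[simp] theorem chi_neg_one (w : F) : chi w (-1) = w ^ 2 := rfl
@[simp] theorem chi_two (w : F) : chi w 2 = w ^ 2 := rfl

namespace Om

variable {w : F} (h : Om w)
include h

theorem cube : w ^ 3 = 1 := by linear_combination (w - 1) * h.eq
theorem ne_zero : w ≠ 0 := fun e => by simpa [e] using h.eq
theorem ne_one : w ≠ 1 := fun e => h.three (by have := h.eq; rw [e] at this; linear_combination this)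
theorem sq_ne_one : w ^ 2 ≠ 1 := fun e => h.ne_one (by linear_combination h.cube - w * e)
theorem sq_ne : w ^ 2 ≠ w := fun e => h.sq_ne_one (by linear_combination h.cube - (w + 1) * e + e)
theorem sub_ne : w - 1 ≠ 0 := sub_ne_zero.2 h.ne_one

theorem chi_add (a b : ZMod 3) : chi w (a + b) = chi w a * chi w b := by
  rw [chi, chi, chi, ZMod.val_add, ← pow_eq_pow_mod _ h.cube, pow_add]

theorem chi_ne (a : ZMod 3) : chi w a ≠ 0 := pow_ne_zero _ h.ne_zero

theorem chi_mul_neg (a : ZMod 3) : chi w a * chi w (-a) = 1 := by rw [← h.chi_add]; simp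

theorem chi_cube (a : ZMod 3) : chi w a ^ 3 = 1 := by
  rw [chi, ← pow_mul, mul_comm, pow_mul, h.cube, one_pow]

theorem chi_eq_one {a : ZMod 3} (e : chi w a = 1) : a = 0 := by
  rcases z3_cases a with rfl | rfl | rfl
  · rfl
  · exact absurd (by simpa using e) h.ne_one
  · exact absurd e h.sq_ne_one

theorem chi_inj {a b : ZMod 3} (e : chi w a = chi w b) : a = b :=
  sub_eq_zero.1 (h.chi_eq_one (by rw [sub_eq_add_neg, h.chi_add, e, h.chi_mul_neg]))

theorem exists_chi {c : F} (e : c ^ 3 = 1) : ∃ a, c = chi w a := by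
  have : (c - 1) * ((c - w) * (c - w ^ 2)) = 0 := by
    have := h.eq
    grind
  rcases mul_eq_zero.1 this with e | e
  · exact ⟨0, by simpa using sub_eq_zero.1 e⟩
  rcases mul_eq_zero.1 e with e | e
  · exact ⟨1, by simpa using sub_eq_zero.1 e⟩
  · exact ⟨-1, sub_eq_zero.1 e⟩

end Om

/-- groups of matrices -/
structure MG (n : Type*) [Fintype n] [DecidableEq n] (F : Type*) [Field F] where
  In : Matrix n n F → Prop
  one : In 1
  mul : ∀ {A B}, In A → In B → In (A * B)
  inv : ∀ {A}, In A → ∃ B, In B ∧ A * B = 1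

variable {n : Type*} [Fintype n] [DecidableEq n]

theorem cancel_r {g g' A B : Matrix n n F} (h : g * g' = 1) (e : A * g = B * g) : A = B := by
  rw [← mul_one A, ← h, ← mul_assoc, e, mul_assoc, h, mul_one]

theorem cancel_l {g g' A B : Matrix n n F} (h : g * g' = 1) (e : g * A = g * B) : A = B := by
  rw [← one_mul A, ← mul_eq_one_comm.1 h, mul_assoc, e, ← mul_assoc, mul_eq_one_comm.1 h, one_mul]

theorem trace_conj {g g' : Matrix n n F} (h : g * g' = 1) (A : Matrix n n F) :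
    trace (g * A * g') = trace A := by
  rw [trace_mul_cycle, mul_eq_one_comm.1 h, one_mul]

namespace MG

variable {X : MG n F}

theorem inv' {A B : Matrix n n F} (h : X.In A) (e : A * B = 1) : X.In B := by
  obtain ⟨C, hC, e'⟩ := X.inv h
  rwa [cancel_l e (e.trans e'.symm)]

theorem inv'' {A B : Matrix n n F} (h : X.In A) (e : B * A = 1) : X.In B :=
  inv' h (mul_eq_one_comm.1 e)

theorem pow {A : Matrix n n F} (h : X.In A) (k : ℕ) : X.In (A ^ k) := by
  induction k with
  | zero => simpa using X.one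
  | succ k ih => rw [pow_succ]; exact X.mul ih h

theorem of_mul_left {A B : Matrix n n F} (hA : X.In A) (h : X.In (A * B)) : X.In B := by
  obtain ⟨C, hC, e⟩ := X.inv hA
  have := X.mul hC h
  rwa [← mul_assoc, mul_eq_one_comm.1 e, one_mul] at this

theorem of_mul_right {A B : Matrix n n F} (hB : X.In B) (h : X.In (A * B)) : X.In A := by
  obtain ⟨C, hC, e⟩ := X.inv hB
  have := X.mul h hC
  rwa [mul_assoc, e, mul_one] at this

theorem of_conj {g A B : Matrix n n F} (hg : X.In g) (hA : X.In A) (e : g * A = B * g) :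
    X.In B := of_mul_right hg (e ▸ X.mul hg hA)

/-- contains the scalars -/
def Sc (X : MG n F) : Prop := ∀ c : F, c ≠ 0 → X.In (c • 1)

theorem Sc.smul (h : X.Sc) {A : Matrix n n F} (hA : X.In A) {c : F} (hc : c ≠ 0) :
    X.In (c • A) := by simpa using X.mul (h c hc) hA

theorem Sc.of_smul (h : X.Sc) {A : Matrix n n F} {c : F} (hc : c ≠ 0) (hA : X.In (c • A)) :
    X.In A := by simpa [smul_smul, hc] using h.smul hA (inv_ne_zero hc)

/-- all invertible matrices -/
def all (n : Type*) [Fintype n] [DecidableEq n] (F : Type*) [Field F] : MG n F where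
  In A := ∃ B, A * B = 1
  one := ⟨1, one_mul _⟩
  mul := fun {A B} ⟨A', h⟩ ⟨B', h'⟩ => ⟨B' * A', by rw [mul_assoc, ← mul_assoc B, h', one_mul, h]⟩
  inv := fun {A} ⟨B, h⟩ => ⟨B, ⟨A, mul_eq_one_comm.1 h⟩, h⟩

theorem unit {A : Matrix n n F} (h : X.In A) : ∃ B, A * B = 1 :=
  let ⟨B, _, h⟩ := X.inv h; ⟨B, h⟩

theorem all_Sc : (all n F).Sc := fun c hc => ⟨c⁻¹ • 1, by simp [smul_smul, hc]⟩

end MG

variable {A : Type*} [AddCommGroup A] [Module (ZMod 3) A] [Fintype A] [DecidableEq A]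

/-- Weyl systems -/
structure WS (P : Polar (ZMod 3) A) (w : F) (n : Type*) [Fintype n] [DecidableEq n] where
  W : A → Matrix n n F
  om : Om w
  s3 : S3 P
  zero : W 0 = 1
  mul : ∀ u v, W u * W v = chi w (P.B u v) • W (u + v)
  card : Fintype.card A = Fintype.card n ^ 2
  nz : (Fintype.card n : F) ≠ 0

namespace WS

variable {P : Polar (ZMod 3) A} {w : F} (S : WS P w n)

theorem mul_neg (u : A) : S.W u * S.W (-u) = 1 := by simp [S.mul, S.s3.self, S.zero]

theorem neg_mul (u : A) : S.W (-u) * S.W u = 1 := by simp [S.mul, S.s3.self, S.zero]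

theorem mul_self (u : A) : S.W u * S.W u = S.W (-u) := by
  simp [S.mul, S.s3.self, add_self_eq_neg]

theorem neg_mul_neg (u : A) : S.W (-u) * S.W (-u) = S.W u := by rw [S.mul_self, neg_neg]

theorem comm (u v : A) : S.W u * S.W v = chi w (P.B v u) • (S.W v * S.W u) := by
  rw [S.mul, S.mul, smul_smul, ← S.om.chi_add, add_self_eq_neg, ← S.s3.skew, add_comm]

theorem conj (u v : A) : S.W u * S.W v * S.W (-u) = chi w (P.B v u) • S.W v := by
  rw [S.comm, smul_mul_assoc, mul_assoc, S.mul_neg, mul_one]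

theorem trace_W {u : A} (hu : u ≠ 0) : trace (S.W u) = 0 := by
  obtain ⟨v, hv⟩ := S.s3.exists_one hu
  have := trace_conj (S.mul_neg v) (S.W u)
  rw [S.conj, hv, trace_smul, chi_one, smul_eq_mul] at this
  have h : (w - 1) * trace (S.W u) = 0 := by linear_combination this
  exact (mul_eq_zero.1 h).resolve_left S.om.sub_ne

theorem trace_mul (u v : A) :
    trace (S.W u * S.W v) = if u + v = 0 then (Fintype.card n : F) else 0 := by
  split_ifs with h
  · rw [eq_neg_of_add_eq_zero_left h, S.neg_mul, trace_one]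
  · rw [S.mul, trace_smul, S.trace_W h, smul_zero]

theorem li : LinearIndependent F S.W := by
  rw [Fintype.linearIndependent_iff]
  intro g hg u
  have := congrArg (fun M => trace (M * S.W (-u))) hg
  simpa [Finset.sum_mul, trace_sum, S.trace_mul, add_neg_eq_zero, S.nz] using this

theorem span (M : Matrix n n F) : ∃ c : A → F, M = ∑ u, c u • S.W u := by
  have := S.li.span_eq_top_of_card_eq_finrank (by simp [S.card, Module.finrank_matrix, sq])
  obtain ⟨c, hc⟩ := (Submodule.mem_span_range_iff_exists_fun F).1 (this ▸ Submodule.mem_top :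
    M ∈ Submodule.span F (Set.range S.W))
  exact ⟨c, hc.symm⟩

theorem ext0 {M : Matrix n n F} (h : ∀ u, trace (M * S.W u) = 0) : M = 0 := by
  obtain ⟨c, rfl⟩ := S.span M
  refine Finset.sum_eq_zero fun u _ => ?_
  have := h (-u)
  simp [Finset.sum_mul, trace_sum, S.trace_mul, add_neg_eq_zero, S.nz] at this
  simp [this]

include S in
theorem smul_one_inj {c d : F} (h : c • (1 : Matrix n n F) = d • 1) : c = d := by
  simpa [S.nz] using congrArg trace h

theorem W_ne (u : A) : S.W u ≠ 0 := S.li.ne_zero u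

theorem inj {u v : A} {c d : F} (hc : c ≠ 0) (h : c • S.W u = d • S.W v) : u = v ∧ c = d := by
  have := congrArg (fun M => trace (M * S.W (-u))) h
  simp only [smul_mul_assoc, trace_smul, S.trace_mul, add_neg_cancel, if_true, add_neg_eq_zero,
    smul_eq_mul] at this
  split_ifs at this with e
  · exact ⟨e.symm, mul_right_cancel₀ S.nz this⟩
  · simp [hc, S.nz] at this

theorem scalar {M : Matrix n n F} (h : ∀ u, M * S.W u = S.W u * M) : ∃ c : F, M = c • 1 := by
  refine ⟨trace M / Fintype.card n, sub_eq_zero.1 (S.ext0 fun u => ?_)⟩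
  by_cases hu : u = 0
  · simp [hu, S.zero, S.nz]
  obtain ⟨v, hv⟩ := S.s3.exists_one hu
  have := trace_conj (S.mul_neg v) (M * S.W u)
  rw [← mul_assoc, ← h, mul_assoc M, mul_assoc M, S.conj, hv, mul_smul_comm, trace_smul, chi_one,
    smul_eq_mul] at this
  have h : (w - 1) * trace (M * S.W u) = 0 := by linear_combination this
  simp [sub_mul, (mul_eq_zero.1 h).resolve_left S.om.sub_ne, S.trace_W hu]

theorem eq_of_twist {g g' : Matrix n n F} (hg : g * g' = 1)
    (h : ∀ v, ∃ c : F, g * S.W v = c • (S.W v * g)) : ∃ u, ∃ c : F, c ≠ 0 ∧ g = c • S.W u := by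
  have g0 : g ≠ 0 := fun e => S.W_ne 0 (by rw [S.zero, ← hg, e, zero_mul])
  obtain ⟨u, hu⟩ := not_forall.1 (mt S.ext0 g0)
  obtain ⟨c, hc⟩ := S.scalar (M := g * S.W u) fun v => by
    obtain ⟨c, hc⟩ := h v
    have e : g * S.W u * S.W v = (chi w (P.B v u) * c) • (S.W v * (g * S.W u)) := by
      rw [mul_assoc, S.comm, mul_smul_comm, ← mul_assoc, hc, smul_mul_assoc, smul_smul, mul_assoc]
    have := trace_conj (S.neg_mul v) (g * S.W u)
    rw [mul_assoc, e, mul_smul_comm, ← mul_assoc, S.neg_mul, one_mul, trace_smul, smul_eq_mul,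
      mul_eq_right₀ hu] at this
    rw [e, this, one_smul]
  have e : g = c • S.W (-u) := by
    rw [← mul_one g, ← S.mul_neg u, ← mul_assoc, hc, smul_mul_assoc, one_mul]
  exact ⟨-u, c, fun c0 => g0 (by rw [e, c0, zero_smul]), e⟩

/-- `g` normalises the system -/
def Nor (g : Matrix n n F) : Prop := ∀ u, ∃ v, ∃ c : F, g * S.W u = c • (S.W v * g)

/-- `g` induces `σ` -/
def Lf (g : Matrix n n F) (σ : A → A) : Prop := ∀ u, ∃ c : F, g * S.W u = c • (S.W (σ u) * g)

/-- `g` induces `σ` exactly -/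
def Ex (g : Matrix n n F) (σ : A → A) : Prop := ∀ u, g * S.W u = S.W (σ u) * g

variable {S}

theorem Ex.lf {g : Matrix n n F} {σ : A → A} (h : S.Ex g σ) : S.Lf g σ :=
  fun u => ⟨1, by rw [h, one_smul]⟩

theorem Lf.nor {g : Matrix n n F} {σ : A → A} (h : S.Lf g σ) : S.Nor g := fun u => ⟨_, h u⟩

theorem Ex.nor {g : Matrix n n F} {σ : A → A} (h : S.Ex g σ) : S.Nor g := h.lf.nor

theorem Ex.mul {g g' : Matrix n n F} {σ σ' : A → A} (h : S.Ex g σ) (h' : S.Ex g' σ') :
    S.Ex (g * g') fun u => σ (σ' u) := fun u => by rw [mul_assoc, h', ← mul_assoc, h, mul_assoc]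

theorem Ex.inv {g g' : Matrix n n F} {σ σ' : A → A} (h : S.Ex g σ) (e : g * g' = 1)
    (h' : ∀ u, σ (σ' u) = u) : S.Ex g' σ' := fun u => cancel_l e (by
  rw [← mul_assoc, ← mul_assoc, h, h', e, mul_assoc, e, one_mul, mul_one])

theorem Lf.mul {g g' : Matrix n n F} {σ σ' : A → A} (h : S.Lf g σ) (h' : S.Lf g' σ') :
    S.Lf (g * g') fun u => σ (σ' u) := fun u => by
  obtain ⟨c, hc⟩ := h' u
  obtain ⟨d, hd⟩ := h (σ' u)
  exact ⟨c * d, by rw [mul_assoc, hc, mul_smul_comm, ← mul_assoc, hd, smul_mul_assoc, smul_smul,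
    mul_assoc]⟩

theorem Lf.congr {g : Matrix n n F} {σ σ' : A → A} (h : S.Lf g σ) (e : ∀ u, σ u = σ' u) :
    S.Lf g σ' := fun u => e u ▸ h u

theorem Nor.mul {g g' : Matrix n n F} (h : S.Nor g) (h' : S.Nor g') : S.Nor (g * g') := by
  choose σ hσ using h
  choose σ' hσ' using h'
  exact (Lf.mul hσ hσ').nor

theorem Nor.smul {g : Matrix n n F} (h : S.Nor g) (c : F) : S.Nor (c • g) := fun u => by
  obtain ⟨v, d, e⟩ := h u
  exact ⟨v, d, by rw [smul_mul_assoc, e, mul_smul_comm, smul_comm]⟩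

variable (S) in
theorem lf_W (u : A) : S.Lf (S.W u) fun v => v := fun v => ⟨_, S.comm u v⟩

theorem tw_ne {g g' : Matrix n n F} (hg : g * g' = 1) {u v : A} {c : F}
    (h : g * S.W u = c • (S.W v * g)) : c ≠ 0 := fun e =>
  S.W_ne u (cancel_l hg (by rw [h, e, zero_smul, mul_zero]))

theorem tw_inj {g g' : Matrix n n F} (hg : g * g' = 1) {u v v' : A} {c c' : F}
    (h : g * S.W u = c • (S.W v * g)) (h' : g * S.W u = c' • (S.W v' * g)) : v = v' ∧ c = c' :=
  S.inj (tw_ne hg h) (cancel_r hg (by rw [smul_mul_assoc, smul_mul_assoc, ← h, h']))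

theorem tw_B {g g' : Matrix n n F} (hg : g * g' = 1) {u v u' v' : A} {c d : F}
    (h : g * S.W u = c • (S.W u' * g)) (h' : g * S.W v = d • (S.W v' * g)) :
    P.B u' v' = P.B u v := by
  have e1 : g * (S.W u * S.W v) = (c * d) • (S.W u' * S.W v' * g) := by
    rw [← mul_assoc, h, smul_mul_assoc, mul_assoc, h', mul_smul_comm, smul_smul, mul_assoc]
  have e2 : g * (S.W v * S.W u) = (c * d) • (S.W v' * S.W u' * g) := by
    rw [← mul_assoc, h', smul_mul_assoc, mul_assoc, h, mul_smul_comm, smul_smul, mul_assoc,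
      mul_comm c]
  rw [S.comm v, mul_smul_comm, e1, S.comm v', S.mul u'] at e2
  simp only [smul_mul_assoc, smul_smul] at e2
  rw [← smul_mul_assoc, ← smul_mul_assoc] at e2
  have h1 := mul_ne_zero (tw_ne hg h) (tw_ne hg h')
  have := (S.inj (mul_ne_zero (S.om.chi_ne _) (mul_ne_zero h1 (S.om.chi_ne _)))
    (cancel_r hg e2)).2
  refine S.om.chi_inj (mul_left_cancel₀ (mul_ne_zero h1 (S.om.chi_ne (P.B u' v'))) ?_)
  linear_combination -this

theorem Nor.exists_lf {g g' : Matrix n n F} (h : S.Nor g) (hg : g * g' = 1) :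
    ∃ σ ∈ P.Iso, S.Lf g σ := by
  choose f c hf using h
  let φ : A →+ A := AddMonoidHom.mk' f fun u v => by
    have e1 : g * (S.W u * S.W v) = (c u * c v) • (S.W (f u) * S.W (f v) * g) := by
      rw [← mul_assoc, hf, smul_mul_assoc, mul_assoc, hf, mul_smul_comm, smul_smul, mul_assoc]
    rw [S.mul, S.mul, mul_smul_comm, smul_mul_assoc, smul_smul] at e1
    exact (tw_inj hg (hf _) ((eq_inv_smul_iff₀ (S.om.chi_ne _)).2 e1 |>.trans (smul_smul ..))).1
  have hB : ∀ x y, P.B (f x) (f y) = P.B x y := fun x y => tw_B hg (hf x) (hf y)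
  have hφ : Function.Injective (φ.toZModLinearMap 3) := (injective_iff_map_eq_zero _).2
    fun u hu => P.nondeg' fun y => by rw [← hB, show f u = 0 from hu]; simp
  exact ⟨LinearEquiv.ofInjectiveEndo _ hφ, S.s3.mem_Iso hB, fun u => ⟨_, hf u⟩⟩

theorem Lf.inv {g g' : Matrix n n F} {σ σ' : A → A} (h : S.Lf g σ) (e : g * g' = 1)
    (h' : ∀ u, σ (σ' u) = u) : S.Lf g' σ' := fun u => by
  obtain ⟨c, hc⟩ := h (σ' u)
  refine ⟨c⁻¹, cancel_l e ?_⟩
  rw [mul_smul_comm, ← mul_assoc, ← mul_assoc, hc, h', e, smul_mul_assoc, mul_assoc, e,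
    smul_smul, inv_mul_cancel₀ (tw_ne e hc), one_smul, one_mul, mul_one]

theorem Nor.inv {g g' : Matrix n n F} (h : S.Nor g) (e : g * g' = 1) : S.Nor g' := by
  obtain ⟨σ, -, hσ⟩ := h.exists_lf e
  exact (hσ.inv e σ.apply_symm_apply).nor

variable (S)

/-- the eigenspace projections -/
def pr (u : A) (k : ZMod 3) : Matrix n n F :=
  (3 : F)⁻¹ • (1 + chi w (-k) • S.W u + chi w k • S.W (-u))

/-- the lifts of the transvections -/
def h (u : A) : Matrix n n F := 1 + (w - 1) • S.pr u 0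

theorem pr_mul (u : A) (k l : ZMod 3) : S.pr u k * S.pr u l = if k = l then S.pr u k else 0 := by
  have h1 := S.om.eq
  have h3 := S.om.three
  rcases z3_cases k with rfl | rfl | rfl <;> rcases z3_cases l with rfl | rfl | rfl <;>
  simp [pr, mul_add, add_mul, S.mul_self, S.mul_neg, S.neg_mul, S.neg_mul_neg,
    show (1 : ZMod 3) ≠ -1 by decide, show (-1 : ZMod 3) ≠ 1 by decide] <;>
  match_scalars <;> field_simp <;> grind

theorem pr_sum (u : A) : S.pr u 0 + S.pr u 1 + S.pr u (-1) = 1 := by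
  have h1 := S.om.eq
  have h3 := S.om.three
  simp only [pr, neg_zero, chi_zero, chi_one, chi_neg_one, neg_neg]
  match_scalars <;> field_simp <;> grind

theorem pr_sum' (u : A) : S.pr u 0 + w • S.pr u 1 + w ^ 2 • S.pr u (-1) = S.W u := by
  have h1 := S.om.eq
  have h3 := S.om.three
  simp only [pr, neg_zero, chi_zero, chi_one, chi_neg_one, neg_neg]
  match_scalars <;> field_simp <;> grind

theorem pr_neg (u : A) (k : ZMod 3) : S.pr (-u) (-k) = S.pr u k := by
  simp only [pr, neg_neg]; module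

theorem h_neg (u : A) : S.h (-u) = S.h u := by rw [h, h, ← S.pr_neg u, neg_zero]

theorem hom_mul {π : Matrix n n F} (hπ : π * π = π) (a b : F) :
    (1 + (a - 1) • π) * (1 + (b - 1) • π) = 1 + (a * b - 1) • π := by
  simp only [mul_add, add_mul, one_mul, mul_one, smul_mul_assoc, mul_smul_comm, hπ]
  module

theorem pr_idem (u : A) (k : ZMod 3) : S.pr u k * S.pr u k = S.pr u k := by simp [pr_mul]

theorem h_mul_h (u : A) : S.h u * S.h u = 1 + (w ^ 2 - 1) • S.pr u 0 := by
  rw [h, hom_mul (S.pr_idem u 0), sq]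

theorem h_cube (u : A) : S.h u * (S.h u * S.h u) = 1 := by
  rw [h_mul_h, h, hom_mul (S.pr_idem u 0), ← pow_succ', S.om.cube]; simp

theorem ex_h (u : A) : S.Ex (S.h u) fun v => v + P.B v u • u := fun v => by
  have h1 := S.om.eq
  have h3 := S.om.three
  have e1 : v + u + u = v + -u := by rw [add_assoc, add_self_eq_neg]
  have e2 : v + -u + -u = v + u := by rw [add_assoc, add_self_eq_neg, neg_neg]
  have e3 := S.s3.skew v u
  rcases z3_cases (P.B v u) with e | e | e <;>
  simp [h, pr, mul_add, add_mul, S.mul, S.s3.self, e, e1, e2, e3, add_comm u v,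
    add_comm (-u) v] <;>
  match_scalars <;> field_simp <;> grind

theorem Lf.pr_conj {S : WS P w n} {g g' : Matrix n n F} (hg : g * g' = 1) {σ : A ≃ₗ[ZMod 3] A}
    (h : S.Lf g σ) (u : A) (k : ZMod 3) : ∃ l, g * S.pr u k = S.pr (σ u) l * g := by
  obtain ⟨c, hc⟩ := h u
  have h2 : g * S.W (-u) = c ^ 2 • (S.W (-σ u) * g) := by
    rw [← S.mul_self, ← mul_assoc, hc, smul_mul_assoc, mul_assoc, hc, mul_smul_comm, ← mul_assoc,
      S.mul_self, smul_smul, sq]
  have h3 : g * S.W 0 = c ^ 3 • (S.W 0 * g) := by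
    rw [S.zero]
    nth_rw 1 [← S.neg_mul u]
    rw [← mul_assoc, h2, smul_mul_assoc, mul_assoc, hc, mul_smul_comm, ← mul_assoc, S.neg_mul,
      smul_smul, ← pow_succ]
  obtain ⟨a, rfl⟩ := S.om.exists_chi (tw_inj hg h3 (c' := 1) (v' := 0) (by simp [S.zero])).2
  refine ⟨k - a, ?_⟩
  simp only [pr, mul_add, add_mul, mul_smul_comm, smul_mul_assoc, hc, h2, mul_one, one_mul,
    smul_smul, sq, ← S.om.chi_add, add_self_eq_neg, neg_sub, sub_eq_add_neg, neg_add_rev, neg_neg,
    add_comm a]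

theorem Ex.pr_conj {S : WS P w n} {g : Matrix n n F} {σ : A ≃ₗ[ZMod 3] A}
    (h : S.Ex g σ) (u : A) (k : ZMod 3) : g * S.pr u k = S.pr (σ u) k * g := by
  simp [pr, mul_add, add_mul, h u, h (-u)]

theorem Ex.h_conj {S : WS P w n} {g : Matrix n n F} {σ : A ≃ₗ[ZMod 3] A}
    (e : S.Ex g σ) (u : A) : g * S.h u = S.h (σ u) * g := by
  simp [h, mul_add, add_mul, e.pr_conj]

theorem exists_ex {X : MG n F} (hX : ∀ u, X.In (S.h u)) {σ : A ≃ₗ[ZMod 3] A} (hσ : σ ∈ P.Iso) :
    ∃ g, X.In g ∧ S.Ex g σ := by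
  let H : Subgroup (A ≃ₗ[ZMod 3] A) :=
    { carrier := {σ | ∃ g, X.In g ∧ S.Ex g σ}
      one_mem' := ⟨1, X.one, fun u => by simp⟩
      mul_mem' := fun ⟨g, h1, h2⟩ ⟨g', h1', h2'⟩ => ⟨_, X.mul h1 h1', h2.mul h2'⟩
      inv_mem' := fun {σ} ⟨g, h1, h2⟩ => by
        obtain ⟨g', h3, h4⟩ := X.inv h1
        exact ⟨g', h3, h2.inv h4 σ.apply_symm_apply⟩ }
  refine S.s3.Iso_le (X := H) (fun v => ?_) hσ
  refine ⟨eichE (S.s3.val v 0) (w := 0) (c := -1) (by simp) (S.s3.val _ _), ⟨_, hX v, fun u => ?_⟩,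
    fun x => by simp [eich]⟩
  rw [S.ex_h]
  simp [eich]

/-- `X` contains the normaliser of the system -/
structure Big (X : MG n F) : Prop where
  sc : X.Sc
  W : ∀ u, X.In (S.W u)
  h : ∀ u, X.In (S.h u)

theorem big_all : S.Big (MG.all n F) :=
  ⟨MG.all_Sc, fun u => ⟨_, S.mul_neg u⟩, fun u => ⟨_, S.h_cube u⟩⟩

variable {S}

theorem Big.mem {X : MG n F} (hX : S.Big X) {g g' : Matrix n n F} (hg : g * g' = 1)
    (h : S.Nor g) : X.In g := by
  obtain ⟨σ, hσ, h1⟩ := h.exists_lf hg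
  obtain ⟨m, hm, h2⟩ := S.exists_ex hX.h (inv_mem hσ)
  obtain ⟨m', -, h3⟩ := X.inv hm
  obtain ⟨u, c, hc, e⟩ := S.eq_of_twist (g := m * g) (g' := g' * m') (by
    rw [mul_assoc, ← mul_assoc g, hg, one_mul, h3]) ((h2.lf.mul h1).congr fun u => by simp)
  exact MG.of_mul_left hm (e ▸ hX.sc.smul (hX.W u) hc)

end WS

end Cfsg.Agent.H7.C6
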