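import Cfsg.Agent.H7.C6E
import Cfsg.Agent.H6.MB3
import Cfsg.Agent.H6.MC3

/-!
Overgroups of the Hessian group in dimension three, over an algebraically closed field.
-/

set_option autoImplicit false
set_option linter.unusedSectionVars false

namespace Cfsg.Agent.H7.C6

open Matrix H7.Polar H6.M3

variable {k : Type*} [Field k] {Γ : Type*} [Group Γ]

/-- the lifts of a projective representation -/
def ofPR (ρ : PR Γ k) : MG (Fin 3) k where
  In := ρ.In
  one := PR.In.one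
  mul := PR.In.mul
  inv := fun h => let ⟨B, h1, _⟩ := exists_inv h.det; ⟨B, h.inv h1, h1⟩

/-- rank one idempotents -/
def R1 (N : Mt k) : Prop := ∃ v φ : Vc k, N = vecMulVec v φ ∧ φ ⬝ᵥ v = 1

theorem R1.trace {N : Mt k} (h : R1 N) : N.trace = 1 := by
  obtain ⟨v, φ, rfl, h⟩ := h
  rw [trace_vecMulVec, dotProduct_comm, h]

theorem R1.ne {N : Mt k} (h : R1 N) : N ≠ 0 := fun e => by simpa [e] using h.trace

theorem R1.idem {N : Mt k} (h : R1 N) : N * N = N := by
  obtain ⟨v, φ, rfl, h⟩ := h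
  simp [vecMulVec_mul_vecMulVec, h]

theorem R1.conj {N g g' : Mt k} (h : R1 N) (e : g * g' = 1) : R1 (g * N * g') := by
  obtain ⟨v, φ, rfl, h⟩ := h
  exact ⟨g *ᵥ v, φ ᵥ* g', by rw [mul_vecMulVec, vecMulVec_mul], by rw [dot_conj e, h]⟩

theorem R1.sand {N : Mt k} (h : R1 N) (M : Mt k) : N * M * N = (M * N).trace • N := by
  obtain ⟨v, φ, rfl, h⟩ := h
  rw [mul_assoc, mul_vecMulVec, vecMulVec_mul_vecMulVec, trace_vecMulVec, dotProduct_comm,
    vecMulVec_smul]

theorem R1.not_scalar {N : Mt k} (h : R1 N) (c : k) : N ≠ c • 1 := fun e => by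
  obtain ⟨v, φ, rfl, h⟩ := h
  have e1 := congrFun (congrFun e 0) 0
  have e2 := congrFun (congrFun e 1) 1
  have e3 := congrFun (congrFun e 0) 1
  have e4 := congrFun (congrFun e 1) 0
  have e5 := congrFun (congrFun e 2) 2
  simp [vecMulVec_apply, -mul_eq_zero, dotProduct, Fin.sum_univ_three] at e1 e2 e3 e4 e5 h
  grind

theorem r1_of {N M : Mt k} (h : N * N = N) (h1 : N.trace = 1) (h2 : N * M = 0) (h3 : M ≠ 0) :
    R1 N := by
  have e := adj_eq N
  rw [h, h1, one_smul, sub_self, zero_add] at e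
  have e1 := adjugate_mul N
  rw [e, smul_mul_assoc, one_mul] at e1
  have e2 := congrArg (· * M) e1
  simp only [smul_mul_assoc, h2, smul_zero, one_mul] at e2
  rw [(smul_eq_zero.1 e2.symm).resolve_right h3, zero_smul, smul_eq_zero] at e1
  rw [e1.resolve_right fun e => by simp [e] at h1, zero_smul] at e
  obtain ⟨v, φ, rfl⟩ := rank_one e
  exact ⟨v, φ, rfl, by rwa [trace_vecMulVec, dotProduct_comm] at h1⟩

theorem tri (p : ℕ) [Fact p.Prime] [CharP k p] [IsAlgClosed k] [Finite Γ] {ρ : PR Γ k}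
    (hs : ρ.Small) {ξ : k} (h2 : ξ ^ 2 ≠ 1) {N N' : Mt k} (h : R1 N) (h' : R1 N')
    (e : ρ.In (1 + (ξ - 1) • N)) (e' : ρ.In (1 + (ξ - 1) • N')) :
    N = N' ∨ (N * N' = 0 ∧ N' * N = 0) ∨ ((ξ ^ 3 = 1 ∨ ξ ^ 4 = 1 ∨ ξ ^ 5 = 1) ∧
      (ρ.Ord → (ξ - 1) ^ 2 * (N * N').trace = -ξ)) := by
  obtain ⟨v, φ, rfl, h⟩ := h
  obtain ⟨v', φ', rfl, h'⟩ := h'
  have h1 : ξ - 1 ≠ 0 := fun e => h2 (by rw [sub_eq_zero.1 e]; simp)
  rw [← vecMulVec_smul] at e e'
  rcases hs.tri p h2 (v := v) (φ := (ξ - 1) • φ) (v' := v') (φ' := (ξ - 1) • φ')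
    ⟨by simp [h], e⟩ ⟨by simp [h'], e'⟩ with a | a | a
  · exact Or.inl (smul_right_injective _ h1 (by simpa [vecMulVec_smul] using a.eq))
  · simp only [smul_dotProduct, smul_eq_mul, mul_eq_zero, h1, false_or] at a
    exact Or.inr (Or.inl (by simp [vecMulVec_mul_vecMulVec, a]))
  · refine Or.inr (Or.inr ⟨a.ord, fun ho => ?_⟩)
    rw [← (a.val ho).1]
    simp only [vecMulVec_mul_vecMulVec, trace_vecMulVec, smul_dotProduct, dotProduct_smul,
      smul_eq_mul, dotProduct_comm v]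
    ring

variable {A : Type*} [AddCommGroup A] [Module (ZMod 3) A] [Fintype A] [DecidableEq A]
  {P : Polar (ZMod 3) A} {w : k}

namespace WS

section
variable {n : Type*} [Fintype n] [DecidableEq n] (S : WS P w n)

theorem trace_pr {u : A} (hu : u ≠ 0) (l : ZMod 3) :
    (S.pr u l).trace = (3 : k)⁻¹ * Fintype.card n := by
  simp [pr, S.trace_W hu, S.trace_W (neg_ne_zero.2 hu)]

theorem trace_pr_mul {u v : A} (hu : u ≠ 0) (hv : v ≠ 0) (h : v ≠ u) (h' : v ≠ -u) (l m : ZMod 3) :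
    (S.pr u l * S.pr v m).trace = (3 : k)⁻¹ * (3 : k)⁻¹ * Fintype.card n := by
  have h1 : u + v ≠ 0 := fun e => h' (eq_neg_of_add_eq_zero_right e)
  have h2 : u + -v ≠ 0 := fun e => h (add_neg_eq_zero.1 e).symm
  have h3 : -u + v ≠ 0 := fun e => h (neg_add_eq_zero.1 e).symm
  have h4 : -u + -v ≠ 0 := fun e => h1 (by rw [← neg_add, neg_eq_zero] at e; exact e)
  simp [pr, mul_add, add_mul, S.trace_W hu, S.trace_W (neg_ne_zero.2 hu), S.trace_W hv,
    S.trace_W (neg_ne_zero.2 hv), S.trace_mul, h1, h2, h3, h4, mul_assoc]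

variable {S} in
theorem Big.hk {X : MG n k} (hX : S.Big X) {u : A} (hu : u ≠ 0) (l : ZMod 3) :
    X.In (1 + (w - 1) • S.pr u l) := by
  obtain ⟨v, hv⟩ := S.s3.exists_one hu
  have e : S.W ((-l) • v) * S.h u * S.W (-((-l) • v)) = 1 + (w - 1) • S.pr u l := by
    simp only [WS.h, pr, mul_add, add_mul, mul_smul_comm, smul_mul_assoc, mul_one, S.mul_neg, S.conj]
    simp [hv]
  exact e ▸ X.mul (X.mul (hX.W _) (hX.h _)) (hX.W _)

theorem W_eq (u : A) {l m : ZMod 3} (h : l ≠ m) : ∃ v, ∃ c : k,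
    S.pr u l + w • S.pr u m + w ^ 2 • (1 - S.pr u l - S.pr u m) = c • S.W v := by
  have h1 := S.om.eq
  have h3 := S.om.three
  have : m = l + 1 ∨ m = l - 1 := by revert l m; decide
  rcases this with rfl | rfl
  · refine ⟨u, chi w (-l), ?_⟩
    rcases z3_cases l with rfl | rfl | rfl <;>
    simp [pr, show (1 + 1 : ZMod 3) = -1 from rfl] <;> match_scalars <;> field_simp <;> grind
  · refine ⟨-u, chi w l, ?_⟩
    rcases z3_cases l with rfl | rfl | rfl <;>
    simp [pr, show (-1 - 1 : ZMod 3) = 1 from rfl] <;> match_scalars <;> field_simp <;> grind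

end

variable (S : WS P w (Fin 3))

theorem r1_pr {u : A} (hu : u ≠ 0) (l : ZMod 3) : R1 (S.pr u l) := by
  have h : ∀ l, (S.pr u l).trace = 1 := fun l => by simp [S.trace_pr hu, S.om.three]
  refine r1_of (M := S.pr u (l + 1)) (S.pr_idem u l) (h l) (by simp [pr_mul]) fun e => ?_
  simpa [e] using h (l + 1)

variable (p : ℕ) [Fact p.Prime] [CharP k p] [IsAlgClosed k] [Finite Γ] {ρ : PR Γ k}
  (hs : ρ.Small) (hX : S.Big (ofPR ρ))
include p hs hX

theorem ord : ρ.Ord := fun μ v φ h => by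
  by_cases e : μ ^ 2 = 1
  · exact Or.inr (Or.inl (by linear_combination (μ ^ 2 + 1) * e))
  have h1 : μ - 1 ≠ 0 := fun e' => e (by rw [sub_eq_zero.1 e']; simp)
  have hN : R1 (vecMulVec v ((μ - 1)⁻¹ • φ)) := ⟨_, _, rfl, by simp [h.1, h1]⟩
  have hI : ρ.In (1 + (μ - 1) • vecMulVec v ((μ - 1)⁻¹ • φ)) := by
    rw [← vecMulVec_smul, smul_smul, mul_inv_cancel₀ h1, one_smul]; exact h.2
  generalize vecMulVec v ((μ - 1)⁻¹ • φ) = N at hN hI
  by_contra hc
  have key : ∀ u, u ≠ 0 → ∀ l, N * S.pr u l = S.pr u l * N := fun u hu l => by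
    have a1 : (1 + (w - 1) • S.pr u l) * (1 + (w ^ 2 - 1) • S.pr u l) = 1 := by
      rw [hom_mul (S.pr_idem u l), ← pow_succ', S.om.cube]; simp
    have a2 : ρ.In (1 + (w - 1) • S.pr u l) := hX.hk hu l
    have a3 := (a2.mul hI).mul (a2.inv a1)
    rw [mul_add _ 1 ((μ - 1) • N), add_mul _ _ (1 + _), mul_one, a1, mul_smul_comm,
      smul_mul_assoc] at a3
    rcases tri p hs e hN (hN.conj a1) hI a3 with a | ⟨a, b⟩ | a
    · have := congrArg (· * (1 + (w - 1) • S.pr u l)) a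
      simp only [mul_assoc, mul_eq_one_comm.1 a1, mul_one] at this
      simpa [mul_add, add_mul, smul_right_inj S.om.sub_ne] using this
    · have a' : N * ((1 + (w - 1) • S.pr u l) * N) = 0 :=
        cancel_r (mul_eq_one_comm.1 a1) (by rw [zero_mul, mul_assoc, a])
      have b' : N * (1 + (w ^ 2 - 1) • S.pr u l) * N = 0 :=
        cancel_l a1 (by rw [mul_zero, ← mul_assoc, ← mul_assoc, b])
      simp only [mul_add, add_mul, one_mul, mul_one, mul_smul_comm, smul_mul_assoc, hN.idem,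
        ← mul_assoc, hN.sand] at a' b'
      have c1 := congrArg trace a'
      have c2 := congrArg trace b'
      simp only [trace_add, trace_smul, hN.trace, smul_eq_mul, trace_zero] at c1 c2
      have := S.om.sq_ne
      grind
    · exact absurd a.1 hc
  obtain ⟨c, hc⟩ := S.scalar (M := N) fun u => by
    by_cases hu : u = 0
    · simp [hu, S.zero]
    · rw [← S.pr_sum' u]
      simp [mul_add, add_mul, key u hu]
  exact hN.not_scalar c hc

theorem exists_pr {N : Mt k} (hN : R1 N) (hI : ρ.In (1 + (w - 1) • N)) :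
    ∃ u, u ≠ 0 ∧ ∃ l, N = S.pr u l := by
  by_contra hc
  push Not at hc
  have h3 := S.om.three
  have key : ∀ u, u ≠ 0 → ∀ l, (N * S.pr u l = 0 ∧ S.pr u l * N = 0) ∨
      3 * (N * S.pr u l).trace = 1 := fun u hu l => by
    rcases tri p hs S.om.sq_ne_one hN (S.r1_pr hu l) hI (hX.hk hu l) with a | a | a
    · exact absurd a (hc u hu l)
    · exact Or.inl a
    · have := a.2 (S.ord p hs hX)
      have h1 := S.om.eq
      have h2 := S.om.ne_zero
      exact Or.inr (by grind)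
  have k2 : ∀ a b c : Mt k, a + b + c = 1 → N * a = 0 ∧ a * N = 0 → N * b = 0 ∧ b * N = 0 →
      R1 c → N = c := fun a b c h ha hb hc => by
    have e1 : N * c = N := by simpa [mul_add, ha.1, hb.1] using congrArg (N * ·) h
    have e2 : c * N = N := by simpa [add_mul, ha.2, hb.2] using congrArg (· * N) h
    have := hc.sand N
    rwa [e2, e1, hN.trace, one_smul] at this
  have k1 : ∀ a b c : Mt k, a + b + c = 1 → N * a = 0 ∧ a * N = 0 → 3 * (N * b).trace = 1 →
      3 * (N * c).trace = 1 → False := fun a b c h ha hb hc => by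
    have := congrArg (fun M => trace (N * M)) h
    simp only [mul_add, ha.1, trace_add, trace_zero, mul_one, hN.trace] at this
    grind
  refine hN.not_scalar 3⁻¹ (sub_eq_zero.1 (S.ext0 fun u => ?_))
  by_cases hu : u = 0
  · simp [hu, S.zero, hN.trace, h3]
  have s := S.pr_sum u
  rcases key u hu 0 with a | a <;> rcases key u hu 1 with b | b <;>
    rcases key u hu (-1) with c | c
  · exact absurd (k2 _ _ _ s a b (S.r1_pr hu _)) (hc u hu _)
  · exact absurd (k2 _ _ _ s a b (S.r1_pr hu _)) (hc u hu _)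
  · exact absurd (k2 _ _ _ (add_right_comm .. |>.trans s) a c (S.r1_pr hu _)) (hc u hu _)
  · exact (k1 _ _ _ s a b c).elim
  · exact absurd (k2 _ _ _ (add_rotate .. |>.symm.trans s) b c (S.r1_pr hu _)) (hc u hu _)
  · exact (k1 _ _ _ (add_rotate .. |>.symm.trans s) b c a).elim
  · exact (k1 _ _ _ (add_rotate .. |>.trans s) c a b).elim
  · rw [sub_mul, trace_sub, smul_mul_assoc, one_mul, trace_smul, S.trace_W hu, ← S.pr_sum']
    simp only [mul_add, mul_smul_comm, trace_add, trace_smul, smul_eq_mul]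
    have := S.om.eq
    grind

theorem nor_of_small {g : Mt k} (hg : ρ.In g) : S.Nor g := fun u => by
  by_cases hu : u = 0
  · exact ⟨0, 1, by simp [hu, S.zero]⟩
  obtain ⟨g', e, e'⟩ := exists_inv hg.det
  have key : ∀ l, ∃ v, v ≠ 0 ∧ ∃ m, g * S.pr u l * g' = S.pr v m := fun l => by
    refine S.exists_pr p hs hX ((S.r1_pr hu l).conj e) ?_
    have := (hg.mul (hX.hk hu l)).mul (hg.inv e)
    rwa [mul_add, add_mul, mul_one, e, mul_smul_comm, smul_mul_assoc] at this
  obtain ⟨a, ha, l, h0⟩ := key 0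
  obtain ⟨b, hb, m, h1⟩ := key 1
  have h2 : S.pr a l * S.pr b m = 0 := by
    rw [← h0, ← h1, mul_assoc, mul_assoc, ← mul_assoc g', ← mul_assoc g', e', one_mul,
      ← mul_assoc (S.pr u 0), S.pr_mul]
    simp
  obtain ⟨m, h3⟩ : ∃ m', S.pr b m = S.pr a m' := by
    by_cases e1 : b = a
    · exact ⟨m, by rw [e1]⟩
    by_cases e2 : b = -a
    · exact ⟨-m, by rw [e2, ← S.pr_neg, neg_neg]⟩
    have := S.trace_pr_mul ha hb e1 e2 l m
    simp [h2, S.om.three] at this
    exact absurd this.symm S.om.three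
  rw [h3] at h1 h2
  obtain ⟨v, c, h4⟩ := S.W_eq a (l := l) (m := m) (by
    rintro rfl
    exact (S.r1_pr ha l).ne (by rw [← h2, S.pr_idem]))
  refine ⟨v, c, cancel_r e' ?_⟩
  rw [← smul_mul_assoc, mul_assoc _ g, e, mul_one, ← h4, ← h0, ← h1, ← S.pr_sum' u,
    show S.pr u (-1) = 1 - S.pr u 0 - S.pr u 1 by rw [← S.pr_sum u]; abel]
  simp [mul_add, add_mul, mul_sub, sub_mul, e]

end WS

end Cfsg.Agent.H7.C6
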