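import Cfsg.Agent.H7.C6F

/-!
Rational and unitary groups of degree three containing an elation.
-/

set_option autoImplicit false
set_option linter.unusedSectionVars false

namespace Cfsg.Agent.H7.C6

open Matrix H7.Polar H6.M3

variable {k : Type*} [Field k] {Γ : Type*} [Group Γ] {ρ : PR Γ k} {σ : k →+* k}

theorem map_r1 (σ : k →+* k) (v φ : Vc k) :
    (1 + vecMulVec v φ).map σ = 1 + vecMulVec (σ ∘ v) (σ ∘ φ) := by
  ext i j
  by_cases h : i = j <;> simp [vecMulVec_apply, h]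

theorem map_dot (σ : k →+* k) (v φ : Vc k) : σ (φ ⬝ᵥ v) = (σ ∘ φ) ⬝ᵥ (σ ∘ v) := by
  simp [dotProduct]

theorem eq_one_of_smul {u : Vc k} (hu : u ≠ 0) {μ : k} (h : u = μ • u) : μ = 1 :=
  smul_left_injective k hu (by simpa using h.symm)

theorem lin_el (h : ∀ A, ρ.In A → ∃ μ : k, A.map σ = μ • A) {v φ : Vc k} (e : ρ.El v φ) :
    vecMulVec (σ ∘ v) (σ ∘ φ) = vecMulVec v φ := by
  obtain ⟨μ, h1⟩ := h _ e.2
  obtain ⟨u, u0, u1, u2⟩ := exists_ker φ (σ ∘ φ)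
  rw [map_r1] at h1
  have := congrArg (· *ᵥ u) h1
  simp only [smul_mulVec, r1_mulVec, u1, u2, zero_smul, add_zero] at this
  simpa [eq_one_of_smul u0 this] using h1

theorem uni_el (h : ∀ A, ρ.In A → ∃ μ : k, (A.map σ)ᵀ * A = μ • 1) {v φ : Vc k} (e : ρ.El v φ) :
    vecMulVec (σ ∘ φ) (σ ∘ v) = -vecMulVec v φ := by
  obtain ⟨μ, h1⟩ := h _ e.2
  obtain ⟨u, u0, u1, u2⟩ := exists_ker φ (σ ∘ v)
  rw [map_r1, transpose_add, transpose_one, transpose_vecMulVec] at h1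
  have := congrArg (· *ᵥ u) h1
  simp only [← mulVec_mulVec, smul_mulVec, r1_mulVec, u1, u2, zero_smul, add_zero,
    one_mulVec] at this
  rw [eq_one_of_smul u0 this, one_smul] at h1
  have h2 := congrArg (· * (1 + vecMulVec (-v) φ)) h1
  simp only [mul_assoc, e.inv_eq, mul_one, one_mul] at h2
  simpa [neg_vecMulVec] using h2

theorem vmv_ne {v φ : Vc k} (h1 : v ≠ 0) (h2 : φ ≠ 0) : vecMulVec v φ ≠ 0 := by
  simp [h1, h2]

theorem comp_smul (σ : k →+* k) (a : k) (v : Vc k) : σ ∘ (a • v) = σ a • (σ ∘ v) := by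
  ext; simp

theorem lin_root (h : ∀ A, ρ.In A → ∃ μ : k, A.map σ = μ • A) {v φ : Vc k} (h1 : v ≠ 0)
    (h2 : φ ≠ 0) (e : ρ.El v φ) {a : k} (e' : ρ.El (a • v) φ) : σ a = a := by
  have := lin_el h e'
  rw [comp_smul, smul_vecMulVec, lin_el h e, smul_vecMulVec] at this
  exact smul_left_injective k (vmv_ne h1 h2) this

theorem uni_root (h : ∀ A, ρ.In A → ∃ μ : k, (A.map σ)ᵀ * A = μ • 1) {v φ : Vc k} (h1 : v ≠ 0)
    (h2 : φ ≠ 0) (e : ρ.El v φ) {a : k} (e' : ρ.El (a • v) φ) : σ a = a := by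
  have := uni_el h e'
  rw [comp_smul, vecMulVec_smul, uni_el h e, smul_vecMulVec, smul_neg, neg_inj] at this
  exact smul_left_injective k (vmv_ne h1 h2) this

theorem par_of_eq {a b c d : Vc k} (h1 : c ≠ 0) (h2 : d ≠ 0) (h : vecMulVec a b = -vecMulVec c d) :
    (∃ l : k, c = l • a) ∧ ∃ l : k, d = l • b := by
  obtain ⟨x, hx⟩ := exists_dot_ne h1
  obtain ⟨y, hy⟩ := exists_dot_ne h2
  have e1 := congrArg (· *ᵥ y) h
  have e2 := congrArg (x ᵥ* ·) h
  simp only [neg_mulVec, vecMulVec_mulVec, hy, vecMul_neg, vecMul_vecMulVec, dotProduct_comm x,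
    hx, one_smul, MulOpposite.op_one] at e1 e2
  exact ⟨⟨-(b ⬝ᵥ y), by simp [← neg_eq_iff_eq_neg.2 e1]⟩, -(a ⬝ᵥ x), by simp [e2]⟩

theorem comp_cross (σ : k →+* k) (u v : Vc k) : σ ∘ (u ⨯₃ v) = (σ ∘ u) ⨯₃ (σ ∘ v) := by
  ext i
  fin_cases i <;> simp [cross_apply]

theorem comp_eq_zero (σ : k →+* k) {u : Vc k} (h : σ ∘ u = 0) : u = 0 := by
  ext i; simpa using congrFun h i

theorem uni_opp (h : ∀ A, ρ.In A → ∃ μ : k, (A.map σ)ᵀ * A = μ • 1) : ρ.Opp := by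
  intro v φ v' φ' n1 n2 n3 n4 e e' h0
  obtain ⟨⟨a, ha⟩, b, hb⟩ := par_of_eq n1 n2 (uni_el h e)
  obtain ⟨⟨a', ha'⟩, b', hb'⟩ := par_of_eq n3 n4 (uni_el h e')
  have b0 : b ≠ 0 := by rintro rfl; exact n2 (by simpa using hb)
  have h1 : φ ⬝ᵥ v' = 0 := by
    rw [hb, ha', smul_dotProduct, dotProduct_smul, dotProduct_comm, ← map_dot, h0]; simp
  have h2 : v ⨯₃ v' = 0 := by
    by_contra hc
    obtain ⟨c, h3⟩ := eq_smul_cross hc (dotProduct_comm φ v ▸ e.1) (dotProduct_comm φ v' ▸ h1)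
    obtain ⟨c', h4⟩ := eq_smul_cross hc (dotProduct_comm φ' v ▸ h0) (dotProduct_comm φ' v' ▸ e'.1)
    have h5 : φ ⨯₃ φ' = 0 := by rw [h3, h4]; simp
    have b0' : b' ≠ 0 := by rintro rfl; exact n4 (by simpa using hb')
    rw [hb, hb'] at h5
    simp only [map_smul, LinearMap.smul_apply, smul_eq_zero, b0, b0', false_or,
      ← comp_cross] at h5
    exact hc (comp_eq_zero σ h5)
  obtain ⟨c, rfl⟩ := eq_smul_of_cross n1 h2
  exact ⟨⟨c, rfl⟩, b' * σ c * b⁻¹, by rw [hb', hb, comp_smul]; simp [smul_smul, b0]⟩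

theorem exists_nat (p : ℕ) [Fact p.Prime] [CharP k p] {a : k} (h : frobenius k p a = a) :
    ∃ n : ℕ, a = n := by
  have hc : Nat.card (⊥ : Subfield k) = p := Subfield.card_bot k p
  have : Finite (⊥ : Subfield k) :=
    Nat.finite_of_card_ne_zero (hc ▸ (Fact.out : p.Prime).ne_zero)
  have h1 : a ∈ (⊥ : Subfield k) := by rw [mem_iff_pow, hc]; exact h
  have h2 : (⊥ : Subfield k) ≤ (ZMod.castHom (dvd_refl p) k).fieldRange := bot_le
  obtain ⟨x, rfl⟩ := h2 h1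
  exact ⟨x.val, by simp⟩

theorem lin_not_opp (p : ℕ) [Fact p.Prime] [CharP k p]
    (h : ∀ A, ρ.In A → ∃ μ : k, A.map (frobenius k p) = μ • A) (hi : ρ.Irr) (he : ρ.HasEl) :
    ¬ ρ.Opp := fun H => by
  obtain ⟨v, φ, n1, n2, h0, h1⟩ := he
  have e : ρ.El v φ := ⟨h0, h1⟩
  obtain ⟨v', φ', e', a1, a2⟩ := PR.exists_opp hi H n1 n2 e
  have n3 : v' ≠ 0 := by rintro rfl; simp at a1
  have n4 : φ' ≠ 0 := by rintro rfl; simp at a2
  have hv : v ⨯₃ v' ≠ 0 := fun c => by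
    obtain ⟨c, rfl⟩ := eq_smul_of_cross n1 c
    simp [h0] at a1
  obtain ⟨u, ψ, e'', n6, a3⟩ := PR.exists_out hi e e' n2 n4 hv
  have n5 : u ≠ 0 := by rintro rfl; simp at a3
  have key : ∀ x χ, ρ.El x χ → x ≠ 0 → χ ≠ 0 → (v ⨯₃ v') ⬝ᵥ x = 0 → ψ ⬝ᵥ x ≠ 0 :=
    fun x χ b1 b2 b3 b4 b5 => by
      obtain ⟨⟨c, rfl⟩, -⟩ := H _ _ _ _ b2 b3 n5 n6 b1 e'' b5
      simp [b4] at a3
  have c1 := key _ _ e n1 n2 (by rw [dotProduct_comm, dot_self_cross])
  have c2 := key _ _ e' n3 n4 (by rw [dotProduct_comm, dot_cross_self])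
  have c3 : φ' ⬝ᵥ u ≠ 0 := fun c => c2 (H.dot n5 n6 n3 n4 e'' e' c)
  have tr : ∀ M : Mt k, M.map (frobenius k p) = M → frobenius k p M.trace = M.trace := fun M hM => by
    rw [AddMonoidHom.map_trace (frobenius k p) M, hM]
  have fx : ∀ x χ, ρ.El x χ → (vecMulVec x χ).map (frobenius k p) = vecMulVec x χ :=
    fun x χ b => (by ext i j; simp [vecMulVec_apply] :
      _ = vecMulVec (frobenius k p ∘ x) (frobenius k p ∘ χ)).trans (lin_el h b)
  have d1 := tr (vecMulVec u ψ * vecMulVec v' φ') (by rw [Matrix.map_mul, fx _ _ e'', fx _ _ e'])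
  have d2 := tr (vecMulVec u ψ * vecMulVec v φ * vecMulVec v' φ')
    (by rw [Matrix.map_mul, Matrix.map_mul, fx _ _ e'', fx _ _ e, fx _ _ e'])
  simp only [vecMulVec_mul_vecMulVec, trace_vecMulVec, dotProduct_smul, smul_dotProduct,
    smul_eq_mul, dotProduct_comm u] at d1 d2
  obtain ⟨n, hn⟩ := exists_nat p (a := -(ψ ⬝ᵥ v' * φ' ⬝ᵥ u) / (ψ ⬝ᵥ v * φ ⬝ᵥ v' * φ' ⬝ᵥ u)) (by
    rw [map_div₀, map_neg, d1, d2])
  have b := (e.nsmul n).act e'
  have b' := (e.nsmul n).act_ne n3 n4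
  refine key _ _ b b'.1 b'.2 (by simp [dotProduct_comm (v ⨯₃ v')]) ?_
  simp only [dotProduct_add, dotProduct_smul, smul_eq_mul, ← hn]
  field_simp
  ring

theorem count [Finite Γ] {E : Set (Mt k)} {B B' : Mt k} (hB : B * B' = 1)
    (h1 : ∀ A ∈ E, A.det = 1 ∧ A ^ 4 = 1) (h2 : ∀ A ∈ E, (ρ.cj hB).In A)
    (h3 : ∀ A, ρ.In A → A.det = 1 → A ^ 4 = 1 → A ∈ E) : ∀ A ∈ E, ρ.In A := by
  have hf : Finite E := by
    choose f hf using h2
    refine Finite.of_injective (fun A : E => f A.1 A.2) fun A A' e => Subtype.ext ?_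
    obtain ⟨c, hc⟩ := (ρ.cj hB).uniq (hf A.1 A.2) (B := A'.1)
      ((show f A.1 A.2 = f A'.1 A'.2 from e) ▸ hf A'.1 A'.2)
    have a1 := (h1 _ A'.2).1
    have a2 := (h1 _ A'.2).2
    rw [hc, det_smul, (h1 _ A.2).1] at a1
    rw [hc, smul_pow, (h1 _ A.2).2] at a2
    have a3 := smul_cancel (A := (1 : Mt k)) (by simp) (a2.trans (one_smul _ _).symm)
    simp only [Fintype.card_fin, mul_one] at a1
    rw [hc, show c = 1 by grind, one_smul]
  have hB' := mul_eq_one_comm.1 hB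
  let f : E → E := fun A => ⟨B * A * B', h3 _ ((PR.in_cj hB).1 (h2 _ A.2)) (by
    rw [det_mul, det_mul, (h1 _ A.2).1, mul_one, ← det_mul, hB, det_one]) (by
    have := (h1 _ A.2).2
    simp only [pow_succ, pow_zero, one_mul, mul_assoc] at this ⊢
    simp only [← mul_assoc B', hB', one_mul]
    simp only [← mul_assoc] at this ⊢
    rw [mul_assoc B, mul_assoc B, mul_assoc B, this, mul_one, hB])⟩
  have hi : Function.Injective f := fun A A' e =>
    Subtype.ext (cancel_l hB (cancel_r hB' (congrArg Subtype.val e)))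
  intro A hA
  obtain ⟨A', e⟩ := Finite.surjective_of_injective hi ⟨A, hA⟩
  exact (show B * A' * B' = A from congrArg Subtype.val e) ▸ (PR.in_cj hB).1 (h2 _ A'.2)

variable (p : ℕ) [Fact p.Prime] [CharP k p] [IsAlgClosed k] [Finite Γ]

theorem lin_le (hp : p ≠ 2) (h : ∀ A, ρ.In A → ∃ μ : k, A.map (frobenius k p) = μ • A)
    (hi : ρ.Irr) (he : ρ.HasEl) {A : Mt k} (h1 : A.det = 1) (h2 : A ^ 4 = 1)
    (h3 : A.map (frobenius k p) = A) : ρ.In A := by
  obtain ⟨B, B', hB, F0, hF⟩ := PR.lin_of_odd p hp hi (lin_not_opp p h hi he)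
  refine count (E := {A | (A.det = 1 ∧ A ^ 4 = 1) ∧ A.map (frobenius k p) = A}) hB
    (fun A hA => hA.1) (fun A hA => hF.le A (fun i j => ?_) hA.1.1) (fun A hA a b => ⟨⟨a, b⟩, ?_⟩)
    A ⟨⟨h1, h2⟩, h3⟩
  · obtain ⟨n, hn⟩ := exists_nat p (congrFun (congrFun hA.2 i) j)
    exact hn ▸ natCast_mem F0 n
  · obtain ⟨μ, e⟩ := h A hA
    have a1 := congrArg det e
    have a2 := congrArg (· ^ 4) e
    rw [← RingHom.mapMatrix_apply, ← RingHom.map_det, det_smul, a] at a1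
    simp only [← RingHom.mapMatrix_apply, ← map_pow, smul_pow, b, map_one] at a2
    have a3 := smul_cancel (A := (1 : Mt k)) (by simp) ((one_smul _ _).trans a2)
    simp only [Fintype.card_fin, mul_one, map_one] at a1
    rw [e, show μ = 1 by grind, one_smul]

theorem uni_le (hp : p ≠ 2) (h : ∀ A, ρ.In A → ∃ μ : k, (A.map (frobenius k p))ᵀ * A = μ • 1)
    (hi : ρ.Irr) (he : ρ.HasEl) {A : Mt k} (h1 : A.det = 1) (h2 : A ^ 4 = 1)
    (h3 : (A.map (frobenius k p))ᵀ * A = 1) : ρ.In A := by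
  have two := two_ne (k := k) hp
  obtain ⟨L, -, -, R⟩ := PR.exists_roots p hi (uni_opp h) fun hs => by
    obtain ⟨v, φ, n1, n2, h0, h1⟩ := he
    exact two (hs.two n1 n2 ⟨h0, h1⟩)
  obtain ⟨B, B', hB, hF⟩ := PR.uni_of_roots (σ := frobenius k p) hi (uni_opp h) he R (fun a => by
    obtain ⟨v, φ, n1, n2, h0, h1⟩ := he
    refine ⟨fun ha => uni_root h n1 n2 ⟨h0, h1⟩ ((R.mem v φ a n1 n2 ⟨h0, h1⟩).2 ha), fun ha => ?_⟩
    obtain ⟨n, rfl⟩ := exists_nat p ha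
    exact natCast_mem L n) (fun c => by
      obtain ⟨x, hx⟩ := IsAlgClosed.exists_pow_nat_eq c (n := p + 1) (by omega)
      exact ⟨x, by rw [frobenius_def, ← pow_succ', hx]⟩) (l := 2) two
      (fun e => one_ne_zero (α := k) (by linear_combination e)) (map_ofNat _ 2)
  refine count (E := {A | (A.det = 1 ∧ A ^ 4 = 1) ∧ (A.map (frobenius k p))ᵀ * A = 1}) hB
    (fun A hA => hA.1) (fun A hA => hF.le A hA.1.1 hA.2) (fun A hA a b => ⟨⟨a, b⟩, ?_⟩)
    A ⟨⟨h1, h2⟩, h3⟩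
  obtain ⟨μ, e⟩ := h A hA
  have a1 := congrArg det e
  rw [det_mul, det_transpose, ← RingHom.mapMatrix_apply, ← RingHom.map_det, det_smul, a] at a1
  have a2 : (A.map (frobenius k p))ᵀ ^ 4 * A ^ 4 = μ ^ 4 • 1 := by
    simp only [pow_succ, pow_zero, one_mul, mul_assoc]
    rw [← mul_assoc _ A, e]
    simp only [smul_mul_assoc, one_mul, mul_smul_comm]
    rw [← mul_assoc _ A, e]
    simp only [smul_mul_assoc, one_mul, mul_smul_comm]
    rw [← mul_assoc _ A, e]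
    simp [e, smul_smul]
  rw [← transpose_pow, ← RingHom.mapMatrix_apply, ← map_pow, b, map_one, transpose_one,
    one_mul] at a2
  have a3 := smul_cancel (A := (1 : Mt k)) (by simp) ((one_smul _ _).trans a2)
  simp only [Fintype.card_fin, mul_one, map_one, det_one] at a1
  rw [e, show μ = 1 by grind, one_smul]

variable {A : Type*} [AddCommGroup A] [Module (ZMod 3) A] [Fintype A] [DecidableEq A]
  {P : Polar (ZMod 3) A} {w : k}

theorem WS.irr (S : WS P w (Fin 3)) (h : ∀ u, ρ.In (S.W u)) : ρ.Irr := by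
  refine .mk' (fun v hv => ?_) fun v hv => ?_ <;> by_contra hc <;> push Not at hc <;>
    choose c hc using fun u => hc _ (h u) <;> obtain ⟨x, hx⟩ := exists_dot_ne hv <;>
    obtain ⟨y, hy⟩ := exists_second hv
  · obtain ⟨d, hd⟩ := S.span (vecMulVec y x)
    have := congrArg (· *ᵥ v) hd
    simp only [vecMulVec_mulVec, dotProduct_comm x, hx, sum_mulVec, smul_mulVec, hc, smul_smul,
      ← Finset.sum_smul, MulOpposite.op_one, one_smul] at this
    simp [this] at hy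
  · obtain ⟨d, hd⟩ := S.span (vecMulVec x y)
    have := congrArg (v ᵥ* ·) hd
    simp only [vecMul_vecMulVec, hx, vecMul_sum, vecMul_smul, hc, smul_smul,
      ← Finset.sum_smul, one_smul] at this
    simp [this] at hy

end Cfsg.Agent.H7.C6
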