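import Cfsg.Agent.H7.C6G

/-!
Projective quotients, and the three-dimensional theorems over a finite field.
-/

set_option autoImplicit false
set_option linter.unusedSectionVars false

namespace Cfsg.Agent.H7.C6

open Matrix H7.Polar H6.M3

variable {F : Type*} [Field F] {n : Type} [Fintype n] [DecidableEq n]

namespace MG

variable (X : MG n F)

/-- the corresponding subgroup of the general linear group -/
def grp : Subgroup (GL n F) where
  carrier := {g | X.In g}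
  one_mem' := X.one
  mul_mem' := X.mul
  inv_mem' {g} h := inv' h g.mul_inv

/-- the projective group -/
abbrev Pj : Type _ := X.grp.map (QuotientGroup.mk' (Geo.scalars n F))

/-- lifts -/
def L (γ : X.Pj) (A : Matrix n n F) : Prop :=
  X.In A ∧ ∃ g : GL n F, g.1 = A ∧ QuotientGroup.mk' (Geo.scalars n F) g = γ.1

variable {X}

theorem L_ex (γ : X.Pj) : ∃ A, X.L γ A := by
  obtain ⟨_, g, hg, rfl⟩ := γ
  exact ⟨g, hg, g, rfl, rfl⟩

theorem L_all {A : Matrix n n F} (h : X.In A) : ∃ γ, X.L γ A := by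
  obtain ⟨B, e⟩ := unit h
  exact ⟨⟨_, ⟨A, B, e, mul_eq_one_comm.1 e⟩, h, rfl⟩, h, _, rfl, rfl⟩

variable {γ γ' γ'' : X.Pj} {A B C : Matrix n n F}

theorem L.mul (h : X.L γ A) (h' : X.L γ' B) : X.L (γ * γ') (A * B) := by
  obtain ⟨h1, g, rfl, h2⟩ := h
  obtain ⟨h1', g', rfl, h2'⟩ := h'
  exact ⟨X.mul h1 h1', g * g', rfl, by rw [map_mul, h2, h2']; rfl⟩

theorem L.eq_iff (h : X.L γ A) (h' : X.L γ' B) : γ = γ' ↔ ∃ c : F, B = c • A := by
  obtain ⟨h1, g, rfl, h2⟩ := h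
  obtain ⟨h1', g', rfl, h2'⟩ := h'
  rw [Subtype.ext_iff, ← h2, ← h2', QuotientGroup.mk'_apply, QuotientGroup.mk'_apply,
    QuotientGroup.eq, Geo.mem_scalars_iff]
  constructor
  · rintro ⟨c, hc⟩
    exact ⟨c, cancel_l g.inv_mul (by simpa using hc)⟩
  · rintro ⟨c, hc⟩
    by_cases h : c = 0
    · have : (1 : Matrix n n F) = 0 := by rw [← g'.mul_inv, hc, h]; simp
      exact ⟨1, by rw [← mul_one (Units.val _), this]; simp⟩
    · exact ⟨Units.mk0 c h, by simp [hc]⟩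

theorem L_one : X.L 1 1 := ⟨X.one, 1, rfl, rfl⟩

theorem L.smul (hX : X.Sc) (h : X.L γ A) {c : F} (hc : c ≠ 0) : X.L γ (c • A) := by
  obtain ⟨γ', h'⟩ := L_all (hX.smul h.1 hc)
  rwa [(h.eq_iff h').2 ⟨c, rfl⟩]

theorem L.inv (h : X.L γ A) (e : A * B = 1) : X.L γ⁻¹ B := by
  obtain ⟨γ', h'⟩ := L_all (inv' h.1 e)
  rwa [inv_eq_of_mul_eq_one_right ((L.eq_iff (h.mul h') L_one).2 ⟨1, by simp [e]⟩)]

theorem L.pow (h : X.L γ A) (m : ℕ) : X.L (γ ^ m) (A ^ m) := by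
  induction m with
  | zero => simpa using L_one
  | succ m ih => rw [pow_succ, pow_succ]; exact ih.mul h

theorem L.conj_iff (h : X.L γ A) (h' : X.L γ' B) (h'' : X.L γ'' C) :
    γ * γ' * γ⁻¹ = γ'' ↔ ∃ c : F, A * B = c • (C * A) := by
  rw [mul_inv_eq_iff_eq_mul, eq_comm, (h''.mul h).eq_iff (h.mul h')]

/-- products -/
def prod (X Y : MG n F) (h : ∀ y x, Y.In y → X.In x → ∃ x', X.In x' ∧ y * x = x' * y) :
    MG n F where
  In g := ∃ x y, X.In x ∧ Y.In y ∧ g = x * y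
  one := ⟨1, 1, X.one, Y.one, by simp⟩
  mul := by
    rintro _ _ ⟨x, y, h1, h2, rfl⟩ ⟨x', y', h1', h2', rfl⟩
    obtain ⟨x'', h3, e⟩ := h y x' h2 h1'
    exact ⟨_, _, X.mul h1 h3, Y.mul h2 h2', by rw [mul_assoc, ← mul_assoc y, e]; simp [mul_assoc]⟩
  inv := by
    rintro _ ⟨x, y, h1, h2, rfl⟩
    obtain ⟨x', h3, e⟩ := X.inv h1
    obtain ⟨y', h4, e'⟩ := Y.inv h2
    obtain ⟨x'', h5, e''⟩ := h y' x' h4 h3
    exact ⟨_, ⟨_, _, h5, h4, rfl⟩, by rw [← e'', mul_assoc, ← mul_assoc y, e', one_mul, e]⟩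

theorem mul_pow {y : Matrix n n F} (h : ∀ x, X.In x → ∃ x', X.In x' ∧ y * x = x' * y)
    {x : Matrix n n F} (hx : X.In x) (m : ℕ) : ∃ x', X.In x' ∧ (x * y) ^ m = x' * y ^ m := by
  induction m with
  | zero => exact ⟨1, X.one, by simp⟩
  | succ m ih =>
    obtain ⟨x', h1, e⟩ := ih
    obtain ⟨x'', h2, e'⟩ := h x' h1
    exact ⟨_, X.mul hx h2, by rw [pow_succ', e, mul_assoc, ← mul_assoc y, e', pow_succ']; simp [mul_assoc]⟩

end MG

variable {k : Type*} [Field k]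

theorem smul_of_map (ι : F →+* k) {m m' : Type*} {A B : Matrix m m' F} {c : k}
    (h : A.map ι = c • B.map ι) : ∃ d : F, A = d • B := by
  by_cases hB : B = 0
  · exact ⟨0, by ext i j; simpa [hB] using congrFun (congrFun h i) j⟩
  obtain ⟨i, j, hij⟩ : ∃ i j, B i j ≠ 0 := by
    by_contra hc; push Not at hc; exact hB (by ext; simp [hc])
  refine ⟨A i j / B i j, ext fun a b => ι.injective ?_⟩
  have e1 := congrFun (congrFun h i) j
  have e2 := congrFun (congrFun h a) b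
  simp only [map_apply, Matrix.smul_apply, smul_eq_mul] at e1 e2
  simp [e1, e2, hij]

/-- extension of scalars -/
def MG.toPR (X : MG (Fin 3) F) (hX : X.Sc) (ι : F →+* k) : PR X.Pj k where
  L γ A := ∃ y, ∃ c : k, X.L γ y ∧ c ≠ 0 ∧ A = c • y.map ι
  ex γ := let ⟨A, h⟩ := MG.L_ex γ; ⟨_, A, 1, h, one_ne_zero, rfl⟩
  det := by
    rintro γ _ ⟨y, c, h, hc, rfl⟩
    obtain ⟨y', e⟩ := MG.unit h.1
    rw [det_smul, ← RingHom.mapMatrix_apply, ← RingHom.map_det]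
    simp [hc, (det_of_mul e).1]
  smul := by
    rintro γ _ d ⟨y, c, h, hc, rfl⟩ hd
    exact ⟨y, d * c, h, mul_ne_zero hd hc, smul_smul ..⟩
  uniq := by
    rintro γ _ _ ⟨y, c, h, hc, rfl⟩ ⟨y', c', h', hc', rfl⟩
    obtain ⟨d, rfl⟩ := (h.eq_iff h').1 rfl
    exact ⟨c' * ι d / c, by ext; simp; field_simp⟩
  mul := by
    rintro γ γ' _ _ ⟨y, c, h, hc, rfl⟩ ⟨y', c', h', hc', rfl⟩
    exact ⟨_, c * c', h.mul h', mul_ne_zero hc hc', by simp [smul_smul, mul_comm]⟩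
  inj := by
    rintro γ ⟨y, c, h, hc, e⟩
    rw [← Matrix.map_one ι (map_zero ι) (map_one ι)] at e
    exact (h.eq_iff MG.L_one).2 (smul_of_map ι e)

theorem MG.in_toPR {X : MG (Fin 3) F} {hX : X.Sc} {ι : F →+* k} {A : Mt k} :
    (X.toPR hX ι).In A ↔ ∃ y, ∃ c : k, X.In y ∧ c ≠ 0 ∧ A = c • y.map ι :=
  ⟨fun ⟨_, y, c, h, e⟩ => ⟨y, c, h.1, e⟩, fun ⟨y, c, h, e⟩ =>
    let ⟨γ, h'⟩ := MG.L_all h; ⟨γ, y, c, h', e⟩⟩

theorem MG.in_map {X : MG (Fin 3) F} {hX : X.Sc} {ι : F →+* k} {A : Mt F} (h : X.In A) :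
    (X.toPR hX ι).In (A.map ι) := MG.in_toPR.2 ⟨A, 1, h, one_ne_zero, by simp⟩

theorem map_chi (ι : F →+* k) (w : F) (a : ZMod 3) : ι (chi w a) = chi (ι w) a := map_pow ..

theorem Om.map {w : F} (h : Om w) (ι : F →+* k) : Om (ι w) :=
  ⟨by simpa using congrArg ι h.eq, by simpa [map_ofNat] using (map_ne_zero ι).2 h.three⟩

variable {A : Type*} [AddCommGroup A] [Module (ZMod 3) A] [Fintype A] [DecidableEq A]
  {P : Polar (ZMod 3) A} {w : F}

namespace WS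

variable (S : WS P w n)

/-- extension of scalars -/
def map (ι : F →+* k) : WS P (ι w) n where
  W u := (S.W u).map ι
  om := S.om.map ι
  s3 := S.s3
  zero := by simp [S.zero]
  mul u v := by rw [← Matrix.map_mul, S.mul, ← map_chi]; ext; simp
  card := S.card
  nz := by simpa using (map_ne_zero ι).2 S.nz

theorem map_h (ι : F →+* k) (u : A) : (S.map ι).h u = (S.h u).map ι := by
  ext i j
  by_cases e : i = j <;> simp [h, pr, map, e, map_ofNat]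

/-- the normaliser -/
def NG : MG n F where
  In g := (∃ g', g * g' = 1) ∧ S.Nor g
  one := ⟨⟨1, one_mul _⟩, fun u => ⟨u, 1, by simp⟩⟩
  mul h h' := ⟨(MG.all n F).mul h.1 h'.1, h.2.mul h'.2⟩
  inv := fun ⟨⟨g', e⟩, h⟩ => ⟨g', ⟨⟨_, mul_eq_one_comm.1 e⟩, h.inv e⟩, e⟩

/-- the extraspecial group times the scalars -/
def WG : MG n F where
  In g := ∃ u, ∃ c : F, c ≠ 0 ∧ g = c • S.W u
  one := ⟨0, 1, one_ne_zero, by simp [S.zero]⟩
  mul := by
    rintro _ _ ⟨u, c, h, rfl⟩ ⟨v, d, h', rfl⟩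
    exact ⟨u + v, c * d * chi w (P.B u v), mul_ne_zero (mul_ne_zero h h') (S.om.chi_ne _),
      by simp [S.mul, smul_smul, mul_assoc, mul_left_comm]⟩
  inv := by
    rintro _ ⟨u, c, h, rfl⟩
    exact ⟨_, ⟨-u, c⁻¹, inv_ne_zero h, rfl⟩, by simp [smul_smul, h, S.mul_neg]⟩

theorem big_NG : S.Big S.NG :=
  ⟨fun c hc => ⟨MG.all_Sc c hc, S.NG.one.2.smul c⟩, fun u => ⟨⟨_, S.mul_neg u⟩, (S.lf_W u).nor⟩,
    fun u => ⟨⟨_, S.h_cube u⟩, (S.ex_h u).nor⟩⟩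

theorem W_cube (u : A) : S.W u ^ 3 = 1 := by rw [pow_three', S.mul_self, S.neg_mul]

variable {S} in
theorem Lf.pow {g : Matrix n n F} {σ : A ≃ₗ[ZMod 3] A} (h : S.Lf g σ) (m : ℕ) :
    S.Lf (g ^ m) (σ ^ m :) := by
  induction m with
  | zero => exact fun u => ⟨1, by simp⟩
  | succ m ih => rw [pow_succ, pow_succ]; exact ih.mul h

theorem pow_36 (hP : ∀ σ ∈ P.Iso, ∀ u, (σ ^ 12) u = u) {g : Matrix n n F} (h : S.NG.In g) :
    ∃ c : F, c ≠ 0 ∧ g ^ 36 = c • 1 := by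
  obtain ⟨⟨g', e⟩, h1⟩ := h
  obtain ⟨σ, hσ, h2⟩ := h1.exists_lf e
  obtain ⟨g'', e'⟩ := MG.unit (MG.pow (X := .all n F) ⟨g', e⟩ 12)
  obtain ⟨u, c, hc, h3⟩ := S.eq_of_twist e' ((h2.pow 12).congr (hP σ hσ))
  exact ⟨c ^ 3, pow_ne_zero _ hc, by rw [show 36 = 12 * 3 from rfl, pow_mul, h3, smul_pow, W_cube]⟩

end WS

/-- the adjoint -/
def ad (σ : F →+* F) {m m' : Type*} (g : Matrix m m' F) : Matrix m' m F := (g.map σ)ᵀ

/-- unitary similitudes, in the unitary case -/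
def Fx (σ : F →+* F) (uni : Prop) (g : Matrix n n F) : Prop := uni → ∃ μ : F, ad σ g * g = μ • 1

/-- special elements of order dividing four -/
def E4 (σ : F →+* F) (uni : Prop) (s : Matrix n n F) : Prop :=
  s.det = 1 ∧ s ^ 4 = 1 ∧ (uni → ad σ s * s = 1)

/-- contains an elation -/
def HE (X : MG (Fin 3) F) : Prop := ∃ y, X.In y ∧ ∃ (c : AlgebraicClosure F)
  (v φ : Vc (AlgebraicClosure F)), c ≠ 0 ∧ v ≠ 0 ∧ φ ≠ 0 ∧ φ ⬝ᵥ v = 0 ∧
  1 + vecMulVec v φ = c • y.map (algebraMap F _)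

variable (p : ℕ) [Fact p.Prime] [CharP F p] [Finite F] {uni : Prop}

theorem map_frob [CharP k p] (ι : F →+* k) {m m' : Type*} (y : Matrix m m' F) :
    (y.map ι).map (frobenius k p) = (y.map (frobenius F p)).map ι := by
  ext; simp [frobenius_def]

theorem toPR_uni [CharP k p] {X : MG (Fin 3) F} {hX : X.Sc} {ι : F →+* k}
    (hF : ∀ g, X.In g → Fx (frobenius F p) uni g) (hu : uni) (B : Mt k)
    (h : (X.toPR hX ι).In B) : ∃ μ : k, (B.map (frobenius k p))ᵀ * B = μ • 1 := by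
  obtain ⟨y, c, h1, -, rfl⟩ := MG.in_toPR.1 h
  obtain ⟨μ, e⟩ := hF y h1 hu
  refine ⟨frobenius k p c * c * ι μ, ?_⟩
  rw [Matrix.map_smul' _ _ _ (map_mul _), map_frob, transpose_smul, ← transpose_map,
    smul_mul_smul_comm, ← Matrix.map_mul]
  erw [e]
  ext i j
  by_cases h : i = j <;> simp [h]

theorem toPR_lin [CharP k p] {X : MG (Fin 3) F} {hX : X.Sc} {ι : F →+* k}
    (hl : ∀ x : F, x ^ p = x) (B : Mt k)
    (h : (X.toPR hX ι).In B) : ∃ μ : k, B.map (frobenius k p) = μ • B := by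
  obtain ⟨y, c, h1, hc, rfl⟩ := MG.in_toPR.1 h
  refine ⟨frobenius k p c / c, ?_⟩
  ext i j
  simp [frobenius_def, mul_pow, ← map_pow, hl]
  field_simp

variable (hl : ¬ uni → ∀ x : F, x ^ p = x) (S : WS P w (Fin 3))
include hl

theorem uni_of_two (hw : Om w) (hp : p = 2) : uni := by
  by_contra h
  exact hw.sq_ne (hp ▸ hl h w)

theorem t3 {X : MG (Fin 3) F} (hX : S.Big X) (hF : ∀ g, X.In g → Fx (frobenius F p) uni g) :
    (∀ g, X.In g → S.Nor g) ∨ (p ≠ 2 ∧ HE X) := by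
  by_cases hs : (X.toPR hX.sc (algebraMap F (AlgebraicClosure F))).Small
  · refine Or.inl fun g hg u => ?_
    obtain ⟨v, c, e⟩ := (S.map (algebraMap F (AlgebraicClosure F))).nor_of_small p hs
      ⟨fun c hc => PR.In.one.smul hc, fun u => MG.in_map (hX.W u),
      fun u => S.map_h (algebraMap F (AlgebraicClosure F)) u ▸ MG.in_map (hX.h u)⟩
      (MG.in_map hg) u
    exact ⟨v, smul_of_map (algebraMap F (AlgebraicClosure F)) (c := c)
      (by simpa [WS.map] using e)⟩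
  simp only [PR.Small, not_forall, not_or] at hs
  obtain ⟨v, φ, a, h1, h2, h3, h4, h5, h6⟩ := hs
  refine Or.inr ⟨fun hp => ?_, ?_⟩
  · have := uni_root (toPR_uni p hF (uni_of_two p hl S.om hp)) h1 h2 h3 h4
    subst hp
    rw [frobenius_def] at this
    grind
  · obtain ⟨y, c, a1, a2, a3⟩ := MG.in_toPR.1 h3.2
    exact ⟨y, a1, c, v, φ, a2, h1, h2, h3.1, a3⟩

theorem l3 {X : MG (Fin 3) F} (hX : X.Sc) (hW : ∀ u, X.In (S.W u))
    (hF : ∀ g, X.In g → Fx (frobenius F p) uni g) (hp : p ≠ 2) (he : HE X) {s : Mt F}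
    (hs : E4 (frobenius F p) uni s) : X.In s := by
  let ι := algebraMap F (AlgebraicClosure F)
  have hi := (S.map ι).irr (ρ := X.toPR hX ι) fun u => MG.in_map (hW u)
  have he' : (X.toPR hX ι).HasEl := by
    obtain ⟨y, a1, c, v, φ, a2, a3, a4, a5, a6⟩ := he
    exact ⟨v, φ, a3, a4, a5, MG.in_toPR.2 ⟨y, c, a1, a2, a6⟩⟩
  have h1 : (s.map ι).det = 1 := by rw [← RingHom.mapMatrix_apply, ← RingHom.map_det, hs.1, map_one]
  have h2 : s.map ι ^ 4 = 1 := by rw [← RingHom.mapMatrix_apply, ← map_pow, hs.2.1, map_one]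
  have : (X.toPR hX ι).In (s.map ι) := by
    by_cases hu : uni
    · refine uni_le p hp (toPR_uni p hF hu) hi he' h1 h2 ?_
      rw [map_frob, ← transpose_map, ← Matrix.map_mul]
      erw [hs.2.2 hu]
      simp
    · refine lin_le p hp (toPR_lin p (hl hu)) hi he' h1 h2 ?_
      ext i j
      simp [frobenius_def, ← map_pow, hl hu]
  obtain ⟨y, c, a1, -, a2⟩ := MG.in_toPR.1 this
  obtain ⟨d, rfl⟩ := smul_of_map ι a2
  exact hX.smul a1 fun e => by simpa [e] using hs.1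

theorem tl3 {X : MG (Fin 3) F} (hX : S.Big X) (hF : ∀ g, X.In g → Fx (frobenius F p) uni g) :
    (∀ g, X.In g → S.Nor g) ∨ (p ≠ 2 ∧ ∀ s, E4 (frobenius F p) uni s → X.In s) :=
  (t3 p hl S hX hF).imp_right fun h => ⟨h.1, fun _ => l3 p hl S hX.sc hX.W hF h.1 h.2⟩

theorem d3 (hP : ∀ σ ∈ P.Iso, ∀ u, (σ ^ 12) u = u) {Y L : MG (Fin 3) F} (hY : S.Big Y)
    (hF : ∀ g, Y.In g → Fx (frobenius F p) uni g) (hL : ∀ g, L.In g → Y.In g)
    (hn : ∀ y x, Y.In y → L.In x → ∃ x', L.In x' ∧ y * x = x' * y) {δ : Mt F} (h1 : L.In δ)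
    (h2 : ¬ S.Nor δ) {s : Mt F} (hs : E4 (frobenius F p) uni s) :
    ∃ c : F, c ≠ 0 ∧ L.In (c • s) := by
  have hN : ∀ g, S.NG.In g → Y.In g := fun g ⟨⟨g', e⟩, h⟩ => hY.mem e h
  have hW : ∀ g, S.WG.In g → Y.In g := by
    rintro _ ⟨u, c, hc, rfl⟩
    exact hY.sc.smul (hY.W u) hc
  have k1 : ∀ g, S.NG.In g → (L.prod S.NG fun y x h => hn y x (hN y h)).In g :=
    fun g h => ⟨1, g, L.one, h, by simp⟩
  have k2 : ∀ g, S.WG.In g → (L.prod S.WG fun y x h => hn y x (hW y h)).In g :=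
    fun g h => ⟨1, g, L.one, h, by simp⟩
  obtain h | ⟨hp, _, ⟨x, y, a1, a2, rfl⟩, c, v, φ, a3, a4, a5, a6, a7⟩ := t3 p hl S
    (X := L.prod S.NG fun y x h => hn y x (hN y h))
    ⟨fun c hc => k1 _ (S.big_NG.sc c hc), fun u => k1 _ (S.big_NG.W u), fun u => k1 _ (S.big_NG.h u)⟩
    (by rintro _ ⟨x, y, a1, a2, rfl⟩; exact hF _ (Y.mul (hL x a1) (hN y a2)))
  · exact absurd (h δ ⟨δ, 1, h1, S.NG.one, by simp⟩) h2
  obtain ⟨x', b1, b2⟩ := MG.mul_pow (fun x => hn y x (hN y a2)) a1 36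
  obtain ⟨d, b3, b4⟩ := S.pow_36 hP a2
  obtain ⟨x, _, c1, ⟨u, c, c2, rfl⟩, rfl⟩ := l3 p hl S
    (X := L.prod S.WG fun y x h => hn y x (hW y h))
    (fun c hc => k2 _ ⟨0, c, hc, by rw [S.zero]⟩) (fun u => k2 _ ⟨u, 1, one_ne_zero, by simp⟩)
    (by rintro _ ⟨x, y, a1, a2, rfl⟩; exact hF _ (Y.mul (hL x a1) (hW y a2))) hp
    ⟨_, ⟨x', d • 1, b1, ⟨0, d, b3, by rw [S.zero]⟩, rfl⟩, c ^ 36,
      ((36 : ℕ) : AlgebraicClosure F) • v, φ, pow_ne_zero _ a3, smul_ne_zero (by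
        have := mul_ne_zero (two_ne (k := AlgebraicClosure F) hp) (S.om.map (algebraMap F _)).three
        rw [show ((36 : ℕ) : AlgebraicClosure F) = (2 * 3) ^ 2 by norm_num]
        exact pow_ne_zero _ this) a4, a5, by simp [a6], by
      rw [← r1_pow a6, a7, smul_pow, ← RingHom.mapMatrix_apply, ← map_pow, b2, b4]; rfl⟩ hs
  obtain ⟨x', d1, d2⟩ := MG.mul_pow (fun x => hn _ x (hW _ ⟨u, c, c2, rfl⟩)) c1 3
  refine ⟨(c ^ 9)⁻¹, inv_ne_zero (pow_ne_zero _ c2), ?_⟩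
  have e : x * c • S.W u = c ^ 9 • x' ^ 3 := by
    rw [← one_mul (x * _), ← one_pow 2, ← hs.2.1, ← pow_mul, ← pow_succ,
      show 4 * 2 + 1 = 3 * 3 from rfl, pow_mul, d2, smul_pow, S.W_cube, mul_smul_comm, mul_one,
      smul_pow, ← pow_mul]
  rw [e, smul_smul, inv_mul_cancel₀ (pow_ne_zero _ c2), one_smul]
  exact MG.pow d1 3

end Cfsg.Agent.H7.C6
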