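import Cfsg.Agent.H7.C6H

/-!
The standard Weyl systems in dimensions three and nine.
-/

set_option autoImplicit false
set_option linter.unusedSectionVars false

namespace Cfsg.Agent.H7.C6

open Matrix H7.Polar

/-- the field with three elements -/
abbrev T : Type := ZMod 3

variable {F : Type*} [Field F]

section mono
variable {n : Type} [Fintype n] [DecidableEq n]

/-- monomial matrices -/
def mono (f : n → n) (d : n → F) : Matrix n n F := of fun i j => if i = f j then d j else 0

theorem mono_apply (f : n → n) (d : n → F) (i j : n) :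
    mono f d i j = if i = f j then d j else 0 := rfl

theorem mul_mono {m : Type*} (M : Matrix m n F) (g : n → n) (e : n → F) (i : m) (j : n) :
    (M * mono g e) i j = M i (g j) * e j := by
  simp [mul_apply, mono_apply]

theorem mono_mul (f g : n → n) (d e : n → F) :
    mono f d * mono g e = mono (fun j => f (g j)) fun j => d (g j) * e j := by
  ext i j
  simp [mul_mono, mono_apply]

theorem smul_mono (c : F) (f : n → n) (d : n → F) : c • mono f d = mono f fun j => c * d j := by
  ext i j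
  simp [mono_apply]

theorem mono_congr {f g : n → n} {d e : n → F} (h : ∀ j, f j = g j) (h' : ∀ j, d j = e j) :
    mono f d = mono g e := by rw [funext h, funext h']

theorem mono_eq_one {f : n → n} {d : n → F} (h : ∀ j, f j = j) (h' : ∀ j, d j = 1) :
    mono f d = 1 := by
  ext i j
  simp [mono_apply, h, h', one_apply]

theorem mono_one : mono (fun j : n => j) (fun _ => (1 : F)) = 1 :=
  mono_eq_one (fun _ => rfl) fun _ => rfl

theorem mono_inj {f g : n → n} {d e : n → F} (h : mono f d = mono g e) {j : n} (hd : d j ≠ 0) :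
    f j = g j ∧ d j = e j := by
  have := congrFun (congrFun h (f j)) j
  simp only [mono_apply, if_true] at this
  split_ifs at this with h1
  exacts [⟨h1, this⟩, absurd this hd]

theorem mono_unit {f : n → n} {d : n → F} (hf : Function.Injective f) (hd : ∀ j, d j ≠ 0) :
    ∃ g, mono f d * mono g (fun j => (d (g j))⁻¹) = 1 := by
  obtain ⟨g, hg⟩ := (Finite.surjective_of_injective hf).hasRightInverse
  exact ⟨g, by rw [mono_mul]; exact mono_eq_one hg fun j => mul_inv_cancel₀ (hd _)⟩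

theorem ad_mono (σ : F →+* F) {f : n → n} (hf : Function.Injective f) (d : n → F) :
    ad σ (mono f d) * mono f d = mono (fun j => j) fun j => σ (d j) * d j := by
  ext i j
  by_cases h : i = j <;> simp [mul_mono, ad, mono_apply, hf.eq_iff, h, eq_comm]

theorem det_mono_id (d : n → F) : (mono (fun j => j) d).det = ∏ j, d j := by
  rw [← det_diagonal]
  congr 1
  ext i j
  simp only [mono_apply, diagonal_apply]
  split_ifs with h <;> simp [h]

variable {A : Type*} [AddCommGroup A] [Module T A] [Fintype A] [DecidableEq A]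
  {P : Polar T A} {w : F} {S : WS P w n} {sh : A → n → n} {ex : A → n → T}

theorem lf_mono (hS : ∀ u, S.W u = mono (sh u) fun i => chi w (ex u i)) {f : n → n} {q : n → T}
    {σ : A → A} (h1 : ∀ u i, f (sh u i) = sh (σ u) (f i))
    (h2 : ∀ u, ∃ c, ∀ i, q (sh u i) + ex u i = c + (ex (σ u) (f i) + q i)) :
    S.Lf (mono f fun i => chi w (q i)) σ := fun u => by
  obtain ⟨c, h2⟩ := h2 u
  refine ⟨chi w c, ?_⟩
  rw [hS, hS, mono_mul, mono_mul, smul_mono]
  exact mono_congr (h1 u) fun i => by simp only [← S.om.chi_add, h2]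

theorem ng_mono (hS : ∀ u, S.W u = mono (sh u) fun i => chi w (ex u i)) {f : n → n} {q : n → T}
    (σ : A → A) (hf : Function.Injective f) (h1 : ∀ u i, f (sh u i) = sh (σ u) (f i))
    (h2 : ∀ u, ∃ c, ∀ i, q (sh u i) + ex u i = c + (ex (σ u) (f i) + q i)) :
    S.NG.In (mono f fun i => chi w (q i)) :=
  ⟨let ⟨_, h⟩ := mono_unit hf fun _ => S.om.chi_ne _; ⟨_, h⟩, (lf_mono hS h1 h2).nor⟩

end mono

/-- symplectic spaces from alternating forms -/
def mkP {A : Type*} [AddCommGroup A] [Module T A] (b : A →ₗ[T] A →ₗ[T] T)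
    (h1 : ∀ x y, b y x = -b x y) (h2 : ∀ y, (∀ x, b x y = 0) → y = 0) : Polar T A where
  σ := RingHom.id T
  ε := -1
  B := b
  Val _ _ := True
  σσ _ := rfl
  εε := Or.inr rfl
  herm x y := by simp [h1 x y]
  nondeg := h2
  val_ex _ := ⟨0, trivial⟩
  val_add _ _ := trivial
  val_smul _ _ := trivial
  val_self {x} _ _ := by simpa using eq_zero_of_neg (h1 x x).symm
  val_min _ := trivial

/-- the standard alternating form -/
def B1 (x y : T × T) : T := x.1 * y.2 - y.1 * x.2

/-- the plane -/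
def P1 : Polar T (T × T) := mkP (LinearMap.mk₂ T B1 (by decide) (by decide) (by decide) (by decide))
  (by simp only [LinearMap.mk₂_apply]; decide) (by simp only [LinearMap.mk₂_apply]; decide)

theorem P1_B (x y : T × T) : P1.B x y = B1 x y := rfl

/-- the four-dimensional space -/
def P2 : Polar T ((T × T) × (T × T)) := mkP (LinearMap.mk₂ T (fun x y => B1 x.1 y.1 + B1 x.2 y.2)
    (fun _ _ _ => by simp [B1]; ring) (fun _ _ _ => by simp [B1]; ring)
    (fun _ _ _ => by simp [B1]; ring) (fun _ _ _ => by simp [B1]; ring))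
  (fun _ _ => by simp [B1]; ring) fun y h => by
    have h1 := h ((1, 0), 0)
    have h2 := h ((0, 1), 0)
    have h3 := h (0, (1, 0))
    have h4 := h (0, (0, 1))
    simp [B1] at h1 h2 h3 h4
    ext <;> assumption

theorem P2_B (x y : (T × T) × (T × T)) : P2.B x y = B1 x.1 y.1 + B1 x.2 y.2 := rfl

/-- exponent -/
def ex1 (u : T × T) (y : T) : T := u.2 * y + 2 * u.1 * u.2

variable {w : F} (hw : Om w)

/-- the system in dimension three -/
def S1 : WS P1 w T where
  W u := mono (fun y => y + u.1) fun y => chi w (ex1 u y)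
  om := hw
  s3 := ⟨fun _ _ => trivial⟩
  zero := mono_eq_one (by simp) (by simp [ex1])
  mul u v := by
    rw [mono_mul, smul_mono]
    refine mono_congr (fun _ => by simp; ring) fun y => ?_
    rw [← hw.chi_add, ← hw.chi_add, P1_B]
    congr 1
    simp only [ex1, B1, Prod.fst_add, Prod.snd_add]
    grind
  card := by simp
  nz := by simpa using hw.three

/-- translation -/
def sh2 (u : (T × T) × (T × T)) (i : T × T) : T × T := (i.1 + u.1.1, i.2 + u.2.1)

/-- exponent -/
def ex2 (u : (T × T) × (T × T)) (i : T × T) : T := ex1 u.1 i.1 + ex1 u.2 i.2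

/-- the system in dimension nine -/
def S2 : WS P2 w (T × T) where
  W u := mono (sh2 u) fun i => chi w (ex2 u i)
  om := hw
  s3 := ⟨fun _ _ => trivial⟩
  zero := mono_eq_one (by simp [sh2]) (by simp [ex1, ex2])
  mul u v := by
    rw [mono_mul, smul_mono]
    refine mono_congr (fun _ => by simp [sh2]; constructor <;> ring) fun y => ?_
    rw [← hw.chi_add, ← hw.chi_add, P2_B]
    congr 1
    simp only [ex1, ex2, sh2, B1, Prod.fst_add, Prod.snd_add]
    grind
  card := by simp
  nz := by simpa [show (9 : F) = 3 * 3 by norm_num] using hw.three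

theorem S1_W (u : T × T) : (S1 hw).W u = mono (fun y => y + u.1) fun y => chi w (ex1 u y) := rfl

theorem S2_W (u : (T × T) × (T × T)) : (S2 hw).W u = mono (sh2 u) fun i => chi w (ex2 u i) := rfl

/-- linear maps of the plane -/
def lin (e f x : T × T) : T × T := x.1 • e + x.2 • f

/-- transvections of the plane -/
def tv (v : T × T) (ε : T) (x : T × T) : T × T := x + ε • B1 x v • v

theorem lin_12 : ∀ e f : T × T, B1 e f = 1 → ∀ x, (lin e f)^[12] x = x := by decide +kernel

theorem lin_tr : ∀ e f : T × T, B1 e f = 1 → (∀ x, (lin e f)^[3] x = x) → e.1 + f.2 = -1 := by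
  decide +kernel

theorem lin_tv : ∀ e f : T × T, B1 e f = 1 → e.1 + f.2 = -1 →
    ∃ v ε, (ε = 1 ∨ ε = -1) ∧ ∀ x, lin e f x = tv v ε x := by decide +kernel

set_option synthInstance.maxSize 1024 in
theorem lin_pair : ∀ e f : T × T, B1 e f = 1 → e.1 + f.2 = -1 → ∀ e' f' : T × T, B1 e' f' = 1 →
    e'.1 + f'.2 = -1 → (lin e f e').1 + (lin e f f').2 = -1 → (∀ x, lin e f x = x) ∨
    (∀ x, lin e' f' x = x) ∨ (∀ x, lin e f x = lin e' f' x) ∨ ∀ x, lin e f (lin e' f' x) = x := by
  decide +kernel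

theorem eq_lin {φ : T × T → T × T} (h : ∀ x y, φ (x + y) = φ x + φ y) (x : T × T) :
    φ x = lin (φ (1, 0)) (φ (0, 1)) x := by
  let ψ := (AddMonoidHom.mk' φ h).toZModLinearMap 3
  have : ψ x = x.1 • ψ (1, 0) + x.2 • ψ (0, 1) := by rw [← map_smul, ← map_smul, ← map_add]; simp
  exact this

theorem P1_exp : ∀ σ ∈ P1.Iso, ∀ u, (σ ^ 12) u = u := fun σ hσ u => by
  rw [LinearEquiv.pow_apply, funext (eq_lin (map_add σ))]
  exact lin_12 _ _ (by rw [← P1_B, Iso.B hσ]; rfl) u

/-- functions on three points -/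
def tri3 {α : Type*} (a b c : α) (y : T) : α := if y = 0 then a else if y = 1 then b else c

@[simp] theorem tri3_zero {α : Type*} (a b c : α) : tri3 a b c 0 = a := rfl
@[simp] theorem tri3_one {α : Type*} (a b c : α) : tri3 a b c 1 = b := rfl
@[simp] theorem tri3_neg {α : Type*} (a b c : α) : tri3 a b c (-1) = c := rfl

theorem forall_T {p : T → Prop} : (∀ y, p y) ↔ p 0 ∧ p 1 ∧ p (-1) :=
  ⟨fun h => ⟨h _, h _, h _⟩, fun h y => by rcases z3_cases y with rfl | rfl | rfl <;> simp [h]⟩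

theorem sum_T {M : Type*} [AddCommMonoid M] (f : T → M) : ∑ i, f i = f 0 + f 1 + f (-1) :=
  Fin.sum_univ_three f

/-- block diagonal matrices -/
def b3 (a b c : Matrix T T F) : Matrix (T × T) (T × T) F := blockDiagonal (tri3 a b c)

theorem b3_mul (a b c a' b' c' : Matrix T T F) :
    b3 a b c * b3 a' b' c' = b3 (a * a') (b * b') (c * c') := by
  rw [b3, b3, ← blockDiagonal_mul]
  exact congrArg _ (funext (forall_T.2 ⟨rfl, rfl, rfl⟩))

theorem b3_one : b3 (1 : Matrix T T F) 1 1 = 1 :=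
  (congrArg blockDiagonal (funext (forall_T.2 ⟨rfl, rfl, rfl⟩) : tri3 (1 : Matrix T T F) 1 1 = 1)).trans
    blockDiagonal_one

theorem smul_b3 (t : F) (a b c : Matrix T T F) : t • b3 a b c = b3 (t • a) (t • b) (t • c) := by
  rw [b3, ← blockDiagonal_smul]
  exact congrArg _ (funext (forall_T.2 ⟨rfl, rfl, rfl⟩))

theorem b3_inj {a b c a' b' c' : Matrix T T F} (h : b3 a b c = b3 a' b' c') :
    a = a' ∧ b = b' ∧ c = c' :=
  forall_T.1 (congrFun (blockDiagonal_injective h))

theorem b3_pow (a b c : Matrix T T F) (m : ℕ) : b3 a b c ^ m = b3 (a ^ m) (b ^ m) (c ^ m) := by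
  induction m with
  | zero => simp [b3_one]
  | succ m ih => simp only [pow_succ, ih, b3_mul]

theorem ad_b3 (σ : F →+* F) (a b c : Matrix T T F) :
    ad σ (b3 a b c) = b3 (ad σ a) (ad σ b) (ad σ c) := by
  rw [ad, b3, blockDiagonal_map _ _ (map_zero σ), blockDiagonal_transpose]
  exact congrArg _ (funext (forall_T.2 ⟨rfl, rfl, rfl⟩))

theorem b3_apply (a b c : Matrix T T F) (i j : T × T) :
    b3 a b c i j = if i.2 = j.2 then tri3 a b c i.2 i.1 j.1 else 0 := rfl

theorem b3_mono (f f' f'' : T → T) (d d' d'' : T → F) :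
    b3 (mono f d) (mono f' d') (mono f'' d'') =
      mono (fun i => (tri3 f f' f'' i.2 i.1, i.2)) fun i => tri3 d d' d'' i.2 i.1 := by
  ext ⟨x, y⟩ ⟨x', y'⟩
  by_cases h : y = y'
  · subst h
    rcases z3_cases y with rfl | rfl | rfl <;> simp [b3_apply, mono_apply]
  · simp [b3_apply, mono_apply, h]

theorem b3_comm (g : T → Matrix T T F) (f : T → T) (d : T → F) :
    blockDiagonal g * mono (fun i : T × T => (i.1, f i.2)) (fun i => d i.2) =
      mono (fun i => (i.1, f i.2)) (fun i => d i.2) * blockDiagonal fun y => g (f y) := by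
  ext ⟨x, y⟩ ⟨x', y'⟩
  rw [mul_mono, mul_apply, Finset.sum_eq_single (x, y') (fun ⟨a, b⟩ _ h => by
    by_cases e : b = y' <;> simp_all [blockDiagonal_apply, mono_apply, eq_comm]) (by simp)]
  by_cases h : y = f y' <;> simp [blockDiagonal_apply, mono_apply, h, mul_comm]

theorem W_left (u : T × T) :
    (S2 hw).W (u, 0) = b3 ((S1 hw).W u) ((S1 hw).W u) ((S1 hw).W u) := by
  rw [S1_W, b3_mono]
  refine mono_congr (fun i => ?_) fun i => ?_ <;> rcases z3_cases i.2 with h | h | h <;>
    simp [sh2, ex2, ex1, h]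

theorem W_right (v : T × T) : (S2 hw).W (0, v) =
    mono (fun i => (i.1, i.2 + v.1)) fun i => chi w (ex1 v i.2) :=
  mono_congr (by simp [sh2]) (by simp [ex2, ex1])

theorem W_split (u v : T × T) : (S2 hw).W (u, v) = (S2 hw).W (u, 0) * (S2 hw).W (0, v) := by
  simp [WS.mul, P2_B, B1]

theorem b3_W (g : Matrix T T F) (v : T × T) :
    b3 g g g * (S2 hw).W (0, v) = (S2 hw).W (0, v) * b3 g g g := by
  have : tri3 g g g = fun _ => g := funext (forall_T.2 ⟨rfl, rfl, rfl⟩)
  rw [W_right, b3, this]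
  exact b3_comm _ (fun y => y + v.1) fun y => chi w (ex1 v y)

theorem rot (a b c : Matrix T T F) :
    (S2 hw).W (0, (1, 0)) * b3 a b c = b3 c a b * (S2 hw).W (0, (1, 0)) := by
  rw [W_right, b3, b3, b3_comm _ (fun y => y + 1) fun y => chi w (ex1 (1, 0) y)]
  exact congrArg _ (congrArg _ (funext (forall_T.2 ⟨rfl, rfl, rfl⟩)))

theorem ng_b3 {g : Matrix T T F} (h : (S1 hw).NG.In g) : (S2 hw).NG.In (b3 g g g) := by
  obtain ⟨⟨g', e⟩, h⟩ := h
  refine ⟨⟨b3 g' g' g', by rw [b3_mul, e, b3_one]⟩, fun ⟨u, v⟩ => ?_⟩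
  obtain ⟨u', c, h1⟩ := h u
  refine ⟨(u', v), c, ?_⟩
  rw [W_split, W_split hw u', ← mul_assoc, mul_assoc ((S2 hw).W (u', 0)), ← b3_W, W_left, W_left,
    b3_mul, h1, ← mul_assoc, b3_mul, ← smul_b3, smul_mul_assoc]

theorem ng_gate (u : T × T) : (S2 hw).NG.In (b3 1 ((S1 hw).W u) ((S1 hw).W (-u))) := by
  have := ng_mono (S2_W hw) (f := fun i => (i.1 + i.2 * u.1, i.2)) (q := fun i => ex1 (i.2 • u) i.1)
    (fun v => ((v.1.1 + v.2.1 * u.1, v.1.2 + v.2.1 * u.2),
      (v.2.1, v.2.2 + v.1.1 * u.2 - v.1.2 * u.1))) (by revert u; decide)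
    (fun v i => by simp [sh2]; ring)
    fun v => ⟨2 * v.1.1 * v.1.2 + 2 * v.2.1 * v.2.2 + v.2.1 * u.2 * v.1.1 +
      2 * v.2.1 ^ 2 * u.1 * u.2 - 2 * (v.1.1 + v.2.1 * u.1) * (v.1.2 + v.2.1 * u.2) -
      2 * v.2.1 * (v.2.2 + v.1.1 * u.2 - v.1.2 * u.1), fun i => by
        simp only [ex1, ex2, sh2, Prod.smul_fst, Prod.smul_snd, smul_eq_mul]; grind⟩
  rw [← (S1 hw).zero, S1_W, S1_W, S1_W, b3_mono]
  convert this using 1
  refine mono_congr (fun i => ?_) fun i => ?_ <;> rcases z3_cases i.2 with h | h | h <;> simp [h]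

theorem quad_T : ∀ (q : T → T) (c : T), ∃ e e' : T, ∀ y, q (y + c) = e * y + e' + q y := by
  decide +kernel

theorem ng_sc {a b : F} (ha : a ^ 3 = 1) (hb : b ^ 3 = 1) :
    (S2 hw).NG.In (b3 1 (a • 1) (b • 1)) := by
  obtain ⟨a, rfl⟩ := hw.exists_chi ha
  obtain ⟨b, rfl⟩ := hw.exists_chi hb
  choose e e' he using quad_T (tri3 0 a b)
  have := ng_mono (S2_W hw) (f := fun i => i) (q := fun i => tri3 0 a b i.2)
    (fun v => (v.1, (v.2.1, v.2.2 + e v.2.1))) (fun _ _ h => h) (fun v i => rfl)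
    fun v => ⟨e' v.2.1 - 2 * v.2.1 * e v.2.1, fun i => by simp only [ex1, ex2, sh2, he]; grind⟩
  rw [← mono_one, smul_mono, smul_mono, b3_mono]
  convert this using 1
  refine mono_congr (fun i => ?_) fun i => ?_ <;> rcases z3_cases i.2 with h | h | h <;>
    simp [h, Prod.ext_iff]

/-- affine maps -/
def aff (i j x : T × T) : T × T :=
  (i.1 + (x.1 - 1) * (j.1 - i.1) - (x.2 + 1) * (j.2 - i.2),
    i.2 + (x.1 - 1) * (j.2 - i.2) + (x.2 + 1) * (j.1 - i.1))

theorem aff_inj : ∀ {i j : T × T}, i ≠ j → Function.Injective (aff i j) := by decide +kernel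

theorem aff_one : ∀ i j : T × T, aff i j (1, -1) = i := by decide +kernel

theorem aff_neg : ∀ i j : T × T, aff i j (-1, -1) = j := by decide +kernel

theorem ng_aff {i j : T × T} (h : i ≠ j) : (S2 hw).NG.In (mono (aff i j) fun _ => 1) := by
  obtain ⟨D, hD⟩ : ∃ D, D * ((j.1 - i.1) ^ 2 + (j.2 - i.2) ^ 2) = 1 := by revert i j; decide +kernel
  generalize hd : j.1 - i.1 = d at hD
  generalize he : j.2 - i.2 = e at hD
  have := ng_mono (S2_W hw) (f := aff i j) (q := fun _ => 0)
    (fun v => ((v.1.1 * d - v.2.1 * e, D * (v.1.2 * d - v.2.2 * e)),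
      (v.1.1 * e + v.2.1 * d, D * (v.1.2 * e + v.2.2 * d)))) (aff_inj h)
    (fun v x => by simp [sh2, aff, hd, he]; constructor <;> ring)
    fun v => ⟨-(D * (v.1.2 * d - v.2.2 * e) * (i.1 - d - e) + D * (v.1.2 * e + v.2.2 * d) *
      (i.2 - e + d)), fun x => by simp only [ex1, ex2, aff, hd, he]; grind⟩
  simpa using this

end Cfsg.Agent.H7.C6
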