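import Cfsg.Agent.H7.C6I

/-!
The centralisers of the elements of the extraspecial group in an overgroup of its normaliser.
-/

set_option autoImplicit false
set_option linter.unusedSectionVars false

namespace Cfsg.Agent.H7.C6

open Matrix H7.Polar

variable {F : Type*} [Field F]

/-- admissible diagonal entries -/
def Lam (σ : F →+* F) (uni : Prop) (a : F) : Prop := a ≠ 0 ∧ (uni → σ a * a = 1)

/-- diagonal matrices supported at two points -/
def dg2 {n : Type} [DecidableEq n] (i j : n) (a : F) : Matrix n n F :=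
  mono (fun x => x) fun x => if x = i then a else if x = j then a⁻¹ else 1

/-- contains generators of the monomial group -/
def Mon2 (σ : F →+* F) (uni : Prop) {n : Type} [Fintype n] [DecidableEq n] (X : MG n F) : Prop :=
  ∀ i j, i ≠ j → (∀ a, Lam σ uni a → X.In (dg2 i j a)) ∧ ∃ d, X.In (mono (Equiv.swap i j) d)

/-- diagonal matrices of size three -/
def dg3 (a b c : F) : Matrix T T F := mono (fun y => y) (tri3 a b c)

theorem dg3_mul (a b c a' b' c' : F) :
    dg3 a b c * dg3 a' b' c' = dg3 (a * a') (b * b') (c * c') := by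
  rw [dg3, dg3, mono_mul]
  exact mono_congr (fun _ => rfl) (forall_T.2 ⟨rfl, rfl, rfl⟩)

theorem dg3_self (a : F) : dg3 a a a = a • 1 := by
  rw [← mono_one, smul_mono]
  exact mono_congr (fun _ => rfl) (forall_T.2 (by simp))

theorem dg3_one : dg3 (1 : F) 1 1 = 1 := by simp [dg3_self]

theorem b3_dg3 (a b c a' b' c' a'' b'' c'' : F) :
    b3 (dg3 a b c) (dg3 a' b' c') (dg3 a'' b'' c'') = mono (fun x => x)
      fun x => tri3 (tri3 a b c) (tri3 a' b' c') (tri3 a'' b'' c'') x.2 x.1 := by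
  rw [dg3, dg3, dg3, b3_mono]
  exact mono_congr (by decide) fun _ => rfl

theorem forall_TT {p : T × T → Prop} : (∀ x, p x) ↔ (p (0, 0) ∧ p (0, 1) ∧ p (0, -1)) ∧
    (p (1, 0) ∧ p (1, 1) ∧ p (1, -1)) ∧ p (-1, 0) ∧ p (-1, 1) ∧ p (-1, -1) := by
  simp only [Prod.forall, forall_T]

theorem oo : (1 + 1 : T) = -1 := rfl

/-- monomial matrices inducing `y ↦ -y` -/
def sw (a b c : F) : Matrix T T F := mono (fun y => -y) (tri3 a b c)

theorem sw_mul (a b c a' b' c' : F) :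
    sw a b c * sw a' b' c' = dg3 (a * a') (c * b') (b * c') := by
  rw [sw, sw, mono_mul]
  exact mono_congr (by simp) (forall_T.2 ⟨rfl, rfl, rfl⟩)

theorem det_T (M : Matrix T T F) : M.det = M 0 0 * M 1 1 * M (-1) (-1) -
    M 0 0 * M 1 (-1) * M (-1) 1 - M 0 1 * M 1 0 * M (-1) (-1) + M 0 1 * M 1 (-1) * M (-1) 0 +
    M 0 (-1) * M 1 0 * M (-1) 1 - M 0 (-1) * M 1 1 * M (-1) 0 := det_fin_three M

theorem b3_unit {a b c : Matrix T T F} (h : ∃ B, b3 a b c * B = 1) :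
    (∃ a', a * a' = 1) ∧ (∃ b', b * b' = 1) ∧ ∃ c', c * c' = 1 := by
  obtain ⟨B, h⟩ := h
  have := left_ne_zero_of_mul_eq_one ((det_mul _ _).symm.trans ((congrArg det h).trans det_one))
  rw [b3, det_blockDiagonal, Finset.prod_ne_zero_iff] at this
  exact (forall_T (p := fun y => ∃ a', tri3 a b c y * a' = 1)).1 fun y =>
    ⟨_, mul_nonsing_inv _ (this y (Finset.mem_univ _)).isUnit⟩

/-- blocks -/
def blk (g : Matrix (T × T) (T × T) F) (a b : T) : Matrix T T F := of fun i j => g (i, a) (j, b)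

theorem diag_mul {n m : Type} [Fintype n] [DecidableEq n] (d : n → F) (M : Matrix n m F) (i : n)
    (j : m) : (mono (fun x => x) d * M) i j = d i * M i j := by
  simp [mul_apply, mono_apply]

variable {w : F} (hw : Om w)

theorem eq_b3 {g : Matrix (T × T) (T × T) F}
    (h : g * (S2 hw).W (0, (0, 1)) = (S2 hw).W (0, (0, 1)) * g) :
    g = b3 (blk g 0 0) (blk g 1 1) (blk g (-1) (-1)) := by
  have e : (S2 hw).W (0, (0, 1)) = mono (fun x => x) fun x => chi w x.2 :=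
    mono_congr (by simp [sh2]) (by simp [ex2, ex1])
  ext ⟨x, y⟩ ⟨x', y'⟩
  have := congrFun (congrFun h (x, y)) (x', y')
  rw [e, mul_mono, diag_mul, mul_comm, mul_eq_mul_right_iff] at this
  by_cases h : y = y'
  · subst h
    rcases z3_cases y with rfl | rfl | rfl <;> simp [b3_apply, blk]
  · simp [b3_apply, h, this.resolve_left fun e => h (hw.chi_inj e).symm]

theorem nor_diag {a b c : F} (ha : a ≠ 0) (hb : b ≠ 0) (hc : c ≠ 0)
    (h : (S1 hw).Nor (dg3 a b c)) : b ^ 3 = c ^ 3 := by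
  obtain ⟨v, t, e⟩ := h (1, 0)
  rw [S1_W, S1_W, dg3, mono_mul, mono_mul, smul_mono] at e
  have e0 := (mono_inj e (j := 0) (by simp [ex1, hb])).2
  have e1 := (mono_inj e (j := 1) (by simp [ex1, hc, oo])).2
  have e2 := (mono_inj e (j := -1) (by simp [ex1, ha])).2
  have e3 : chi w (ex1 v 0) * chi w (ex1 v 1) * chi w (ex1 v (-1)) = 1 := by
    rw [← hw.chi_add, ← hw.chi_add, show ex1 v 0 + ex1 v 1 + ex1 v (-1) = 0 by
      simp only [ex1]; grind, chi_zero]
  have e4 := hw.chi_cube (ex1 v 1)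
  simp only [zero_add, oo, neg_add_cancel, tri3_zero, tri3_one,
    tri3_neg, show ∀ y, ex1 (1, 0) y = 0 by simp [ex1], chi_zero, mul_one] at e0 e1 e2
  have e5 : t ^ 3 = 1 := mul_right_cancel₀ (mul_ne_zero ha (mul_ne_zero hb hc)) (by grind)
  grind

theorem h_eq : (S1 hw).h (0, 1) = dg3 w 1 1 := by
  have h1 := hw.eq
  have h3 := hw.three
  ext i j
  rcases z3_cases i with rfl | rfl | rfl <;> rcases z3_cases j with rfl | rfl | rfl <;>
    simp (decide := true) [WS.h, WS.pr, S1_W, mono_apply, dg3, ex1, one_apply] <;>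
    field_simp <;> grind

theorem h_cube_eq : ((S1 hw).h (0, 1) * (S1 hw).h (1, 0)) ^ 3 = sw (-1) (-1) (-1) := by
  have h1 := hw.eq
  have h3 := hw.three
  have e : (S1 hw).h (0, 1) * (S1 hw).h (1, 0) = of fun i j =>
      tri3 w 1 1 i * ((if i = j then 1 else 0) + (w - 1) / 3) := by
    ext i j
    rw [h_eq, dg3, diag_mul]
    rcases z3_cases i with rfl | rfl | rfl <;> rcases z3_cases j with rfl | rfl | rfl <;>
      simp (decide := true) [WS.h, WS.pr, S1_W, mono_apply, ex1, one_apply] <;>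
      field_simp <;> grind
  rw [e, pow_three]
  ext i j
  rcases z3_cases i with rfl | rfl | rfl <;> rcases z3_cases j with rfl | rfl | rfl <;>
    simp (decide := true) only [mul_apply, sum_T, of_apply, sw, mono_apply, tri3_zero, tri3_one,
      tri3_neg, if_true, if_false, neg_zero, neg_neg] <;>
    field_simp <;> grind

section
variable {hw} (p : ℕ) [Fact p.Prime] [CharP F p] [Finite F] {uni : Prop}
  (hl : ¬ uni → ∀ x : F, x ^ p = x)
include hl

theorem tl3T {X : MG T F} (hX : (S1 hw).Big X) (hF : ∀ g, X.In g → Fx (frobenius F p) uni g) :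
    (∀ g, X.In g → (S1 hw).Nor g) ∨ (p ≠ 2 ∧ ∀ s, E4 (frobenius F p) uni s → X.In s) :=
  tl3 p hl (S1 hw) hX hF

theorem d3T {Y L : MG T F} (hY : (S1 hw).Big Y)
    (hF : ∀ g, Y.In g → Fx (frobenius F p) uni g) (hL : ∀ g, L.In g → Y.In g)
    (hn : ∀ y x, Y.In y → L.In x → ∃ x', L.In x' ∧ y * x = x' * y) {δ : Matrix T T F} (h1 : L.In δ)
    (h2 : ¬ (S1 hw).Nor δ) {s : Matrix T T F} (hs : E4 (frobenius F p) uni s) :
    ∃ c : F, c ≠ 0 ∧ L.In (c • s) := d3 p hl (S1 hw) P1_exp hY hF hL hn h1 h2 hs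

end

variable (X : MG (T × T) F)

/-- the projection onto a block -/
def YG : MG T F where
  In g := ∃ a b, X.In (b3 a b g)
  one := ⟨1, 1, by rw [b3_one]; exact X.one⟩
  mul := fun ⟨_, _, h⟩ ⟨_, _, h'⟩ => ⟨_, _, by simpa only [b3_mul] using X.mul h h'⟩
  inv := fun ⟨a, b, h⟩ => by
    obtain ⟨⟨a', h1⟩, ⟨b', h2⟩, c', h3⟩ := b3_unit (MG.unit h)
    exact ⟨c', ⟨a', b', MG.inv' h (by rw [b3_mul, h1, h2, h3, b3_one])⟩, h3⟩

/-- the elements supported on a block -/
def LG : MG T F where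
  In g := X.In (b3 1 1 g)
  one := by rw [b3_one]; exact X.one
  mul h h' := by simpa [b3_mul] using X.mul h h'
  inv h := by
    obtain ⟨-, -, c', h3⟩ := b3_unit (MG.unit h)
    exact ⟨c', MG.inv' h (by rw [b3_mul, h3, mul_one, b3_one]), h3⟩

variable {X}

theorem LG_normal (y x : Matrix T T F) (hy : (YG X).In y) (hx : (LG X).In x) :
    ∃ x', (LG X).In x' ∧ y * x = x' * y := by
  obtain ⟨y', e⟩ := MG.unit hy
  obtain ⟨a, b, hy⟩ := hy
  have : y * x = y * x * y' * y := by rw [mul_assoc _ y', mul_eq_one_comm.1 e, mul_one]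
  exact ⟨y * x * y', MG.of_conj (X := X) hy hx (by simp only [b3_mul, ← this, mul_one, one_mul]), this⟩

theorem LG_conj {y x x' : Matrix T T F} (hy : (YG X).In y) (hx : (LG X).In x)
    (e : y * x = x' * y) : (LG X).In x' := by
  obtain ⟨x'', h, e'⟩ := LG_normal y x hy hx
  obtain ⟨y', e''⟩ := MG.unit hy
  rwa [cancel_r e'' (e.symm.trans e')]

variable {hw} (hX : (S2 hw).Big X)
include hX

theorem in_of_ng {g : Matrix (T × T) (T × T) F} (h : (S2 hw).NG.In g) : X.In g :=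
  let ⟨⟨_, e⟩, h⟩ := h; hX.mem e h

theorem in_rot {a b c : Matrix T T F} (h : X.In (b3 a b c)) : X.In (b3 c a b) :=
  MG.of_conj (hX.W _) h (rot hw a b c)

theorem YG_of_ng {g : Matrix T T F} (h : (S1 hw).NG.In g) : (YG X).In g :=
  ⟨g, g, in_of_ng hX (ng_b3 hw h)⟩

theorem big_YG : (S1 hw).Big (YG X) :=
  ⟨fun c hc => YG_of_ng hX ((S1 hw).big_NG.sc c hc), fun u => YG_of_ng hX ((S1 hw).big_NG.W u),
    fun u => YG_of_ng hX ((S1 hw).big_NG.h u)⟩

theorem in_aff {i j : T × T} (h : i ≠ j) {f f' : T × T → T × T} {d d' : T × T → F}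
    (h1 : ∀ x, aff i j (f x) = f' (aff i j x)) (h2 : ∀ x, d x = d' (aff i j x)) :
    X.In (mono f d) ↔ X.In (mono f' d') := by
  have e : mono (aff i j) (fun _ => 1) * mono f d = mono f' d' * mono (aff i j) fun _ => 1 := by
    rw [mono_mul, mono_mul]
    exact mono_congr h1 (by simpa using h2)
  have hg := in_of_ng hX (ng_aff hw h)
  exact ⟨fun h => MG.of_conj hg h e, fun h => MG.of_mul_left hg (e ▸ X.mul h hg)⟩

theorem in_dg2 {i j : T × T} (h : i ≠ j) {a : F} (ha : (LG X).In (dg3 1 a a⁻¹)) :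
    X.In (dg2 i j a) := by
  change X.In _ at ha
  rw [← dg3_one, b3_dg3] at ha
  refine (in_aff hX h (f := fun x => x) (fun _ => rfl) fun x => ?_).1 ha
  have h1 : aff i j x = i ↔ x = (1, -1) := by rw [← (aff_inj h).eq_iff (a := x), aff_one]
  have h2 : aff i j x = j ↔ x = (-1, -1) := by rw [← (aff_inj h).eq_iff (a := x), aff_neg]
  simp only [h1, h2]
  clear h1 h2
  revert x
  exact forall_TT.2 (by simp (decide := true))

theorem mon2_of {σ : F →+* F} {uni : Prop} (h1 : ∀ a, Lam σ uni a → (LG X).In (dg3 1 a a⁻¹))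
    {a b c : F} (h2 : (LG X).In (sw a b c)) : Mon2 σ uni X := fun i j h => by
  refine ⟨fun a ha => in_dg2 hX h (h1 a ha), ?_⟩
  change X.In _ at h2
  rw [← mono_one, sw, b3_mono] at h2
  obtain ⟨g, hg⟩ := (aff_inj h).hasLeftInverse
  refine ⟨_ ∘ g, (in_aff hX h (fun x => ?_) fun x => by rw [Function.comp, hg]).1 h2⟩
  have := (aff_inj h).swap_apply (1, -1) (-1, -1) x
  rw [aff_one, aff_neg] at this
  rw [this]
  congr 1
  clear this
  revert x
  decide

section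
variable (hY : ∀ g, (YG X).In g → (S1 hw).Nor g)
include hY

theorem cube_eq {d : T × T → F} (h : X.In (mono (fun x => x) d)) (i j : T × T) :
    d i ^ 3 = d j ^ 3 := by
  by_cases e : i = j
  · rw [e]
  have h0 : ∀ x, d x ≠ 0 := by
    obtain ⟨B, e⟩ := MG.unit h
    have := left_ne_zero_of_mul_eq_one ((det_mul _ _).symm.trans ((congrArg det e).trans det_one))
    simpa [det_mono_id, Finset.prod_ne_zero_iff] using this
  have h1 := (in_aff hX e (f := fun x => x) (fun _ => rfl) fun _ => rfl).2 h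
  let D := fun y => dg3 (d (aff i j (0, y))) (d (aff i j (1, y))) (d (aff i j (-1, y)))
  have := nor_diag hw (h0 _) (h0 _) (h0 _) (hY (D (-1)) ⟨D 0, D 1, by
    rw [b3_dg3]
    convert h1 using 2
    exact funext (forall_TT.2 (by simp))⟩)
  rwa [aff_one, aff_neg] at this

theorem ng_of_sc {a b : F} (h : X.In (b3 1 (a • 1) (b • 1))) :
    (S2 hw).NG.In (b3 1 (a • 1) (b • 1)) := by
  rw [← dg3_self, ← dg3_self, ← dg3_one, b3_dg3] at h
  exact ng_sc hw (by simpa using cube_eq hX hY h (0, 1) (0, 0))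
    (by simpa using cube_eq hX hY h (0, -1) (0, 0))

theorem LG_W {s : T × T} (hs : s ≠ 0) {a b : F} (h : X.In (b3 1 (a • 1) (b • (S1 hw).W s)))
    (u : T × T) : (LG X).In ((S1 hw).W u) := by
  have key : ∀ {s u : T × T} {a b : F}, s ≠ 0 → u ≠ 0 → X.In (b3 1 (a • 1) (b • (S1 hw).W s)) →
      X.In (b3 1 (a • 1) (b • (S1 hw).W u)) := fun {s u a b} hs hu h => by
    obtain ⟨σ, hσ, rfl⟩ := (S1 hw).s3.trans hs hu
    obtain ⟨g, h1, h2⟩ := (S1 hw).exists_ex (S1 hw).big_NG.h hσ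
    exact MG.of_conj (in_of_ng hX (ng_b3 hw h1)) h (by simp [b3_mul, h2 s])
  by_cases hu : u = 0
  · rw [hu, WS.zero]; exact (LG X).one
  have h1 := key hs (u := (0, 1)) (by decide) h
  have h2 := h1
  have e : b • (S1 hw).W (0, 1) = dg3 b (b * w) (b * w ^ 2) := by
    rw [S1_W, smul_mono]
    exact mono_congr (by simp) (forall_T.2 (by simp [ex1]))
  rw [e, ← dg3_self, ← dg3_one, b3_dg3] at h2
  have h3 := in_of_ng hX (ng_sc hw (a := a) (b := b)
    (by simpa using cube_eq hX hY h2 (0, 1) (0, 0)) (by simpa using cube_eq hX hY h2 (0, -1) (0, 0)))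
  have h4 : X.In (b3 1 1 ((S1 hw).W (0, 1))) := MG.of_mul_left h3 (by simpa [b3_mul] using h1)
  have := key (a := 1) (b := 1) (s := (0, 1)) (by decide) hu (by simpa using h4)
  rwa [one_smul, one_smul] at this

theorem LG_sw (h : ∀ u, (LG X).In ((S1 hw).W u)) :
    (LG X).In (sw (-1) (-1) (-1)) ∧ (2 : F) = 0 := by
  have e : w⁻¹ = w ^ 2 := inv_eq_of_mul_eq_one_right (by rw [← hw.cube]; ring)
  have h1 : (LG X).In (dg3 1 w w⁻¹) := by
    convert h (0, 1) using 1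
    exact mono_congr (by simp) (forall_T.2 (by simp [ex1, e]))
  have h2 : X.In (b3 ((S1 hw).h (0, 1) ^ 2) 1 ((S1 hw).h (0, 1))) := by
    rw [h_eq, sq, dg3_mul, ← dg3_one, b3_dg3]
    convert in_dg2 hX (i := (0, -1)) (j := (0, 0)) (by decide) h1 using 1
    exact mono_congr (fun _ => rfl) (forall_TT.2 (by simp (decide := true) [e, sq]))
  have h3 : X.In (b3 1 ((S1 hw).h (0, 1) ^ 2) ((S1 hw).h (0, 1))) := by
    rw [h_eq, sq, dg3_mul, ← dg3_one, b3_dg3]
    convert in_dg2 hX (i := (0, -1)) (j := (0, 1)) (by decide) h1 using 1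
    exact mono_congr (fun _ => rfl) (forall_TT.2 (by simp (decide := true) [e, sq]))
  have h4 : X.In (b3 1 ((S1 hw).h (1, 0) ^ 2) ((S1 hw).h (1, 0))) := by
    obtain ⟨σ, hσ, e⟩ := (S1 hw).s3.trans (u := (0, 1)) (v := (1, 0)) (by decide) (by decide)
    obtain ⟨g, h1, h2⟩ := (S1 hw).exists_ex (S1 hw).big_NG.h hσ
    have := h2.h_conj (0, 1)
    rw [e] at this
    exact MG.of_conj (in_of_ng hX (ng_b3 hw h1)) h3 (by
      simp only [b3_mul, sq, ← mul_assoc, this, mul_one, one_mul]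
      rw [mul_assoc, this, mul_assoc])
  have h5 := MG.pow (X.mul h2 h4) 3
  have e6 : ∀ u, ((S1 hw).h u ^ 2) ^ 3 = 1 := fun u => by
    rw [← pow_mul, mul_comm, pow_mul, pow_three, WS.h_cube, one_pow]
  rw [b3_mul, b3_pow, mul_one, one_mul, e6, e6, h_cube_eq] at h5
  refine ⟨h5, ?_⟩
  rw [← mono_one, sw, b3_mono] at h5
  have h6 := (in_aff hX (i := (1, -1)) (j := (1, 0)) (by decide)
    (f' := Equiv.swap (1, -1) (1, 0)) (d' := fun x => if x.1 = 1 then -1 else 1) (by decide)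
    (forall_TT.2 (by simp (decide := true) [aff]))).1 h5
  have h7 := MG.pow (X.mul h5 h6) 3
  simp only [pow_three, mono_mul] at h7
  rw [mono_congr (g := fun x => x) (by decide) fun _ => rfl] at h7
  have := cube_eq hX hY h7 (0, -1) (0, 0)
  simp (decide := true) [Equiv.swap_apply_def] at this
  linear_combination -this

theorem sum_eq (hn : ∀ s (a b : F), X.In (b3 1 (a • 1) (b • (S1 hw).W s)) → s = 0) {r s t : T × T}
    {a b : F} (h : X.In (b3 ((S1 hw).W r) (a • (S1 hw).W s) (b • (S1 hw).W t))) :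
    r + s + t = 0 := by
  have h1 := X.mul (X.mul h (hX.W (-r, 0))) (in_of_ng hX (ng_gate hw (r - s)))
  simp only [W_left, b3_mul, WS.mul, smul_mul_assoc, smul_smul, mul_one, add_neg_cancel,
    WS.zero, map_neg, (S1 hw).s3.self, neg_zero, chi_zero, one_smul,
    show s + -r + (r - s) = 0 by abel] at h1
  have := hn _ _ _ h1
  rw [← this, ← sub_eq_zero, ← add_three r]
  abel

theorem nor_of_b3 (hn : ∀ s (a b : F), X.In (b3 1 (a • 1) (b • (S1 hw).W s)) → s = 0)
    {a b c : Matrix T T F} (h : X.In (b3 a b c)) : (S2 hw).NG.In (b3 a b c) := by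
  have key : ∀ {b c : Matrix T T F}, X.In (b3 1 b c) → (S2 hw).NG.In (b3 1 b c) := by
    intro b c h
    obtain ⟨-, ⟨b', hb⟩, c', hc⟩ := b3_unit (MG.unit h)
    obtain ⟨σ, -, h1⟩ := (hY b ⟨_, _, in_rot hX h⟩).exists_lf hb
    obtain ⟨τ, -, h2⟩ := (hY c ⟨_, _, h⟩).exists_lf hc
    have k : ∀ r s t, (r = 0 ∨ ∀ g, g * (S1 hw).W r = (S1 hw).W r * g → True) →
        X.In (b3 ((S1 hw).W r) ((S1 hw).W s) ((S1 hw).W t)) → r + σ s + τ t = 0 :=
      fun r s t _ h' => by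
        obtain ⟨x, hx⟩ := h1 s
        obtain ⟨y, hy⟩ := h2 t
        exact sum_eq hX hY hn (a := x) (b := y) (MG.of_conj h h' (by simp [b3_mul, hx, hy]))
    have k1 : ∀ v, σ v = v ∧ τ v = v := fun v => by
      have a1 := k v v v (Or.inr fun _ _ => trivial) (W_left hw v ▸ hX.W _)
      have a2 := k 0 v (-v) (Or.inl rfl) ((S1 hw).zero ▸ in_of_ng hX (ng_gate hw v))
      rw [map_neg, zero_add, add_neg_eq_zero] at a2
      rw [← a2, add_assoc, add_self_eq_neg, add_neg_eq_zero] at a1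
      exact ⟨a1.symm, a2.symm.trans a1.symm⟩
    obtain ⟨u, x, -, rfl⟩ := (S1 hw).eq_of_twist hb (h1.congr fun v => (k1 v).1)
    obtain ⟨v, y, -, rfl⟩ := (S1 hw).eq_of_twist hc (h2.congr fun v => (k1 v).2)
    have := sum_eq hX hY hn (r := 0) ((S1 hw).zero ▸ h)
    rw [zero_add] at this
    obtain rfl := eq_neg_of_add_eq_zero_right this
    have e : b3 1 (x • (S1 hw).W u) (y • (S1 hw).W (-u)) =
        b3 1 (x • 1) (y • 1) * b3 1 ((S1 hw).W u) ((S1 hw).W (-u)) := by simp [b3_mul]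
    rw [e] at h ⊢
    exact MG.mul _ (ng_of_sc hX hY (MG.of_mul_right (in_of_ng hX (ng_gate hw u)) h)) (ng_gate hw u)
  obtain ⟨⟨a', ha⟩, -⟩ := b3_unit (MG.unit h)
  have h1 := ng_b3 hw ⟨⟨a', ha⟩, hY a ⟨_, _, in_rot hX (in_rot hX h)⟩⟩
  have e : b3 a b c = b3 a a a * b3 1 (a' * b) (a' * c) := by simp [b3_mul, ← mul_assoc, ha]
  rw [e] at h ⊢
  exact MG.mul _ h1 (key (MG.of_mul_left (in_of_ng hX h1) h))

end

variable (p : ℕ) [Fact p.Prime] [CharP F p] [Finite F] {uni : Prop}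
  (hl : ¬ uni → ∀ x : F, x ^ p = x) (hF : ∀ g, X.In g → Fx (frobenius F p) uni g)
include hl hF

omit hX hl in
theorem fx_YG (g : Matrix T T F) (h : (YG X).In g) : Fx (frobenius F p) uni g := fun hu => by
  obtain ⟨a, b, h⟩ := h
  obtain ⟨μ, e⟩ := hF _ h hu
  rw [ad_b3, b3_mul, ← b3_one, smul_b3] at e
  exact ⟨μ, (b3_inj e).2.2⟩

omit hX hl hF in
theorem e4_sw {σ : F →+* F} {a : F} (h : Lam σ uni a) : E4 σ uni (sw 1 a (-a⁻¹)) := by
  refine ⟨by simp (decide := true) [det_T, sw, mono_apply, h.1], ?_, fun hu => ?_⟩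
  · rw [show 4 = 2 * 2 from rfl, pow_mul]
    simp [sq, sw_mul, dg3_mul, h.1, dg3_one]
  · rw [sw, ad_mono _ neg_injective]
    exact mono_eq_one (fun _ => rfl) (forall_T.2 (by simp [h.2 hu, ← mul_inv]))

omit hX hl hF in
theorem e4_dg {σ : F →+* F} : E4 σ uni (dg3 (-1 : F) (-1) 1) ∧ E4 σ uni (dg3 (1 : F) (-1) (-1)) := by
  refine ⟨⟨?_, ?_, fun hu => ?_⟩, ?_, ?_, fun hu => ?_⟩
  all_goals first
  | rw [dg3, ad_mono _ fun _ _ h => h]; exact mono_eq_one (fun _ => rfl) (forall_T.2 (by simp))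
  | simp (decide := true) [det_T, dg3, mono_apply]; done
  | rw [show 4 = 2 * 2 from rfl, pow_mul]; simp [sq, dg3_mul, dg3_one]

theorem mon2_of_not (h : ¬ ∀ g, (YG X).In g → (S1 hw).Nor g) : Mon2 (frobenius F p) uni X := by
  obtain ⟨hp, hE⟩ := (tl3T p hl (big_YG hX) (fx_YG p hF)).resolve_left h
  have two := H6.M3.two_ne (k := F) hp
  have e : ∀ a b c : F, (S1 hw).W (1, 0) * dg3 a b c = dg3 c a b * (S1 hw).W (1, 0) :=
    fun a b c => by
      rw [S1_W, dg3, dg3, mono_mul, mono_mul]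
      exact mono_congr (fun _ => rfl) (forall_T.2 (by simp [mul_comm, oo]))
  have g1 := in_of_ng hX (ng_gate hw (-(1, 0)))
  have g2 := in_rot hX (in_of_ng hX (ng_gate hw (1, 0)))
  rw [neg_neg] at g1
  have hδ : (LG X).In (dg3 1 (-1) (-1)) := by
    obtain ⟨a, b, h1⟩ := hE _ e4_dg.1
    obtain ⟨⟨a', ha⟩, ⟨b', hb⟩, -⟩ := b3_unit (MG.unit h1)
    have h2 : X.In (b3 1 (b * ((S1 hw).W (-(1, 0)) * b' * (S1 hw).W (1, 0))) (dg3 (-1) 1 (-1))) := by
      have := X.mul h1 (MG.of_conj g1 (MG.inv' h1 (B := b3 a' b' (dg3 (-1) (-1) 1))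
        (by simp [b3_mul, ha, hb, dg3_mul, dg3_one, b3_one]))
        (B := b3 a' ((S1 hw).W (-(1, 0)) * b' * (S1 hw).W (1, 0)) (dg3 1 (-1) (-1)))
        (by simp only [b3_mul, e, mul_assoc, WS.mul_neg, mul_one, one_mul]))
      simpa [b3_mul, ha, dg3_mul] using this
    generalize b * ((S1 hw).W (-(1, 0)) * b' * (S1 hw).W (1, 0)) = b at h2
    obtain ⟨-, ⟨b', hb⟩, -⟩ := b3_unit (MG.unit h2)
    have := X.mul h2 (MG.of_conj g2 (MG.inv' h2 (B := b3 1 b' (dg3 (-1) 1 (-1)))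
      (by simp [b3_mul, hb, dg3_mul, dg3_one, b3_one]))
      (B := b3 1 b' (dg3 (-1) (-1) 1)) (by simp [b3_mul, e]))
    change X.In _
    simpa [b3_mul, hb, dg3_mul] using this
  have rt : ∀ {a b c : F}, (LG X).In (dg3 a b c) → (LG X).In (dg3 c a b) := fun h =>
    LG_conj ((big_YG hX).W _) h (e ..)
  have hL := fun s => d3T p hl (big_YG hX) (fx_YG p hF) (L := LG X)
    (fun g h => ⟨1, 1, h⟩) LG_normal (rt hδ) (s := s) fun h => two (by
      linear_combination nor_diag hw (by simp) (by simp) (by simp) h)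
  have l1 : Lam (frobenius F p) uni (-1) := ⟨by simp, by simp⟩
  obtain ⟨c, hc, h1⟩ := hL _ (e4_sw l1)
  refine mon2_of hX (a := c * 1) (b := c * -1) (c := c * -(-1)⁻¹) (fun a ha => ?_) (by
    convert h1 using 1
    rw [sw, sw, smul_mono]
    exact mono_congr (fun _ => rfl) (forall_T.2 ⟨rfl, rfl, rfl⟩))
  obtain ⟨d, hd, h2⟩ := hL _ (e4_sw ha)
  have h3 := (LG X).mul h1 h2
  have a0 := ha.1
  rw [smul_mul_smul_comm, sw_mul, ← one_mul (dg3 _ _ _), ← smul_mul_assoc, ← dg3_self,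
    dg3_mul] at h3
  have h4 := MG.inv' h3 (B := dg3 (c * d)⁻¹ (c * d * a)⁻¹ ((c * d)⁻¹ * a)) (by
    rw [dg3_mul, ← dg3_one]; congr 1 <;> field_simp)
  have h5 := LG_conj (hE _ (e4_sw l1)) h3 (x' := dg3 (c * d) (c * d * a⁻¹) (c * d * a)) (by
    rw [sw, dg3, dg3, mono_mul, mono_mul]
    exact mono_congr (fun _ => rfl) (forall_T.2 (by simp [mul_comm])))
  have h6 := (LG X).mul (rt (rt h3)) h4
  have h7 := (LG X).mul h5 h4
  rw [dg3_mul] at h6 h7
  convert (LG X).mul (rt (rt h6)) (rt h7) using 1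
  rw [dg3_mul]
  congr 1 <;> field_simp

theorem cent_or : Mon2 (frobenius F p) uni X ∨ ∀ u, u ≠ 0 → ∀ g, X.In g →
    (∃ c : F, g * (S2 hw).W u = c • ((S2 hw).W u * g)) → (S2 hw).Nor g := by
  by_cases hY : ∀ g, (YG X).In g → (S1 hw).Nor g
  swap
  · exact Or.inl (mon2_of_not hX p hl hF hY)
  by_cases hn : ∀ s (a b : F), X.In (b3 1 (a • 1) (b • (S1 hw).W s)) → s = 0
  swap
  · push Not at hn
    obtain ⟨s, a, b, h, hs⟩ := hn
    have h1 := LG_W hX hY hs h
    obtain ⟨h2, h3⟩ := LG_sw hX hY h1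
    have hp : p = 2 := by_contra fun hp => H6.M3.two_ne hp h3
    refine Or.inl (mon2_of hX (fun a ha => ?_) h2)
    have h4 := ha.2 (uni_of_two p hl hw hp)
    rw [frobenius_def, hp, ← pow_succ] at h4
    obtain ⟨k, rfl⟩ := hw.exists_chi h4
    convert h1 (0, k) using 1
    exact mono_congr (by simp) (forall_T.2 (by
      simp [ex1, inv_eq_of_mul_eq_one_right (hw.chi_mul_neg k)]))
  refine Or.inr fun u hu g hg ⟨c, h⟩ => ?_
  obtain ⟨g', e⟩ := MG.unit hg
  obtain ⟨k, rfl⟩ := hw.exists_chi (c := c) (by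
    have h3 : ∀ m, g * (S2 hw).W u ^ m = c ^ m • ((S2 hw).W u ^ m * g) := fun m => by
      induction m with
      | zero => simp
      | succ m ih => rw [pow_succ, ← mul_assoc, ih, smul_mul_assoc, mul_assoc, h, mul_smul_comm,
          smul_smul, ← mul_assoc, ← pow_succ]
    have := h3 3
    rw [WS.W_cube, ← (S2 hw).zero] at this
    exact (WS.tw_inj e this (c' := 1) (v' := 0) (by simp [WS.zero])).2)
  obtain ⟨v, hv⟩ := (S2 hw).s3.exists_one hu
  have h0 : (S2 hw).W ((-k) • v) * g * (S2 hw).W u = (S2 hw).W u * ((S2 hw).W ((-k) • v) * g) := by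
    rw [mul_assoc, h, mul_smul_comm, ← mul_assoc, ← mul_assoc, (S2 hw).comm u, smul_mul_assoc,
      (S2 hw).s3.skew u]
    simp [hv]
  obtain ⟨σ, hσ, rfl⟩ := (S2 hw).s3.trans (u := (0, (0, 1))) (by decide) hu
  obtain ⟨m, h1, h2⟩ := (S2 hw).exists_ex (S2 hw).big_NG.h hσ
  obtain ⟨m', h3, h4⟩ := MG.inv _ h1
  have h5 := (S2 hw).big_NG.W ((-k) • v)
  have h6 := X.mul (X.mul (in_of_ng hX h3) (X.mul (in_of_ng hX h5) hg)) (in_of_ng hX h1)
  have h7 := eq_b3 hw (g := m' * ((S2 hw).W ((-k) • v) * g) * m) (cancel_l h4 (by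
    rw [mul_assoc, ← mul_assoc m, ← mul_assoc m, h4, one_mul, h2, ← mul_assoc, h0, ← mul_assoc m,
      h2, mul_assoc _ m, ← mul_assoc m, ← mul_assoc m, h4, one_mul, mul_assoc]))
  have h8 := nor_of_b3 hX hY hn (h7 ▸ h6)
  rw [← h7] at h8
  exact (MG.of_mul_left h5 (MG.of_mul_left h3 (MG.of_mul_right h1 h8))).2

end Cfsg.Agent.H7.C6
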