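import Cfsg.Agent.H7.C6J
import Cfsg.Agent.H7.C6D

/-!
Overgroups of the normaliser of the extraspecial group of order `3 ^ 5` in dimension nine.
-/

set_option autoImplicit false
set_option linter.unusedSectionVars false

namespace Cfsg.Agent.H7.C6

open Matrix H7.Polar

variable {F : Type*} [Field F]

section
variable {n : Type} [Fintype n] [DecidableEq n] {A : Type*} [AddCommGroup A] [Module T A]
  [Fintype A] [DecidableEq A] {P : Polar T A} {w : F} {S : WS P w n} {X : MG n F}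

theorem WS.Lf.twist {d d' d'' : Matrix n n F} {σ : A → A} (h : S.Lf d σ) (h' : S.Lf d' σ)
    (e : d' * d'' = 1) : S.Lf (d'' * d) fun u => u := fun u => by
  obtain ⟨c, hc⟩ := h u
  obtain ⟨c', hc'⟩ := h' u
  refine ⟨c / c', cancel_l e ?_⟩
  rw [← mul_assoc, ← mul_assoc, e, one_mul, hc, mul_smul_comm, ← mul_assoc, hc', smul_mul_assoc,
    smul_smul, div_mul_cancel₀ _ (WS.tw_ne e hc'), mul_assoc, ← mul_assoc d', e, one_mul]

/-- the image of the extraspecial group -/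
noncomputable def WS.Big.wj (hX : S.Big X) (u : A) : X.Pj := (MG.L_all (hX.W u)).choose

theorem WS.Big.L_w (hX : S.Big X) (u : A) : X.L (hX.wj u) (S.W u) :=
  (MG.L_all (hX.W u)).choose_spec

theorem WS.Big.conj_iff (hX : S.Big X) {γ : X.Pj} {g : Matrix n n F} (h : X.L γ g) (u v : A) :
    γ * hX.wj u * γ⁻¹ = hX.wj v ↔ ∃ c : F, g * S.W u = c • (S.W v * g) :=
  h.conj_iff (hX.L_w u) (hX.L_w v)

/-- the abstract configuration -/
noncomputable def WS.Big.sys (hX : S.Big X) (h4 : Module.finrank T A = 4)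
    (hC : ∀ u, u ≠ 0 → ∀ g, X.In g → (∃ c : F, g * S.W u = c • (S.W u * g)) → S.Nor g) :
    Sys X.Pj P where
  w := hX.wj
  s3 := S.s3
  four := h4
  w_add u v := ((hX.L_w _).eq_iff ((hX.L_w u).mul (hX.L_w v))).2 ⟨_, S.mul u v⟩
  inj0 u h := by
    obtain ⟨c, hc⟩ := ((hX.L_w u).eq_iff MG.L_one).1 h
    exact (S.inj one_ne_zero (by rw [S.zero, one_smul, hc])).1.symm
  sp γ u v u' v' h h' := by
    obtain ⟨g, hg⟩ := MG.L_ex γ
    obtain ⟨g', e⟩ := MG.unit hg.1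
    obtain ⟨c, hc⟩ := (hX.conj_iff hg ..).1 h
    obtain ⟨d, hd⟩ := (hX.conj_iff hg ..).1 h'
    exact WS.tw_B e hc hd
  cent γ h := by
    obtain ⟨g, hg⟩ := MG.L_ex γ
    obtain ⟨g', e⟩ := MG.unit hg.1
    obtain ⟨u, c, -, rfl⟩ := S.eq_of_twist e fun v => (hX.conj_iff hg ..).1 (h v)
    exact ⟨u, (((hX.L_w u).eq_iff hg).2 ⟨c, rfl⟩).symm⟩
  surj σ hσ := by
    obtain ⟨g, h1, h2⟩ := S.exists_ex hX.h hσ
    obtain ⟨γ, h⟩ := MG.L_all h1
    exact ⟨γ, fun u => (hX.conj_iff h ..).2 (h2.lf u)⟩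
  M u hu γ h v := by
    obtain ⟨g, hg⟩ := MG.L_ex γ
    obtain ⟨v', h'⟩ := hC u hu g hg.1 ((hX.conj_iff hg ..).1 h) v
    exact ⟨v', (hX.conj_iff hg ..).2 h'⟩

end

/-- a non-central involution -/
def jj : Matrix (T × T) (T × T) F := mono (fun i => (i.1, -i.2)) fun _ => 1

/-- a lift of the central involution -/
def zz : Matrix (T × T) (T × T) F := mono (fun i => -i) fun _ => 1

theorem jj_sq : (jj : Matrix _ _ F) * jj = 1 := by
  rw [jj, mono_mul]; exact mono_eq_one (by simp) (by simp)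

theorem zz_sq : (zz : Matrix _ _ F) * zz = 1 := by
  rw [zz, mono_mul]; exact mono_eq_one (by simp) (by simp)

theorem trace_jj : (jj : Matrix _ _ F).trace = 3 := by
  simp (decide := true) only [trace, Fintype.sum_prod_type, sum_T (M := F), jj, mono_apply,
    diag_apply, if_true, if_false]
  norm_num

theorem not_conj {m m' : Matrix (T × T) (T × T) F} (e : m * m' = 1) (c : F) :
    m * jj ≠ c • (zz * m) := fun h => by
  let r : Fin 4 → T × T := ![(0, 1), (1, 0), (1, 1), (1, -1)]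
  let P : Matrix (T × T) T F := of fun i x => if i.1 = x then tri3 0 1 (-1) i.2 else 0
  let Q : Matrix T (T × T) F := of fun x i => if x = i.1 then tri3 0 (-1) 1 i.2 else 0
  have h1 : P * Q = jj - 1 := by
    ext ⟨x, y⟩ ⟨x', y'⟩
    by_cases h : x = x' <;> rcases z3_cases y with rfl | rfl | rfl <;>
      rcases z3_cases y' with rfl | rfl | rfl <;>
      simp (decide := true) [P, Q, mul_apply, jj, mono_apply, one_apply, h]
  have h2 : m * P * (Q * m') = c • zz - 1 := by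
    rw [Matrix.mul_assoc, ← Matrix.mul_assoc P, h1, ← mul_assoc, mul_sub, h, mul_one, sub_mul, e,
      smul_mul_assoc, mul_assoc, e, mul_one]
  have h3 : (m * P).submatrix r id * (Q * m').submatrix id r = -1 := by
    rw [← submatrix_mul _ _ _ _ _ Function.bijective_id, h2]
    ext i j
    fin_cases i <;> fin_cases j <;> simp (decide := true) [r, zz, mono_apply, one_apply]
  have := (rank_mul_le_left ((m * P).submatrix r id) ((Q * m').submatrix id r)).trans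
    (rank_le_card_width _)
  rw [h3, rank_of_isUnit (-1 : Matrix (Fin 4) (Fin 4) F) isUnit_one.neg] at this
  simp at this

/-- the action on the commutator space of the involution -/
def rho (x : Matrix (T × T) (T × T) F) : Matrix T T F := blk x 1 1 - blk x 1 (-1)

theorem blk_jj {x : Matrix (T × T) (T × T) F} (h : x * jj = jj * x) (a b : T) :
    blk x a (-b) = blk x (-a) b := by
  ext i j
  have := congrFun (congrFun h (i, a)) (j, b)
  rw [jj, mul_mono, mul_apply, Finset.sum_eq_single (i, -a)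
    (fun ⟨_, _⟩ _ h => by
      rw [mono_apply, if_neg, zero_mul]
      rintro ⟨⟩
      simp at h) (by simp)] at this
  simpa [mono_apply, blk] using this

theorem blk_mul (x y : Matrix (T × T) (T × T) F) (a b : T) :
    blk (x * y) a b = blk x a 0 * blk y 0 b + blk x a 1 * blk y 1 b + blk x a (-1) * blk y (-1) b := by
  ext i j
  simp only [blk, of_apply, mul_apply, Fintype.sum_prod_type_right, sum_T (M := F),
    Matrix.add_apply]

theorem rho_mul (x : Matrix (T × T) (T × T) F) {y : Matrix (T × T) (T × T) F}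
    (h : y * jj = jj * y) : rho (x * y) = rho x * rho y := by
  have h1 := blk_jj h 0 1
  have h2 := blk_jj h 1 1
  have h3 := blk_jj h 1 (-1)
  simp only [neg_zero, neg_neg] at h1 h3
  simp only [rho, blk_mul, h1, ← h2, ← h3]
  noncomm_ring

theorem rho_smul (c : F) (x : Matrix (T × T) (T × T) F) : rho (c • x) = c • rho x := by
  ext; simp [rho, blk, mul_sub]

theorem rho_b3 (g : Matrix T T F) : rho (b3 g g g) = g := by
  ext; simp (decide := true) [rho, blk, b3_apply]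

theorem rho_one : rho (1 : Matrix (T × T) (T × T) F) = 1 := by rw [← b3_one, rho_b3]

theorem rho_ad (σ : F →+* F) {x : Matrix (T × T) (T × T) F} (h : x * jj = jj * x) :
    rho (ad σ x) = ad σ (rho x) := by
  rw [rho, rho, blk_jj h]
  ext; simp [ad, blk]

theorem b3_jj (g : Matrix T T F) : b3 g g g * jj = jj * b3 g g g := by
  have : tri3 g g g = fun _ => g := funext (forall_T.2 ⟨rfl, rfl, rfl⟩)
  rw [b3, this]
  exact b3_comm _ (fun y => -y) fun _ => 1

theorem comm_mul {R : Type*} [Monoid R] {x y j : R} (h : x * j = j * x) (h' : y * j = j * y) :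
    x * y * j = j * (x * y) := by rw [mul_assoc, h', ← mul_assoc, h, mul_assoc]

theorem comm_inv {n : Type*} [Fintype n] [DecidableEq n] {x y j : Matrix n n F}
    (h : x * j = j * x) (e : x * y = 1) : y * j = j * y :=
  cancel_l e (by rw [← mul_assoc, e, ← mul_assoc, h, mul_assoc, e, one_mul, mul_one])

variable {w : F} (hw : Om w)

/-- the action of the involution -/
def tau : ((T × T) × (T × T)) ≃ₗ[T] ((T × T) × (T × T)) :=
  (LinearEquiv.refl T _).prodCongr (LinearEquiv.neg T)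

theorem ex_jj : (S2 hw).Ex jj tau := fun u => by
  rw [S2_W, S2_W, jj, mono_mul, mono_mul]
  exact mono_congr (by simp [sh2, tau, add_comm]) (by simp [ex2, ex1, tau])

theorem ex_zz : (S2 hw).Ex zz (LinearEquiv.neg T) := fun u => by
  rw [S2_W, S2_W, zz, mono_mul, mono_mul]
  exact mono_congr (by simp [sh2, add_comm]) (by simp [ex2, ex1])

theorem W_jj (u : T × T) : (S2 hw).W (u, 0) * jj = jj * (S2 hw).W (u, 0) := by
  rw [W_left, b3_jj]

theorem rho_W (u : T × T) : rho ((S2 hw).W (u, 0)) = (S1 hw).W u := by rw [W_left, rho_b3]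

theorem snd_eq_zero {v : (T × T) × (T × T)} (h : (S2 hw).W v * jj = jj * (S2 hw).W v) :
    v.2 = 0 := by
  rw [ex_jj] at h
  have := ((S2 hw).inj one_ne_zero (congrArg ((1 : F) • ·) (cancel_r jj_sq h))).1
  exact eq_zero_of_neg (congrArg Prod.snd this).symm

theorem nor_rho {x x' : Matrix (T × T) (T × T) F} (h : x * jj = jj * x) (e : x * x' = 1)
    (hn : (S2 hw).Nor x) (u : T × T) : ∃ v, ∃ c : F,
      x * (S2 hw).W (u, 0) = c • ((S2 hw).W (v, 0) * x) ∧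
      rho x * (S1 hw).W u = c • ((S1 hw).W v * rho x) := by
  obtain ⟨⟨v, v'⟩, c, h1⟩ := hn (u, 0)
  have h2 := comm_mul (comm_mul h (W_jj hw u)) (comm_inv h e)
  rw [h1, smul_mul_assoc, mul_assoc _ x, e, mul_one, smul_mul_assoc, mul_smul_comm] at h2
  obtain rfl : v' = 0 := snd_eq_zero hw (smul_right_injective _ (WS.tw_ne e h1) h2)
  refine ⟨v, c, h1, ?_⟩
  rw [← rho_W, ← rho_W, ← rho_mul _ (W_jj hw u), h1, rho_smul, rho_mul _ h]

theorem not_inv {n : Type} [Fintype n] [DecidableEq n] {π ρ g g' : Matrix n n F} {a b c : F}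
    (e : g * g' = 1) (h1 : π * π = π) (h2 : π * ρ = 0) (h3 : ρ ≠ 0) (h4 : π ≠ 0)
    (h : g * (1 + (a - 1) • π) = c • ((1 + (b - 1) • π) * g)) :
    (c = 1 ∨ c = a) ∧ (c * b = 1 ∨ c * b = a) ∧
      Fintype.card n + (a - 1) * π.trace = c * (Fintype.card n + (b - 1) * π.trace) := by
  have k : g * (1 + (a - 1) • π) * g' = c • (1 + (b - 1) • π) := by
    rw [h, smul_mul_assoc, mul_assoc, e, mul_one]
  have k1 : g * ((1 + (a - 1) • π - 1) * (1 + (a - 1) • π - a • 1)) * g' = 0 := by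
    have : (1 + (a - 1) • π - 1) * (1 + (a - 1) • π - a • 1) = 0 := by
      simp only [mul_add, add_mul, mul_sub, sub_mul, mul_one, one_mul, smul_mul_assoc,
        mul_smul_comm, h1]
      module
    rw [this, mul_zero, zero_mul]
  have k2 : (c • (1 + (b - 1) • π) - 1) * (c • (1 + (b - 1) • π) - a • 1) = 0 := by
    rw [← k1, ← k]
    generalize 1 + (a - 1) • π = H
    simp only [mul_sub, sub_mul, mul_one, one_mul, mul_smul_comm, smul_mul_assoc, e, mul_assoc]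
    rw [← mul_assoc g' g, mul_eq_one_comm.1 e, one_mul]
  have k3 : ((c - 1) * (c - a)) • ρ = 0 := by
    have := congrArg (· * ρ) k2
    simp only [mul_assoc, sub_mul, add_mul, smul_mul_assoc, one_mul, h2, zero_mul, smul_zero,
      add_zero, mul_sub, mul_smul_comm] at this
    rw [← this]; module
  have k4 : ((c * b - 1) * (c * b - a)) • π = 0 := by
    have := congrArg (· * π) k2
    simp only [mul_assoc, sub_mul, add_mul, smul_mul_assoc, one_mul, h1, zero_mul, smul_zero,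
      add_zero, mul_sub, mul_smul_comm, mul_add] at this
    rw [← this]; module
  simp only [smul_eq_zero, h3, h4, or_false, mul_eq_zero, sub_eq_zero] at k3 k4
  refine ⟨k3, k4, ?_⟩
  simpa [trace_conj e, mul_add c] using congrArg trace k

variable {hw} {X : MG (T × T) F}

/-- elements acting trivially on the first factor -/
def Rel (hw : Om w) (γ : X.Pj) (φ : T × T → T × T) : Prop :=
  ∃ d, X.L γ d ∧ d * jj = jj * d ∧ (∀ u, d * (S2 hw).W (u, 0) = (S2 hw).W (u, 0) * d) ∧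
    (S2 hw).Lf d fun u => (u.1, φ u.2)

theorem Rel.mul {γ γ' : X.Pj} {φ φ' : T × T → T × T} (h : Rel hw γ φ) (h' : Rel hw γ' φ') :
    Rel hw (γ * γ') fun x => φ (φ' x) := by
  obtain ⟨d, a1, a2, a3, a4⟩ := h
  obtain ⟨d', b1, b2, b3, b4⟩ := h'
  exact ⟨_, a1.mul b1, comm_mul a2 b2, fun u => comm_mul (a3 u) (b3 u), a4.mul b4⟩

theorem rel_one : Rel hw (1 : X.Pj) fun x => x :=
  ⟨1, MG.L_one, by simp, by simp, fun u => ⟨1, by simp⟩⟩

theorem Rel.pow {γ : X.Pj} {φ : T × T → T × T} (h : Rel hw γ φ) (m : ℕ) :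
    Rel hw (γ ^ m) φ^[m] := by
  induction m with
  | zero => rw [pow_zero]; exact rel_one
  | succ m ih => rw [pow_succ]; exact ih.mul h

theorem Rel.eq_iff {γ γ' : X.Pj} {φ φ' : T × T → T × T} (h : Rel hw γ φ) (h' : Rel hw γ' φ') :
    γ = γ' ↔ ∀ x, φ x = φ' x := by
  obtain ⟨d, a1, a2, a3, a4⟩ := h
  obtain ⟨d', b1, b2, b3, b4⟩ := h'
  obtain ⟨d1, e⟩ := MG.unit a1.1
  rw [a1.eq_iff b1]
  constructor
  · rintro ⟨c, rfl⟩ x
    obtain ⟨d2, e'⟩ := MG.unit b1.1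
    obtain ⟨s, hs⟩ := a4 (0, x)
    obtain ⟨t, ht⟩ := b4 (0, x)
    exact congrArg Prod.snd (WS.tw_inj e' (c := s) (by
      rw [smul_mul_assoc, hs, mul_smul_comm, smul_comm]) ht).1
  · intro h
    obtain ⟨d2, e'⟩ := MG.unit (X.mul (MG.inv' a1.1 e) b1.1)
    obtain ⟨⟨u, v⟩, c, hc, h1⟩ := (S2 hw).eq_of_twist e' ((b4.congr (by simp [h])).twist a4 e)
    have h2 := comm_mul (comm_inv a2 e) b2
    rw [h1, smul_mul_assoc, mul_smul_comm] at h2
    obtain rfl : v = 0 := snd_eq_zero hw (smul_right_injective _ hc h2)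
    have h3 : u = 0 := P1.nondeg _ fun x => by
      have := comm_mul (comm_inv (a3 x) e) (b3 x)
      rw [h1, smul_mul_assoc, mul_smul_comm, WS.mul, WS.mul, add_comm, smul_smul, smul_smul] at this
      have := hw.chi_inj (mul_left_cancel₀ hc ((S2 hw).inj (mul_ne_zero hc (hw.chi_ne _)) this).2)
      rw [(S2 hw).s3.skew] at this
      simpa [P2_B, P1_B, B1] using eq_zero_of_neg this
    subst h3
    exact ⟨c, cancel_l (mul_eq_one_comm.1 e) (by
      rw [h1, mul_smul_comm, mul_eq_one_comm.1 e, ← (S2 hw).zero]; rfl)⟩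

theorem rel_h {γ : X.Pj} {v : T × T} (h : X.L γ ((S2 hw).h (0, v))) : Rel hw γ (tv v 1) := by
  refine ⟨_, h, ?_, fun u => ?_, ((S2 hw).ex_h _).lf.congr fun u => ?_⟩
  · rw [(ex_jj hw).h_conj, ← WS.h_neg]; simp [tau]
  · simp [(S2 hw).ex_h _ (u, 0), P2_B, B1]
  · ext1 <;> simp [P2_B, tv, B1]

theorem exists_rel {γ : X.Pj} {d : Matrix (T × T) (T × T) F} (h : X.L γ d) (h1 : d * jj = jj * d)
    (h2 : rho d = 1) (h3 : (S2 hw).Nor d) : ∃ e f, B1 e f = 1 ∧ Rel hw γ (lin e f) := by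
  obtain ⟨d', e⟩ := MG.unit h.1
  have h4 : ∀ u, d * (S2 hw).W (u, 0) = (S2 hw).W (u, 0) * d := fun u => by
    obtain ⟨v, c, a1, a2⟩ := nor_rho hw h1 e h3 u
    rw [h2, one_mul, mul_one, ← one_smul F ((S1 hw).W u)] at a2
    obtain ⟨rfl, rfl⟩ := (S1 hw).inj one_ne_zero a2
    simpa using a1
  obtain ⟨σ, hσ, h5⟩ := h3.exists_lf e
  have h6 : ∀ u, σ (u, 0) = (u, 0) := fun u => by
    obtain ⟨c, hc⟩ := h5 (u, 0)
    exact (WS.tw_inj e hc (c' := 1) (by rw [h4, one_smul])).1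
  have h7 : ∀ v, (σ (0, v)).1 = 0 := fun v => P1.nondeg _ fun x => by
    have := Iso.B hσ (x, 0) (0, v)
    rw [h6] at this
    simpa [P2_B, P1_B, B1] using this
  refine ⟨(σ (0, (1, 0))).2, (σ (0, (0, 1))).2, ?_, d, h, h1, h4, h5.congr fun ⟨u, v⟩ => ?_⟩
  · simpa [P2_B, h7, B1] using Iso.B hσ (0, (1, 0)) (0, (0, 1))
  · rw [← eq_lin (φ := fun v => (σ (0, v)).2) fun x y => by rw [← Prod.snd_add, ← map_add]; simp,
      ← Prod.fst_add_snd (u, v), map_add, h6]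
    ext1 <;> simp [h7]

theorem Rel.tr {γ : X.Pj} {e f : T × T} (h : Rel hw γ (lin e f)) (h1 : B1 e f = 1) {k : ℕ}
    (h2 : γ ^ 3 ^ k = 1) : e.1 + f.2 = -1 := by
  have h3 := ((h.pow 12).eq_iff rel_one).2 (lin_12 e f h1)
  refine lin_tr e f h1 (((h.pow 3).eq_iff rel_one).1 ?_)
  have := pow_gcd_eq_one (a := γ ^ 3) (m := 3 ^ k) (n := 4) |>.2
    ⟨by rw [← pow_mul, mul_comm, pow_mul, h2, one_pow], by rw [← pow_mul, h3]⟩
  rwa [Nat.Coprime.pow_left k (by norm_num), pow_one] at this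

theorem tv_neg : ∀ v y, tv v (-1) y = tv v 1 (tv v 1 y) := by decide

theorem Rel.not_inv (hX : (S2 hw).Big X) {x γ : X.Pj} {e f : T × T} (h : Rel hw γ (lin e f))
    (h1 : B1 e f = 1) (h2 : e.1 + f.2 = -1) (h3 : γ * (x * γ * x⁻¹) = 1) : γ = 1 := by
  obtain ⟨v, ε, h4, h5⟩ := lin_tv e f h1 h2
  by_cases hv : v = 0
  · exact (h.eq_iff rel_one).2 (by simp [h5, hv, tv])
  obtain ⟨η, h6⟩ := MG.L_all (hX.h (0, v))
  have h7 := rel_h h6
  have h8 := h6.mul h6
  have hv' : ((0, v) : (T × T) × (T × T)) ≠ 0 := by simpa using hv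
  have t : ∀ l, ((S2 hw).pr (0, v) l).trace = 3 := fun l => by
    rw [WS.trace_pr _ hv', inv_mul_eq_iff_eq_mul₀ hw.three]; norm_num
  have t' : ∀ l, (S2 hw).pr (0, v) l ≠ 0 := fun l e => hw.three (by rw [← t l, e, trace_zero])
  have e3 : η * (η * η) = 1 := ((h6.mul h8).eq_iff MG.L_one).2 ⟨1, by simp [WS.h_cube]⟩
  rw [WS.h_mul_h] at h8
  obtain ⟨x, hx⟩ : ∃ x : X.Pj, x * η * x⁻¹ = η * η := by
    rcases h4 with rfl | rfl
    · obtain rfl := (h.eq_iff h7).2 h5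
      exact ⟨x, mul_left_cancel (h3.trans e3.symm)⟩
    · obtain rfl := (h.eq_iff (h7.mul h7)).2 (fun y => (h5 y).trans (tv_neg v y))
      refine ⟨x⁻¹, ?_⟩
      rw [← mul_assoc] at e3
      nth_rw 1 [← mul_left_cancel (h3.trans e3.symm)]
      group
  obtain ⟨g, hg⟩ := MG.L_ex x
  obtain ⟨g', e⟩ := MG.unit hg.1
  obtain ⟨c, hc⟩ := (hg.conj_iff h6 h8).1 hx
  obtain ⟨a1, a2, a3⟩ := C6.not_inv e (WS.pr_idem _ _ _) (ρ := (S2 hw).pr (0, v) 1)
    (by simp [WS.pr_mul]) (t' _) (t' _) hc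
  simp only [t, Fintype.card_prod, ZMod.card] at a3
  push_cast at a3
  rcases a1 with rfl | rfl
  · rw [one_mul] at a2
    exact False.elim (a2.elim hw.sq_ne_one hw.sq_ne)
  · exact absurd (by linear_combination -a3 - 3 * hw.cube) (mul_ne_zero hw.three hw.sub_ne)

/-- the kernel of the action on the commutator space -/
def KG (X : MG (T × T) F) : Subgroup X.Pj where
  carrier := {γ | ∃ d, X.L γ d ∧ d * jj = jj * d ∧ rho d = 1}
  one_mem' := ⟨1, MG.L_one, by simp, rho_one⟩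
  mul_mem' := fun ⟨_, a1, a2, a3⟩ ⟨_, b1, b2, b3⟩ =>
    ⟨_, a1.mul b1, comm_mul a2 b2, by rw [rho_mul _ b2, a3, b3, one_mul]⟩
  inv_mem' := fun ⟨d, a1, a2, a3⟩ => by
    obtain ⟨d', e⟩ := MG.unit a1.1
    refine ⟨d', a1.inv e, comm_inv a2 e, ?_⟩
    rw [← one_mul (rho d'), ← a3, ← rho_mul _ (comm_inv a2 e), e, rho_one, a3]

/-- the action of the centraliser on the commutator space -/
def RG (X : MG (T × T) F) : MG T F where
  In g := ∃ x, X.In x ∧ x * jj = jj * x ∧ rho x = g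
  one := ⟨1, X.one, by simp, rho_one⟩
  mul := by
    rintro _ _ ⟨x, a1, a2, rfl⟩ ⟨y, b1, b2, rfl⟩
    exact ⟨_, X.mul a1 b1, comm_mul a2 b2, rho_mul _ b2⟩
  inv := by
    rintro _ ⟨x, a1, a2, rfl⟩
    obtain ⟨y, b1, e⟩ := X.inv a1
    exact ⟨_, ⟨y, b1, comm_inv a2 e, rfl⟩, by rw [← rho_mul _ (comm_inv a2 e), e, rho_one]⟩

variable [Finite F] (hX : (S2 hw).Big X)
  (hC : ∀ u, u ≠ 0 → ∀ g, X.In g → (∃ c : F, g * (S2 hw).W u = c • ((S2 hw).W u * g)) →
    (S2 hw).Nor g)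

theorem four : Module.finrank T ((T × T) × (T × T)) = 4 := by simp

theorem mem_N {γ : X.Pj} {g : Matrix (T × T) (T × T) F} (h : X.L γ g) :
    γ ∈ (hX.sys four hC).N ↔ (S2 hw).Nor g :=
  forall_congr' fun u => exists_congr fun v => hX.conj_iff h u v

theorem lift_iff {γ : X.Pj} {g : Matrix (T × T) (T × T) F} (h : X.L γ g) (σ : _ → _) :
    (hX.sys four hC).Lift γ σ ↔ (S2 hw).Lf g σ :=
  forall_congr' fun u => hX.conj_iff h u _

theorem KG_le : KG X ≤ (hX.sys four hC).N := by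
  have k : ∀ u, hX.wj (u, 0) ∈ Subgroup.normalizer (KG X : Set X.Pj) := fun u =>
    mem_normalizer_of fun γ ⟨d, a1, a2, a3⟩ => by
      have e := (S2 hw).mul_neg (u, 0)
      rw [Prod.neg_mk, neg_zero] at e
      exact ⟨_, ((hX.L_w _).mul a1).mul ((hX.L_w _).inv e),
        comm_mul (comm_mul (W_jj hw u) a2) (W_jj hw (-u)), by
        rw [rho_mul _ (W_jj hw _), rho_mul _ a2, a3, rho_W, rho_W, mul_one, WS.mul_neg]⟩
  have r : ∀ γ ∈ KG X, γ ∈ (hX.sys four hC).N → ∃ e f, B1 e f = 1 ∧ Rel hw γ (lin e f) :=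
    fun γ ⟨d, a1, a2, a3⟩ h => exists_rel a1 a2 a3 ((mem_N hX hC a1).1 h)
  refine (hX.sys four hC).le_N (a := ((1, 0), 0)) (b := ((0, 1), 0)) (by decide) (by decide)
    (by decide) (by decide) (k _) (k _) (fun γ h h' => ?_) fun Q hQ h1 h2 x y hy hy' => ?_
  · obtain ⟨e, f, -, d, a1, -, a2, -⟩ := r γ h h'
    exact ⟨((hX.L_w _).conj_iff a1 a1).2 ⟨1, by simp [a2]⟩,
      ((hX.L_w _).conj_iff a1 a1).2 ⟨1, by simp [a2]⟩⟩
  obtain ⟨e, f, a1, a2⟩ := r _ (h1 hy) (h2 hy)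
  obtain ⟨e', f', b1, b2⟩ := r _ (h1 hy') (h2 hy')
  have t : ∀ γ ∈ Q, ∀ {e f}, Rel hw γ (lin e f) → B1 e f = 1 → e.1 + f.2 = -1 :=
    fun γ h e f c1 c2 => by
      obtain ⟨k, hk⟩ := hQ ⟨γ, h⟩
      exact c1.tr c2 (congrArg Subtype.val hk)
  obtain ⟨e'', f'', c1, c2⟩ := r _ (h1 (mul_mem hy hy')) (h2 (mul_mem hy hy'))
  have c3 := ((a2.mul b2).eq_iff c2).1 rfl
  rcases lin_pair e f a1 (t _ hy a2 a1) e' f' b1 (t _ hy' b2 b1) (by
    have := t _ (mul_mem hy hy') c2 c1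
    have d1 := c3 (1, 0)
    have d2 := c3 (0, 1)
    simp only [show ∀ e f, lin e f (1, 0) = e by simp [lin],
      show ∀ e f, lin e f (0, 1) = f by simp [lin]] at d1 d2
    rwa [d1, d2]) with h | h | h | h
  · simp [(a2.eq_iff rel_one).2 h]
  · have := (b2.eq_iff rel_one).2 h
    rw [this, eq_comm]
    simpa using this
  · exact ((a2.eq_iff b2).2 h).symm
  · simp [a2.not_inv hX a1 (t _ hy a2 a1) (((a2.mul b2).eq_iff rel_one).2 h)]

variable (p : ℕ) [Fact p.Prime] [CharP F p] {uni : Prop}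
  (hl : ¬ uni → ∀ x : F, x ^ p = x) (hF : ∀ g, X.In g → Fx (frobenius F p) uni g)
include hX hl hF

include hC in
theorem nor_of_jj {g : Matrix (T × T) (T × T) F} (hg : X.In g) (h : g * jj = jj * g) :
    (S2 hw).Nor g := by
  have k : ∀ r, (S1 hw).NG.In r → (RG X).In r := fun r h =>
    ⟨_, in_of_ng hX (ng_b3 hw h), b3_jj r, rho_b3 r⟩
  have k2 : ∀ x, X.In x → x * jj = jj * x → rho x = 1 → (S2 hw).Nor x := fun x a1 a2 a3 =>
    let ⟨γ, h⟩ := MG.L_all a1; (mem_N hX hC h).1 (KG_le hX hC ⟨x, h, a2, a3⟩)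
  rcases tl3T p hl (X := RG X) ⟨fun c hc => k _ ((S1 hw).big_NG.sc c hc),
    fun u => k _ ((S1 hw).big_NG.W u), fun u => k _ ((S1 hw).big_NG.h u)⟩ (by
      rintro _ ⟨x, a1, a2, rfl⟩ hu
      obtain ⟨μ, e⟩ := hF x a1 hu
      exact ⟨μ, by rw [← rho_ad _ a2, ← rho_mul _ a2, e, rho_smul, rho_one]⟩) with h1 | ⟨hp, h1⟩
  · obtain ⟨r, e⟩ := MG.unit (X := RG X) ⟨g, hg, h, rfl⟩
    have h2 := ng_b3 hw ⟨⟨r, e⟩, h1 _ ⟨g, hg, h, rfl⟩⟩
    have e' : b3 (rho g) (rho g) (rho g) * b3 r r r = 1 := by rw [b3_mul, e, b3_one]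
    have := h2.2.mul (k2 _ (X.mul (MG.inv' (in_of_ng hX h2) e') hg) (comm_mul (b3_jj r) h)
      (by rw [rho_mul _ h, rho_b3, mul_eq_one_comm.1 e]))
    rwa [← mul_assoc, e', one_mul] at this
  · obtain ⟨x, a1, a2, a3⟩ := h1 _ e4_dg.1
    obtain ⟨ξ, a4⟩ := MG.L_all a1
    obtain ⟨x', e⟩ := MG.unit a1
    have b1 := ((a4.mul (hX.L_w ((0, 1), 0))).mul (a4.inv e)).mul (hX.L_w (-(0, 1), 0))
    have b2 := (mem_N hX hC b1).2 (k2 _ b1.1 (comm_mul (comm_mul (comm_mul a2 (W_jj hw _))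
      (comm_inv a2 e)) (W_jj hw _)) (by
        have : dg3 (-1) (-1) 1 * (S1 hw).W (0, 1) = (S1 hw).W (0, 1) * dg3 (-1) (-1) 1 := by
          rw [S1_W, dg3, mono_mul, mono_mul]
          exact mono_congr (fun _ => rfl) (by simp [mul_comm])
        rw [rho_mul _ (W_jj hw _), rho_mul _ (comm_inv a2 e), rho_mul _ (W_jj hw _), rho_W, rho_W,
          a3, this, mul_assoc _ (dg3 _ _ _), ← a3, ← rho_mul _ (comm_inv a2 e), e, rho_one, mul_one,
          WS.mul_neg]))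
    have b3 := (mem_N hX hC a4).1 ((hX.sys four hC).sc (u := ((0, 1), 0)) (by decide)
      ((Subgroup.mul_mem_cancel_right _ ((hX.sys four hC).w_mem (-(0, 1), 0))).1 b2))
    have b4 : (S1 hw).Nor (rho x) := fun u => let ⟨v, c, _, h⟩ := nor_rho hw a2 e b3 u; ⟨v, c, h⟩
    have := nor_diag hw (by simp) (by simp) (by simp) (a3 ▸ b4)
    exact absurd (by linear_combination -this) (H6.M3.two_ne (k := F) hp)

theorem core : (∀ g, X.In g → (S2 hw).Nor g) ∨ Mon2 (frobenius F p) uni X := by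
  refine (cent_or hX p hl hF).symm.imp_left fun hC g hg => ?_
  obtain ⟨γ, h⟩ := MG.L_all hg
  obtain ⟨ι, h1⟩ := MG.L_all (hX.mem jj_sq (ex_jj hw).nor)
  obtain ⟨ζ, h2⟩ := MG.L_all (hX.mem zz_sq (ex_zz hw).nor)
  have e1 : ι * ι = 1 := ((h1.mul h1).eq_iff MG.L_one).2 ⟨1, by simp [jj_sq]⟩
  refine (mem_N hX hC h).1 (Sys.Inv.top (j := ι) (τ := tau) ⟨(S2 hw).s3.mem_Iso fun x y => by
    simp [P2_B, tau, B1], (lift_iff hX hC h1 _).2 (ex_jj hw).lf, e1, ⟨((1, 0), 0), by decide⟩,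
    ⟨(0, (1, 0)), by decide⟩, fun ξ e => ?_, fun ξ e => ?_⟩ γ)
  · obtain ⟨x, h3⟩ := MG.L_ex ξ
    obtain ⟨x', e'⟩ := MG.unit h3.1
    obtain ⟨c, hc⟩ := (h3.conj_iff h1 h1).1 (by rw [e, mul_inv_cancel_right])
    have := trace_conj e' jj
    rw [hc, smul_mul_assoc, mul_assoc, e', mul_one, trace_smul, trace_jj, smul_eq_mul,
      mul_eq_right₀ hw.three] at this
    exact (mem_N hX hC h3).2 (nor_of_jj hX hC p hl hF h3.1 (by rw [hc, this, one_smul]))
  · obtain ⟨v, hv⟩ := Sys.Lift.conj_w (ν := LinearEquiv.neg T) e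
      ((lift_iff hX hC h2 _).2 (ex_zz hw).lf) (by rw [conj_mul, e1]; simp)
      (((h2.mul h2).eq_iff MG.L_one).2 ⟨1, by simp [zz_sq]⟩)
    obtain ⟨x, h3⟩ := MG.L_ex (((hX.sys four hC).w v)⁻¹ * ξ)
    obtain ⟨x', e'⟩ := MG.unit h3.1
    obtain ⟨c, hc⟩ := (h3.conj_iff h1 h2).1 (by
      rw [mul_assoc _ ξ, _root_.mul_inv_rev, ← mul_assoc, mul_assoc _ _ ξ⁻¹, hv]; group)
    exact not_conj e' c hc

end Cfsg.Agent.H7.C6
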