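import Cfsg.Agent.H7.C6K

/-!
From generators of the monomial group to the monomial group.
-/

set_option autoImplicit false
set_option linter.unusedSectionVars false

namespace Cfsg.Agent.H7.C6

open Matrix H7.Polar

variable {F : Type*} [Field F]

theorem ad_mul (σ : F →+* F) {l m n : Type*} [Fintype m] (A : Matrix l m F) (B : Matrix m n F) :
    ad σ (A * B) = ad σ B * ad σ A := by rw [ad, Matrix.map_mul, transpose_mul]; rfl

theorem ad_one (σ : F →+* F) {n : Type*} [DecidableEq n] : ad σ (1 : Matrix n n F) = 1 := by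
  simp [ad]

theorem ad_smul (σ : F →+* F) {m n : Type*} (c : F) (A : Matrix m n F) :
    ad σ (c • A) = σ c • ad σ A := by ext; simp [ad]

theorem ad_add (σ : F →+* F) {m n : Type*} (A B : Matrix m n F) :
    ad σ (A + B) = ad σ A + ad σ B := by ext; simp [ad]

variable {n : Type} [Fintype n] [DecidableEq n]

/-- the special linear or special unitary group -/
def GG (σ : F →+* F) (uni : Prop) (n : Type) [Fintype n] [DecidableEq n] : MG n F where
  In A := A.det = 1 ∧ (uni → ad σ A * A = 1)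
  one := ⟨det_one, fun _ => by simp [ad_one]⟩
  mul := fun {A B} h h' => ⟨by rw [det_mul, h.1, h'.1, one_mul], fun hu => by
    rw [ad_mul, mul_assoc, ← mul_assoc (ad σ A), h.2 hu, one_mul, h'.2 hu]⟩
  inv := fun {A} h => by
    have e := mul_nonsing_inv A (by simp [h.1])
    refine ⟨A⁻¹, ⟨by simpa [h.1] using congrArg det e, fun hu => ?_⟩, e⟩
    have : A⁻¹ = ad σ A := by rw [← one_mul A⁻¹, ← h.2 hu, mul_assoc, e, mul_one]
    nth_rw 2 [this]
    rw [← ad_mul, e, ad_one]

/-- adjoining the scalars -/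
def MG.sat (Y : MG n F) : MG n F where
  In A := ∃ c : F, c ≠ 0 ∧ Y.In (c • A)
  one := ⟨1, one_ne_zero, by simpa using Y.one⟩
  mul := fun ⟨c, hc, h⟩ ⟨d, hd, h'⟩ =>
    ⟨c * d, mul_ne_zero hc hd, by simpa [smul_smul, mul_comm] using Y.mul h h'⟩
  inv := fun ⟨c, hc, h⟩ => by
    obtain ⟨B, h1, e⟩ := Y.inv h
    exact ⟨c • B, ⟨c⁻¹, inv_ne_zero hc, by simpa [smul_smul, hc] using h1⟩, by simpa using e⟩

theorem MG.sat_of {Y : MG n F} {A : Matrix n n F} (h : Y.In A) : Y.sat.In A :=
  ⟨1, one_ne_zero, by simpa using h⟩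

theorem MG.sat_Sc (Y : MG n F) : Y.sat.Sc :=
  fun c hc => ⟨c⁻¹, inv_ne_zero hc, by simpa [smul_smul, hc] using Y.one⟩

theorem mono_ne {f : n → n} {d : n → F} (h : ∃ B, mono f d * B = 1) (j : n) : d j ≠ 0 := fun e => by
  obtain ⟨B, h⟩ := h
  have h' : B * mono f d = 1 := mul_eq_one_comm.1 h
  simpa [mul_mono, e] using congrFun (congrFun h' j) j

variable {σ : F →+* F} {uni : Prop} {X : MG n F}

theorem Mon2.diag (h : Mon2 σ uni X) {d : n → F} (h1 : (GG σ uni n).In (mono (fun x => x) d)) :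
    X.In (mono (fun x => x) d) := by
  have h0 := mono_ne (MG.unit h1)
  have h2 : ∀ i, Lam σ uni (d i) := fun i => ⟨h0 i, fun hu => by
    simpa [ad_mono σ (f := fun x => x) (fun _ _ h => h), mono_apply] using
      congrFun (congrFun (h1.2 hu) i) i⟩
  rcases isEmpty_or_nonempty n with hn | ⟨⟨i₀⟩⟩
  · rw [mono_eq_one (fun _ => rfl) fun j => isEmptyElim j]
    exact X.one
  have key : ∀ s : Finset n, i₀ ∉ s → X.In (mono (fun x => x)
      fun x => if x ∈ s then d x else if x = i₀ then (∏ y ∈ s, d y)⁻¹ else 1) := by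
    intro s
    induction s using Finset.induction_on with
    | empty => intro _; simpa [mono_one] using X.one
    | insert a s ha ih =>
      intro hs
      rw [Finset.mem_insert, not_or] at hs
      convert X.mul ((h a i₀ (Ne.symm hs.1)).1 _ (h2 a)) (ih hs.2) using 1
      rw [dg2, mono_mul]
      refine mono_congr (fun _ => rfl) fun x => ?_
      by_cases e : x = a
      · simp [e, ha, Ne.symm hs.1]
      by_cases e' : x = i₀
      · simp [e', hs, ha, mul_comm]
      · simp [e, e']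
  convert key (Finset.univ.erase i₀) (by simp) using 2
  ext x
  by_cases e : x = i₀
  · simpa [e] using eq_inv_of_mul_eq_one_left
      ((Finset.mul_prod_erase _ _ (Finset.mem_univ i₀)).trans ((det_mono_id d).symm.trans h1.1))
  · simp [e]

theorem Mon2.perm (h : Mon2 σ uni X) (π : Equiv.Perm n) : ∃ d, X.In (mono π d) := by
  induction π using Equiv.Perm.swap_induction_on with
  | one => exact ⟨fun _ => 1, by convert X.one; exact mono_one⟩
  | swap_mul f x y hxy ih =>
    obtain ⟨d, h1⟩ := ih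
    obtain ⟨e, h2⟩ := (h x y hxy).2
    exact ⟨_, by have := X.mul h2 h1; rwa [mono_mul] at this⟩

theorem Mon2.mem (h : Mon2 σ uni X) (hX : X.Sc) (hG : ∀ A, X.In A → (GG σ uni n).sat.In A)
    {π : Equiv.Perm n} {d : n → F} (h1 : (GG σ uni n).In (mono π d)) : X.In (mono π d) := by
  obtain ⟨e, h2⟩ := h.perm π
  obtain ⟨c, hc, h3⟩ := hG _ h2
  have h0 := mono_ne (MG.unit h2)
  have e1 : mono π d = c • mono π e * mono (fun x => x) fun x => d x / (c * e x) := by
    rw [smul_mono, mono_mul]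
    exact mono_congr (fun _ => rfl) fun x => by field_simp [h0 x]
  rw [e1] at h1 ⊢
  exact X.mul (hX.smul h2 hc) (h.diag (MG.of_mul_left h3 h1))

variable {w : F} (hw : Om w)

theorem map_chi' (hw : Om w) (h : σ w = w ^ 2) (a : T) : σ (chi w a) * chi w a = 1 := by
  rw [map_chi, h, chi, chi, ← mul_pow, ← pow_succ, hw.cube, one_pow]

section
variable {A : Type*} [AddCommGroup A] [Module T A] [Fintype A] [DecidableEq A] {P : Polar T A}
  (S : WS P w n)

theorem WS.ad_h (h : σ w = w ^ 2) (h1 : ∀ u, ad σ (S.W u) * S.W u = 1) (u : A) :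
    ad σ (S.h u) * S.h u = 1 := by
  have h2 : ∀ u, ad σ (S.W u) = S.W (-u) := fun u =>
    cancel_r (S.mul_neg u) ((h1 u).trans (S.neg_mul u).symm)
  rw [mul_eq_one_comm, ← S.h_cube u, S.h_mul_h]
  simp [WS.h, WS.pr, ad_add, ad_smul, ad_one, h, h2, map_ofNat, add_right_comm]

end

theorem gg_S2 (h : uni → σ w = w ^ 2) (u : (T × T) × (T × T)) :
    (GG σ uni _).In ((S2 hw).W u) ∧ (GG σ uni _).In ((S2 hw).h u) := by
  have h1 : uni → ∀ u, ad σ ((S2 hw).W u) * (S2 hw).W u = 1 := fun hu u => by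
    rw [S2_W, ad_mono _ (by revert u; decide +kernel)]
    exact mono_eq_one (fun _ => rfl) fun _ => map_chi' hw (h hu) _
  suffices ((S2 hw).W u).det = 1 ∧ ((S2 hw).h u).det = 1 from
    ⟨⟨this.1, fun hu => h1 hu u⟩, this.2, fun hu => (S2 hw).ad_h (h hu) (h1 hu) u⟩
  have h3 := hw.three
  have h4 := hw.eq
  by_cases hu : u = 0
  · have : (S2 hw).h 0 = w • 1 := by
      simp only [WS.h, WS.pr, neg_zero, WS.zero, chi_zero]
      match_scalars
      field_simp
      ring
    simp only [hu, WS.zero, this, det_smul, det_one, Fintype.card_prod, ZMod.card, true_and]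
    rw [pow_mul, hw.cube]; simp
  obtain ⟨τ, hτ, rfl⟩ := (S2 hw).s3.trans (u := (0, (0, 1))) (by decide) hu
  obtain ⟨g, ⟨⟨g', e⟩, -⟩, h2⟩ := (S2 hw).exists_ex (S2 hw).big_NG.h hτ
  have k : ∀ {A B : Matrix (T × T) (T × T) F}, g * A = B * g → B.det = A.det := fun h => by
    have := congrArg det h
    rw [det_mul, det_mul, mul_comm] at this
    exact (mul_right_cancel₀ (left_ne_zero_of_mul_eq_one
      ((det_mul _ _).symm.trans ((congrArg det e).trans det_one))) this).symm
  have e1 : (S2 hw).W (0, (0, 1)) = mono (fun x => x) fun x => chi w x.2 :=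
    mono_congr (by simp [sh2]) (by simp [ex2, ex1])
  have e2 : (S2 hw).W (0, (0, -1)) = mono (fun x => x) fun x => chi w (-x.2) :=
    mono_congr (by simp [sh2]) (by simp [ex2, ex1])
  have e3 : (S2 hw).h (0, (0, 1)) = mono (fun x => x) fun x => tri3 w 1 1 x.2 := by
    ext ⟨x, y⟩ j
    by_cases e : (x, y) = j
    · subst e
      rcases z3_cases y with rfl | rfl | rfl <;> simp [WS.h, WS.pr, e1, e2, mono_apply] <;>
        field_simp <;> grind
    · simp [WS.h, WS.pr, e1, e2, mono_apply, e]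
  rw [k (h2 _), k (h2.h_conj _), e1, e3, det_mono_id, det_mono_id]
  simp only [Fintype.prod_prod_type, Finset.prod_const, Finset.card_univ, ZMod.card,
    show ∀ f : T → F, ∏ y, f y = f 0 * f 1 * f (-1) from Fin.prod_univ_three]
  simp [mul_pow, ← pow_succ', hw.cube, ← pow_three']

theorem coreG [Finite F] (p : ℕ) [Fact p.Prime] [CharP F p] (hl : ¬ uni → ∀ x : F, x ^ p = x)
    (h : uni → frobenius F p w = w ^ 2) {Y : MG (T × T) F}
    (h1 : ∀ A, Y.In A → (GG (frobenius F p) uni _).In A)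
    (h2 : ∀ A, (GG (frobenius F p) uni _).In A → (S2 hw).Nor A → Y.In A) :
    (∀ A, Y.In A → (S2 hw).Nor A) ∨ ∀ (π : Equiv.Perm (T × T)) d,
      (GG (frobenius F p) uni _).In (mono π d) → Y.In (mono π d) := by
  refine (core (hw := hw) (X := Y.sat) ⟨Y.sat_Sc,
    fun u => MG.sat_of (h2 _ (gg_S2 hw h u).1 ((S2 hw).lf_W u).nor),
    fun u => MG.sat_of (h2 _ (gg_S2 hw h u).2 ((S2 hw).ex_h u).nor)⟩ p hl
    fun g ⟨c, hc, hg⟩ hu => ⟨(frobenius F p c * c)⁻¹, ?_⟩).imp (fun k A hA => k A (MG.sat_of hA))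
    fun k π d hd => ?_
  · rw [← (h1 _ hg).2 hu, ad_smul, smul_mul_smul_comm, smul_smul, inv_mul_cancel₀ (by simp [hc]),
      one_smul]
  · obtain ⟨c, hc, h3⟩ := k.mem Y.sat_Sc (fun A ⟨c, hc, hA⟩ => ⟨c, hc, h1 _ hA⟩) hd
    have h4 : (GG (frobenius F p) uni _).In (c • 1) :=
      MG.of_mul_right hd (by simpa using h1 _ h3)
    exact MG.of_mul_left (h2 _ h4 ((S2 hw).NG.one.2.smul c)) (by simpa using h3)

theorem not_nor : ¬ (S2 hw).Nor (dg2 (1, -1) (-1, -1) w) := fun h => by
  obtain ⟨v, c, e⟩ := h (0, (1, 0))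
  rw [S2_W, S2_W, dg2, mono_mul, mono_mul, smul_mono] at e
  have k := fun j => (mono_inj e (j := j) (mul_ne_zero (by
    split_ifs <;> simp [hw.ne_zero]) (hw.chi_ne _))).2
  have e1 := k (0, 0)
  have e2 := k (1, 0)
  have e3 := k (0, 1)
  have e4 := k (1, 1)
  simp (decide := true) [sh2, ex2, ex1, add_assoc, hw.chi_add] at e1 e2 e3 e4
  have := hw.ne_one
  grind

theorem h_not_mono (π : (T × T) → T × T) (d : T × T → F) : (S2 hw).h ((1, 0), 0) ≠ mono π d :=
  fun h => by
    have e1 := congrFun (congrFun h (0, 0)) (1, 0)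
    have e2 := congrFun (congrFun h (-1, 0)) (1, 0)
    simp (decide := true) [WS.h, WS.pr, S2_W, mono_apply, sh2, ex2, ex1] at e1 e2
    have h3 := hw.three
    have h4 := hw.sub_ne
    by_cases a : (0, 0) = π (1, 0)
    · simp (decide := true) [← a, h3, h4] at e2
    · simp [a, h3, h4] at e1

end Cfsg.Agent.H7.C6
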