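import Cfsg.Agent.H7.C6M
import Cfsg.Agent.H7.Lin
import Cfsg.Agent.H8.SLFrame
import Cfsg.Agent.H9.UDecE

/-!
Maximality of the normalisers of extraspecial groups of order `3 ^ 5` in dimension nine.
-/

set_option autoImplicit false
set_option linter.unusedSectionVars false

namespace Cfsg.Agent.H7.C6

open Matrix H7.Polar

variable {F : Type*} [Field F] {w : F}

section
variable {n m : Type} [Fintype n] [DecidableEq n] [Fintype m] [DecidableEq m]
  {Q : Matrix m n F} {Q' : Matrix n m F} {σ : F →+* F} {uni : Prop}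

theorem cj_mul (h1 : Q * Q' = 1) (A B : Matrix m m F) :
    Q' * (A * B) * Q = Q' * A * Q * (Q' * B * Q) := by
  simp [Matrix.mul_assoc, ← Matrix.mul_assoc Q Q', h1]

theorem cj_cj (h1 : Q * Q' = 1) (A : Matrix m m F) : Q * (Q' * A * Q) * Q' = A := by
  simp [Matrix.mul_assoc, ← Matrix.mul_assoc Q Q', h1]

theorem gg_conj (h1 : Q * Q' = 1) (h2 : Q' * Q = 1) (hu : uni → ∃ μ : F, ad σ Q * Q = μ • 1)
    {A : Matrix m m F} (hA : (GG σ uni m).In A) : (GG σ uni n).In (Q' * A * Q) := by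
  refine ⟨by rw [det_conj_of_mul_eq_one h2 h1, hA.1], fun u => ?_⟩
  obtain ⟨μ, hμ⟩ := hu u
  have e : ad σ Q = μ • Q' := by
    rw [← Matrix.mul_one (ad σ Q), ← h1, ← Matrix.mul_assoc, hμ, Matrix.smul_mul, Matrix.one_mul]
  have e' : μ • (ad σ Q' * Q') = 1 := by
    rw [← Matrix.mul_smul, ← e, ← ad_mul, h1, ad_one]
  calc _ = Q' * (ad σ A * (μ • (ad σ Q' * Q')) * A) * Q := by
        simp [ad_mul, e, Matrix.mul_assoc]
    _ = 1 := by rw [e', mul_one, hA.2 u, Matrix.mul_one, h2]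

theorem ad_inv (h1 : Q * Q' = 1) (hu : uni → ∃ μ : F, ad σ Q * Q = μ • 1) [Nonempty m] (u : uni) :
    ∃ μ : F, ad σ Q' * Q' = μ • 1 := by
  obtain ⟨μ, hμ⟩ := hu u
  have e : ad σ Q = μ • Q' := by
    rw [← Matrix.mul_one (ad σ Q), ← h1, ← Matrix.mul_assoc, hμ, Matrix.smul_mul, Matrix.one_mul]
  have e' : μ • (ad σ Q' * Q') = 1 := by
    rw [← Matrix.mul_smul, ← e, ← ad_mul, h1, ad_one]
  have : μ ≠ 0 := fun k => by simp [k] at e'
  exact ⟨μ⁻¹, by rw [← e', smul_smul, inv_mul_cancel₀ this, one_smul]⟩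

variable {A : Type*} [AddCommGroup A] [Module T A] [Fintype A] [DecidableEq A] {P : Polar T A}
  {S : WS P w n} {S' : WS P w m}

theorem nor_conj (h1 : Q * Q' = 1) (h2 : Q' * Q = 1) (h : ∀ u, S'.W u * Q = Q * S.W u)
    {g : Matrix m m F} (hg : S'.Nor g) : S.Nor (Q' * g * Q) := fun u => by
  obtain ⟨v, c, e⟩ := hg u
  have k : ∀ u, S.W u = Q' * S'.W u * Q := fun u => by
    rw [Matrix.mul_assoc, h, ← Matrix.mul_assoc, h2, one_mul]
  exact ⟨v, c, by rw [k, k, ← cj_mul h1, ← cj_mul h1, e, Matrix.mul_smul, Matrix.smul_mul]⟩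

theorem tw_swap (h1 : Q * Q' = 1) (h2 : Q' * Q = 1) (h : ∀ u, S'.W u * Q = Q * S.W u) (u : A) :
    S.W u * Q' = Q' * S'.W u := by
  rw [← Matrix.mul_one (Q' * _), ← h1, ← Matrix.mul_assoc, Matrix.mul_assoc Q', h,
    ← Matrix.mul_assoc, h2, one_mul]

/-- the coordinate frame -/
def fr {t : ℕ} (Q : Matrix m n F) (ε : Fin t ≃ n) (i : Fin t) : Submodule F (m → F) :=
  F ∙ Q.col (ε i)

theorem col_ne (h2 : Q' * Q = 1) (j : n) : Q.col j ≠ 0 := fun e => by
  have := congrFun (congrFun h2 j) j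
  simp [mul_apply, show ∀ i, Q i j = 0 from congrFun e] at this

theorem fr_dec {t : ℕ} (ht : 2 ≤ t) (h1 : Q * Q' = 1) (h2 : Q' * Q = 1) (ε : Fin t ≃ n) :
    Geo.IsMDecomposition 1 (fr Q ε) := by
  let b := ((Pi.basisFun F n).map (toLin'OfInv h2 h1)).reindex ε.symm
  have hb : ∀ i, b i = Q.col (ε i) := fun i => by simp [b, toLin'OfInv]
  refine ⟨ht, one_pos, fun i => finrank_span_singleton (col_ne h2 _), ?_, ?_⟩
  · simpa only [hb] using! b.linearIndependent.iSupIndep_span_singleton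
  · simpa only [hb, Submodule.span_range_eq_iSup] using! b.span_eq

theorem mem_stab_iff {t : ℕ} (h1 : Q * Q' = 1) (h2 : Q' * Q = 1) (ε : Fin t ≃ n) (g : GL m F) :
    g ∈ Geo.decompositionStabilizer (fr Q ε) → ∃ (π : Equiv.Perm n) (d : n → F),
      Q' * g.1 * Q = mono π d := by
  rintro ⟨τ, h⟩
  have k : ∀ j, ∃ c : F, c • Q.col (ε (τ (ε.symm j))) = g.1 *ᵥ Q.col j := fun j =>
    Submodule.mem_span_singleton.1 ((h (ε.symm j)).le ⟨_, Submodule.mem_span_singleton_self _, by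
      simp⟩)
  choose d hd using k
  refine ⟨ε.permCongr τ, d, ?_⟩
  rw [← one_mul (mono _ _), ← h2, Matrix.mul_assoc, Matrix.mul_assoc]
  congr 1
  ext i j
  rw [mul_mono]
  simpa [mul_apply, mulVec, dotProduct, mul_comm] using (congrFun (hd j) i).symm

end

theorem final {m : Type} [Fintype m] [DecidableEq m] [Finite F] (p : ℕ) [Fact p.Prime] [CharP F p]
    {uni : Prop} (hl : ¬ uni → ∀ x : F, x ^ p = x) (h : uni → frobenius F p w = w ^ 2)
    (hw : Om w) {S : WS P2 w m} {G N : Subgroup (GL m F)}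
    (hG : ∀ g, g ∈ G ↔ (GG (frobenius F p) uni m).In g) (hN : ∀ g, g ∈ N ↔ S.Nor g)
    {Q : Matrix m (T × T) F} {Q' : Matrix (T × T) m F} (h1 : Q * Q' = 1) (h2 : Q' * Q = 1)
    (h3 : ∀ u, S.W u * Q = Q * (S2 hw).W u)
    (hu : uni → ∃ μ : F, ad (frobenius F p) Q * Q = μ • 1) {ε : Fin 9 ≃ T × T}
    (hD : Geo.IsMaximalIn G (Geo.decompositionStabilizer (fr Q ε) ⊓ G)) :
    Geo.IsMaximalIn G (N ⊓ G) := by
  haveI : Nonempty m := Fintype.card_pos_iff.1 (Nat.pos_of_ne_zero fun e => S.nz (by simp [e]))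
  have k1 : ∀ A, (GG (frobenius F p) uni _).In A → ∃ g ∈ G, Q' * g.1 * Q = A := fun A hA => by
    have := gg_conj h2 h1 (ad_inv h1 hu) hA
    obtain ⟨B, hB⟩ := MG.unit this
    exact ⟨⟨_, B, hB, mul_eq_one_comm.1 hB⟩, (hG _).2 this, cj_cj h2 A⟩
  have k2 : ∀ g : GL m F, g ∈ N ↔ (S2 hw).Nor (Q' * g.1 * Q) := fun g => (hN g).trans
    ⟨nor_conj h1 h2 h3, fun h => cj_cj h1 g.1 ▸ nor_conj h2 h1 (tw_swap h1 h2 h3) h⟩
  have k3 : ∀ g g' : GL m F, Q' * g.1 * Q = Q' * g'.1 * Q → g = g' := fun g g' e =>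
    Units.ext (by rw [← cj_cj h1 g.1, e, cj_cj h1])
  refine isMaximalIn_of inf_le_right ?_ fun X hX hXG g hg hg' => ?_
  · obtain ⟨g, hg, e⟩ := k1 (dg2 (1, -1) (-1, -1) w) ⟨by
      simp (decide := true) [dg2, det_mono_id, Finset.prod_ite, Finset.filter_eq', hw.ne_zero],
      fun u => by
        rw [dg2, ad_mono _ fun _ _ h => h]
        refine mono_eq_one (fun _ => rfl) fun j => ?_
        have := map_chi' hw (h u) 1
        split_ifs
        · simpa using this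
        · rw [map_inv₀, ← mul_inv, show frobenius F p w * w = 1 by simpa using this, inv_one]
        · simp⟩
    exact ⟨g, hg, fun k => not_nor hw (e ▸ (k2 g).1 k.1)⟩
  let Y : MG (T × T) F :=
    { In A := ∃ x ∈ X, Q' * x.1 * Q = A
      one := ⟨1, X.one_mem, by simp [h2]⟩
      mul := fun ⟨x, hx, e⟩ ⟨y, hy, e'⟩ => ⟨x * y, X.mul_mem hx hy, by
        rw [← e, ← e', Units.val_mul, cj_mul h1]⟩
      inv := fun ⟨x, hx, e⟩ => ⟨_, ⟨x⁻¹, X.inv_mem hx, rfl⟩, by simp [← e, ← cj_mul h1, h2]⟩ }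
  have k4 : ∀ A, (GG (frobenius F p) uni _).In A → (S2 hw).Nor A → Y.In A := fun A hA hA' => by
    obtain ⟨x, hx, rfl⟩ := k1 A hA
    exact ⟨x, hX ⟨(k2 x).2 hA', hx⟩, rfl⟩
  rcases coreG hw p hl h (Y := Y)
    (fun A ⟨x, hx, e⟩ => e ▸ gg_conj h1 h2 hu ((hG x).1 (hXG hx))) k4 with k | k
  · exact absurd ⟨(k2 g).2 (k _ ⟨g, hg, rfl⟩), hXG hg⟩ hg'
  refine ((hD.2 X (fun y hy => ?_) hXG).resolve_left fun e => ?_).ge
  · obtain ⟨π, d, e⟩ := mem_stab_iff h1 h2 ε y hy.1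
    obtain ⟨x, hx, e'⟩ := k π d (e ▸ gg_conj h1 h2 hu ((hG y).1 hy.2))
    exact k3 _ _ (e'.trans e.symm) ▸ hx
  · obtain ⟨x, hx, e'⟩ := k4 _ (gg_S2 hw h ((1, 0), 0)).2 ((S2 hw).ex_h _).nor
    obtain ⟨π, d, e''⟩ := mem_stab_iff h1 h2 ε x (e ▸ hx : x ∈ _ ⊓ G).1
    exact h_not_mono hw π d (e'.symm.trans e'')

theorem mem_sl {m : Type} [Fintype m] [DecidableEq m] (g : GL m F) :
    g ∈ Geo.specialLinear m F ↔ g.1.det = 1 := by
  simp [Geo.specialLinear, Units.ext_iff]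

theorem sl_nine [Fintype F] {p : ℕ} (hp : p.Prime) (hF : Fintype.card F = p) (h3 : p % 3 = 1)
    {R : Subgroup (GL (Fin 9) F)} (hR : Geo.IsLinearSymplecticTypeData 3 R) :
    Geo.IsMaximalIn (Geo.specialLinear (Fin 9) F)
      (Geo.subgroupNormalizer R ⊓ Geo.specialLinear (Fin 9) F) := by
  haveI := Fact.mk hp
  haveI : CharP F p := charP_of_card_eq_prime hF
  obtain ⟨w, S, -, hN⟩ := std_form (by simp) hR.symplecticType hR.absIrred
  obtain ⟨Q, Q', h1, h2, h⟩ := skolem (S2 S.om) S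
  refine final p (uni := False) (fun _ x => hF ▸ FiniteField.pow_card x) False.elim S.om
    (fun g => by simp [mem_sl, GG]) hN h1 h2 h False.elim (ε := Fintype.equivOfCardEq (by simp))
    (H8.maximal_sl_dec (by simp) (fr_dec (by simp) h1 h2 _) (fun _ => ?_) (by simp))
  have := hp.two_le
  have : p ≠ 4 := by rintro rfl; norm_num at hp
  omega

theorem herm_iff {n : ℕ} (p : ℕ) [Fact p.Prime] [CharP F p] (g : Matrix (Fin n) (Fin n) F) (c : F) :
    (∀ u v, hermForm n F p (g *ᵥ u) (g *ᵥ v) = c * hermForm n F p u v) ↔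
      ad (frobenius F p) g * g = c • 1 := by
  have k : ∀ u v, hermForm n F p (g *ᵥ u) (g *ᵥ v) =
      (fun i => frobenius F p (v i)) ⬝ᵥ (ad (frobenius F p) g * g) *ᵥ u := fun u v => by
    rw [← mulVec_mulVec, dotProduct_mulVec, ad, vecMul_transpose, dotProduct_comm]
    refine Finset.sum_congr rfl fun i _ => ?_
    rw [← frobenius_def, RingHom.map_mulVec]
    rfl
  simp only [k]
  refine ⟨fun h => ?_, fun h u v => ?_⟩
  · ext i j
    simpa [hermForm, ← frobenius_def, Pi.single_apply, apply_ite, one_apply, dotProduct,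
      eq_comm] using h (Pi.single j 1) (Pi.single i 1)
  · simp [h, hermForm, smul_mulVec, dotProduct, frobenius_def, Finset.mul_sum, mul_comm, mul_left_comm,
      mul_assoc]

theorem su_nine [Fintype F] {p : ℕ} (hp : p.Prime) (hF : Fintype.card F = p ^ 2) (h3 : p % 3 = 2)
    {R : Subgroup (GL (Fin 9) F)} (hs : Geo.IsSymplecticTypeGroup 3 R)
    (ha : Geo.ActsAbsolutelyIrreducibly (Geo.matrixSet R))
    (hR : R ≤ Geo.similarityGroup (hermForm 9 F p)) :
    Geo.IsMaximalIn (GU 9 F p ⊓ Geo.specialLinear (Fin 9) F)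
      (Geo.subgroupNormalizer R ⊓ (GU 9 F p ⊓ Geo.specialLinear (Fin 9) F)) := by
  haveI := Fact.mk hp
  haveI : CharP F p := charP_of_card_eq_prime_pow hF
  obtain ⟨w, S, hW, hN⟩ := std_form (by simp) hs ha
  have hw := S.om
  obtain ⟨Q, Q', h1, h2, h⟩ := skolem (S2 hw) S
  have k1 : frobenius F p w = w ^ 2 := by rw [frobenius_def, pow_eq_pow_mod p hw.cube, h3]
  have k2 : ∀ x, frobenius F p (frobenius F p x) = x := fun x => by
    rw [frobenius_def, frobenius_def, ← pow_mul, ← sq, ← hF, FiniteField.pow_card]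
  have k3 : ∀ u, ad (frobenius F p) (S.W u) * S.W u = 1 := fun u => by
    obtain ⟨r, hr, e⟩ := hW u
    obtain ⟨c, hc⟩ := hR hr
    rw [herm_iff, show r.1 = S.W u from e] at hc
    have e1 : ad (frobenius F p) (S.W u) = c.1 • S.W (-u) :=
      cancel_r (S.mul_neg u) (by rw [hc, smul_mul_assoc, S.neg_mul])
    have e2 : c.1 ^ 3 = 1 := S.smul_one_inj (by
      have := congrArg (ad (frobenius F p)) (S.W_cube u)
      rw [pow_three, ad_mul, ad_mul, e1, ad_one, ← pow_three', smul_pow, S.W_cube] at this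
      rw [this, one_smul])
    have e3 : frobenius F p c * c = c * c := by
      have := congrArg (ad (frobenius F p)) hc
      rw [ad_mul, ad_smul, ad_one, show ad (frobenius F p) (ad (frobenius F p) (S.W u)) = S.W u by
        ext; simp [ad, k2], hc] at this
      rw [← S.smul_one_inj this]
    obtain ⟨a, ha⟩ := hw.exists_chi e2
    rw [ha, map_chi' hw k1, ← ha] at e3
    rw [pow_three', ← e3, one_mul] at e2
    rw [hc, e2, one_smul]
  have k4 : ∀ {m : Type} [Fintype m] [DecidableEq m] (S : WS P2 w m),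
      (∀ u, ad (frobenius F p) (S.W u) * S.W u = 1) → ∀ u, ad (frobenius F p) (S.W (-u)) = S.W u :=
    fun S h u => cancel_r (S.neg_mul u) ((h _).trans (S.mul_neg u).symm)
  obtain ⟨μ, hμ⟩ := (S2 hw).scalar (M := ad (frobenius F p) Q * Q) fun u => by
    have := congrArg (ad (frobenius F p)) (h (-u))
    rw [ad_mul, ad_mul, k4 S k3, k4 (S2 hw) fun u => (gg_S2 hw (uni := True) (fun _ => k1) u).1.2 trivial] at this
    rw [Matrix.mul_assoc, ← h, ← Matrix.mul_assoc, this, Matrix.mul_assoc]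
  have k5 : ∀ i j, hermForm 9 F p (Q.col i) (Q.col j) = if i = j then μ else 0 := fun i j => by
    simpa [hermForm, ad, mul_apply, one_apply, frobenius_def, mul_comm, eq_comm] using
      congrFun (congrFun hμ j) i
  have k6 : ∀ (a b : F) u v, hermForm 9 F p (a • u) (b • v) = a * b ^ p * hermForm 9 F p u v :=
    fun a b u v => by simp [hermForm, Finset.mul_sum, mul_pow, mul_mul_mul_comm]
  have μ0 : μ ≠ 0 := fun e => by
    have := congrArg (fun M => ad (frobenius F p) Q' * M * Q') hμ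
    simp [e, Matrix.mul_assoc, h1, ← ad_mul, ad_one] at this
  refine final p (uni := True) (fun h => (h trivial).elim) (fun _ => k1) hw
    (fun g => ?_) hN h1 h2 h (fun _ => ⟨μ, hμ⟩) (ε := Fintype.equivOfCardEq (by simp))
    (H9.UDec.su_decomp_maximal hF (by omega) ⟨fr_dec (by simp) h1 h2 _, fun i x hx x0 => ?_,
      fun i j hij x hx y hy => ?_⟩ (by omega))
  · have := herm_iff p g.1 1
    simp only [one_mul, one_smul] at this
    simp only [Subgroup.mem_inf, mem_sl, GG, ← this, forall_const, and_comm]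
    rfl
  · obtain ⟨a, rfl⟩ := Submodule.mem_span_singleton.1 hx
    refine ⟨⟨_, hx, ?_⟩, _, hx, ?_⟩ <;> simp [k6, k5, μ0, left_ne_zero_of_smul x0]
  · obtain ⟨a, rfl⟩ := Submodule.mem_span_singleton.1 hx
    obtain ⟨b, rfl⟩ := Submodule.mem_span_singleton.1 hy
    simp [k6, k5, hij]

end Cfsg.Agent.H7.C6
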