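import Cfsg.Agent.H7.Nondeg2
import Cfsg.Agent.H7.NondegO
import Cfsg.Agent.H7.TsPair
import Cfsg.Agent.H7.Parabolic

/-!
Reducible and imprimitive maximal subgroups of `Ω_n(q)` in matrix form, for small `n`.
-/

set_option autoImplicit false
set_option linter.unusedSectionVars false

namespace Cfsg.Agent.H7.GenO

open Geo Module

variable {ι : Type} [Fintype ι] [DecidableEq ι] {F : Type*} [Field F] [Fintype F]
  {Q : (ι → F) → F} (hQ : IsNondegenerateQuadraticForm Q)
include hQ

theorem stab_perp (hn : 7 ≤ Fintype.card ι) (W : Submodule F (ι → F)) :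
    subspaceStabilizer ((oPolar hQ).perp W) ⊓ omegaGL Q = subspaceStabilizer W ⊓ omegaGL Q := by
  ext g
  simp only [Subgroup.mem_inf]
  refine and_congr_left fun hg => ?_
  have hg' := Polar.E_le_Iso ((mem_omegaGL_iff hQ hn g).1 hg)
  simp only [mem_subspaceStabilizer_iff, mem_stab_iff_map]
  rw [Polar.map_perp hg']
  refine ⟨fun h => ?_, fun h => by rw [h]⟩
  have := congrArg (oPolar hQ).perp h
  rwa [Polar.perp_perp, Polar.perp_perp] at this

theorem nondeg_aux (hn : 7 ≤ Fintype.card ι) {W : Submodule F (ι → F)}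
    (hW : IsNondegenerateOn (QuadraticMap.polar Q) W) (h0 : W ≠ ⊥) (h1 : W ≠ ⊤)
    (hni : ∀ g ∈ (oPolar hQ).Iso, ((oPolar hQ).perp W).map (g : (ι → F) →ₗ[F] (ι → F)) ≠ W)
    (hex : ∀ U, U = W ∨ U = (oPolar hQ).perp W → finrank F U = 2 → Fintype.card F ≤ 3 →
      ¬ IsPlusTypeOn Q U)
    (hex' : 2 < Fintype.card F ∨ 9 ≤ Fintype.card ι ∨ (Fintype.card ι = 8 ∧ (finrank F W ≠ 4 ∨
      ¬ IsPlusTypeOn Q ((oPolar hQ).perp W)))) :
    IsMaximalIn (omegaGL Q) (subspaceStabilizer W ⊓ omegaGL Q) := by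
  have hW' := (inf_perp_iff_nondegenerateOn (oPolar hQ) (oPolar_B hQ)).2 hW
  have hd := (oPolar hQ).finrank_perp W
  rw [finrank_fintype_fun_eq_card] at hd
  refine isMaximalIn_of_equiv toLE (mem_omegaGL_iff hQ hn) (fun g => ?_)
    (Polar.nondeg_maximal_orth (oPolar_lam hQ) (by simpa using hn) hW' h0 h1
      (fun g hg => hni g (Polar.E_le_Iso hg)) (fun U hU => ?_) ?_)
  · simp only [Subgroup.mem_inf, mem_omegaGL_iff hQ hn, mem_subspaceStabilizer_iff]
  · by_contra! h
    obtain ⟨h2, h3, x, hx, hxs, hx0⟩ := h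
    exact hex U hU h2 (by simpa using h3)
      (isPlusTypeOn_of_sing hQ h2 hx hx0 ((oPolar_sing hQ).1 hxs))
  · rcases hex' with h | h | ⟨h, h'⟩
    · exact Or.inl (by simpa using h)
    · exact Or.inr (Or.inl (by simpa using h))
    · refine Or.inr (Or.inr ⟨by simpa using h, ?_⟩)
      by_cases h4 : finrank F W = 4
      · refine Or.inr fun T hT hTs => ?_
        by_contra h5
        obtain ⟨u, hu, hu0⟩ := exists_notMem_of_finrank_lt (U := (⊥ : Submodule F (ι → F)))
          (W := T) (by rw [finrank_bot]; omega)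
        obtain ⟨v, hv, hv0⟩ := exists_notMem_of_finrank_lt (U := F ∙ u) (W := T)
          (by have := finrank_span_singleton_le (F := F) u; omega)
        have hle : (F ∙ u) ⊔ F ∙ v ≤ T := sup_le (by simpa using hu) (by simpa using hv)
        refine h'.resolve_left (not_not.2 h4) ⟨(F ∙ u) ⊔ F ∙ v, hle.trans hT,
          fun x hx => (oPolar_sing hQ).1 (hTs x (hle hx)), ?_⟩
        have := Submodule.finrank_sup_span_singleton hv0
        rw [finrank_span_singleton (by simpa using hu0)] at this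
        omega
      · exact Or.inl h4

theorem map_ne {W : Submodule F (ι → F)} (h : 2 * finrank F W ≠ Fintype.card ι)
    (g : (ι → F) ≃ₗ[F] (ι → F)) :
    ((oPolar hQ).perp W).map (g : (ι → F) →ₗ[F] (ι → F)) ≠ W := by
  intro h1
  have hd := (oPolar hQ).finrank_perp W
  have := LinearEquiv.finrank_map_eq g ((oPolar hQ).perp W)
  rw [h1] at this
  rw [finrank_fintype_fun_eq_card] at hd
  omega

/-- odd dimension of the ambient space -/
theorem nondeg_odd (hodd : Odd (Fintype.card F)) (hn : 7 ≤ Fintype.card ι)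
    (hno : Odd (Fintype.card ι)) (W : Submodule F (ι → F)) (h0 : W ≠ ⊥) (hev : Even (finrank F W))
    (hW : IsNondegenerateOn (QuadraticMap.polar Q) W)
    (hex : ¬ (Fintype.card F = 3 ∧ finrank F W = 2 ∧ IsPlusTypeOn Q W)) :
    IsMaximalIn (omegaGL Q) (subspaceStabilizer W ⊓ omegaGL Q) := by
  have hd := (oPolar hQ).finrank_perp W
  rw [finrank_fintype_fun_eq_card] at hd
  have := Fintype.one_lt_card (α := F)
  obtain ⟨k, hk⟩ := hev
  obtain ⟨j, hj⟩ := hodd
  obtain ⟨m, hm⟩ := hno
  refine nondeg_aux hQ hn hW h0 ?_ (fun g _ => map_ne hQ (by omega) g) ?_ (Or.inl (by omega))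
  · rintro rfl
    rw [finrank_top, finrank_fintype_fun_eq_card] at hk
    omega
  · rintro U (rfl | rfl) h2 h3 hU
    · exact hex ⟨by omega, h2, hU⟩
    · omega

/-- even dimension of the ambient space, odd dimension of the subspace -/
theorem nondeg_even_odd (hn : 7 ≤ Fintype.card ι) (hne : Even (Fintype.card ι))
    (hodd : Odd (Fintype.card F)) (W : Submodule F (ι → F)) (h0 : W ≠ ⊥) (h1 : W ≠ ⊤)
    (hW1 : Odd (finrank F W)) (hW2 : 2 * finrank F W ≠ Fintype.card ι)
    (hW : IsNondegenerateOn (QuadraticMap.polar Q) W) :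
    IsMaximalIn (omegaGL Q) (subspaceStabilizer W ⊓ omegaGL Q) := by
  have hd := (oPolar hQ).finrank_perp W
  rw [finrank_fintype_fun_eq_card] at hd
  have := Fintype.one_lt_card (α := F)
  obtain ⟨k, hk⟩ := hW1
  obtain ⟨j, hj⟩ := hodd
  obtain ⟨m, hm⟩ := hne
  refine nondeg_aux hQ hn hW h0 h1 (fun g _ => map_ne hQ hW2 g) ?_ (Or.inl (by omega))
  rintro U (rfl | rfl) h2 h3 hU <;> omega

theorem nondeg_two (hn : 8 ≤ Fintype.card ι) (W : Submodule F (ι → F)) (h2 : finrank F W = 2)
    (hW : IsNondegenerateOn (QuadraticMap.polar Q) W)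
    (hex : 4 ≤ Fintype.card F ∨ ¬ IsPlusTypeOn Q W) :
    IsMaximalIn (omegaGL Q) (subspaceStabilizer W ⊓ omegaGL Q) := by
  have hd := (oPolar hQ).finrank_perp W
  rw [finrank_fintype_fun_eq_card] at hd
  refine nondeg_aux hQ (by omega) hW ?_ ?_ (fun g _ => map_ne hQ (by omega) g) ?_ (by omega)
  · rintro rfl
    simp at h2
  · rintro rfl
    rw [finrank_top, finrank_fintype_fun_eq_card] at h2
    omega
  · rintro U (rfl | rfl) h2 h3
    · exact hex.resolve_left (by omega)
    · omega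

theorem nondeg_mid (hn : 9 ≤ Fintype.card ι) (W : Submodule F (ι → F)) (h2 : 3 ≤ finrank F W)
    (h3 : 2 * finrank F W < Fintype.card ι) (hW : IsNondegenerateOn (QuadraticMap.polar Q) W) :
    IsMaximalIn (omegaGL Q) (subspaceStabilizer W ⊓ omegaGL Q) := by
  have hd := (oPolar hQ).finrank_perp W
  rw [finrank_fintype_fun_eq_card] at hd
  refine nondeg_aux hQ (by omega) hW ?_ ?_ (fun g _ => map_ne hQ (by omega) g) ?_ (by omega)
  · rintro rfl
    simp at h2
  · rintro rfl
    rw [finrank_top, finrank_fintype_fun_eq_card] at h3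
    omega
  · rintro U (rfl | rfl) h2 h3 <;> omega

theorem nondeg_half (hn : 8 ≤ Fintype.card ι) (hminus : ¬ IsPlusTypeOn Q ⊤)
    (W : Submodule F (ι → F)) (h2 : Even (finrank F W))
    (h3 : 2 * finrank F W = Fintype.card ι) (hW : IsNondegenerateOn (QuadraticMap.polar Q) W) :
    IsMaximalIn (omegaGL Q) (subspaceStabilizer W ⊓ omegaGL Q) := by
  have key : ∀ W : Submodule F (ι → F), Even (finrank F W) → 2 * finrank F W = Fintype.card ι →
      IsNondegenerateOn (QuadraticMap.polar Q) W → ¬ IsPlusTypeOn Q ((oPolar hQ).perp W) →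
      IsMaximalIn (omegaGL Q) (subspaceStabilizer W ⊓ omegaGL Q) := by
    intro W h2 h3 hW h4
    have hd := (oPolar hQ).finrank_perp W
    rw [finrank_fintype_fun_eq_card] at hd
    refine nondeg_aux hQ (by omega) hW ?_ ?_ (fun g hg h => hminus (isPlusTypeOn_of_isometric hQ
      ((inf_perp_iff_nondegenerateOn _ (oPolar_B hQ)).2 hW) h2 hg h)) ?_ ?_
    · rintro rfl
      rw [finrank_bot] at h3
      omega
    · rintro rfl
      rw [finrank_top, finrank_fintype_fun_eq_card] at h3
      omega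
    · rintro U (rfl | rfl) h2 h3 <;> omega
    · by_cases h8 : Fintype.card ι = 8
      · exact Or.inr (Or.inr ⟨h8, Or.inr h4⟩)
      · omega
  have hd := (oPolar hQ).finrank_perp W
  rw [finrank_fintype_fun_eq_card] at hd
  have hW' := (inf_perp_iff_nondegenerateOn (oPolar hQ) (oPolar_B hQ)).2 hW
  by_cases h4 : IsPlusTypeOn Q ((oPolar hQ).perp W)
  · rw [← stab_perp hQ (by omega)]
    refine key _ (by rwa [show finrank F ((oPolar hQ).perp W) = finrank F W by omega]) (by omega)
      ((inf_perp_iff_nondegenerateOn (oPolar hQ) (oPolar_B hQ)).1 (Polar.inf_perp_perp hW')) ?_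
    rw [Polar.perp_perp]
    rintro ⟨T, hT, hTs, hT'⟩
    obtain ⟨U, hU, hUs, hU'⟩ := h4
    refine hminus ⟨T ⊔ U, le_top, fun x hx => ?_, ?_⟩
    · obtain ⟨t, ht, u, hu, rfl⟩ := Submodule.mem_sup.1 hx
      have := hU hu t (hT ht)
      rw [oPolar_B, QuadraticMap.polar, hTs t ht, hUs u hu, add_comm] at this
      simpa using this
    · have := Submodule.finrank_sup_add_finrank_inf_eq T U
      rw [show T ⊓ U = ⊥ from le_bot_iff.1 (hW' ▸ inf_le_inf hT hU), finrank_bot] at this
      rw [finrank_top, finrank_fintype_fun_eq_card]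
      omega
  · exact key W h2 h3 hW h4

theorem point (hn : 8 ≤ Fintype.card ι) (v : ι → F) (hv : Q v ≠ 0) :
    IsMaximalIn (omegaGL Q) (subspaceStabilizer (Submodule.span F {v}) ⊓ omegaGL Q) := by
  refine isMaximalIn_of_equiv toLE (mem_omegaGL_iff hQ (by omega)) (fun g => ?_)
    (Polar.point_maximal (P := oPolar hQ) (oPolar_wild hQ) (by simp; omega) (v := v) ?_)
  · rw [Subgroup.mem_inf, mem_omegaGL_iff hQ (by omega), mem_subspaceStabilizer_iff,
      Subgroup.mem_inf]
  · rintro rfl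
    exact hv (by simpa using hQ.smul 0 0)

theorem tsPair (hn : 10 ≤ Fintype.card ι) {k : ℕ} (hke : Even k)
    (D : Fin 2 → Submodule F (ι → F)) (hD : IsMDecomposition k D)
    (hts : ∀ i, IsTotallySingularQuad Q (D i)) :
    IsMaximalIn (omegaGL Q) (decompositionStabilizer D ⊓ omegaGL Q) := by
  refine isMaximalIn_of_equiv toLE (mem_omegaGL_iff hQ (by omega)) (fun g => ?_)
    (Polar.tsPair_maximal (P := oPolar hQ) (oPolar_wild hQ) (by simp; omega)
      (by simp; omega) (D := D) ⟨fun x hx => (oPolar_sing hQ).2 (hts 0 x hx),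
        fun x hx => (oPolar_sing hQ).2 (hts 1 x hx),
        le_perp_of_totallySingularQuad hQ (hts 0), le_perp_of_totallySingularQuad hQ (hts 1),
        isCompl_of_two hD.indep hD.iSup_eq_top⟩
      (fun c hc => ⟨0, by simpa using oPolar_lam hQ c hc⟩)
      (Or.inr (by rwa [hD.finrank_eq])))
  rw [Subgroup.mem_inf, mem_omegaGL_iff hQ (by omega), mem_decompositionStabilizer_iff,
    Subgroup.mem_inf]

theorem nonIso (hn : 9 ≤ Fintype.card ι) {k : ℕ} (hk : 2 * k = Fintype.card ι)
    (D : Fin 2 → Submodule F (ι → F))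
    (hD : IsNondegenerateMDecomposition (QuadraticMap.polar Q) k D)
    (hni : ¬ AreIsometricFor Q (D 0) (D 1)) :
    IsMaximalIn (omegaGL Q) (decompositionStabilizer D ⊓ omegaGL Q) := by
  have hd := (oPolar hQ).finrank_perp (D 0)
  rw [finrank_fintype_fun_eq_card] at hd
  have h0 := hD.decomp.finrank_eq 0
  have h1 := hD.decomp.finrank_eq 1
  have hperp : D 1 = (oPolar hQ).perp (D 0) :=
    Submodule.eq_of_le_of_finrank_eq (fun x hx u hu => hD.orthogonal 1 0 (by decide) x hx u hu)
      (by omega)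
  have hni' : ∀ g ∈ (oPolar hQ).Iso, (D 1).map (g : (ι → F) →ₗ[F] (ι → F)) ≠ D 0 := by
    intro g hg h
    refine hni ⟨((g.submoduleMap (D 1)).trans (LinearEquiv.ofEq _ _ h)).symm, fun w => ?_⟩
    obtain ⟨w, rfl⟩ := ((g.submoduleMap (D 1)).trans (LinearEquiv.ofEq _ _ h)).surjective w
    rw [LinearEquiv.symm_apply_apply]
    exact ((mem_oPolar_Iso hQ).1 hg _).symm
  have key : decompositionStabilizer D ⊓ omegaGL Q = subspaceStabilizer (D 0) ⊓ omegaGL Q := by
    ext g
    simp only [Subgroup.mem_inf]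
    refine and_congr_left fun hg => ?_
    have hg' := Polar.E_le_Iso ((mem_omegaGL_iff hQ (by omega) g).1 hg)
    rw [mem_subspaceStabilizer_iff, mem_stab_iff_map, toLE_coe]
    constructor
    · rintro ⟨σ, hσ⟩
      have h2 : σ 1 ≠ 0 := fun h => hni' _ hg' (by rw [toLE_coe, hσ, h])
      have h3 : σ 0 = 0 := by
        revert h2
        generalize σ = τ
        revert τ
        decide
      rw [hσ, h3]
    · intro h
      refine ⟨1, fun i => ?_⟩
      fin_cases i
      · exact h
      · show (D 1).map _ = D 1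
        rw [hperp, ← toLE_coe, Polar.map_perp hg', toLE_coe, h]
  rw [key]
  refine nondeg_aux hQ (by omega) (hD.nondegenerate 0) ?_ ?_ (by rwa [← hperp]) ?_ (by omega)
  · intro h; rw [h, finrank_bot] at h0; omega
  · intro h; rw [h, finrank_top, finrank_fintype_fun_eq_card] at h0; omega
  · rintro U (rfl | rfl) h2 <;> omega

end Cfsg.Agent.H7.GenO
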