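import Cfsg.Agent.H7.FormInSL2
import Cfsg.Agent.H7.SubInst
import Cfsg.Agent.H7.LinRed

/-!
Maximal subgroups of `SL_n(q)` in matrix form, for all `n ≥ 6`.
-/

set_option autoImplicit false

namespace Cfsg.Agent.H7.GenSL

open Geo

variable {F : Type*} [Field F] [Fintype F] {n : ℕ}

theorem stab (W : Submodule F (Fin n → F)) (hW0 : W ≠ ⊥) (hW1 : W ≠ ⊤) :
    IsMaximalIn (specialLinear (Fin n) F) (subspaceStabilizer W ⊓ specialLinear (Fin n) F) := by
  refine isMaximalIn_of_equiv toLE mem_specialLinear_iff (fun g => ?_) (stab_maximal_SLV hW0 hW1)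
  simp only [Subgroup.mem_inf, mem_specialLinear_iff, mem_subspaceStabilizer_iff]

theorem subfield (hn : 5 ≤ n) (F₀ : Subfield F) (r : ℕ) (P : GL (Fin n) F) (hr : r.Prime)
    (hcard : Fintype.card F = Nat.card F₀ ^ r) :
    IsMaximalIn (specialLinear (Fin n) F) (subfieldSubgroup F₀ P ⊓ specialLinear (Fin n) F) := by
  have : Nonempty (Fin n) := ⟨⟨0, by omega⟩⟩
  refine isMaximalIn_of_equiv toLE mem_specialLinear_iff (fun g => ?_)
    (RatStr.N_maximal_SLV (R := stdRat F₀ P) (by simp; omega)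
      (exists_notMem_subfield hr hcard) (subring_eq_top hr hcard))
  rw [Subgroup.mem_inf, mem_specialLinear_iff, mem_subfieldSubgroup_iff_N, Subgroup.mem_inf]

theorem sp (hn : 5 ≤ n) (f : (Fin n → F) → (Fin n → F) → F) (hf : IsSymplecticForm f) :
    IsMaximalIn (specialLinear (Fin n) F) (similarityGroup f ⊓ specialLinear (Fin n) F) := by
  refine isMaximalIn_of_equiv toLE mem_specialLinear_iff (fun g => ?_)
    (Polar.Sim_maximal_of (P := spPolar hf) (by simp; omega) fun X hX =>
      Polar.SLV_le_or_le_Sim_of_lam (spPolar_wild hf) (by simp; omega) (by simp; omega)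
        (fun _ _ => trivial) ⟨1, one_ne_zero, trivial⟩ hX)
  simp only [Subgroup.mem_inf, mem_specialLinear_iff]
  exact Iff.rfl

theorem unitary (hn : 5 ≤ n) (σ : F ≃+* F) (f : (Fin n → F) → (Fin n → F) → F)
    (hf : IsUnitaryForm σ f) :
    IsMaximalIn (specialLinear (Fin n) F) (similarityGroup f ⊓ specialLinear (Fin n) F) := by
  have hσ := unitPolar_ne hf
  refine isMaximalIn_of_equiv toLE mem_specialLinear_iff (fun g => ?_)
    (Polar.Sim_maximal_of (P := unitPolar hf) (by simp; omega) fun X hX =>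
      Polar.SLV_le_or_le_Sim_of_lam (Polar.wild_two_of_unitary hσ rfl) (by simp; omega)
        (by simp; omega) (fun c hc => ?_) (Polar.exists_lam_ne_of_unitary hσ rfl) hX)
  · simp only [Subgroup.mem_inf, mem_specialLinear_iff]
    exact Iff.rfl
  · rw [Polar.val_iff_of_unitary hσ rfl, map_zero]
    rw [unitPolar_ε, one_mul] at hc
    exact hc.symm

theorem orth (hn : 6 ≤ n) (hodd : Odd (Fintype.card F)) (Q : (Fin n → F) → F)
    (hQ : IsNondegenerateQuadraticForm Q) :
    IsMaximalIn (specialLinear (Fin n) F) (quadSimilarityGroup Q ⊓ specialLinear (Fin n) F) := by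
  have h2 := two_ne_zero_of_odd_card hodd
  refine isMaximalIn_of_equiv toLE mem_specialLinear_iff (fun g => ?_)
    (Polar.Sim_maximal_of (P := oPolar hQ) (by simp; omega) fun X hX =>
      Polar.SLV_le_or_le_Sim_of_orth (by simp; omega) (fun _ => rfl) rfl (oPolar_lam hQ) h2 hX)
  simp only [Subgroup.mem_inf, mem_specialLinear_iff]
  refine and_congr_left fun _ => ⟨fun ⟨c, hc⟩ => ⟨c, fun x y => ?_⟩, fun ⟨c, hc⟩ => ⟨c, fun x => ?_⟩⟩
  · simp only [oPolar_B, QuadraticMap.polar, toLE_apply, ← Matrix.mulVec_add, hc]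
    ring
  · have h := hc x x
    simp only [oPolar_B, QuadraticMap.polar, ← two_smul F, hQ.smul, toLE_apply] at h
    apply mul_left_cancel₀ h2
    linear_combination h

end Cfsg.Agent.H7.GenSL
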