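import Cfsg.Agent.H7.Elem

/-!
Rational structures on a vector space (given by a semilinear Frobenius map), a counting lemma for
groups acting on a plane, and conjugacy of the centres of two opposite transvections.
-/

set_option autoImplicit false
set_option linter.unusedSectionVars false

namespace Cfsg.Agent.H7

open Module

variable {F : Type*} [Field F] {V : Type*} [AddCommGroup V] [Module F V]

/-- A structure over the subfield `F₀`: a semilinear map `τ` whose fixed points span. -/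
structure RatStr (F₀ : Subfield F) (V : Type*) [AddCommGroup V] [Module F V] where
  θ : F →+* F
  τ : V →+ V
  θ_iff : ∀ a, θ a = a ↔ a ∈ F₀
  τ_smul : ∀ a x, τ (a • x) = θ a • τ x
  span : ∀ N : Submodule F V, (∀ x, τ x = x → x ∈ N) → N = ⊤

namespace RatStr

variable {F₀ : Subfield F} (R : RatStr F₀ V)

attribute [simp] RatStr.τ_smul

theorem θ_of_mem {a : F} (ha : a ∈ F₀) : R.θ a = a := (R.θ_iff a).2 ha

/-- The standard rational structure on a space of functions. -/
def pi (θ : F →+* F) (hθ : ∀ a, θ a = a ↔ a ∈ F₀) (κ : Type*) [Fintype κ] :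
    RatStr F₀ (κ → F) where
  θ := θ
  τ := { toFun := fun v i => θ (v i)
         map_zero' := by ext; simp
         map_add' := fun v w => by ext; simp }
  θ_iff := hθ
  τ_smul a x := by ext; simp
  span N hN := by
    classical
    rw [eq_top_iff]
    intro v _
    rw [pi_eq_sum_univ' v]
    refine N.sum_mem fun i _ => N.smul_mem _ (hN _ ?_)
    ext j
    by_cases h : j = i <;> simp [h]

/-- Invariant subspaces. -/
def Inv (U : Submodule F V) : Prop := ∀ x ∈ U, R.τ x ∈ U

/-- Rational linear functionals. -/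
def RF (φ : Dual F V) : Prop := ∀ x, φ (R.τ x) = R.θ (φ x)

variable {R}

theorem inv_top : R.Inv ⊤ := fun _ _ => trivial

theorem inv_bot : R.Inv ⊥ := fun x hx => by rw [Submodule.mem_bot] at *; simp [hx]

theorem Inv.inf {U U' : Submodule F V} (h : R.Inv U) (h' : R.Inv U') : R.Inv (U ⊓ U') :=
  fun x hx => ⟨h x hx.1, h' x hx.2⟩

theorem Inv.sup {U U' : Submodule F V} (h : R.Inv U) (h' : R.Inv U') : R.Inv (U ⊔ U') := by
  intro x hx
  obtain ⟨a, ha, b, hb, rfl⟩ := Submodule.mem_sup.1 hx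
  rw [map_add]
  exact Submodule.add_mem_sup (h a ha) (h' b hb)

theorem Inv.sup_span {U : Submodule F V} (h : R.Inv U) {v : V} (hv : R.τ v ∈ U ⊔ F ∙ v) :
    R.Inv (U ⊔ F ∙ v) := by
  intro x hx
  obtain ⟨a, ha, b, rfl⟩ := mem_sup_span_singleton.1 hx
  rw [map_add, R.τ_smul]
  exact Submodule.add_mem _ (Submodule.mem_sup_left (h a ha)) (Submodule.smul_mem _ _ hv)

theorem inv_span {v : V} (hv : R.τ v ∈ F ∙ v) : R.Inv (F ∙ v) := by
  simpa using inv_bot.sup_span (R := R) (v := v) (by simpa using hv)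

theorem inv_span' {v : V} (hv : R.τ v = v) : R.Inv (F ∙ v) :=
  inv_span (by rw [hv]; exact Submodule.mem_span_singleton_self v)

theorem rf_of_forall {φ : Dual F V} (h : ∀ x, R.τ x = x → φ x ∈ F₀) : R.RF φ := by
  let N : Submodule F V :=
    { carrier := {x | φ (R.τ x) = R.θ (φ x)}
      zero_mem' := by simp
      add_mem' := fun {x y} hx hy => by
        simp only [Set.mem_setOf_eq, map_add] at *; rw [hx, hy]
      smul_mem' := fun a x hx => by
        simp only [Set.mem_setOf_eq, τ_smul, map_smul, smul_eq_mul, map_mul] at *; rw [hx] }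
  have := R.span N fun x hx => by
    show φ (R.τ x) = R.θ (φ x)
    rw [hx, R.θ_of_mem (h x hx)]
  exact fun x => (show x ∈ N by simp [this])

theorem RF.mem {φ : Dual F V} (h : R.RF φ) {x : V} (hx : R.τ x = x) : φ x ∈ F₀ := by
  rw [← R.θ_iff, ← h x, hx]

theorem rf_coord {κ : Type*} (b : Basis κ F V) (hb : ∀ i, R.τ (b i) = b i) (i : κ) :
    R.RF (b.coord i) := by
  classical
  intro x
  have hx : x ∈ Submodule.span F (Set.range b) := by simp
  induction hx using Submodule.span_induction with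
  | mem x hx =>
    obtain ⟨j, rfl⟩ := hx
    by_cases h : j = i <;> simp [hb, h, Finsupp.single_apply]
  | zero => simp
  | add x y _ _ hx hy => simp only [map_add, hx, hy]
  | smul a x _ hx => simp only [τ_smul, map_smul, smul_eq_mul, map_mul, hx]

theorem exists_basis_ext {S : Set V} (hS : LinearIndepOn F id S) (hS' : ∀ x ∈ S, R.τ x = x) :
    ∃ (s : Set V) (b : Basis s F V), S ⊆ s ∧ (∀ i, b i = i) ∧ ∀ i, R.τ (b i) = b i := by
  obtain ⟨s, h1, h2, h3, h4⟩ := exists_linearIndepOn_id_extension (t := {x | R.τ x = x}) hS hS'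
  refine ⟨s, Basis.mk h4 ?_, h2, fun i => by simp, fun i => by simpa using h1 i.2⟩
  rw [top_le_iff]
  refine R.span _ fun x hx => ?_
  simpa using h3 hx

/-- Descent: an invariant subspace is spanned by its rational vectors. -/
theorem Inv.le {U : Submodule F V} (hU : R.Inv U) {N : Submodule F V}
    (hN : ∀ x ∈ U, R.τ x = x → x ∈ N) : U ≤ N := by
  classical
  obtain ⟨s, b, -, -, hb⟩ := R.exists_basis_ext (S := ∅) (linearIndepOn_empty _ _) (by simp)
  have hr : ∀ x i, b.repr (R.τ x) i = R.θ (b.repr x i) := fun x i => rf_coord b hb i x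
  intro x hx
  induction h : (b.repr x).support.card using Nat.strong_induction_on generalizing x with
  | _ n ih =>
    by_cases h0 : x = 0
    · rw [h0]; exact N.zero_mem
    obtain ⟨i, hi⟩ : ∃ i, b.repr x i ≠ 0 := by
      by_contra! hh
      exact h0 (b.repr.map_eq_zero_iff.1 (Finsupp.ext hh))
    have lt : ∀ y ∈ U, ∀ j, b.repr x j ≠ 0 → b.repr y j = 0 →
        (∀ k, b.repr x k = 0 → b.repr y k = 0) → y ∈ N := by
      intro y hy j h1 h2 h3
      refine ih _ (h ▸ Finset.card_lt_card ⟨fun k hk => ?_, fun hh => ?_⟩) hy rfl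
      · rw [Finsupp.mem_support_iff] at hk ⊢
        exact fun h => hk (h3 k h)
      · exact Finsupp.mem_support_iff.1 (hh (Finsupp.mem_support_iff.2 h1)) h2
    set x' := (b.repr x i)⁻¹ • x with hx'
    have hx'U : x' ∈ U := U.smul_mem _ hx
    set y := R.τ x' - x' with hy
    have hyU : y ∈ U := U.sub_mem (hU _ hx'U) hx'U
    have hy0 : ∀ k, b.repr x k = 0 → b.repr y k = 0 := fun k hk => by simp [hy, hx', hr, hk]
    have hyN : y ∈ N := lt y hyU i hi (by simp [hy, hx', hr, hi]) hy0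
    by_cases h1 : y = 0
    · have := hN x' hx'U (sub_eq_zero.1 h1)
      rwa [hx', N.smul_mem_iff (inv_ne_zero hi)] at this
    obtain ⟨j, hj⟩ : ∃ j, b.repr y j ≠ 0 := by
      by_contra! hh
      exact h1 (b.repr.map_eq_zero_iff.1 (Finsupp.ext hh))
    have := lt (x - (b.repr x j / b.repr y j) • y) (U.sub_mem hx (U.smul_mem _ hyU)) j
      (fun h => hj (hy0 j h)) (by simp [hj]) fun k hk => by simp [hk, hy0 k hk]
    rwa [N.sub_mem_iff_left (N.smul_mem _ hyN)] at this

theorem Inv.exists_notMem {U N : Submodule F V} (hU : R.Inv U) (h : ¬ U ≤ N) :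
    ∃ x ∈ U, R.τ x = x ∧ x ∉ N := by
  by_contra! hh
  exact h (hU.le hh)

theorem Inv.exists_rf {U : Submodule F V} (hU : R.Inv U) {v : V} (hv : v ∉ U) :
    ∃ φ : Dual F V, R.RF φ ∧ (∀ u ∈ U, φ u = 0) ∧ φ v ≠ 0 := by
  obtain ⟨S, h1, h2, h3⟩ := exists_linearIndependent F {x | x ∈ U ∧ R.τ x = x}
  obtain ⟨s, b, h4, h5, hb⟩ := R.exists_basis_ext (S := S) h3 fun x hx => (h1 hx).2
  by_contra! hcon
  apply hv
  rw [← b.linearCombination_repr v, Finsupp.linearCombination_apply, Finsupp.sum]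
  refine U.sum_mem fun i _ => ?_
  by_cases hi : (i : V) ∈ S
  · exact U.smul_mem _ (h5 i ▸ (h1 hi).1)
  · have := hcon (b.coord i) (rf_coord b hb i) fun u hu => ?_
    · rw [Basis.coord_apply] at this
      simp [this]
    · refine (hU.le (N := LinearMap.ker (b.coord i)) fun x hx hx' => ?_) hu
      have h6 : x ∈ Submodule.span F S := h2 ▸ Submodule.subset_span ⟨hx, hx'⟩
      refine (Submodule.span_le.2 fun y hy => ?_ : Submodule.span F S ≤ _) h6
      have h7 : y = b ⟨y, h4 hy⟩ := (h5 ⟨y, h4 hy⟩).symm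
      have h8 : (⟨y, h4 hy⟩ : s) ≠ i := fun h => hi (h ▸ hy)
      rw [h7]
      simp [h8]

theorem τ_eq_zero {x : V} (h : R.τ x = 0) : x = 0 := by
  by_contra h0
  obtain ⟨φ, h1, -, h2⟩ := (inv_bot (R := R)).exists_rf (v := x) (by simpa using h0)
  have := h1 x
  rw [h, map_zero, eq_comm, map_eq_zero] at this
  exact h2 this

theorem Inv.surj [Finite F] [FiniteDimensional F V] {U : Submodule F V} (hU : R.Inv U) {x : V}
    (hx : x ∈ U) : ∃ y ∈ U, R.τ y = x := by
  have : Finite V := Module.finite_of_finite F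
  have h : Function.Injective fun y : U => (⟨R.τ y, hU y y.2⟩ : U) := by
    intro y z h
    have h1 : R.τ (y - z) = 0 := by rw [map_sub, sub_eq_zero]; exact congrArg Subtype.val h
    exact Subtype.ext (sub_eq_zero.1 (τ_eq_zero h1))
  obtain ⟨y, hy⟩ := Finite.injective_iff_surjective.1 h ⟨x, hx⟩
  exact ⟨y, y.2, congrArg Subtype.val hy⟩

theorem linearIndependent {κ : Type*} [Fintype κ] {v : κ → V} (hv : ∀ i, R.τ (v i) = v i)
    (h : LinearIndependent F₀ v) : LinearIndependent F v := by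
  rw [Fintype.linearIndependent_iff] at h ⊢
  intro a ha
  have h1 : (pi R.θ R.θ_iff κ).Inv (LinearMap.ker (Fintype.linearCombination F v)) := by
    intro x hx
    rw [LinearMap.mem_ker, Fintype.linearCombination_apply] at hx ⊢
    have := congrArg R.τ hx
    simpa [hv, pi] using this
  have h2 := h1.le (N := ⊥) (fun x hx hx' => ?_) (x := a) ha
  · exact fun i => congrFun h2 i
  · rw [LinearMap.mem_ker, Fintype.linearCombination_apply] at hx
    have h3 : ∀ i, x i ∈ F₀ := fun i => (R.θ_iff _).1 (congrFun hx' i)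
    have := h (fun i => ⟨x i, h3 i⟩) hx
    rw [Submodule.mem_bot]
    ext i
    exact congrArg Subtype.val (this i)

variable (R) in
/-- The rational vectors. -/
def V₀ : Submodule F₀ V where
  carrier := {x | R.τ x = x}
  zero_mem' := by simp
  add_mem' {x y} hx hy := by simp only [Set.mem_setOf_eq, map_add] at *; rw [hx, hy]
  smul_mem' a x hx := by
    simp only [Set.mem_setOf_eq] at *
    rw [Subfield.smul_def, R.τ_smul, hx, R.θ_of_mem a.2]

theorem mem_V₀ {x : V} : x ∈ R.V₀ ↔ R.τ x = x := Iff.rfl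

variable (R) in
/-- The rational vectors of a subspace. -/
def rat (U : Submodule F V) : Submodule F₀ R.V₀ := (U.restrictScalars F₀).comap R.V₀.subtype

@[simp] theorem mem_rat {U : Submodule F V} {x : R.V₀} : x ∈ R.rat U ↔ (x : V) ∈ U := Iff.rfl

variable [Finite F] [FiniteDimensional F V]

instance : FiniteDimensional F₀ R.V₀ := by
  have : Finite V := Module.finite_of_finite F
  exact Module.Finite.of_finite

theorem finrank_rat_le (U : Submodule F V) : finrank F₀ (R.rat U) ≤ finrank F U := by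
  let c := Module.finBasis F₀ (R.rat U)
  have h1 : LinearIndependent F₀ fun i => ((c i : R.V₀) : V) :=
    (c.linearIndependent.map' _ (R.rat U).ker_subtype).map' _ R.V₀.ker_subtype
  have h2 := R.linearIndependent (fun i => (c i : R.V₀).2) h1
  have h3 : LinearIndependent F fun i => (⟨((c i : R.V₀) : V), (c i).2⟩ : U) :=
    LinearIndependent.of_comp U.subtype h2
  simpa using h3.fintype_card_le_finrank

theorem Inv.le_finrank_rat {U : Submodule F V} (hU : R.Inv U) :
    finrank F U ≤ finrank F₀ (R.rat U) := by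
  let c := Module.finBasis F₀ (R.rat U)
  have h1 : U ≤ Submodule.span F (Set.range fun i => ((c i : R.V₀) : V)) := by
    refine hU.le fun x hx hx' => ?_
    have := congrArg (fun y : R.rat U => ((y : R.V₀) : V)) (c.sum_repr ⟨⟨x, hx'⟩, hx⟩)
    simp only [Submodule.coe_sum, Submodule.coe_smul] at this
    rw [← this]
    exact Submodule.sum_mem _ fun i _ =>
      Submodule.smul_mem _ (c.repr _ i : F) (Submodule.subset_span ⟨i, rfl⟩)
  exact (Submodule.finrank_mono h1).trans ((finrank_range_le_card _).trans (by simp))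

theorem le_finrank_V₀ : finrank F V ≤ finrank F₀ R.V₀ := by
  have := (inv_top (R := R)).le_finrank_rat
  rw [finrank_top] at this
  exact this.trans (Submodule.finrank_le _)

theorem exists_τ_sub (D : Submodule F V) :
    ∃ D' : Submodule F V, finrank F D' ≤ finrank F D ∧ ∀ x ∈ D, R.τ x ∈ D' := by
  let c := Module.finBasis F D
  refine ⟨Submodule.span F (Set.range fun i => R.τ (c i)),
    (finrank_range_le_card _).trans (by simp), fun x hx => ?_⟩
  have := congrArg (fun y : D => R.τ y) (c.sum_repr ⟨x, hx⟩)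
  simp only [Submodule.coe_sum, Submodule.coe_smul, map_sum, τ_smul] at this
  rw [← this]
  exact Submodule.sum_mem _ fun i _ => Submodule.smul_mem _ _ (Submodule.subset_span ⟨i, rfl⟩)

/-- The rank argument: a scalar multiple of a map close to the identity which is rational on a large
invariant subspace has a rational scalar. -/
theorem mem_of_rank {M D : Submodule F V} (hM : R.Inv M) (hd : 2 * finrank F D < finrank F M)
    {ν : F} (h : ∀ z ∈ M, R.τ z = z → ∃ δ ∈ D, R.τ (ν • (z + δ)) - ν • (z + δ) ∈ D) : ν ∈ F₀ := by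
  by_contra hν
  rw [← R.θ_iff, ← sub_eq_zero] at hν
  obtain ⟨D', h1, h2⟩ := R.exists_τ_sub D
  have h3 : M ≤ D ⊔ D' := by
    refine hM.le fun z hz hz' => ?_
    obtain ⟨δ, hδ, h3⟩ := h z hz hz'
    rw [← Submodule.smul_mem_iff _ hν]
    have : (R.θ ν - ν) • z = (R.τ (ν • (z + δ)) - ν • (z + δ) + ν • δ) + -(R.θ ν • R.τ δ) := by
      rw [τ_smul, map_add, hz']; module
    rw [this]
    exact Submodule.add_mem_sup (D.add_mem h3 (D.smul_mem _ hδ))
      (D'.neg_mem (D'.smul_mem _ (h2 δ hδ)))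
  have := Submodule.finrank_mono h3
  have := Submodule.finrank_add_le_finrank_add_finrank D D'
  omega

variable (R) in
/-- The normaliser of the rational structure up to scalars. -/
def N : Subgroup (V ≃ₗ[F] V) where
  carrier := {g | ∃ c : Fˣ, ∀ x, R.τ (g x) = (c : F) • g (R.τ x)}
  one_mem' := ⟨1, by simp⟩
  mul_mem' := by
    rintro a b ⟨c, hc⟩ ⟨d, hd⟩
    exact ⟨c * d, fun x => by simp [hc, hd, smul_smul]⟩
  inv_mem' := by
    rintro a ⟨c, hc⟩
    refine ⟨c⁻¹, fun x => ?_⟩
    obtain ⟨x, rfl⟩ := a.surjective x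
    rw [hc, map_smul, show ∀ y, a⁻¹ (a y) = y from a.symm_apply_apply,
      show ∀ y, a⁻¹ (a y) = y from a.symm_apply_apply, smul_smul]
    simp

theorem mem_N {g : V ≃ₗ[F] V} : g ∈ R.N ↔ ∃ c : Fˣ, ∀ x, R.τ (g x) = (c : F) • g (R.τ x) :=
  Iff.rfl

theorem mem_N_of {g : V ≃ₗ[F] V} {c : F} (h : ∀ x, R.τ x = x → R.τ (g x) = c • g x) :
    g ∈ R.N := by
  let N : Submodule F V :=
    { carrier := {x | R.τ (g x) = c • g (R.τ x)}
      zero_mem' := by simp
      add_mem' := fun {x y} hx hy => by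
        simp only [Set.mem_setOf_eq, map_add, smul_add] at *; rw [hx, hy]
      smul_mem' := fun a x hx => by
        simp only [Set.mem_setOf_eq, τ_smul, map_smul] at *; rw [hx, smul_comm] }
  have h1 := R.span N fun x hx => by
    show R.τ (g x) = c • g (R.τ x)
    rw [hx, h x hx]
  have h2 : ∀ x, R.τ (g x) = c • g (R.τ x) := fun x => (show x ∈ N by simp [h1])
  by_cases hc : c = 0
  · refine ⟨1, fun x => ?_⟩
    have : x = 0 := by
      simpa using τ_eq_zero (R := R) (x := g x) (by simpa [hc] using h2 x)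
    simp [this]
  · exact ⟨Units.mk0 c hc, h2⟩

end RatStr

/-- Counting lemma for a group acting on a plane. -/
theorem card_le_of_plane [Finite F] {Y : Subgroup (V ≃ₗ[F] V)} {w x : V} (hw : w ≠ 0)
    (hx : x ∉ F ∙ w) (hL : ∀ g ∈ Y, g w ∈ (F ∙ w) ⊔ F ∙ x) {g₁ : V ≃ₗ[F] V} (hg₁ : g₁ ∈ Y)
    (hg₁' : g₁ w ∉ F ∙ w) {C T : Finset F} (hC0 : 0 ∉ C)
    (hC : ∀ c ∈ C, ∃ s ∈ Y, s w = w ∧ s x = x + c • w)
    (hT : ∀ g ∈ Y, ∀ μ : F, g w = μ • w → μ ∈ T) : C.card ≤ T.card := by
  classical
  have hfin : {v | (∃ g ∈ Y, g w = v) ∧ v ∉ F ∙ w}.Finite := by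
    refine (Set.finite_range fun p : F × F => p.1 • w + p.2 • x).subset ?_
    rintro _ ⟨⟨g, hg, rfl⟩, -⟩
    obtain ⟨u, hu, b, hb⟩ := mem_sup_span_singleton.1 (hL g hg)
    obtain ⟨a, rfl⟩ := Submodule.mem_span_singleton.1 hu
    exact ⟨(a, b), hb.symm⟩
  set O := hfin.toFinset with hO
  have hO' : ∀ v, v ∈ O ↔ (∃ g ∈ Y, g w = v) ∧ v ∉ F ∙ w := fun v => by simp [hO]
  have h1 : ∀ v ∈ O, ∃ β : F, β ≠ 0 ∧ ∀ c ∈ C, w + (β * c) • v ∈ O := by
    intro v hv
    obtain ⟨⟨g, hg, rfl⟩, hv⟩ := (hO' v).1 hv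
    obtain ⟨u, hu, β, hb⟩ := mem_sup_span_singleton.1 (hL _ (Y.inv_mem hg))
    obtain ⟨α, rfl⟩ := Submodule.mem_span_singleton.1 hu
    have hb' : w = α • g w + β • g x := by
      rw [← map_smul, ← map_smul, ← map_add, ← hb]; exact (g.apply_symm_apply w).symm
    have hβ : β ≠ 0 := by
      rintro rfl
      rw [zero_smul, add_zero] at hb'
      have hα : α ≠ 0 := by rintro rfl; exact hw (by simpa using hb')
      exact hv (Submodule.mem_span_singleton.2 ⟨α⁻¹, by rw [hb', smul_smul]; simp [hα, ← hb']⟩)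
    refine ⟨β, hβ, fun c hc => (hO' _).2 ⟨?_, fun h => hv ?_⟩⟩
    · obtain ⟨s, hs, hsw, hsx⟩ := hC c hc
      refine ⟨g * s * g⁻¹, Y.mul_mem (Y.mul_mem hg hs) (Y.inv_mem hg), ?_⟩
      rw [LinearEquiv.mul_apply, LinearEquiv.mul_apply, hb]
      simp only [map_add, map_smul, hsw, hsx]
      linear_combination (norm := module) (-1 : F) • hb'
    · rwa [Submodule.add_mem_iff_right _ (Submodule.mem_span_singleton_self w),
        Submodule.smul_mem_iff _ (mul_ne_zero hβ (by rintro rfl; exact hC0 hc))] at h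
  choose! β hβ0 hβ using h1
  have h2 := Finset.card_le_mul_card_image_of_maps_to (s := O ×ˢ C) (t := O)
    (f := fun p => w + (β p.1 * p.2) • p.1)
    (fun p hp => hβ _ (Finset.mem_product.1 hp).1 _ (Finset.mem_product.1 hp).2) T.card ?_
  · rw [Finset.card_product, mul_comm] at h2
    exact Nat.le_of_mul_le_mul_right h2 (Finset.card_pos.2 ⟨_, (hO' _).2 ⟨⟨g₁, hg₁, rfl⟩, hg₁'⟩⟩)
  · intro b _
    rcases Finset.eq_empty_or_nonempty {a ∈ O ×ˢ C | w + (β a.1 * a.2) • a.1 = b} with h | h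
    · simp [h]
    obtain ⟨⟨v₀, c₀⟩, h0⟩ := h
    simp only [Finset.mem_filter, Finset.mem_product] at h0
    obtain ⟨⟨g₀, hg₀, hgv₀⟩, hv₀⟩ := (hO' _).1 h0.1.1
    have key : ∀ p ∈ {a ∈ O ×ˢ C | w + (β a.1 * a.2) • a.1 = b},
        p.1 = ((β p.1 * p.2)⁻¹ * (β v₀ * c₀)) • v₀ := by
      intro p hp
      simp only [Finset.mem_filter, Finset.mem_product] at hp
      have h3 : (β p.1 * p.2) • p.1 = (β v₀ * c₀) • v₀ := add_left_cancel (hp.2.trans h0.2.symm)
      rw [mul_smul, ← h3, smul_smul,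
        inv_mul_cancel₀ (mul_ne_zero (hβ0 _ hp.1.1) fun h => hC0 (h ▸ hp.1.2)), one_smul]
    refine Finset.card_le_card_of_injOn (fun p => (β p.1 * p.2)⁻¹ * (β v₀ * c₀)) (fun p hp => ?_)
      fun p hp q hq hpq => ?_
    · have h3 := key p hp
      simp only [Finset.coe_filter, Finset.mem_product, Set.mem_setOf_eq] at hp
      obtain ⟨⟨g, hg, hgv⟩, -⟩ := (hO' _).1 hp.1.1
      refine hT (g₀⁻¹ * g) (Y.mul_mem (Y.inv_mem hg₀) hg) _ ?_
      have h4 : g₀⁻¹ v₀ = w := by rw [← hgv₀]; exact g₀.symm_apply_apply w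
      rw [LinearEquiv.mul_apply, hgv]
      conv_lhs => rw [h3]
      rw [map_smul, h4]
    · have h3 : p.1 = q.1 :=
        (key p hp).trans ((congrArg (· • v₀) hpq).trans (key q hq).symm)
      have h4 : β v₀ * c₀ ≠ 0 := mul_ne_zero (hβ0 _ h0.1.1) fun h => hC0 (h ▸ h0.1.2)
      simp only [Finset.coe_filter, Finset.mem_product, Set.mem_setOf_eq] at hp
      simp only [mul_left_inj' h4, inv_inj, ← h3, mul_right_inj' (hβ0 _ hp.1.1)] at hpq
      exact Prod.ext h3 hpq

/-- The centres of two opposite transvections are conjugate in the group they generate. -/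
theorem exists_swap_tv [Finite F] {X : Subgroup (V ≃ₗ[F] V)} {χ ψ : Dual F V} {w u : V}
    (h1 : TV X χ w) (h2 : TV X ψ u) (hw : χ w = 0) (hu : ψ u = 0) (hχ : χ u ≠ 0) (hψ : ψ w ≠ 0) :
    ∃ h ∈ X, ∃ μ : F, h w = μ • u ∧ ∀ x, h x - x ∈ (F ∙ u) ⊔ F ∙ w := by
  classical
  obtain ⟨p, hp⟩ := CharP.exists F
  have hpp : Fact p.Prime := ⟨CharP.char_is_prime F p⟩
  set L := (F ∙ u) ⊔ F ∙ w with hL
  have huL : u ∈ L := Submodule.mem_sup_left (Submodule.mem_span_singleton_self u)
  have hwL : w ∈ L := Submodule.mem_sup_right (Submodule.mem_span_singleton_self w)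
  let Ω := {U : Submodule F V // ∃ h ∈ X, (∀ x, h x - x ∈ L) ∧ U = F ∙ h w}
  have hΩ : ∀ U : Ω, ∃ a b : F, a • u + b • w ≠ 0 ∧ U.1 = F ∙ (a • u + b • w) := by
    rintro ⟨_, h, -, hh, rfl⟩
    obtain ⟨y, hy, b, hb⟩ := mem_sup_span_singleton.1
      (show h w ∈ L by simpa using L.add_mem (hh w) hwL)
    obtain ⟨a, rfl⟩ := Submodule.mem_span_singleton.1 hy
    refine ⟨a, b, ?_, congrArg (fun y => F ∙ y) hb⟩
    rw [← hb, Ne, LinearEquiv.map_eq_zero_iff]
    rintro rfl; simp at hψ
  have : Finite Ω := by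
    choose a b hab using hΩ
    refine Finite.of_injective (fun U => (a U, b U)) fun U U' h => Subtype.ext ?_
    simp only [Prod.mk.injEq] at h
    rw [(hab U).2, (hab U').2, h.1, h.2]
  have := Fintype.ofFinite Ω
  have key : ∀ (φ : Dual F V) (v : V), v ∈ L → φ v = 0 → TV X φ v → ∃ S : Set Ω,
      Nat.card Ω ≡ Nat.card S [MOD p] ∧
      ∀ U : Ω, U ∈ S ↔ U.1.map (LinearMap.id + φ.smulRight v) = U.1 := by
    intro φ v hv h0 ⟨t, ht, ht'⟩
    have ht'' : (t : V →ₗ[F] V) = LinearMap.id + φ.smulRight v := LinearMap.ext ht'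
    let f : Function.End Ω := fun U => ⟨U.1.map (t : V →ₗ[F] V), by
      obtain ⟨h, hh, hh', hU⟩ := U.2
      refine ⟨t * h, X.mul_mem ht hh, fun x => ?_, by simp [hU, Submodule.map_span]⟩
      rw [LinearEquiv.mul_apply, ht', add_sub_right_comm]
      exact L.add_mem (hh' x) (L.smul_mem _ hv)⟩
    have hf : ∀ (k : ℕ) (U : Ω), ((f ^ k) U).1 = U.1.map ((t ^ k : V ≃ₗ[F] V) : V →ₗ[F] V) := by
      intro k
      induction k with
      | zero => exact fun U => (Submodule.map_id _).symm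
      | succ k ih =>
        intro U
        rw [pow_succ', pow_succ', LinearEquiv.coe_toLinearMap_mul, Module.End.mul_eq_comp,
          Submodule.map_comp, ← ih]
        rfl
    have htk : ∀ (k : ℕ) x, (t ^ k) x = x + ((k : F) * φ x) • v := by
      intro k
      induction k with
      | zero => simp
      | succ k ih =>
        intro x
        rw [pow_succ', LinearEquiv.mul_apply, ih, ht']
        simp only [map_add, map_smul, h0, smul_eq_mul, mul_zero, add_zero, Nat.cast_succ]
        module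
    refine ⟨f.fixedPoints, ?_, fun U => ?_⟩
    · have := Equiv.Perm.card_fixedPoints_modEq (f := f) (p := p) (n := 1) ?_
      · rwa [← Nat.card_eq_fintype_card, ← Nat.card_eq_fintype_card] at this
      funext U
      apply Subtype.ext
      rw [hf, show t ^ p ^ 1 = 1 from LinearEquiv.ext fun x => by simp [htk]]
      exact Submodule.map_id _
    · rw [← ht'']
      exact Subtype.ext_iff
  obtain ⟨S, hS, hS'⟩ := key χ w hwL hw h1
  obtain ⟨T, hT, hT'⟩ := key ψ u huL hu h2
  have fix : ∀ (φ : Dual F V) (v y : V), φ y ≠ 0 →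
      (F ∙ y).map (LinearMap.id + φ.smulRight v) = F ∙ y → φ v = 0 → v = 0 := by
    intro φ v y hy h h0
    have h3 : y + φ y • v ∈ F ∙ y := h.le (Submodule.mem_map_of_mem
      (Submodule.mem_span_singleton_self y))
    rw [Submodule.add_mem_iff_right _ (Submodule.mem_span_singleton_self y),
      Submodule.smul_mem_iff _ hy, Submodule.mem_span_singleton] at h3
    obtain ⟨a, rfl⟩ := h3
    simp only [map_smul, smul_eq_mul, mul_eq_zero, hy, or_false] at h0
    simp [h0]
  have hcard : Nat.card S = 1 := by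
    rw [Nat.card_eq_one_iff_exists]
    refine ⟨⟨⟨F ∙ w, 1, X.one_mem, by simp, rfl⟩, (hS' _).2 (by simp [Submodule.map_span, hw])⟩,
      fun U => Subtype.ext (Subtype.ext ?_)⟩
    obtain ⟨a, b, h0, hU⟩ := hΩ U
    have h3 := (hS' _).1 U.2
    rw [hU] at h3 ⊢
    have ha : a = 0 := by
      by_contra ha
      have := fix χ w _ (by simp [hw, ha, hχ]) h3 hw
      rw [this] at hψ
      simp at hψ
    subst ha
    rw [zero_smul, zero_add] at h0 ⊢
    exact Submodule.span_singleton_smul_eq (IsUnit.mk0 b (by rintro rfl; simp at h0)) w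
  have hne : Nat.card T ≠ 0 := by
    intro h
    rw [hcard] at hS
    rw [h] at hT
    exact hpp.out.one_lt.ne' (Nat.dvd_one.1 ((Nat.modEq_iff_dvd' (by omega)).1
      (hT.symm.trans hS)))
  obtain ⟨⟨U⟩, -⟩ := Nat.card_ne_zero.1 hne
  obtain ⟨a, b, h0, hU⟩ := hΩ U
  have h3 := (hT' _).1 U.2
  rw [hU] at h3
  have hb : b = 0 := by
    by_contra hb
    have := fix ψ u _ (by simp [hu, hb, hψ]) h3 hu
    rw [this] at hχ
    simp at hχ
  obtain ⟨h, hh, hh', hU'⟩ := U.1.2
  have h4 : h w ∈ F ∙ (a • u + b • w) := by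
    rw [← hU, hU']; exact Submodule.mem_span_singleton_self _
  obtain ⟨c, hc⟩ := Submodule.mem_span_singleton.1 h4
  exact ⟨h, hh, c * a, by rw [← hc, hb]; simp [smul_smul], hh'⟩

end Cfsg.Agent.H7
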