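import Cfsg.Agent.H7.SubPolar

/-!
Subfield subgroups of the elementary group of a polar space are maximal.
-/

set_option autoImplicit false
set_option linter.unusedSectionVars false

namespace Cfsg.Agent.H7

open Module

namespace Polar

variable {F : Type*} [Field F] {V : Type*} [AddCommGroup V] [Module F V] {P : Polar F V}
variable {F₀ : Subfield F} {R : RatStr F₀ V}
variable [Finite F] [FiniteDimensional F V]

theorem EI.tv {X : Subgroup (V ≃ₗ[F] V)} {u : V} {c : F} (h : P.EI X u 0 c) :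
    TV X (-(P.σ c • P.B.flip u)) u :=
  h.has.congr fun x => by simp [eich, sub_eq_add_neg]

namespace RatOK

variable (h : P.RatOK R) {d : ℕ} (hw : h.restrict.Wild d)
variable {X : Subgroup (V ≃ₗ[F] V)}
  (hX : ∀ e y c, R.τ e = e → R.τ y = y → c ∈ F₀ → P.Val e 0 → P.B y e = 0 → P.Val y c →
    P.EI X e y c) (hXI : X ≤ P.Iso)
  (hL : ∀ (w : V) (hws : P.Val w 0), R.τ w = w → w ≠ 0 → ∀ z ∈ P.zSub X hws, R.τ z - z ∈ F ∙ w)
include h hX hXI hL

theorem τ_map_sub_mem {g : V ≃ₗ[F] V} (hg : g ∈ X) {w w' : V} (hws : P.Val w 0) (hw1 : R.τ w = w)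
    (hws' : P.Val w' 0) (hw1' : R.τ w' = w') (h0' : w' ≠ 0) {μ : F} (hμ0 : μ ≠ 0)
    (hμ : g w = μ • w') {z : V} (hz : R.τ z = z) (hzw : P.B z w = 0) :
    R.τ (P.σ μ • g z) - P.σ μ • g z ∈ F ∙ w' :=
  hL w' hws' hw1' h0' _
    (map_mem_zSub hws' hg (hXI hg) hμ0 hμ (h.mem_zSub_of_rat hX hws hw1 hz hzw))

theorem mem_of_rank {g : V ≃ₗ[F] V} (hg : g ∈ X) {w w' : V} (hws : P.Val w 0) (hw1 : R.τ w = w)
    (h0 : w ≠ 0) (hws' : P.Val w' 0) (hw1' : R.τ w' = w') (h0' : w' ≠ 0) {μ : F} (hμ0 : μ ≠ 0)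
    (hμ : g w = μ • w') {D : Submodule F V} (hD : 2 * finrank F D + 1 < finrank F V)
    (hwD : w' ∈ D) (hgD : ∀ z, P.B z w = 0 → g z - z ∈ D) : μ ∈ F₀ := by
  rw [← P.σσ μ]
  refine h.σ_mem (R.mem_of_rank (h.inv_pp hw1) (D := D)
    (by have := finrank_pp (P := P) h0; omega) fun z hz hz' => ⟨g z - z, hgD z hz, ?_⟩)
  rw [add_sub_cancel]
  exact (Submodule.span_singleton_le_iff_mem _ _).2 hwD
    (h.τ_map_sub_mem hX hXI hL hg hws hw1 hws' hw1' h0' hμ0 hμ hz' hz)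

theorem τ_mem_of_perp (hn : 8 ≤ finrank F V) {g : V ≃ₗ[F] V} (hg : g ∈ X) {w₀ w : V}
    (hw₀s : P.Val w₀ 0) (hw₀ : R.τ w₀ = w₀) (h00 : w₀ ≠ 0) (hws : P.Val w 0) (hw1 : R.τ w = w)
    (h0 : w ≠ 0) (hxw : P.B (g w₀) w = 0) (hx : g w₀ ∉ F ∙ w) :
    R.τ (g w₀) ∈ (F ∙ w) ⊔ F ∙ g w₀ := by
  set x := g w₀ with hxdef
  have hxs : P.Val x 0 := Iso.val (hXI hg) hw₀s
  set L := (F ∙ w) ⊔ F ∙ x with hLdef
  have hwL : w ∈ L := Submodule.mem_sup_left (Submodule.mem_span_singleton_self w)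
  have hxL : x ∈ L := Submodule.mem_sup_right (Submodule.mem_span_singleton_self x)
  have hperp : ∀ v, v ∈ P.perp L ↔ P.B v w = 0 ∧ P.B v x = 0 := fun v => by
    simp only [hLdef, perp_sup, perp_span_singleton, Submodule.mem_inf, mem_pp]
  have hLL : L ≤ P.perp L := by
    simp only [hLdef, sup_le_iff, Submodule.span_singleton_le_iff_mem]
    exact ⟨(hperp w).2 ⟨sing_B hws, P.B_symm hxw⟩, (hperp x).2 ⟨hxw, sing_B hxs⟩⟩
  let Y : Subgroup (V ≃ₗ[F] V) :=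
    { carrier := {y | y ∈ X ∧ y ∈ stab (P.perp L) ∧ ∀ v ∈ P.perp L, y v - v ∈ L}
      one_mem' := ⟨X.one_mem, Subgroup.one_mem _, by simp⟩
      mul_mem' := fun {a b} ha hb => ⟨X.mul_mem ha.1 hb.1, Subgroup.mul_mem _ ha.2.1 hb.2.1,
        fun v hv => by
          simpa using L.add_mem (ha.2.2 (b v) ((mem_stab.1 hb.2.1 v).1 hv)) (hb.2.2 v hv)⟩
      inv_mem' := fun {a} ha => ⟨X.inv_mem ha.1, Subgroup.inv_mem _ ha.2.1, fun v hv => by
        have := L.neg_mem (ha.2.2 (a⁻¹ v) ((mem_stab.1 (Subgroup.inv_mem _ ha.2.1) v).1 hv))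
        rwa [show a (a⁻¹ v) = v from a.apply_symm_apply v, neg_sub] at this⟩ }
  have hY : ∀ {e y : V} {c : F} (he : P.Val e 0) (hy : P.B y e = 0) (hc : P.Val y c), e ∈ L →
      P.EI X e y c → eichE he hy hc ∈ Y := by
    intro e y c he hy hc heL hE
    have : ∀ v ∈ P.perp L, eichE he hy hc v - v ∈ L := fun v hv => by
      simpa [eich, hv e heL] using L.smul_mem _ heL
    exact ⟨hE.mem fun _ => rfl, mem_stab_of_forall fun v hv => by
      simpa using Submodule.add_mem _ (hLL (this v hv)) hv, this⟩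
  obtain ⟨z₀, hz₀, hz₀1, hz₀2⟩ := exists_B_ne (h.inv_pp hw₀) (z := g.symm w) (by
    rw [perp_pp]
    intro h
    obtain ⟨a, ha⟩ := Submodule.mem_span_singleton.1 h
    refine notMem_span_swap h0 hx (Submodule.mem_span_singleton.2 ⟨a, ?_⟩)
    rw [hxdef, ← map_smul, ha, g.apply_symm_apply])
  obtain ⟨h1, c₁, hc₁, h2⟩ := map_mem_zSub hxs hg (hXI hg) one_ne_zero (by rw [one_smul])
    (h.mem_zSub_of_rat hX hw₀s hw₀ hz₀1 hz₀)
  rw [map_one, one_smul] at h1 hc₁ h2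
  have h3 : P.B w (g z₀) ≠ 0 := by
    rw [← Iso.B (hXI hg), g.apply_symm_apply] at hz₀2
    exact P.B_ne_symm hz₀2
  obtain ⟨z₁, hz₁, hz₁1, hz₁2⟩ := exists_B_ne (h.inv_pp hw1) (z := x) (by rwa [perp_pp])
  have hβ : -(P.ε * P.B x z₁) ≠ 0 := by simpa using P.B_ne_symm hz₁2
  have key : ∀ z, R.τ z = z → P.B z w = 0 → -(P.ε * P.B x z) / -(P.ε * P.B x z₁) ∈ F₀ := by
    intro z hz hzw
    refine div_mem_of_plane F₀ (Y := Y) h0 hx
      (fun y hy => by simpa using L.add_mem (hy.2.2 w (hLL hwL)) hwL) (hY hxs h1 hc₁ hxL h2) ?_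
      (S := {c | ∃ z, R.τ z = z ∧ P.B z w = 0 ∧ -(P.ε * P.B x z) = c}) ?_ ?_ ?_
      ⟨z₁, hz₁1, hz₁, rfl⟩ hβ ⟨z, hz, hzw, rfl⟩
    · simp only [eichE_apply, eich, P.B_symm hxw, zero_smul, add_zero, mul_zero]
      rwa [Submodule.sub_mem_iff_right _ (Submodule.mem_span_singleton_self w),
        Submodule.smul_mem_iff _ (by simpa using h3)]
    · rintro _ ⟨z, h1, h2, rfl⟩
      obtain ⟨-, c, hc, hc'⟩ := h.mem_zSub_of_rat hX hws hw1 h1 h2
      exact ⟨_, hY hws h2 hc hwL hc', eich_fix c (sing_B hws) (P.B_symm h2), by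
        simp [eich, hxw, sub_eq_add_neg]⟩
    · rintro a ha _ ⟨z, h1, h2, rfl⟩
      exact ⟨P.σ a • z, RatStr.τ_smul_of_mem (h.σ_mem ha) h1, by simp [h2], by simp; ring⟩
    · intro y hy μ hμ
      refine h.mem_of_rank hX hXI hL hy.1 hws hw1 h0 hws hw1 h0 ?_ hμ
        (D := L ⊔ F ∙ (y z₁ - z₁)) (by
          have := finrank_span_pair_le (F := F) w x
          have := finrank_sup_span_le L (y z₁ - z₁)
          rw [hLdef] at *
          omega) (Submodule.mem_sup_left hwL) fun z hz => ?_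
      · rintro rfl
        exact h0 (by simpa using hμ)
      · have h4 := hy.2.2 (z - (P.B z x / P.B z₁ x) • z₁)
          ((hperp _).2 ⟨by simp [hz, show P.B z₁ w = 0 from hz₁], by simp [hz₁2]⟩)
        refine mem_sup_span_singleton.2 ⟨_, h4, P.B z x / P.B z₁ x, ?_⟩
        simp only [map_sub, map_smul]
        module
  have h7 := h.τ_sub_mem hw1 (z := (P.B x z₁)⁻¹ • x) fun y hy hyw => by
    have := key y hy hyw
    rw [neg_div_neg_eq, mul_div_mul_left _ _ P.ε_ne_zero] at this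
    simpa [div_eq_inv_mul] using this
  have h8 := L.add_mem (Submodule.mem_sup_left h7) (L.smul_mem (P.B x z₁)⁻¹ hxL)
  rwa [sub_add_cancel, RatStr.τ_smul, L.smul_mem_iff (by simpa using P.B_ne_symm hz₁2)] at h8

include hw

theorem τ_mem_of_inv (hn : 8 ≤ finrank F V) (hn' : d + 5 ≤ finrank F V) {g : V ≃ₗ[F] V}
    (hg : g ∈ X) {w₀ : V} (hw₀s : P.Val w₀ 0) (hw₀ : R.τ w₀ = w₀) (h00 : w₀ ≠ 0)
    {D : Submodule F V} (hD : R.Inv D) (hd : finrank F D ≤ 3) (hx : g w₀ ∈ D) :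
    R.τ (g w₀) ∈ F ∙ g w₀ := by
  have hx0 : g w₀ ≠ 0 := by simpa using h00
  have := P.finrank_perp D
  obtain ⟨w, hw1, hw2, hw3, hw4⟩ := h.exists_sing hw (h.inv_perp hD) (F ∙ g w₀) (by
    have := finrank_span_singleton_le (F := F) (g w₀)
    omega)
  obtain ⟨w', hw1', hw2', hw3', hw4'⟩ := h.exists_sing hw (h.inv_perp hD) ((F ∙ w) ⊔ F ∙ g w₀) (by
    have := finrank_span_pair_le (F := F) w (g w₀)
    omega)
  exact mem_span_of_two
    (h.τ_mem_of_perp hX hXI hL hn hg hw₀s hw₀ h00 hw3 hw2 (by rintro rfl; simp at hw4)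
      (mem_perp'.1 hw1 _ hx) (notMem_span_swap hx0 hw4))
    (h.τ_mem_of_perp hX hXI hL hn hg hw₀s hw₀ h00 hw3' hw2' (by rintro rfl; simp at hw4')
      (mem_perp'.1 hw1' _ hx) (notMem_span_swap hx0 fun h => hw4' (Submodule.mem_sup_right h)))
    hw4'

theorem τ_mem_of_perp' (hn : 8 ≤ finrank F V) (hn' : d + 5 ≤ finrank F V) {g : V ≃ₗ[F] V}
    (hg : g ∈ X) {w₀ w : V} (hw₀s : P.Val w₀ 0) (hw₀ : R.τ w₀ = w₀) (h00 : w₀ ≠ 0)
    (hws : P.Val w 0) (hw1 : R.τ w = w) (h0 : w ≠ 0) (hxw : P.B (g w₀) w = 0) :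
    R.τ (g w₀) ∈ F ∙ g w₀ := by
  by_cases hx : g w₀ ∈ F ∙ w
  · exact h.τ_mem_of_inv hw hX hXI hL hn hn' hg hw₀s hw₀ h00 (RatStr.inv_span' hw1)
      ((finrank_span_singleton_le w).trans (by omega)) hx
  · exact h.τ_mem_of_inv hw hX hXI hL hn hn' hg hw₀s hw₀ h00 ((RatStr.inv_span' hw1).sup_span
      (h.τ_mem_of_perp hX hXI hL hn hg hw₀s hw₀ h00 hws hw1 h0 hxw hx))
      ((finrank_span_pair_le _ _).trans (by omega))
      (Submodule.mem_sup_right (Submodule.mem_span_singleton_self _))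

theorem τ_mem_of_lam (hn : 8 ≤ finrank F V) (hn' : d + 5 ≤ finrank F V) {c₀ : F} (hc₀ : c₀ ∈ F₀)
    (hc₀0 : c₀ ≠ 0) (hc₀' : P.Val 0 c₀) {g : V ≃ₗ[F] V}
    (hg : g ∈ X) {w₀ : V} (hw₀s : P.Val w₀ 0) (hw₀ : R.τ w₀ = w₀) (h00 : w₀ ≠ 0) :
    R.τ (g w₀) ∈ F ∙ g w₀ := by
  obtain ⟨w, -, hw1, hws, h0⟩ := h.exists_sing hw RatStr.inv_top ⊥ (by
    rw [finrank_top, finrank_bot]; omega)
  rw [Submodule.mem_bot] at h0
  obtain ⟨w', hw', hw1', hws', h0'⟩ := h.exists_sing hw (h.inv_pp hw1) (F ∙ w) (by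
    have := finrank_pp (P := P) h0
    have := finrank_span_singleton_le (F := F) w
    omega)
  have hw'0 : w' ≠ 0 := by rintro rfl; simp at h0'
  by_cases h1 : P.B (g w₀) w = 0
  · exact h.τ_mem_of_perp' hw hX hXI hL hn hn' hg hw₀s hw₀ h00 hws hw1 h0 h1
  by_cases h2 : P.B (g w₀) w' = 0
  · exact h.τ_mem_of_perp' hw hX hXI hL hn hn' hg hw₀s hw₀ h00 hws' hw1' hw'0 h2
  set u := g w₀ with hu
  have hus : P.Val u 0 := Iso.val (hXI hg) hw₀s
  have htu : P.EI X u 0 c₀ := by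
    simpa using (hX w₀ 0 c₀ hw₀ (by simp) hc₀ hw₀s (by simp) hc₀').conj hg (hXI hg)
  have swap : ∀ w, P.Val w 0 → R.τ w = w → P.B u w ≠ 0 →
      ∃ k ∈ X, ∃ μ : F, μ ≠ 0 ∧ k w = μ • u ∧ ∀ x, k x - x ∈ (F ∙ u) ⊔ F ∙ w := by
    intro w hws hw1 huw
    obtain ⟨k, hk, μ, h3, h4⟩ := exists_swap_tv
      (hX w 0 c₀ hw1 (by simp) hc₀ hws (by simp) hc₀').tv htu.tv (by simp [sing_B hws])
      (by simp [sing_B hus]) (by simp [hc₀0, huw]) (by simp [hc₀0, P.B_ne_symm huw])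
    refine ⟨k, hk, μ, ?_, h3, h4⟩
    rintro rfl
    have : w = 0 := by simpa using h3
    exact huw (by simp [this])
  obtain ⟨k, hk, μ, hμ0, hμ, hkL⟩ := swap w hws hw1 h1
  obtain ⟨k', hk', μ', hμ0', hμ', hkL'⟩ := swap w' hws' hw1' h2
  set D := ((F ∙ w) ⊔ F ∙ w') ⊔ F ∙ u with hD
  have hd : finrank F D ≤ 3 := by
    have := finrank_span_pair_le (F := F) w w'
    have := finrank_sup_span_le ((F ∙ w) ⊔ F ∙ w') u
    rw [hD]; omega
  have hj : k'⁻¹ * k ∈ X := X.mul_mem (X.inv_mem hk') hk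
  have hjw : (k'⁻¹ * k) w = (μ / μ') • w' := by
    rw [LinearEquiv.mul_apply, hμ, ← div_mul_cancel₀ μ hμ0', mul_smul, ← hμ', map_smul,
      show k'⁻¹ (k' w') = w' from k'.symm_apply_apply w', mul_div_cancel_right₀ _ hμ0']
  have hjD : ∀ z, (k'⁻¹ * k) z - z ∈ D := fun z => by
    have h3 := D.sub_mem ((sup_le le_sup_right (le_sup_left.trans le_sup_left) :
      (F ∙ u) ⊔ F ∙ w ≤ D) (hkL z)) ((sup_le le_sup_right (le_sup_right.trans le_sup_left) :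
      (F ∙ u) ⊔ F ∙ w' ≤ D) (hkL' (k'⁻¹ (k z))))
    rw [show k' (k'⁻¹ (k z)) = k z from k'.apply_symm_apply _] at h3
    simpa using h3
  have hw'D : w' ∈ (F ∙ w) ⊔ F ∙ w' := Submodule.mem_sup_right (Submodule.mem_span_singleton_self _)
  have hν := h.σ_mem (h.mem_of_rank hX hXI hL hj hws hw1 h0 hws' hw1' hw'0 (div_ne_zero hμ0 hμ0')
    hjw (D := D) (by omega) (Submodule.mem_sup_left hw'D) fun z _ => hjD z)
  obtain ⟨z, hz, hz1, hz2⟩ := exists_B_ne (h.inv_pp hw1) (z := w') (by rwa [perp_pp])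
  have h3 := h.τ_map_sub_mem hX hXI hL hj hws hw1 hws' hw1' hw'0 (div_ne_zero hμ0 hμ0') hjw hz1 hz
  rw [RatStr.τ_smul, R.θ_of_mem hν, ← smul_sub,
    Submodule.smul_mem_iff _ (by simp [hμ0, hμ0'])] at h3
  obtain ⟨m, hm, a, ha⟩ := mem_sup_span_singleton.1 (hjD z)
  have hinv := (RatStr.inv_span' hw1).sup (RatStr.inv_span' hw1')
  have ha0 : a ≠ 0 := by
    rintro rfl
    have h4 := Iso.B (hXI hj) z w
    have h5 : P.B m w' = 0 := by
      refine (show (F ∙ w) ⊔ F ∙ w' ≤ P.pp w' from ?_) hm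
      simp [sing_B hws', P.B_symm hw']
    rw [hjw, sub_eq_iff_eq_add.1 ha, show P.B z w = 0 from hz] at h4
    simp [h5, hμ0, hμ0', hz2] at h4
  refine h.τ_mem_of_inv hw hX hXI hL hn hn' hg hw₀s hw₀ h00 (hinv.sup_span ?_) hd
    (Submodule.mem_sup_right (Submodule.mem_span_singleton_self _))
  rw [sub_eq_iff_eq_add.1 ha] at h3
  have h4 : R.θ a • R.τ u = (R.τ (m + a • u + z) - (m + a • u + z) - R.τ m + m) + a • u := by
    simp only [map_add, RatStr.τ_smul, hz1]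
    module
  rw [← Submodule.smul_mem_iff _ ((map_ne_zero R.θ).2 ha0), h4]
  exact Submodule.add_mem_sup (Submodule.add_mem _ (Submodule.sub_mem _
    (Submodule.mem_sup_right h3) (hinv m hm)) hm)
    (Submodule.smul_mem _ _ (Submodule.mem_span_singleton_self _))

theorem τ_mem_of_orth (hn : 8 ≤ finrank F V) (hn' : d + 5 ≤ finrank F V) (hσ : ∀ a, P.σ a = a)
    (hε : P.ε = 1) {g : V ≃ₗ[F] V}
    (hg : g ∈ X) {w₀ : V} (hw₀s : P.Val w₀ 0) (hw₀ : R.τ w₀ = w₀) (h00 : w₀ ≠ 0) :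
    R.τ (g w₀) ∈ F ∙ g w₀ := by
  have hg' := hXI hg
  obtain ⟨a, -, ha1, has, ha0⟩ := h.exists_sing hw RatStr.inv_top ⊥ (by
    rw [finrank_top, finrank_bot]; omega)
  rw [Submodule.mem_bot] at ha0
  by_cases hκ : P.B a (g w₀) = 0
  · exact h.τ_mem_of_perp' hw hX hXI hL hn hn' hg hw₀s hw₀ h00 has ha1 ha0 (P.B_symm hκ)
  have hd1 := finrank_pp (P := P) h00
  obtain ⟨ζ₁, h1, h2, h3, h4⟩ := h.exists_sing hw (h.inv_pp hw₀) (F ∙ w₀) (by
    have := finrank_span_singleton_le (F := F) w₀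
    omega)
  obtain ⟨ζ₂, h5, h6, h7, h8⟩ := h.exists_sing hw ((h.inv_pp hw₀).inf (h.inv_pp h2))
    ((F ∙ w₀) ⊔ F ∙ ζ₁) (by
      have := finrank_span_pair_le (F := F) w₀ ζ₁
      have := finrank_inf_pp_ge (P := P) (P.pp w₀) ζ₁
      omega)
  rw [mem_pp] at h1
  have h9 : P.B ζ₂ w₀ = 0 := h5.1
  have h10 : P.B ζ₂ ζ₁ = 0 := h5.2
  have hsymm : ∀ x y, P.B y x = P.B x y := fun x y => by rw [P.herm, hσ, hε, one_mul]
  let y : V → V := fun ζ => g (P.B a (g w₀) • ζ - P.B a (g ζ) • w₀)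
  have hyu : ∀ ζ, P.B ζ w₀ = 0 → P.B (y ζ) (g w₀) = 0 := fun ζ hζ => by
    simp only [y, Iso.B hg']; simp [hζ, sing_B hw₀s]
  have key : ∀ ζ, R.τ ζ = ζ → P.Val ζ 0 → P.B ζ w₀ = 0 →
      ∃ c : F, R.τ (y ζ) = c • y ζ + (c - 1) • a := by
    intro ζ hζ hζs hζw
    have hE := (hX w₀ ζ 0 hw₀ hζ F₀.zero_mem hw₀s hζw hζs).conj hg hg'
    have h11 : P.B (g ζ) (g w₀) = 0 := by rw [Iso.B hg', hζw]
    have h12 : eichE (Iso.val hg' hw₀s) h11 (Iso.val hg' hζs) a = a + y ζ := by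
      simp only [eichE_apply, eich, y, hε, map_sub, map_smul, map_zero]
      module
    have := h.τ_mem_of_perp' hw hX hXI hL hn hn'
      (g := eichE (Iso.val hg' hw₀s) h11 (Iso.val hg' hζs)) (hE.mem fun _ => rfl) has ha1 ha0
      has ha1 ha0 (by
        rw [h12]
        simp only [y, map_add, map_sub, map_smul, LinearMap.add_apply, LinearMap.sub_apply,
          LinearMap.smul_apply, sing_B has, hsymm a, smul_eq_mul]
        ring)
    rw [h12, map_add, ha1, Submodule.mem_span_singleton] at this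
    obtain ⟨c, hc⟩ := this
    exact ⟨c, by linear_combination (norm := module) -hc⟩
  obtain ⟨c₁, hc₁⟩ := key ζ₁ h2 h3 h1
  obtain ⟨c₂, hc₂⟩ := key ζ₂ h6 h7 h9
  obtain ⟨c₃, hc₃⟩ := key (ζ₂ + ζ₁) (by simp [h2, h6]) (by simpa using val_add_orth h7 h3 h10)
    (by simp [h1, h9])
  have h11 : y (ζ₂ + ζ₁) = y ζ₂ + y ζ₁ := by simp only [y, map_add, map_sub, map_smul]; module
  rw [h11, map_add, hc₁, hc₂] at hc₃
  have h12 : c₁ + c₂ - c₃ - 1 = 0 := by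
    have := congrArg (fun v => P.B v (g w₀)) hc₃
    simp only [map_add, map_smul, LinearMap.add_apply, LinearMap.smul_apply, hyu _ h1, hyu _ h9,
      smul_eq_mul] at this
    apply mul_right_cancel₀ hκ
    linear_combination this
  have h13 : ((c₂ - c₃) * P.B a (g w₀)) • ζ₂ =
      ((c₂ - c₃) * P.B a (g ζ₂) + (c₁ - c₃) * P.B a (g ζ₁)) • w₀ +
        (-(c₁ - c₃) * P.B a (g w₀)) • ζ₁ := by
    apply g.injective
    simp only [y, map_add, map_sub, map_smul] at hc₃ ⊢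
    linear_combination (norm := module) hc₃ - h12 • a
  have h14 : c₂ - c₃ = 0 := by
    by_contra h15
    apply h8
    rw [← Submodule.smul_mem_iff _ (mul_ne_zero h15 hκ), h13]
    exact Submodule.add_mem_sup (Submodule.smul_mem _ _ (Submodule.mem_span_singleton_self _))
      (Submodule.smul_mem _ _ (Submodule.mem_span_singleton_self _))
  rw [show c₁ - 1 = 0 by linear_combination h12 - h14, zero_smul, add_zero,
    show c₁ = 1 by linear_combination h12 - h14, one_smul] at hc₁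
  refine h.τ_mem_of_perp' hw hX hXI hL hn hn' hg hw₀s hw₀ h00 (w := y ζ₁) (Iso.val hg' ?_) hc₁ ?_
    (P.B_symm (hyu _ h1))
  · simpa [h1] using val_sub (sing_smul h3 (P.B a (g w₀))) (sing_smul hw₀s (P.B a (g ζ₁)))
  · intro h15
    apply h4
    rw [← Submodule.smul_mem_iff _ hκ, sub_eq_zero.1 (g.map_eq_zero_iff.1 h15)]
    exact Submodule.smul_mem _ _ (Submodule.mem_span_singleton_self _)

theorem le_N (hn : 8 ≤ finrank F V) (hn' : d + 5 ≤ finrank F V)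
    (hcase : (∃ c₀ ∈ F₀, c₀ ≠ 0 ∧ P.Val 0 c₀) ∨ ((∀ a, P.σ a = a) ∧ P.ε = 1) ∨
      ∀ x, R.τ (R.τ x) = x) : X ≤ R.N := by
  intro g hg
  refine (exists_const (F := F) (f := R.τ.comp (g : V →+ V)) (g := (g : V →+ V))
    (fun a x => map_smul g a x) g.injective (G := fun x => R.τ x = x ∧ P.Val x 0) ?_ ?_).elim
    fun c hc => RatStr.mem_N_of (c := c) fun x hx => ?_
  · rintro w₀ ⟨hw₀, hw₀s⟩
    show R.τ (g w₀) ∈ F ∙ g w₀
    by_cases h00 : w₀ = 0
    · simp [h00]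
    rcases hcase with ⟨c₀, h1, h2, h3⟩ | ⟨h1, h2⟩ | h1
    · exact h.τ_mem_of_lam hw hX hXI hL hn hn' h1 h2 h3 hg hw₀s hw₀ h00
    · exact h.τ_mem_of_orth hw hX hXI hL hn hn' h1 h2 hg hw₀s hw₀ h00
    · refine h.τ_mem_of_inv hw hX hXI hL hn hn' hg hw₀s hw₀ h00
        (D := (F ∙ g w₀) ⊔ F ∙ R.τ (g w₀)) ?_ ((finrank_span_pair_le _ _).trans (by omega))
        (Submodule.mem_sup_left (Submodule.mem_span_singleton_self _))
      intro x hx
      obtain ⟨u, hu, b, rfl⟩ := mem_sup_span_singleton.1 hx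
      obtain ⟨a, rfl⟩ := Submodule.mem_span_singleton.1 hu
      rw [map_add, RatStr.τ_smul, RatStr.τ_smul, h1, add_comm]
      exact Submodule.add_mem_sup (Submodule.smul_mem _ _ (Submodule.mem_span_singleton_self _))
        (Submodule.smul_mem _ _ (Submodule.mem_span_singleton_self _))
  · rintro x y ⟨hx, hxs⟩ ⟨hy, hys⟩
    obtain ⟨z, h1, h2, h3, h4⟩ := h.exists_sing hw
      (h.inv_perp ((RatStr.inv_span' hx).sup (RatStr.inv_span' hy))) ((F ∙ x) ⊔ F ∙ y) (by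
        have := finrank_span_pair_le (F := F) x y
        have := P.finrank_perp ((F ∙ x) ⊔ F ∙ y)
        omega)
    simp only [perp_sup, perp_span_singleton, Submodule.mem_inf, mem_pp] at h1
    exact ⟨z, ⟨h2, h3⟩, ⟨by simp [hx, h2], by simpa using val_add_orth hxs h3 (P.B_symm h1.1)⟩,
      ⟨by simp [hy, h2], by simpa using val_add_orth hys h3 (P.B_symm h1.2)⟩, h4⟩
  · let N : Submodule F₀ V :=
      { carrier := {x | R.τ (g x) = c • g x}
        zero_mem' := by simp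
        add_mem' := fun {x y} hx hy => by
          simp only [Set.mem_setOf_eq, map_add, smul_add] at *; rw [hx, hy]
        smul_mem' := fun a x hx => by
          simp only [Set.mem_setOf_eq, Subfield.smul_def, map_smul, RatStr.τ_smul,
            R.θ_of_mem a.2] at *
          rw [hx, smul_comm] }
    exact h.span_sing hw RatStr.inv_top
      (by rw [perp_top, inf_bot_eq, finrank_bot, finrank_top]; omega) (N := N)
      (fun e _ h1 h2 => hc e ⟨h1, h2⟩) trivial hx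

omit hX hXI hL in
/-- Subfield subgroups are maximal. -/
theorem N_maximal (hn : 8 ≤ finrank F V) (hn' : d + 5 ≤ finrank F V) (hne : ∃ ξ, ξ ∉ F₀)
    (hsimple : ∀ S : Subring F, (∀ a ∈ F₀, a ∈ S) → (∃ ξ ∈ S, ξ ∉ F₀) → S = ⊤)
    (hΛ : ∀ c, P.Val 0 c → ∃ a l, ∃ c₀ ∈ F₀, P.Val 0 c₀ ∧
      c = a - P.ε * P.σ a + l * P.σ l * c₀)
    (hcase : (∃ c₀ ∈ F₀, c₀ ≠ 0 ∧ P.Val 0 c₀) ∨ ((∀ a, P.σ a = a) ∧ P.ε = 1) ∨
      ∀ x, R.τ (R.τ x) = x) : Geo.IsMaximalIn P.E (R.N ⊓ P.E) := by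
  refine isMaximalIn_of inf_le_right ?_ fun X hHX hXE g hg hgH => ?_
  · obtain ⟨ξ, hξ⟩ := hne
    obtain ⟨w, -, hw1, hws, h0⟩ := h.exists_sing hw RatStr.inv_top ⊥ (by
      rw [finrank_top, finrank_bot]; omega)
    rw [Submodule.mem_bot] at h0
    obtain ⟨y, hy, hy1, hy2⟩ := (h.inv_pp hw1).exists_notMem_of_lt (N := F ∙ w) (by
      have := finrank_pp (P := P) h0
      have := finrank_span_singleton_le (F := F) w
      omega)
    obtain ⟨x, hx, hx1, hx2⟩ := exists_B_ne (h.inv_pp hw1) (z := y) (by rwa [perp_pp])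
    obtain ⟨c, hc⟩ := P.val_ex (ξ • y)
    have h1 : P.B (ξ • y) w = 0 := by simp [show P.B y w = 0 from hy]
    refine ⟨_, eichE_mem_E hws h1 hc, fun ⟨⟨t, ht⟩, _⟩ => hξ ?_⟩
    have h2 := ht w
    rw [hw1, eichE_apply, eich_fix c (sing_B hws) (P.B_symm h1), hw1] at h2
    have h3 : (t : F) = 1 := smul_left_injective F h0 (by simpa using h2.symm)
    have h4 := ht x
    simp only [hx1, h3, one_smul, eichE_apply, eich, show P.B x w = 0 from hx, zero_smul, add_zero,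
      mul_zero, map_sub, RatStr.τ_smul, hw1, sub_right_inj] at h4
    have h5 := (R.θ_iff _).1 (smul_left_injective F h0 h4)
    have hε : P.ε ∈ F₀ := by rcases P.εε with h | h <;> simp [h]
    rw [← P.σσ ξ]
    refine h.σ_mem ?_
    have := F₀.div_mem (F₀.mul_mem hε h5) (h.B_mem x y hx1 hy1)
    rwa [← mul_assoc, ε_mul_ε, one_mul, B_smul_right, mul_div_cancel_right₀ _ hx2] at this
  have hX : ∀ e y c, R.τ e = e → R.τ y = y → c ∈ F₀ → P.Val e 0 → P.B y e = 0 → P.Val y c →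
      P.EI X e y c := fun e y c h1 h2 h3 h4 h5 h6 =>
    EI_of_mem h4 h5 h6 (hHX ⟨⟨1, fun x => by simp [h.τ_eich h1 h2 h3]⟩, eichE_mem_E _ _ _⟩)
  by_contra hcon
  refine hgH ⟨h.le_N hw hX (hXE.trans E_le_Iso) (fun w hws h1 h2 z hz => ?_) hn hn' hcase hg,
    hXE hg⟩
  by_contra h3
  exact hcon (h.E_le_of_not_rat hw hX hn' hsimple hΛ hws h1 h2 hz h3)

end RatOK

end Polar

end Cfsg.Agent.H7
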