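import Cfsg.Agent.H7.Rat

/-!
Subfield subgroups of the special linear group.
-/

set_option autoImplicit false
set_option linter.unusedSectionVars false

namespace Cfsg.Agent.H7

open Module

variable {F : Type*} [Field F] {V : Type*} [AddCommGroup V] [Module F V]

theorem div_mem_of_plane [Finite F] (F₀ : Subfield F) {Y : Subgroup (V ≃ₗ[F] V)} {w x : V}
    (hw : w ≠ 0) (hx : x ∉ F ∙ w) (hL : ∀ g ∈ Y, g w ∈ (F ∙ w) ⊔ F ∙ x) {g₁ : V ≃ₗ[F] V}
    (hg₁ : g₁ ∈ Y) (hg₁' : g₁ w ∉ F ∙ w) {S : Set F}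
    (hS : ∀ c ∈ S, ∃ s ∈ Y, s w = w ∧ s x = x + c • w) (hS' : ∀ a ∈ F₀, ∀ c ∈ S, a * c ∈ S)
    (hT : ∀ g ∈ Y, ∀ μ : F, g w = μ • w → μ ∈ F₀) {β c : F} (hβ : β ∈ S) (hβ0 : β ≠ 0)
    (hc : c ∈ S) : c / β ∈ F₀ := by
  classical
  by_contra hcon
  have := Fintype.ofFinite F
  set T : Finset F := {a | a ∈ F₀ ∧ a ≠ 0} with hTdef
  have h1 : c ∉ T.image (· * β) := by
    simp only [Finset.mem_image, not_exists, not_and]
    rintro a ha rfl
    simp only [hTdef, Finset.mem_filter] at ha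
    exact hcon (by simpa [hβ0] using ha.2.1)
  have := card_le_of_plane hw hx hL hg₁ hg₁' (C := insert c (T.image (· * β))) (T := T) ?_ ?_ ?_
  · rw [Finset.card_insert_of_notMem h1,
      Finset.card_image_of_injective _ (mul_left_injective₀ hβ0)] at this
    omega
  · simp only [Finset.mem_insert, Finset.mem_image, not_or, not_exists, not_and]
    refine ⟨?_, fun a ha => ?_⟩
    · rintro rfl; exact hcon (by simp)
    · simp only [hTdef, Finset.mem_filter] at ha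
      exact mul_ne_zero ha.2.2 hβ0
  · intro d hd
    simp only [Finset.mem_insert, Finset.mem_image] at hd
    rcases hd with rfl | ⟨a, ha, rfl⟩
    · exact hS _ hc
    · simp only [hTdef, Finset.mem_filter] at ha
      exact hS _ (hS' a ha.2.1 β hβ)
  · intro g hg μ hμ
    simp only [hTdef, Finset.mem_filter, Finset.mem_univ, true_and]
    refine ⟨hT g hg μ hμ, ?_⟩
    rintro rfl
    exact hw (by simpa using hμ)

theorem mem_span_of_two {x w w' y : V} (h : y ∈ (F ∙ w) ⊔ F ∙ x) (h' : y ∈ (F ∙ w') ⊔ F ∙ x)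
    (hw : w' ∉ (F ∙ w) ⊔ F ∙ x) : y ∈ F ∙ x := by
  rw [sup_comm] at h'
  obtain ⟨u, hu, c, rfl⟩ := mem_sup_span_singleton.1 h'
  by_cases hc : c = 0
  · simpa [hc] using hu
  · rw [Submodule.add_mem_iff_right _ (Submodule.mem_sup_right hu),
      Submodule.smul_mem_iff _ hc] at h
    exact absurd h hw

theorem notMem_span_swap {v z : V} (hv : v ≠ 0) (hz : z ∉ F ∙ v) : v ∉ F ∙ z := by
  simpa using notMem_sup_span_swap (U := (⊥ : Submodule F V)) (v := v) (z := z)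
    (by simpa using hv) (by simpa using hz)

theorem exists_const {f g : V →+ V} (hg : ∀ (a : F) x, g (a • x) = a • g x)
    (hinj : Function.Injective g)
    {G : V → Prop} (h1 : ∀ x, G x → f x ∈ F ∙ g x)
    (h2 : ∀ x y, G x → G y → ∃ z, G z ∧ G (x + z) ∧ G (y + z) ∧ z ∉ (F ∙ x) ⊔ F ∙ y) :
    ∃ c : F, ∀ x, G x → f x = c • g x := by
  have h3 : ∀ x, G x → ∃ c : F, f x = c • g x := fun x hx => by
    obtain ⟨c, hc⟩ := Submodule.mem_span_singleton.1 (h1 x hx)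
    exact ⟨c, hc.symm⟩
  choose! c hc using h3
  have h4 : ∀ x z, G x → G z → G (x + z) → z ∉ F ∙ x → f x = c z • g x := by
    intro x z hx hz hxz hzx
    have h5 := hc _ hxz
    rw [map_add, map_add, hc x hx, hc z hz] at h5
    have h6 : g ((c z - c (x + z)) • z) = g ((c (x + z) - c x) • x) := by
      rw [hg, hg]; linear_combination (norm := module) h5
    have h7 := hinj h6
    have h8 : c z - c (x + z) = 0 := by
      by_contra h
      apply hzx
      rw [← Submodule.smul_mem_iff _ h, h7]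
      exact Submodule.smul_mem _ _ (Submodule.mem_span_singleton_self x)
    rw [hc x hx]
    linear_combination (norm := module) h5 - h8 • g z - h8 • g x
  by_cases h0 : ∃ x, G x ∧ x ≠ 0
  · obtain ⟨x₀, hx₀, hx₀'⟩ := h0
    refine ⟨c x₀, fun y hy => ?_⟩
    obtain ⟨z, hz, h5, h6, h7⟩ := h2 x₀ y hx₀ hy
    have h8 := h4 x₀ z hx₀ hz h5 fun h => h7 (Submodule.mem_sup_left h)
    rw [hc x₀ hx₀, ← hg, ← hg] at h8
    rw [smul_left_injective F hx₀' (hinj h8)]
    exact h4 y z hy hz h6 fun h => h7 (Submodule.mem_sup_right h)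
  · push Not at h0
    exact ⟨0, fun x hx => by rw [h0 x hx]; simp⟩

namespace RatStr

variable {F₀ : Subfield F} {R : RatStr F₀ V} [Finite F] [FiniteDimensional F V]

theorem Inv.exists_notMem_of_lt {U N : Submodule F V} (hU : R.Inv U)
    (h : finrank F N < finrank F U) : ∃ x ∈ U, R.τ x = x ∧ x ∉ N :=
  hU.exists_notMem fun hle => absurd (Submodule.finrank_mono hle) (by omega)

theorem RF.inv_ker {φ : Dual F V} (h : R.RF φ) : R.Inv (LinearMap.ker φ) := by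
  intro x hx
  rw [LinearMap.mem_ker] at *
  rw [h, hx, map_zero]

theorem τ_smul_of_mem {a : F} (ha : a ∈ F₀) {x : V} (hx : R.τ x = x) : R.τ (a • x) = a • x := by
  rw [τ_smul, hx, R.θ_of_mem ha]

theorem tv_N {φ : Dual F V} {v : V} (hφ : R.RF φ) (hv : R.τ v = v) (h : φ v = 0) :
    TV (R.N ⊓ SLV F V) φ v :=
  tv_of_forall h fun g hg hg' => ⟨⟨1, fun x => by simp [hg, hφ x, hv]⟩, hg'⟩

theorem mem_span_of_rf {w y : V} (hw : R.τ w = w) (h : ∀ χ, R.RF χ → χ w = 0 → χ y = 0) :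
    y ∈ F ∙ w := by
  by_contra hy
  obtain ⟨χ, h1, h2, h3⟩ := (inv_span' hw).exists_rf hy
  exact h3 (h χ h1 (h2 w (Submodule.mem_span_singleton_self w)))

section

variable {X : Subgroup (V ≃ₗ[F] V)}
  (hX : ∀ (φ : Dual F V) (v : V), R.RF φ → R.τ v = v → φ v = 0 → TV X φ v)
include hX

theorem tv_vec (hn : 3 ≤ finrank F V) {ξ : F} {ψ : Dual F V} (hψ : R.RF ψ) {w₀ : V}
    (hw₀ : R.τ w₀ = w₀) (h0 : w₀ ≠ 0) (hψ₀ : ψ w₀ = 0) (h : TV X ψ (ξ • w₀)) {w : V}
    (hw : R.τ w = w) (hψw : ψ w = 0) : TV X ψ (ξ • w) := by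
  have key : ∀ w₀ w, R.τ w = w → R.τ w₀ = w₀ → ψ w₀ = 0 → ψ w = 0 → w₀ ∉ F ∙ w →
      TV X ψ (ξ • w₀) → TV X ψ (ξ • w) := by
    intro w₀ w hw hw₀ h1 h2 h3 h
    obtain ⟨φ, hφ, hφ1, hφ2⟩ := (inv_span' hw).exists_rf h3
    have h4 : φ w = 0 := hφ1 w (Submodule.mem_span_singleton_self w)
    have := (hX φ ((φ w₀)⁻¹ • w) hφ (τ_smul_of_mem (F₀.inv_mem (hφ.mem hw₀)) hw)
      (by simp [h4])).comm h (by simp [h4]) (by simp [h1]) (by simp [h2])
    rwa [map_smul, smul_smul, smul_eq_mul, mul_assoc, mul_inv_cancel₀ hφ2, mul_one] at this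
  by_cases h1 : w₀ ∈ F ∙ w
  · obtain ⟨z, hz, hz', hzw⟩ := hψ.inv_ker.exists_notMem_of_lt (N := F ∙ w) (by
      have := finrank_inf_ker_ge ⊤ ψ
      have := finrank_span_singleton_le (F := F) w
      rw [top_inf_eq, finrank_top] at *
      omega)
    refine key z w hw hz' hz hψw hzw (key w₀ z hz' hw₀ hψ₀ hz (notMem_span_swap h0 fun h => ?_) h)
    exact hzw ((Submodule.span_singleton_le_iff_mem _ _).2 h1 h)
  · exact key w₀ w hw hw₀ hψ₀ hψw h1 h

theorem tv_all (hn : 3 ≤ finrank F V) {ξ : F} {ψ₀ : Dual F V} (hψ₀ : R.RF ψ₀) (h00 : ψ₀ ≠ 0)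
    {w₀ : V} (hw₀ : R.τ w₀ = w₀) (h0 : w₀ ≠ 0) (hψw₀ : ψ₀ w₀ = 0) (h : TV X ψ₀ (ξ • w₀))
    {ψ : Dual F V} (hψ : R.RF ψ) {w : V} (hw : R.τ w = w) (hψw : ψ w = 0) : TV X ψ (ξ • w) := by
  have key : ∀ ψ₀ ψ : Dual F V, R.RF ψ₀ → R.RF ψ → ¬ LinearMap.ker ψ ≤ LinearMap.ker ψ₀ →
      (∀ w, R.τ w = w → ψ₀ w = 0 → TV X ψ₀ (ξ • w)) →
      ∀ w, R.τ w = w → ψ w = 0 → TV X ψ (ξ • w) := by
    intro ψ₀ ψ hψ₀ hψ hk h w hw hψw
    obtain ⟨y, hy, hy', hy''⟩ := hψ.inv_ker.exists_notMem hk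
    obtain ⟨z, hz, hz', hz0⟩ := (hψ.inv_ker.inf hψ₀.inv_ker).exists_notMem_of_lt (N := ⊥) (by
      have := finrank_inf_ker_ge ⊤ ψ
      have := finrank_inf_ker_ge (LinearMap.ker ψ) ψ₀
      rw [top_inf_eq, finrank_top, finrank_bot] at *
      omega)
    have h1 : ψ z = 0 := hz.1
    have h2 : ψ₀ z = 0 := hz.2
    have := (h z hz' h2).comm (hX ψ y hψ hy' hy) (by simp [h2]) hy (by simp [h1])
    rw [smul_comm] at this
    exact tv_vec hX hn hψ (τ_smul_of_mem (hψ₀.mem hy') hz') (smul_ne_zero hy'' hz0)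
      (by simp [h1]) this hw hψw
  have h1 := fun w hw hψw => tv_vec hX hn hψ₀ hw₀ h0 hψw₀ h (w := w) hw hψw
  by_cases hk : LinearMap.ker ψ ≤ LinearMap.ker ψ₀
  · by_cases hw0 : w = 0
    · simpa [hw0] using TV.zero_right ψ
    obtain ⟨y, -, hy, hy'⟩ := (inv_top (R := R)).exists_notMem (N := LinearMap.ker ψ₀)
      (by simpa using h00)
    obtain ⟨ψ₁, hψ₁, h2, h3⟩ := (inv_span' hy).exists_rf (v := w) (notMem_span_swap hw0 fun h => by
      obtain ⟨a, rfl⟩ := Submodule.mem_span_singleton.1 h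
      exact hy' (Submodule.smul_mem _ _ (hk hψw)))
    exact key ψ₁ ψ hψ₁ hψ (fun h => h3 (h hψw)) (key ψ₀ ψ₁ hψ₀ hψ₁
      (fun h => hy' (h (h2 y (Submodule.mem_span_singleton_self y)))) h1) w hw hψw
  · exact key ψ₀ ψ hψ₀ hψ hk h1 w hw hψw

theorem exists_rf_pair (hn : 3 ≤ finrank F V) {v w : V} (hv : R.τ v = v) (hw : R.τ w = w) :
    ∃ ψ : Dual F V, R.RF ψ ∧ ψ ≠ 0 ∧ ψ v = 0 ∧ ψ w = 0 := by
  obtain ⟨z, -, hz⟩ := exists_notMem_of_finrank_lt (U := (F ∙ v) ⊔ F ∙ w) (W := ⊤) (by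
    have := finrank_span_pair_le (F := F) v w
    rw [finrank_top]; omega)
  obtain ⟨ψ, h1, h2, h3⟩ := ((inv_span' hv).sup (inv_span' hw)).exists_rf hz
  exact ⟨ψ, h1, by rintro rfl; simp at h3,
    h2 v (Submodule.mem_sup_left (Submodule.mem_span_singleton_self v)),
    h2 w (Submodule.mem_sup_right (Submodule.mem_span_singleton_self w))⟩

theorem SLV_le_of_not_rf (hn : 3 ≤ finrank F V)
    (hsimple : ∀ S : Subring F, (∀ a ∈ F₀, a ∈ S) → (∃ ξ ∈ S, ξ ∉ F₀) → S = ⊤)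
    {χ : Dual F V} {w : V} (hw : R.τ w = w) (h0 : w ≠ 0) (hχw : χ w = 0) (h : TV X χ w)
    (hχ : ¬ R.RF χ) : SLV F V ≤ X := by
  obtain ⟨v, hv, hv'⟩ : ∃ v, R.τ v = v ∧ χ v ∉ F₀ := by
    by_contra! hh
    exact hχ (rf_of_forall hh)
  let S : Subring F :=
    { carrier := {ξ | ∀ (ψ : Dual F V) (w : V), R.RF ψ → R.τ w = w → ψ w = 0 → TV X ψ (ξ • w)}
      zero_mem' := fun ψ w _ _ _ => by simpa using TV.zero_right ψ
      one_mem' := fun ψ w h1 h2 h3 => by simpa using hX ψ w h1 h2 h3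
      add_mem' := fun ha hb ψ w h1 h2 h3 => by
        rw [add_smul]
        exact (ha ψ w h1 h2 h3).add_right (hb ψ w h1 h2 h3) (by simp [h3])
      neg_mem' := fun ha ψ w h1 h2 h3 => by
        simpa using ha ψ (-w) h1 (by simp [h2]) (by simp [h3])
      mul_mem' := fun {a b} ha hb ψ w' h1 h2 h3 => by
        obtain ⟨y, -, hy, hy'⟩ := (inv_top (R := R)).exists_notMem_of_lt (N := F ∙ w) (by
          have := finrank_span_singleton_le (F := F) w
          rw [finrank_top]; omega)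
        obtain ⟨φ, hφ, hφ1, hφ2⟩ := (inv_span' hw).exists_rf hy'
        have h4 : φ w = 0 := hφ1 w (Submodule.mem_span_singleton_self w)
        obtain ⟨ψ₀, h5, h6, h7, h8⟩ := exists_rf_pair hX hn hy hw
        have := (ha φ w hφ hw h4).comm (hb ψ₀ y h5 hy h7) (by simp [h4]) (by simp [h7])
          (by simp [h8])
        rw [show φ (b • y) • a • w = (a * b) • φ y • w by simp only [map_smul, smul_eq_mul]; module]
          at this
        exact tv_all hX hn h5 h6 (τ_smul_of_mem (hφ.mem hy) hw) (smul_ne_zero hφ2 h0)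
          (by simp [h8]) this h1 h2 h3 }
  have hS : S = ⊤ := by
    refine hsimple S (fun a ha ψ w h1 h2 h3 => hX ψ _ h1 (τ_smul_of_mem ha h2) (by simp [h3]))
      ⟨χ v, fun ψ w' h1 h2 h3 => ?_, hv'⟩
    obtain ⟨ψ₀, h5, h6, h7, h8⟩ := exists_rf_pair hX hn hv hw
    exact tv_all hX hn h5 h6 hw h0 h8 (h.comm (hX ψ₀ v h5 hv h7) hχw h7 h8) h1 h2 h3
  refine SLV_le_of_fullSub (R.span _ fun w hw φ hφ => ?_)
  let A : Submodule F (Dual F V) :=
    { carrier := {φ | φ w = 0 ∧ ∀ a : F, TV X (a • φ) w}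
      zero_mem' := ⟨rfl, fun a => by simpa using TV.zero_left w⟩
      add_mem' := by
        rintro φ ψ ⟨h1, h2⟩ ⟨h3, h4⟩
        refine ⟨by simp [h1, h3], fun a => ?_⟩
        rw [smul_add]
        exact (h2 a).add_left (h4 a) (by simp [h1])
      smul_mem' := by
        rintro b φ ⟨h1, h2⟩
        exact ⟨by simp [h1], fun a => by rw [smul_smul]; exact h2 _⟩ }
  have h1 : A.dualCoannihilator ≤ F ∙ w := fun y hy => mem_span_of_rf hw fun χ h1 h2 =>
    (Submodule.mem_dualCoannihilator y).1 hy χ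
      ⟨h2, fun a => (TV.smul_swap a).2 ((show a ∈ S by simp [hS]) χ w h1 hw h2)⟩
  have h2 : φ ∈ A := by
    rw [← Subspace.dualCoannihilator_dualAnnihilator_eq (W := A), Submodule.mem_dualAnnihilator]
    intro y hy
    obtain ⟨a, rfl⟩ := Submodule.mem_span_singleton.1 (h1 hy)
    simp [hφ]
  simpa using h2.2 1

theorem le_N_of_rf (hn : 5 ≤ finrank F V)
    (hL : ∀ (χ : Dual F V) (w : V), R.τ w = w → w ≠ 0 → χ w = 0 → TV X χ w → R.RF χ) :
    X ≤ R.N := by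
  intro g hg
  have CL : ∀ w₀ w, R.τ w₀ = w₀ → w₀ ≠ 0 → R.τ w = w → w ≠ 0 → g w₀ ∉ F ∙ w →
      R.τ (g w₀) ∈ (F ∙ w) ⊔ F ∙ g w₀ := by
    intro w₀ w hw₀ h00 hw h0 hx
    set x := g w₀ with hxdef
    set L := (F ∙ w) ⊔ F ∙ x with hLdef
    have hwL : w ∈ L := Submodule.mem_sup_left (Submodule.mem_span_singleton_self w)
    have hxL : x ∈ L := Submodule.mem_sup_right (Submodule.mem_span_singleton_self x)
    let Y : Subgroup (V ≃ₗ[F] V) :=
      { carrier := {y | y ∈ X ∧ ∀ v, y v - v ∈ L}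
        one_mem' := ⟨X.one_mem, by simp⟩
        mul_mem' := fun {a b} ha hb => ⟨X.mul_mem ha.1 hb.1, fun v => by
          simpa using L.add_mem (ha.2 (b v)) (hb.2 v)⟩
        inv_mem' := fun {a} ha => ⟨X.inv_mem ha.1, fun v => by
          have := L.neg_mem (ha.2 (a⁻¹ v))
          rwa [show a (a⁻¹ v) = v from a.apply_symm_apply v, neg_sub] at this⟩ }
    have hY : ∀ (φ : Dual F V) (v : V), v ∈ L → TV X φ v → TV Y φ v := by
      rintro φ v hv ⟨t, ht, ht'⟩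
      exact ⟨t, ⟨ht, fun y => by simpa [ht'] using L.smul_mem _ hv⟩, ht'⟩
    obtain ⟨ψ₀, h1, h2, h3⟩ := (inv_span' hw₀).exists_rf (v := g.symm w) (fun h => by
      obtain ⟨a, ha⟩ := Submodule.mem_span_singleton.1 h
      refine notMem_span_swap h0 hx (Submodule.mem_span_singleton.2 ⟨a, ?_⟩)
      rw [hxdef, ← map_smul, ha, g.apply_symm_apply])
    obtain ⟨g₁, hg₁, hg₁'⟩ := hY _ _ hxL ((hX ψ₀ w₀ h1 hw₀
      (h2 w₀ (Submodule.mem_span_singleton_self _))).conj' hg)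
    obtain ⟨χ₁, h4, h5, h6⟩ := (inv_span' hw).exists_rf hx
    have key : ∀ χ : Dual F V, R.RF χ → χ w = 0 → χ x / χ₁ x ∈ F₀ := by
      intro χ hχ hχw
      refine div_mem_of_plane F₀ (Y := Y) h0 hx (fun y hy => by simpa using L.add_mem (hy.2 w) hwL)
        hg₁ ?_ (S := {c | ∃ χ : Dual F V, R.RF χ ∧ χ w = 0 ∧ χ x = c}) ?_ ?_ ?_
        ⟨χ₁, h4, h5 w (Submodule.mem_span_singleton_self _), rfl⟩ h6 ⟨χ, hχ, hχw, rfl⟩
      · rw [hg₁', Submodule.add_mem_iff_right _ (Submodule.mem_span_singleton_self w),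
          Submodule.smul_mem_iff _ (by simpa using h3)]
        exact hx
      · rintro _ ⟨χ, h1, h2, rfl⟩
        obtain ⟨s, hs, hs'⟩ := hY _ _ hwL (hX χ w h1 hw h2)
        exact ⟨s, hs, by simp [hs', h2], hs' x⟩
      · rintro a ha _ ⟨χ, h1, h2, rfl⟩
        exact ⟨a • χ, fun y => by simp [h1 y, R.θ_of_mem ha], by simp [h2], by simp⟩
      · intro h hh μ hμ
        refine R.mem_of_rank (M := ⊤) (D := L) inv_top (by
          have := finrank_span_pair_le (F := F) w x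
          rw [finrank_top, hLdef]; omega) fun z _ hz => ⟨h⁻¹ z - z, (Y.inv_mem hh).2 z, ?_⟩
        refine Submodule.mem_sup_left (mem_span_of_rf hw fun χ h1 h2 => ?_)
        have h7 := (hX χ w h1 hw h2).conj' hh.1
        rw [hμ, ← TV.smul_swap] at h7
        have h8 := (hL _ w hw h0 (by
          have : h.symm (μ • w) = w := by rw [← hμ, h.symm_apply_apply]
          rw [map_smul] at this
          simpa [h2] using congrArg χ this) h7).mem hz
        rw [map_sub, h1, sub_eq_zero, add_sub_cancel, R.θ_iff]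
        simpa using h8
    have h7 : R.τ ((χ₁ x)⁻¹ • x) - (χ₁ x)⁻¹ • x ∈ F ∙ w := mem_span_of_rf hw fun χ h1 h2 => by
      rw [map_sub, h1, sub_eq_zero, R.θ_iff]
      simpa [div_eq_inv_mul] using key χ h1 h2
    have h8 := L.add_mem (Submodule.mem_sup_left h7) (L.smul_mem (χ₁ x)⁻¹ hxL)
    rwa [sub_add_cancel, τ_smul, L.smul_mem_iff (by simpa using h6)] at h8
  refine (exists_const (F := F) (f := R.τ.comp (g : V →+ V)) (g := (g : V →+ V))
    (fun a x => map_smul g a x) g.injective (G := fun x => R.τ x = x) ?_ ?_).elim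
    fun c hc => mem_N_of hc
  · intro w₀ hw₀
    show R.τ (g w₀) ∈ F ∙ g w₀
    by_cases h00 : w₀ = 0
    · simp [h00]
    have hx0 : g w₀ ≠ 0 := by simpa using h00
    obtain ⟨w, -, hw, hw'⟩ := (inv_top (R := R)).exists_notMem_of_lt (N := F ∙ g w₀) (by
      have := finrank_span_singleton_le (F := F) (g w₀)
      rw [finrank_top]; omega)
    obtain ⟨w', -, h1, h2⟩ := (inv_top (R := R)).exists_notMem_of_lt (N := (F ∙ w) ⊔ F ∙ g w₀) (by
      have := finrank_span_pair_le (F := F) w (g w₀)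
      rw [finrank_top]; omega)
    exact mem_span_of_two
      (CL w₀ w hw₀ h00 hw (by rintro rfl; simp at hw') (notMem_span_swap hx0 hw'))
      (CL w₀ w' hw₀ h00 h1 (by rintro rfl; simp at h2)
        (notMem_span_swap hx0 fun h => h2 (Submodule.mem_sup_right h))) h2
  · intro x y hx hy
    obtain ⟨z, -, h1, h2⟩ := (inv_top (R := R)).exists_notMem_of_lt (N := (F ∙ x) ⊔ F ∙ y) (by
      have := finrank_span_pair_le (F := F) x y
      rw [finrank_top]; omega)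
    exact ⟨z, h1, by simp [hx, h1], by simp [hy, h1], h2⟩

end

theorem N_maximal_SLV (hn : 5 ≤ finrank F V) (hne : ∃ ξ, ξ ∉ F₀)
    (hsimple : ∀ S : Subring F, (∀ a ∈ F₀, a ∈ S) → (∃ ξ ∈ S, ξ ∉ F₀) → S = ⊤) :
    Geo.IsMaximalIn (SLV F V) (R.N ⊓ SLV F V) := by
  refine isMaximalIn_of inf_le_right ?_ fun X hHX hXE g hg hgH => ?_
  · obtain ⟨ξ, hξ⟩ := hne
    obtain ⟨v, -, hv, hv0⟩ := (inv_top (R := R)).exists_notMem_of_lt (N := ⊥) (by
      rw [finrank_top, finrank_bot]; omega)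
    obtain ⟨y, -, hy, hy'⟩ := (inv_top (R := R)).exists_notMem_of_lt (N := F ∙ v) (by
      have := finrank_span_singleton_le (F := F) v
      rw [finrank_top]; omega)
    obtain ⟨φ, hφ, h1, h2⟩ := (inv_span' hv).exists_rf hy'
    have h3 : φ v = 0 := h1 v (Submodule.mem_span_singleton_self v)
    refine ⟨_, transvection_mem_SLV (φ := φ) (v := ξ • v) (by simp [h3]), fun ⟨⟨c, hc⟩, _⟩ => ?_⟩
    have h4 := hc v
    have h5 := hc y
    simp only [LinearEquiv.transvection.apply, h3, zero_smul, add_zero, hv] at h4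
    have h6 : (c : F) = 1 := smul_left_injective F (by simpa using hv0) (by simpa using h4.symm)
    simp only [LinearEquiv.transvection.apply, map_add, τ_smul, hy, hv, h6, one_smul,
      R.θ_of_mem (hφ.mem hy), add_right_inj] at h5
    exact hξ ((R.θ_iff ξ).1 (smul_left_injective F (by simpa using hv0)
      (smul_right_injective V h2 h5)))
  have hX : ∀ (φ : Dual F V) (v : V), R.RF φ → R.τ v = v → φ v = 0 → TV X φ v :=
    fun φ v h1 h2 h3 => (tv_N h1 h2 h3).has.mono hHX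
  by_contra hcon
  refine hgH ⟨le_N_of_rf hX hn (fun χ w h1 h2 h3 h4 => ?_) hg, hXE hg⟩
  by_contra h5
  exact hcon (SLV_le_of_not_rf hX (by omega) hsimple h1 h2 h3 h4 h5)

end RatStr

end Cfsg.Agent.H7
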