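import Cfsg.Agent.H1.OExtB
import Cfsg.Agent.H8.PBlk
import Cfsg.Agent.H7.Types
import Cfsg.Agent.H7.OInSp

/-!
Extension-field subgroups of unitary groups: the setting, and the case in which the stabiliser of
a singular line over the extension field does not act semilinearly on it.
-/

set_option autoImplicit false
set_option linter.unusedSectionVars false

namespace Cfsg.Agent.H7.UExt

open Module Cfsg.Agent.H3.Ext Cfsg.Agent.H1.OExt

section unitary

variable {K V : Type*} [Field K] [AddCommGroup V] [Module K V] {P : Polar K V}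
  (hσ : ∃ a, P.σ a ≠ a) (hε : P.ε = 1)
include hσ hε

theorem lam_iff {c : K} : P.Val 0 c ↔ P.σ c = -c := by
  rw [Polar.val_iff_of_unitary hσ hε, map_zero]
  constructor <;> intro h <;> linear_combination -h

omit hσ in
theorem herm (x y : V) : P.B y x = P.σ (P.B x y) := by rw [P.herm, hε, one_mul]

omit hσ in
theorem exists_torus [FiniteDimensional K V] {u f : V} (hu : P.Val u 0) (hf : P.Val f 0)
    (huf : P.B u f = 1) {b : K} (hb : b ≠ 0) :
    ∃ t ∈ P.Iso, t u = b • u ∧ LinearMap.det (t : V →ₗ[K] V) = b / P.σ b := by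
  have h1 : P.Val (u + b • f) (P.σ b) :=
    Polar.val_congr (Polar.val_add_sing hu hf b) (by simp [huf])
  have h2 : P.Val (u + (1 : K) • f) 1 :=
    Polar.val_congr (Polar.val_add_sing hu hf 1) (by simp [huf])
  have hfu : P.B f u = 1 := by rw [herm hε, huf, map_one]
  have hb' : P.σ b ≠ 0 := by simpa using hb
  refine ⟨Polar.reflE h2 one_ne_zero * Polar.reflE h1 hb', P.Iso.mul_mem (Polar.reflE_mem_Iso _ _)
    (Polar.reflE_mem_Iso _ _), ?_, ?_⟩
  · simp only [LinearEquiv.mul_apply, Polar.reflE_apply, Polar.refl, map_add, map_sub, map_smul,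
      LinearMap.add_apply, LinearMap.sub_apply, LinearMap.smul_apply, Polar.B_smul_right, huf, hfu,
      Polar.sing_B hu, Polar.sing_B hf, smul_eq_mul, map_one]
    match_scalars <;> field_simp <;> ring
  · rw [LinearEquiv.coe_toLinearMap_mul, map_mul, Polar.det_reflE, Polar.det_reflE, hε]
    simp

theorem exists_refl [FiniteDimensional K V] {w : V} (hw : P.B w w ≠ 0) {μ : K}
    (hμ : μ * P.σ μ = 1) : ∃ t ∈ P.Iso, LinearMap.det (t : V →ₗ[K] V) = μ ∧
      ∀ x, t x = x + ((μ - 1) * P.B x w / P.B w w) • w := by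
  by_cases h1 : μ = 1
  · exact ⟨1, P.Iso.one_mem, by simp [h1], fun x => by simp [h1]⟩
  have h2 : 1 - μ ≠ 0 := sub_ne_zero.2 (Ne.symm h1)
  have h0 : μ ≠ 0 := by rintro rfl; simp at hμ
  have h3 : P.σ μ = μ⁻¹ := eq_inv_of_mul_eq_one_right hμ
  have h4 : P.σ (P.B w w / (1 - μ)) = -μ * (P.B w w / (1 - μ)) := by
    have : μ - 1 ≠ 0 := sub_ne_zero.2 h1
    rw [map_div₀, Polar.σ_B_self hε, map_sub, map_one, h3]
    field_simp
    ring
  have hc : P.Val w (P.B w w / (1 - μ)) := by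
    rw [Polar.val_iff_of_unitary hσ hε, h4]
    field_simp
    ring
  refine ⟨Polar.reflE hc (div_ne_zero hw h2), Polar.reflE_mem_Iso _ _, ?_, fun x => ?_⟩
  · rw [Polar.det_reflE, hε, h4]
    field_simp
  · simp only [Polar.reflE_apply, Polar.refl]
    match_scalars <;> field_simp <;> ring

theorem exists_move [Finite K] [FiniteDimensional K V] {u v : V} (hu : P.Val u 0) (hu0 : u ≠ 0)
    (hv : P.Val v 0) (hv0 : v ≠ 0) : ∃ g ∈ P.E, ∃ a : K, a ≠ 0 ∧ g u = a • v := by
  obtain ⟨y, hy, h1, h2⟩ : ∃ y, P.Val y 0 ∧ P.B y u ≠ 0 ∧ P.B y v ≠ 0 := by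
    by_cases h : P.B u v = 0
    · exact Polar.exists_sing_not_perp hu hu0 hv0 h
    obtain ⟨c, hc0, hc⟩ := Polar.exists_lam_ne_of_unitary hσ hε
    refine ⟨u + P.σ (c / P.B u v) • v, ?_, ?_, ?_⟩
    · have := Polar.val_add_sing hu hv (P.σ (c / P.B u v))
      rw [P.σσ, div_mul_cancel₀ _ h, zero_add] at this
      simpa using Polar.val_sub_lam this hc
    · simp [Polar.sing_B hu, hc0, h, P.B_ne_symm h]
    · simp [Polar.sing_B hv, h]
  replace h1 := P.B_ne_symm h1
  replace h2 := P.B_ne_symm h2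
  obtain ⟨g, -, hg, h3⟩ := (Polar.fullA_E hy).exists_move hy hu
    (Polar.sing_smul hv (P.B u y / P.B v y)) (by simp [h2]) h1
  exact ⟨g, hg, _, div_ne_zero h1 h2, h3⟩

end unitary

variable {F K V : Type*} [Field F] [Field K] [Algebra F K] [AddCommGroup V] [Module F V]
  [Module K V] [IsScalarTower F K V]

/-- The standing hypotheses. -/
structure Setup (PF : Polar F V) (PK : Polar K V) (θ : K →ₗ[F] F)
    (X : Subgroup (V ≃ₗ[F] V)) : Prop where
  εF : PF.ε = 1
  εK : PK.ε = 1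
  neF : ∃ a, PF.σ a ≠ a
  σ_smul : ∀ (a : F) (k : K), PK.σ (a • k) = PF.σ a • PK.σ k
  θσ : ∀ k, θ (PK.σ k) = PF.σ (θ k)
  θne : θ ≠ 0
  B : ∀ x y, PF.B x y = θ (PK.B x y)
  iso : X ≤ PF.Iso
  mem : ∀ g ∈ PK.Iso, Algebra.norm F (LinearMap.det (g : V →ₗ[K] V)) = 1 → g ∈ XK K X
  prime : (finrank F K).Prime
  three : 3 ≤ finrank F K
  two : 2 ≤ finrank K V
  mu : finrank K V = 2 → ∃ μ : K, μ * PK.σ μ = 1 ∧ Algebra.norm F μ = 1 ∧
    μ ∉ (algebraMap F K).range

/-- `y` describes an element of `X` in the centre of the unipotent radical of the stabiliser of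
the line `K u`. -/
def ZX (PK : Polar K V) (X : Subgroup (V ≃ₗ[F] V)) (u : V) (y : End F K) : Prop :=
  Has X fun x => x + y (PK.B x u) • u

namespace ZX

variable {PK : Polar K V} {X : Subgroup (V ≃ₗ[F] V)} {u : V} {y y' : End F K}

theorem zero : ZX PK X u 0 := Has.id.congr fun x => by simp

theorem add (h : ZX PK X u y) (h' : ZX PK X u y') (hu : PK.B u u = 0) : ZX PK X u (y + y') :=
  (Has.comp h h').congr fun x => by
    simp only [map_add, map_smul, LinearMap.add_apply, LinearMap.smul_apply, hu, smul_zero,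
      map_zero]
    module

theorem neg (h : ZX PK X u y) (hu : PK.B u u = 0) : ZX PK X u (-y) :=
  Has.inv h fun x => by simp [hu]

theorem conj (h : ZX PK X u y) {x : V ≃ₗ[F] V} (hx : x ∈ X) {ξ η : End F K}
    (hξ : ∀ k, x (k • u) = ξ k • u) (hη : ∀ z, η (PK.B (x z) u) = PK.B z u) :
    ZX PK X u (ξ * y * η) :=
  Has.conj h hx fun z => by simp [hξ, hη]

end ZX

namespace Setup

variable {PF : Polar F V} {PK : Polar K V} {θ : K →ₗ[F] F} {X : Subgroup (V ≃ₗ[F] V)}
  (S : Setup PF PK θ X)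
include S

theorem finK : FiniteDimensional F K := Module.finite_of_finrank_pos S.prime.pos

theorem σ_alg (a : F) : PK.σ (algebraMap F K a) = algebraMap F K (PF.σ a) := by
  simp [Algebra.algebraMap_eq_smul_one, S.σ_smul]

theorem neK : ∃ a, PK.σ a ≠ a := by
  obtain ⟨a, ha⟩ := S.neF
  exact ⟨algebraMap F K a, fun h => ha ((algebraMap F K).injective (by rw [← S.σ_alg, h]))⟩

theorem eq_zero_of_θ {a : K} (h : ∀ k, θ (k * a) = 0) : a = 0 := by
  by_contra h0
  apply S.θne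
  ext k
  simpa [h0] using h (k / a)

theorem B_smul (x y : V) (k : K) : PF.B x (k • y) = θ (PK.σ k * PK.B x y) := by
  rw [S.B, PK.B_smul_right]

theorem mem_perp_ln {u z : V} : z ∈ PF.perp (ln F K u) ↔ PK.B z u = 0 := by
  constructor
  · intro h
    refine S.eq_zero_of_θ fun k => ?_
    rw [← PK.σσ k, ← S.B_smul]
    exact h _ (smul_mem_ln _ u)
  · intro h a ha
    obtain ⟨k, rfl⟩ := mem_ln.1 ha
    rw [S.B_smul, h, mul_zero, map_zero]

theorem singF {u : V} (hu : PK.Val u 0) (k : K) : PF.Val (k • u) 0 := by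
  rw [Polar.sing_iff_of_unitary S.neF S.εF, S.B_smul]
  simp [Polar.sing_B hu]

theorem exists_decomp : ∃ ω : F, PF.σ ω ≠ ω ∧
    ∀ a : K, ∃ a₁ a₂, PK.σ a₁ = a₁ ∧ PK.σ a₂ = a₂ ∧ a = a₁ + ω • a₂ := by
  obtain ⟨ω, hω⟩ := S.neF
  have h1 : ω - PF.σ ω ≠ 0 := sub_ne_zero.2 hω.symm
  have h2 : PF.σ ω - ω ≠ 0 := sub_ne_zero.2 hω
  refine ⟨ω, hω, fun a => ⟨a - ω • (ω - PF.σ ω)⁻¹ • (a - PK.σ a), (ω - PF.σ ω)⁻¹ • (a - PK.σ a),
    ?_, ?_, by simp⟩⟩ <;>
  simp only [map_sub, S.σ_smul, map_inv₀, Polar.σσ] <;> match_scalars <;> field_simp <;> ring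

theorem exists_mu : ∃ μ : K, μ * PK.σ μ = 1 ∧ μ ∉ (algebraMap F K).range := by
  have := S.finK
  by_contra! hcon
  have key : ∀ x : K, x ≠ 0 → ∃ a : F, PK.σ x = a • x := fun x hx => by
    obtain ⟨a, ha⟩ := hcon (PK.σ x / x) (by simp [hx])
    exact ⟨a, by rw [Algebra.smul_def, ha, div_mul_cancel₀ _ hx]⟩
  have key2 : ∀ x : K, x ∉ F ∙ (1 : K) → PK.σ x = x := fun x hx => by
    obtain ⟨a, ha⟩ := key x (fun h => hx (by simp [h]))
    obtain ⟨b, hb⟩ := key (x + 1) fun h => hx (by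
      rw [eq_neg_of_add_eq_zero_left h]
      exact Submodule.neg_mem _ (Submodule.mem_span_singleton_self _))
    rw [map_add, map_one, ha] at hb
    have h1 : a = b := by
      by_contra h
      refine hx (Submodule.mem_span_singleton.2 ⟨(b - 1) / (a - b), ?_⟩)
      have h2 : a - b ≠ 0 := sub_ne_zero.2 h
      apply smul_right_injective K h2
      simp only [smul_smul, mul_div_cancel₀ _ h2]
      linear_combination (norm := module) -hb
    rw [h1, smul_add, add_right_inj] at hb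
    rw [ha, h1, ← mul_one x, ← mul_smul_comm, ← hb]
  obtain ⟨x, -, hx⟩ := exists_notMem_of_finrank_lt (U := F ∙ (1 : K)) (W := ⊤) (by
    have := finrank_span_singleton_le (F := F) (1 : K)
    have := S.three
    rw [finrank_top]; omega)
  obtain ⟨ω, hω⟩ := S.neF
  have hω0 : ω ≠ 0 := by rintro rfl; simp at hω
  have h1 := key2 (ω • x) (by rwa [Submodule.smul_mem_iff _ hω0])
  rw [S.σ_smul, key2 x hx] at h1
  exact hω (smul_left_injective F (fun h => hx (by simp [h])) h1)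

variable [Finite K] [FiniteDimensional K V]

theorem finF : Finite F := Finite.of_injective _ (algebraMap F K).injective

theorem finV : FiniteDimensional F V := by
  have := S.finK
  exact Module.Finite.trans K V

theorem wild : PK.Wild 2 := Polar.wild_two_of_unitary S.neK S.εK

theorem E_le : PK.E ≤ XK K X := fun g hg =>
  S.mem g (Polar.E_le_Iso hg) (by rw [mem_SLV.1 (Polar.E_le_SLV hg), map_one])

theorem eich_mem {u w : V} {c : K} (hu : PK.Val u 0) (hw : PK.B w u = 0) (hc : PK.Val w c) :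
    (Polar.eichE hu hw hc).restrictScalars F ∈ X := S.E_le (Polar.eichE_mem_E hu hw hc)

theorem zx_skew {u : V} (hu : PK.Val u 0) {c : K} (hc : PK.σ c = -c) :
    ZX PK X u (LinearMap.mulLeft F c) :=
  ⟨_, S.eich_mem hu (w := 0) (by simp) ((lam_iff S.neK S.εK).2 hc), fun x => by
    simp [Polar.eich, hc]⟩

theorem exists_partner {u : V} (hu : PK.Val u 0) (h0 : u ≠ 0) :
    ∃ f, PK.Val f 0 ∧ PK.B u f = 1 ∧ PK.B f u = 1 := by
  obtain ⟨f, -, h1, h2⟩ := Polar.exists_hyperbolic (U := ⊥) hu (by simpa using h0)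
    (by simp [Polar.perp_bot]) 1 one_ne_zero
  exact ⟨f, h1, h2, by rw [herm S.εK, h2, map_one]⟩

theorem exists_special {u : V} (hu : PK.Val u 0) (h0 : u ≠ 0) : ∃ t ∈ PK.Iso, t ∈ XK K X ∧
    ∃ k : K, k ≠ 0 ∧ k / PK.σ k ∉ (algebraMap F K).range ∧ t u = k • u := by
  obtain ⟨f, hf, huf, -⟩ := S.exists_partner hu h0
  have key : ∀ μ : K, μ * PK.σ μ = 1 → ∃ t ∈ PK.Iso, LinearMap.det (t : V →ₗ[K] V) = μ ∧
      ∃ k : K, k ≠ 0 ∧ k / PK.σ k = μ ∧ t u = k • u := fun μ hμ => by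
    obtain ⟨k, hk0, hk⟩ := exists_div_conj PK.σ PK.σσ S.neK hμ
    obtain ⟨t, ht, h1, h2⟩ := exists_torus S.εK hu hf huf hk0
    have : k / PK.σ k = μ := by
      rw [div_eq_iff (by simpa using hk0)]; exact hk
    exact ⟨t, ht, h2.trans this, k, hk0, this, h1⟩
  by_cases hm : finrank K V = 2
  · obtain ⟨μ, h1, h2, h3⟩ := S.mu hm
    obtain ⟨t, ht, h4, k, h5, h6, h7⟩ := key μ h1
    exact ⟨t, ht, S.mem t ht (by rw [h4, h2]), k, h5, by rwa [h6], h7⟩
  obtain ⟨μ, h1, h3⟩ := S.exists_mu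
  obtain ⟨t, ht, h4, k, h5, h6, h7⟩ := key μ h1
  obtain ⟨w, hw, hww⟩ : ∃ w ∈ PK.pp u, PK.B w w ≠ 0 := by
    by_contra! hcon
    obtain ⟨w, hw, hw'⟩ := exists_notMem_of_finrank_lt (U := K ∙ u) (W := PK.perp (K ∙ u)) (by
      have := PK.finrank_perp (K ∙ u)
      have := finrank_span_singleton_le (F := K) u
      have := S.two
      omega)
    rw [Polar.perp_span_singleton] at hw
    obtain ⟨y, hy, hwy⟩ := Polar.exists_sep (P := PK) hw' 1
    rw [Polar.perp_span_singleton] at hy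
    rw [Polar.B_eq_zero_of_forall_isotropic S.neK hcon hw hy] at hwy
    exact zero_ne_one hwy
  obtain ⟨s, hs, h8, h9⟩ := exists_refl S.neK S.εK hww (μ := PK.σ μ) (by rw [PK.σσ, mul_comm, h1])
  refine ⟨t * s, PK.Iso.mul_mem ht hs, S.mem _ (PK.Iso.mul_mem ht hs) ?_, k, h5, by rwa [h6], ?_⟩
  · rw [LinearEquiv.coe_toLinearMap_mul, map_mul, h4, h8, h1, map_one]
  · rw [LinearEquiv.mul_apply, h9, PK.B_symm hw]
    simpa using h7

theorem zx_torus {u : V} {t : V ≃ₗ[K] V} (ht : t ∈ PK.Iso) (htX : t ∈ XK K X) {k : K}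
    (htu : t u = k • u) {y : End F K} (h : ZX PK X u y) :
    ZX PK X u (LinearMap.mulLeft F k * y * LinearMap.mulLeft F (PK.σ k)) :=
  h.conj (x := t.restrictScalars F) htX (fun l => by simp [htu, smul_smul, mul_comm]) fun z => by
    rw [← Polar.Iso.B ht z u, htu]
    simp

theorem zx_fix {u : V} (hu : PK.Val u 0) (h0 : u ≠ 0) {k : K} (hk : PK.σ k = k) {y : End F K}
    (h : ZX PK X u y) : ZX PK X u (LinearMap.mulLeft F k * y * LinearMap.mulLeft F k) := by
  by_cases hk0 : k = 0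
  · simpa [hk0] using ZX.zero
  obtain ⟨f, hf, huf, -⟩ := S.exists_partner hu h0
  obtain ⟨t, ht, h1, h2⟩ := exists_torus S.εK hu hf huf hk0
  simpa [hk] using S.zx_torus ht (S.mem t ht (by rw [h2, hk, div_self hk0, map_one])) h1 h

theorem zx_smul {u : V} (hu : PK.Val u 0) (h0 : u ≠ 0) {s : F} (hs : PF.σ s = s) {y : End F K}
    (h : ZX PK X u y) : ZX PK X u (s • y) := by
  have := S.finF
  have key : ∀ a : F, PF.σ a = a → ZX PK X u ((a * a) • y) := fun a ha => by
    convert S.zx_fix hu h0 (k := algebraMap F K a) (by rw [S.σ_alg, ha]) h using 1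
    ext x
    simp [← Algebra.smul_def, smul_smul]
  by_cases h2 : (2 : F) = 0
  · obtain ⟨a, rfl⟩ := exists_mul_self_of_two h2 s
    refine key a ?_
    rw [map_mul] at hs
    have : (PF.σ a - a) * (PF.σ a - a) = 0 := by
      linear_combination hs + (a * a - a * PF.σ a) * h2
    exact sub_eq_zero.1 (mul_self_eq_zero.1 this)
  · convert (key ((s + 1) / 2) (by simp [map_div₀, hs, map_ofNat])).add
      ((key ((s - 1) / 2) (by simp [map_div₀, hs, map_ofNat])).neg (Polar.sing_B hu))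
      (Polar.sing_B hu) using 1
    match_scalars
    field_simp
    ring

theorem skew_of_zx {u : V} (hu : PK.Val u 0) (h0 : u ≠ 0) {y : End F K} (h : ZX PK X u y)
    (k k' : K) : θ (y k * PK.σ k') + θ (k * PK.σ (y k')) = 0 := by
  obtain ⟨f, -, huf, hfu⟩ := S.exists_partner hu h0
  obtain ⟨g, hg, hg'⟩ := h
  have := Polar.Iso.B (S.iso hg) (k • f) (k' • f)
  simp only [hg', S.B, map_add, map_smul, LinearMap.add_apply, LinearMap.smul_apply,
    Polar.B_smul_right, hfu, huf, Polar.sing_B hu, smul_eq_mul, mul_one, mul_zero, map_zero] at this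
  linear_combination this

theorem exists_η {u : V} (hu : PK.Val u 0) (h0 : u ≠ 0) {x : V ≃ₗ[F] V} (hx : x ∈ X)
    (hxu : (ln F K u).map (x : V →ₗ[F] V) = ln F K u) :
    ∃ η : End F K, ∀ z, η (PK.B (x z) u) = PK.B z u := by
  obtain ⟨f, -, -, hfu⟩ := S.exists_partner hu h0
  refine ⟨(PK.B.flip u).restrictScalars F ∘ₗ (x.symm : V →ₗ[F] V) ∘ₗ
    (LinearMap.toSpanSingleton K V f).restrictScalars F, fun z => ?_⟩
  have h1 : x z - PK.B (x z) u • f ∈ PF.perp (ln F K u) := S.mem_perp_ln.2 (by simp [hfu])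
  have h2 := (mem_stab.1 (Polar.Iso.mem_perp_iff (S.iso hx) (mem_stab_iff_map.2 hxu))
    (z - x.symm (PK.B (x z) u • f))).2 (by simpa using h1)
  rw [S.mem_perp_ln, map_sub, LinearMap.sub_apply, sub_eq_zero] at h2
  exact h2.symm

theorem zx_all {u : V} (hu : PK.Val u 0) (h0 : u ≠ 0) {x : V ≃ₗ[F] V} (hx : x ∈ X)
    (hxu : (ln F K u).map (x : V →ₗ[F] V) = ln F K u) {l : K}
    (hl : ¬ ∃ l' : K, ∀ k : K, x ((l * k) • u) = l' • x (k • u)) {y : End F K}
    (hy : ∀ k k', θ (y k * PK.σ k') + θ (k * PK.σ (y k')) = 0) : ZX PK X u y := by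
  have := S.finK
  have huu := Polar.sing_B hu
  obtain ⟨ω, hω, hdec⟩ := S.exists_decomp
  have hω' : ω - PF.σ ω ≠ 0 := sub_ne_zero.2 hω.symm
  have hω'' : PF.σ ω - ω ≠ 0 := sub_ne_zero.2 hω
  let Z : Submodule F (End F K) :=
    { carrier := {y | ∃ y₁ y₂, ZX PK X u y₁ ∧ ZX PK X u y₂ ∧ y = y₁ + ω • y₂}
      zero_mem' := ⟨0, 0, ZX.zero, ZX.zero, by simp⟩
      add_mem' := by
        rintro _ _ ⟨a, b, ha, hb, rfl⟩ ⟨a', b', ha', hb', rfl⟩
        exact ⟨_, _, ha.add ha' huu, hb.add hb' huu, by module⟩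
      smul_mem' := by
        rintro c _ ⟨a, b, ha, hb, rfl⟩
        have key : ∀ c : F, ∀ y, ZX PK X u y →
            ∃ y₁ y₂, ZX PK X u y₁ ∧ ZX PK X u y₂ ∧ c • y = y₁ + ω • y₂ := fun c y hy =>
          ⟨(c - ω * ((c - PF.σ c) / (ω - PF.σ ω))) • y, ((c - PF.σ c) / (ω - PF.σ ω)) • y,
            S.zx_smul hu h0 (by
              simp only [map_sub, map_mul, map_div₀, Polar.σσ]; field_simp; ring) hy,
            S.zx_smul hu h0 (by
              simp only [map_sub, map_div₀, Polar.σσ]; field_simp; ring) hy, by module⟩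
        obtain ⟨a₁, a₂, h1, h2, h3⟩ := key c a ha
        obtain ⟨b₁, b₂, h4, h5, h6⟩ := key (c * ω) b hb
        exact ⟨_, _, h1.add h4 huu, h2.add h5 huu, by
          rw [smul_add, smul_smul, h3, h6]; module⟩ }
  have hZ : ∀ a b : End F K, (∀ y, ZX PK X u y → ZX PK X u (a * y * b)) →
      ∀ y ∈ Z, a * y * b ∈ Z := by
    rintro a b h _ ⟨y₁, y₂, h1, h2, rfl⟩
    exact ⟨_, _, h _ h1, h _ h2, by simp [mul_add, add_mul]⟩
  let L : K →ₐ[F] End F K := Algebra.lmul F K
  have hL : ∀ k, L k = LinearMap.mulLeft F k := fun _ => rfl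
  have hfix : ∀ k, PK.σ k = k → ∀ y ∈ Z, L k * y * L k ∈ Z := fun k hk =>
    hZ _ _ fun y hy => S.zx_fix hu h0 hk hy
  have hP : ∀ k, ∀ y ∈ Z, L k * y * L k ∈ Z := by
    intro k y hy
    obtain ⟨a, b, ha, hb, rfl⟩ := hdec k
    have h1 := Z.add_mem (Z.add_mem (hfix a ha y hy) (Z.smul_mem ω (Z.sub_mem (Z.sub_mem
      (hfix (a + b) (by simp [ha, hb]) y hy) (hfix a ha y hy)) (hfix b hb y hy))))
      (Z.smul_mem (ω * ω) (hfix b hb y hy))
    convert h1 using 1
    simp only [map_add, map_smul, mul_add, add_mul, mul_smul_comm, smul_mul_assoc]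
    module
  let A : Subalgebra F (End F K) :=
    { carrier := {a | ∀ y ∈ Z, a * y ∈ Z}
      mul_mem' := fun ha hb y hy => by rw [mul_assoc]; exact ha _ (hb y hy)
      add_mem' := fun ha hb y hy => by rw [add_mul]; exact Z.add_mem (ha y hy) (hb y hy)
      algebraMap_mem' := fun c y hy => by rw [← Algebra.smul_def]; exact Z.smul_mem c hy }
  have hLA : ∀ k, L k ∈ A := by
    obtain ⟨t, ht, htX, k, hk0, hk, htu⟩ := S.exists_special hu h0
    have h1 : k / PK.σ k ∈ A.comap L := fun y hy => by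
      have := hZ _ _ (fun y hy => S.zx_torus ht htX htu hy) _ (hP (PK.σ k)⁻¹ y hy)
      rwa [← hL, ← hL, ← mul_assoc, ← mul_assoc, ← map_mul, mul_assoc, ← map_mul,
        inv_mul_cancel₀ (by simpa using hk0), map_one, mul_one, ← div_eq_mul_inv] at this
    have := Subalgebra.isSimpleOrder_of_finrank_prime F K S.prime
    rcases eq_bot_or_eq_top (A.comap L) with h | h
    · exact absurd (Algebra.mem_bot.mp (h ▸ h1)) hk
    · exact fun k => (h ▸ Algebra.mem_top : k ∈ A.comap L)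
  obtain ⟨ξ, hξ, -⟩ := H1.OExt.Setup.exists_ξ h0 hxu
  have hxu' : (ln F K u).map ((x⁻¹ : V ≃ₗ[F] V) : V →ₗ[F] V) = ln F K u :=
    mem_stab_iff_map.1 ((stab _).inv_mem (mem_stab_iff_map.2 hxu))
  obtain ⟨ξ', hξ', -⟩ := H1.OExt.Setup.exists_ξ h0 hxu'
  have hξξ : ∀ k, ξ' (ξ k) = k := fun k => smul_left_injective K h0 (by
    simp only [← hξ', ← hξ]; exact x.symm_apply_apply _)
  obtain ⟨η, hη⟩ := S.exists_η hu h0 hx hxu
  obtain ⟨η', hη'⟩ := S.exists_η hu h0 (X.inv_mem hx) hxu'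
  have hηη : η' * η = 1 := by
    obtain ⟨f, -, -, hfu⟩ := S.exists_partner hu h0
    ext k
    have h1 := hη (x⁻¹ (k • f))
    have h2 := hη' (k • f)
    rw [show x (x⁻¹ (k • f)) = k • f from x.apply_symm_apply _] at h1
    rw [← h1] at h2
    simpa [hfu] using h2
  have h1 : ξ * L l * ξ' ∈ A := fun y hy => by
    have := hZ _ _ (fun y hy => hy.conj hx hξ hη) _
      (hLA l _ (hZ _ _ (fun y hy => hy.conj (X.inv_mem hx) hξ' hη') y hy))
    simpa only [mul_assoc, hηη, mul_one] using this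
  have h2 := eq_top_of_mul S.prime A hLA h1 (by
    rintro ⟨l', hl'⟩
    refine hl ⟨l', fun k => ?_⟩
    have := hl' (ξ k)
    simp only [End.mul_apply, hξξ, hL, LinearMap.mulLeft_apply] at this
    rw [hξ, hξ, this, mul_smul])
  obtain ⟨c, hc0, hc⟩ := exists_skew PK.σ PK.σσ S.neK
  have h3 := (h2 ▸ Algebra.mem_top : y * L c⁻¹ ∈ A) (L c) ⟨_, 0, S.zx_skew hu hc, ZX.zero, by
    simp [hL]⟩
  rw [mul_assoc, ← map_mul, inv_mul_cancel₀ hc0, map_one, mul_one] at h3
  obtain ⟨y₁, y₂, h4, h5, rfl⟩ := h3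
  suffices y₂ = 0 by simpa [this] using h4
  ext k
  refine S.eq_zero_of_θ fun k' => ?_
  have e1 := hy k (PK.σ k')
  have e2 := S.skew_of_zx hu h0 h4 k (PK.σ k')
  have e3 := S.skew_of_zx hu h0 h5 k (PK.σ k')
  simp only [LinearMap.add_apply, LinearMap.smul_apply, map_add, S.σ_smul, add_mul, mul_add,
    smul_mul_assoc, mul_smul_comm, map_smul, smul_eq_mul, Polar.σσ] at e1 e2 e3
  rw [mul_comm]
  apply mul_left_cancel₀ hω'
  linear_combination e1 - e2 - PF.σ ω * e3

end Setup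

/-- The centre of the unipotent radical of the stabiliser of `K u` lies in `X`. -/
def Full (K : Type*) [Field K] [Module K V] (PF : Polar F V) (X : Subgroup (V ≃ₗ[F] V)) (u : V) :
    Prop := ∀ (a b : K) (c : F), PF.Val 0 c → PF.EI X (a • u) (b • u) c

namespace Setup

variable {PF : Polar F V} {PK : Polar K V} {θ : K →ₗ[F] F} {X : Subgroup (V ≃ₗ[F] V)}
  (S : Setup PF PK θ X) [Finite K] [FiniteDimensional K V]
include S

theorem full_of_zx {u : V} (h : ∀ y : End F K,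
    (∀ k k', θ (y k * PK.σ k') + θ (k * PK.σ (y k')) = 0) → ZX PK X u y) : Full K PF X u := by
  intro a b c hc
  rw [lam_iff S.neF S.εF] at hc
  refine (h ((θ ∘ₗ LinearMap.mulLeft F (PK.σ a)).smulRight b -
    (θ ∘ₗ LinearMap.mulLeft F (PK.σ b)).smulRight a +
    c • (θ ∘ₗ LinearMap.mulLeft F (PK.σ a)).smulRight a) fun k k' => ?_).congr fun x => ?_
  · have h1 : ∀ a, PF.σ (θ (PK.σ a * k')) = θ (a * PK.σ k') := fun a => by
      rw [← S.θσ, map_mul, PK.σσ]
    simp only [LinearMap.add_apply, LinearMap.sub_apply, LinearMap.smul_apply,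
      LinearMap.smulRight_apply, LinearMap.comp_apply, LinearMap.mulLeft_apply, map_add, map_sub,
      S.σ_smul, add_mul, sub_mul, mul_add, mul_sub, smul_mul_assoc, mul_smul_comm, map_smul,
      smul_eq_mul, h1, hc, mul_comm k]
    ring
  · simp only [Polar.eich, S.B_smul, hc, S.εF, LinearMap.add_apply, LinearMap.sub_apply,
      LinearMap.smul_apply, LinearMap.smulRight_apply, LinearMap.comp_apply,
      LinearMap.mulLeft_apply, add_smul, sub_smul, smul_assoc]
    module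

theorem full_all {u : V} (hu : PK.Val u 0) (h0 : u ≠ 0) (h : Full K PF X u) {v : V}
    (hv : PK.Val v 0) (hv0 : v ≠ 0) : Full K PF X v := by
  obtain ⟨g, hg, t, ht, hgu⟩ := exists_move S.neK S.εK hu h0 hv hv0
  intro a b c hc
  have hgX := S.E_le hg
  simpa [hgu, smul_smul, ht] using (h (a / t) (b / t) c hc).conj hgX (S.iso hgX)

theorem fullA_of_full (h : ∀ v, PK.Val v 0 → v ≠ 0 → Full K PF X v) {u : V} (hu : PK.Val u 0)
    (h0 : u ≠ 0) : PF.FullA X u := by
  have := S.finF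
  have := S.finV
  have := S.finK
  have huF : PF.Val u 0 := by simpa using S.singF hu 1
  have h1 : ∀ b : K, b • u ∈ PF.eSub X huF := fun b =>
    ⟨by simp [S.B, Polar.sing_B hu], fun t => ⟨0, Polar.sing_smul (S.singF hu b) t, by
      simpa using h u hu h0 1 (t • b) 0 Polar.val_zero⟩⟩
  have h2 : ∀ w, PK.B w u ≠ 0 → θ (PK.B w u) = 0 → w ∈ PF.eSub X huF := by
    intro w hw hw'
    obtain ⟨a, ha⟩ := Polar.exists_val_add_sing hu hw 0
    rw [← Submodule.add_mem_iff_left _ (h1 a)]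
    have h3 : PK.B (w + a • u) u = PK.B w u := by simp [Polar.sing_B hu]
    rw [← h3] at hw hw'
    generalize w + a • u = e at *
    obtain ⟨c, hc0, hc⟩ := Polar.exists_lam_ne_of_unitary S.neF S.εF
    obtain ⟨g, hg, hg'⟩ := h e ha (by rintro rfl; simp at hw) 1 0 c hc
    obtain ⟨l, hl⟩ : ∃ l : K, θ (l * PK.B u e) ≠ 0 := by
      by_contra! hcon
      exact PK.B_ne_symm hw (S.eq_zero_of_θ hcon)
    have h4 : PF.B u e = 0 := PF.B_symm (by rw [S.B, hw'])
    have h5 := Polar.apply_mem_eSub huF hg (S.iso hg) (by simp [hg', Polar.eich, h4]) (h1 l)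
    simp only [hg', Polar.eich, one_smul, zero_smul, smul_zero, add_zero, map_zero, mul_zero,
      zero_add, Submodule.sub_mem_iff_right _ (h1 l)] at h5
    rwa [Submodule.smul_mem_iff _ (by simpa [S.B, hc0] using hl)] at h5
  refine Polar.fullA_of_eSub huF (fun c hc => by simpa using h u hu h0 1 0 c hc) fun w hw => ?_
  rw [Polar.mem_pp, S.B] at hw
  by_cases h3 : PK.B w u = 0
  · obtain ⟨f, -, -, hfu⟩ := S.exists_partner hu h0
    obtain ⟨k, hk, hk0⟩ := exists_notMem_of_finrank_lt (U := ⊥) (W := ⊤ ⊓ LinearMap.ker θ) (by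
      have := finrank_inf_ker_ge ⊤ θ
      have := S.three
      rw [finrank_top] at *
      rw [finrank_bot]; omega)
    have hk' : θ k = 0 := hk.2
    rw [Submodule.mem_bot] at hk0
    simpa using Submodule.sub_mem _ (h2 (w + k • f) (by simp [h3, hfu, hk0]) (by simp [h3, hfu, hk']))
      (h2 (k • f) (by simp [hfu, hk0]) (by simp [hfu, hk']))
  · exact h2 w h3 hw

theorem E_le_of_not_bad (hb : ¬ Bad PK X) : PF.E ≤ X := by
  have := S.finF
  have := S.finV
  simp only [Bad, not_forall] at hb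
  obtain ⟨u, h0, hu, x, hx, hxu, l, hl⟩ := hb
  have h1 := S.full_of_zx fun y hy => S.zx_all hu h0 hx hxu hl hy
  have h2 := fun v hv hv0 => S.fullA_of_full (fun v => S.full_all hu h0 h1) (u := v) hv hv0
  obtain ⟨f, hf, -, hfu⟩ := S.exists_partner hu h0
  have hf0 : f ≠ 0 := fun e => by simp [e] at hfu
  obtain ⟨k, hk⟩ := DFunLike.ne_iff.1 S.θne
  have hk0 : k ≠ 0 := fun e => by simp [e] at hk
  refine Polar.E_le_of_fullA (by simpa using S.singF hu 1) (S.singF hf k) (h2 u hu h0)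
    (h2 _ (Polar.sing_smul hf k) (smul_ne_zero hk0 hf0)) ?_
  simpa [S.B, hfu] using hk

end Setup

end Cfsg.Agent.H7.UExt
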