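import Cfsg.Agent.H7.UExtA

/-!
Extension-field subgroups of unitary groups: the orbit of the singular lines over the extension
field.
-/

set_option autoImplicit false
set_option linter.unusedSectionVars false

namespace Cfsg.Agent.H7.UExt

open Module Cfsg.Agent.H3.Ext Cfsg.Agent.H1.OExt

variable {F K V : Type*} [Field F] [Field K] [Algebra F K] [AddCommGroup V] [Module F V]
  [Module K V] [IsScalarTower F K V]

namespace Setup

variable {PF : Polar F V} {PK : Polar K V} {θ : K →ₗ[F] F} {X : Subgroup (V ≃ₗ[F] V)}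
  (S : Setup PF PK θ X) [Finite K] [FiniteDimensional K V]
include S

theorem mem_B {A : Submodule F V} (h : Mem PK X A) {a b : V} (ha : a ∈ A) (hb : b ∈ A) :
    θ (PK.B a b) = 0 := by
  obtain ⟨g, hg, u, h0, hu, rfl⟩ := h
  obtain ⟨a, ha, rfl⟩ := ha
  obtain ⟨b, hb, rfl⟩ := hb
  obtain ⟨k, rfl⟩ := mem_ln.1 ha
  obtain ⟨l, rfl⟩ := mem_ln.1 hb
  rw [← S.B, LinearEquiv.coe_coe, Polar.Iso.B (S.iso hg), S.B_smul]
  simp [Polar.sing_B hu]

theorem exists_tv {u : V} (hu : PK.Val u 0) {c : K} (hc : PK.σ c = -c) :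
    ∃ t ∈ X, ∀ x, t x = x + (c * PK.B x u) • u := S.zx_skew hu hc

theorem pair {g : V ≃ₗ[F] V} (h : ∀ u, PK.Val u 0 → ∀ k : K, ∃ l : K, g (k • u) = l • g u)
    (h' : ∀ u, PK.Val u 0 → ∀ l : K, ∃ k : K, g (k • u) = l • g u)
    {e f : V} (he : PK.Val e 0) (hf : PK.Val f 0) (hef : PK.B e f ≠ 0) {s : K} (hs : PK.σ s = s) :
    ∃ s' : K, (∀ k : K, g ((s * k) • e) = s' • g (k • e)) ∧
      ∀ k : K, g ((s * k) • f) = s' • g (k • f) := by
  choose α hα using h e he
  choose β hβ using h f hf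
  have hind : ∀ a b : K, a • g e + b • g f = 0 → a = 0 ∧ b = 0 := by
    intro a b hab
    obtain ⟨a', ha⟩ := h' e he a
    obtain ⟨b', hb⟩ := h' f hf b
    rw [← ha, ← hb, ← map_add, g.map_eq_zero_iff] at hab
    have h1 := congrArg (fun x => PK.B x f) hab
    have h2 := congrArg (fun x => PK.B x e) hab
    simp [Polar.sing_B he, Polar.sing_B hf, hef, PK.B_ne_symm hef] at h1 h2
    rw [h1] at ha
    rw [h2] at hb
    have h3 : g e ≠ 0 := by rw [Ne, g.map_eq_zero_iff]; rintro rfl; simp at hef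
    have h4 : g f ≠ 0 := by rw [Ne, g.map_eq_zero_iff]; rintro rfl; simp at hef
    exact ⟨by simpa [h3] using ha.symm, by simpa [h4] using hb.symm⟩
  have key : ∀ c, PK.σ (c * PK.B f e) = -(c * PK.B f e) → ∀ k, β (k * c) = α k * β c := by
    intro c hc k
    have h1 : PK.Val (e + c • f) 0 := by
      rw [Polar.sing_iff_of_unitary S.neK S.εK]
      rw [map_mul, ← herm S.εK] at hc
      simp only [map_add, map_smul, LinearMap.add_apply, LinearMap.smul_apply, Polar.B_smul_right,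
        Polar.sing_B he, Polar.sing_B hf, smul_eq_mul]
      linear_combination hc
    obtain ⟨l, hl⟩ := h _ h1 k
    rw [smul_add, map_add, map_add, hα, smul_smul, hβ, hβ] at hl
    obtain ⟨h2, h3⟩ := hind (α k - l) (β (k * c) - l * β c) (by
      linear_combination (norm := module) hl)
    linear_combination h3 - β c * h2
  obtain ⟨δ, hδ0, hδ⟩ := exists_skew PK.σ PK.σσ S.neK
  have hfe := PK.B_ne_symm hef
  obtain ⟨c, hc⟩ : ∃ c, c = δ / PK.B f e := ⟨_, rfl⟩
  have hc0 : c ≠ 0 := hc ▸ div_ne_zero hδ0 hfe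
  have hc1 : PK.σ (c * PK.B f e) = -(c * PK.B f e) := by rw [hc, div_mul_cancel₀ _ hfe, hδ]
  have hc2 : PK.σ (s * c * PK.B f e) = -(s * c * PK.B f e) := by
    rw [mul_assoc, map_mul, hs, hc1, mul_neg]
  have hβ0 : β c ≠ 0 := fun h => by
    have := hβ c
    rw [h, zero_smul, g.map_eq_zero_iff, smul_eq_zero] at this
    exact hef (by simp [this.resolve_left hc0])
  have h1 : ∀ k, α (s * k) = α s * α k := fun k => by
    apply mul_right_cancel₀ hβ0
    rw [← key c hc1, show s * k * c = k * (s * c) by ring, key _ hc2, key c hc1]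
    ring
  refine ⟨α s, fun k => by rw [hα, hα, h1, mul_smul], fun k => ?_⟩
  rw [← div_mul_cancel₀ k hc0, ← mul_assoc, hβ, hβ, key c hc1, key c hc1, h1, mul_assoc, mul_smul]

theorem exists_sing : ∃ u, u ≠ 0 ∧ PK.Val u 0 := by
  obtain ⟨u, -, h0, hu⟩ := S.wild ⊤ (by rw [finrank_top]; exact S.two)
  exact ⟨u, h0, hu⟩

theorem semi_of_mem (h : ∀ A, Mem PK X A → ∃ u, A = ln F K u) {g : V ≃ₗ[F] V} (hg : g ∈ X) :
    Semi K g := by
  have h0 : ∀ u, u ≠ 0 → PK.Val u 0 → (ln F K u).map (g : V →ₗ[F] V) = ln F K (g u) := by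
    intro u h0 hu
    obtain ⟨u', hu'⟩ := h _ ((mem_of_sing h0 hu).map hg)
    rw [hu']
    exact (ln_eq (hu'.le ⟨u, self_mem_ln u, rfl⟩) (by simpa using h0)).symm
  have h1 : ∀ u, PK.Val u 0 → ∀ k : K, ∃ l : K, g (k • u) = l • g u := fun u hu k => by
    by_cases hu0 : u = 0
    · exact ⟨0, by simp [hu0]⟩
    obtain ⟨l, hl⟩ := mem_ln.1 ((h0 u hu0 hu).le ⟨_, smul_mem_ln k u, rfl⟩)
    exact ⟨l, hl.symm⟩
  have h2 : ∀ u, PK.Val u 0 → ∀ l : K, ∃ k : K, g (k • u) = l • g u := fun u hu l => by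
    by_cases hu0 : u = 0
    · exact ⟨0, by simp [hu0]⟩
    obtain ⟨y, hy, hy'⟩ := (h0 u hu0 hu).ge (smul_mem_ln l (g u))
    obtain ⟨k, rfl⟩ := mem_ln.1 hy
    exact ⟨k, hy'⟩
  have key : ∀ s : K, PK.σ s = s → ∃ s' : K, ∀ x, g (s • x) = s' • g x := by
    intro s hs
    obtain ⟨e, he0, he⟩ := S.exists_sing
    obtain ⟨f, hf, hef, -⟩ := S.exists_partner he he0
    obtain ⟨s', hs', -⟩ := S.pair h1 h2 he hf (by simp [hef]) hs
    have h3 : ∀ e f, PK.Val e 0 → PK.Val f 0 → PK.B e f ≠ 0 →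
        (∀ k : K, g ((s * k) • e) = s' • g (k • e)) → ∀ k : K, g ((s * k) • f) = s' • g (k • f) := by
      intro e f he hf hef h
      obtain ⟨t, h4, h5⟩ := S.pair h1 h2 he hf hef hs
      have : g e ≠ 0 := by rw [Ne, g.map_eq_zero_iff]; rintro rfl; simp at hef
      rwa [smul_left_injective K this (by simpa using (h 1).symm.trans (h4 1) : s' • g e = t • g e)]
    let N : Submodule K V :=
      { carrier := {x | ∀ k : K, g ((s * k) • x) = s' • g (k • x)}
        zero_mem' := fun k => by simp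
        add_mem' := fun hx hy k => by simp only [smul_add, map_add, hx k, hy k]
        smul_mem' := fun a x hx k => by simp only [smul_smul, mul_assoc, hx (k * a)] }
    have h4 : ⊤ ≤ N := H8.le_of_forall_sing (P := PK) (by simp [Polar.perp_top]) trivial he he0
      fun v _ hv => by
        by_cases hv0 : v = 0
        · simp [hv0]
        by_cases hev : PK.B e v = 0
        · obtain ⟨y, hy, h5, h6⟩ := Polar.exists_sing_not_perp he he0 hv0 hev
          exact h3 y v hy hv h6 (h3 e y he hy (PK.B_ne_symm h5) hs')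
        · exact h3 e v he hv hev hs'
    exact ⟨s', fun x => by simpa using h4 (Submodule.mem_top (x := x)) 1⟩
  intro l
  obtain ⟨ω, -, hdec⟩ := S.exists_decomp
  obtain ⟨a, b, ha, hb, rfl⟩ := hdec l
  obtain ⟨a', ha'⟩ := key a ha
  obtain ⟨b', hb'⟩ := key b hb
  exact ⟨a' + ω • b', fun x => by simp only [add_smul, smul_assoc, map_add, map_smul, ha', hb']⟩

theorem eq_ln_of_disjoint
    (hmax : ∀ A₁ A₂, Mem PK X A₁ → Mem PK X A₂ → A₁ ≠ A₂ → finrank F ↥(A₁ ⊓ A₂) ≤ 0)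
    {A : Submodule F V} (h : Mem PK X A) : ∃ u, A = ln F K u := by
  have := S.finV
  have := S.finK
  have key : ∀ e ∈ A, e ≠ 0 → PK.Val e 0 → A = ln F K e := fun e he h0 hes => by
    by_contra hne
    have h1 := hmax _ _ h (mem_of_sing h0 hes) hne
    rw [Nat.le_zero, Submodule.finrank_eq_zero] at h1
    exact h0 (h1.le ⟨he, self_mem_ln e⟩)
  obtain ⟨x, hx, hx0⟩ := exists_notMem_of_finrank_lt (U := ⊥) (W := A) (by
    rw [h.finrank_eq, finrank_bot]; exact S.prime.pos)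
  replace hx0 : x ≠ 0 := by simpa using hx0
  by_cases hxx : PK.B x x = 0
  · exact ⟨x, key x hx hx0 ((Polar.sing_iff_of_unitary S.neK S.εK).2 hxx)⟩
  exfalso
  obtain ⟨a, ha, hax⟩ : ∃ a ∈ A, a ∉ K ∙ x := by
    by_contra! hcon
    have h1 : A = ln F K x := Submodule.eq_of_le_of_finrank_eq hcon
      (by rw [h.finrank_eq, finrank_ln hx0])
    exact hxx (S.eq_zero_of_θ fun k => by
      simpa using S.mem_B h (show k • x ∈ A from h1 ▸ smul_mem_ln k x) hx)
  have hfix : ∀ t ∈ X, t x = x → ∀ a ∈ A, t a - a ∈ A := fun t ht htx a ha =>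
    A.sub_mem ((map_eq_of_inv hmax h ht (N := F ∙ x) (by simpa using hx)
      (by rw [finrank_span_singleton hx0]; omega) fun n hn => by
        obtain ⟨t, rfl⟩ := Submodule.mem_span_singleton.1 hn
        rwa [map_smul, htx]).le ⟨a, ha, rfl⟩) ha
  have hN1 : PK.perp (PK.pp x) = K ∙ x := by rw [← Polar.perp_span_singleton, Polar.perp_perp]
  have hN3 : PK.pp x ⊓ PK.perp (PK.pp x) = ⊥ := by
    rw [eq_bot_iff, hN1]
    rintro _ ⟨h1, h2⟩
    obtain ⟨k, rfl⟩ := Submodule.mem_span_singleton.1 h2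
    have : k = 0 := by simpa [hxx] using h1
    simp [this]
  have hN4 : finrank K (PK.pp x) + 1 = finrank K V := by
    rw [← Polar.perp_span_singleton, ← PK.finrank_perp (K ∙ x), finrank_span_singleton hx0]
  by_cases hm : finrank K V = 2
  · obtain ⟨μ, h1, h2, h3⟩ := S.mu hm
    obtain ⟨w, hw, haw⟩ : ∃ w ∈ PK.pp x, PK.B a w ≠ 0 := by
      by_contra! hcon
      exact hax (hN1 ▸ hcon)
    have hw0 : w ≠ 0 := by rintro rfl; simp at haw
    have hw1 : K ∙ w = PK.pp x := Submodule.eq_of_le_of_finrank_eq (by simpa using hw)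
      (by rw [finrank_span_singleton hw0]; omega)
    have hww : PK.B w w ≠ 0 := fun h => hw0 (hN3.le ⟨hw, by
      rw [← hw1, Polar.perp_span_singleton]; exact h⟩)
    obtain ⟨t, ht, h4, h5⟩ := exists_refl S.neK S.εK hww h1
    have h6 := hfix _ (S.mem t ht (by rw [h4, h2])) (by simp [h5, PK.B_symm hw])
    simp only [LinearEquiv.restrictScalars_apply, h5, add_sub_cancel_left] at h6
    have hμ : μ - 1 ≠ 0 := fun h => h3 ⟨1, by rw [map_one, sub_eq_zero.1 h]⟩
    have h7 : ∀ k : K, k • w ∈ A := fun k => by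
      have := smul_mem_of_prime S.prime (D := A ⊓ ln F K w) h3 (fun d hd => by
        obtain ⟨l, rfl⟩ := mem_ln.1 hd.2
        refine ⟨?_, ln_smul_mem hd.2 _⟩
        have h8 : μ • l • w = ((μ - 1) * PK.B (l • w) w / PK.B w w) • w + l • w := by
          simp only [map_smul, LinearMap.smul_apply, smul_eq_mul]
          match_scalars
          field_simp
          ring
        exact h8 ▸ A.add_mem (h6 _ hd.1) hd.1) (k / ((μ - 1) * PK.B a w / PK.B w w)) ⟨h6 a ha, smul_mem_ln _ _⟩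
      rw [smul_smul, div_mul_cancel₀ _ (by simp [hμ, haw, hww])] at this
      exact this.1
    exact hww (S.eq_zero_of_θ fun k => by simpa using S.mem_B h (h7 k) (by simpa using h7 1))
  obtain ⟨e0, he0, he0', he0s⟩ := S.wild (PK.pp x) (by have := S.two; omega)
  obtain ⟨e, he, hes, hae⟩ := H8.exists_sing_ne' he0 he0s (fun h => he0' (hN3.le ⟨he0, h⟩))
    (z := a) (hN1 ▸ hax)
  obtain ⟨c, hc0, hc⟩ := exists_skew PK.σ PK.σσ S.neK
  obtain ⟨t, ht, ht'⟩ := S.exists_tv hes hc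
  have h1 := hfix t ht (by simp [ht', PK.B_symm he]) a ha
  rw [ht', add_sub_cancel_left] at h1
  have he0 : e ≠ 0 := fun h => hae (by simp [h])
  have h5 := key _ h1 (smul_ne_zero (mul_ne_zero hc0 (PK.B_ne_symm hae)) he0)
    (Polar.sing_smul hes _)
  obtain ⟨k, rfl⟩ := mem_ln.1 (h5 ▸ hx)
  exact hxx (by simp [Polar.sing_B hes])

theorem exists_skew_mul {M : Submodule F K} (hM : finrank F K ≤ 2 * finrank F M) {ψ : K}
    (hψ : ψ ≠ 0) (h : ∀ δ ∈ M, θ (δ * PK.σ ψ) = 0) : ∃ c, c ≠ 0 ∧ PK.σ c = -c ∧ c * ψ ∈ M := by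
  have := S.finK
  have := S.finF
  let U₀ := M.map (LinearEquiv.smulOfNeZero K K ψ⁻¹ (inv_ne_zero hψ) |>.restrictScalars F).toLinearMap
  have hU₀ : ∀ x, x ∈ U₀ ↔ x * ψ ∈ M := fun x => by
    refine ⟨?_, fun hx => ⟨_, hx, by simp [mul_comm x, hψ]⟩⟩
    rintro ⟨y, hy, rfl⟩
    simpa [mul_comm _ y, hψ] using hy
  let U₁ : Submodule F K :=
    { carrier := {x | PK.σ x ∈ U₀}
      zero_mem' := by simp
      add_mem' := fun hx hy => by simpa using U₀.add_mem hx hy
      smul_mem' := fun a x hx => by simpa [S.σ_smul] using U₀.smul_mem _ hx }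
  have h0 : finrank F U₀ = finrank F M := LinearEquiv.finrank_map_eq _ _
  have h1 : finrank F U₁ = finrank F U₀ := by
    have : Nat.card U₁ = Nat.card U₀ := Nat.card_congr
      ⟨fun x => ⟨PK.σ x, x.2⟩, fun x => ⟨PK.σ x, show PK.σ (PK.σ x) ∈ U₀ by simp⟩,
        fun x => by simp, fun x => by simp⟩
    rw [natCard_eq_pow_finrank (K := F), natCard_eq_pow_finrank (K := F) (V := U₀)] at this
    exact Nat.pow_right_injective Finite.one_lt_card this
  let φ : Dual F K := θ ∘ₗ LinearMap.mulRight F (ψ * PK.σ ψ)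
  have h2 : U₀ ⊔ U₁ ≤ LinearMap.ker φ := sup_le
    (fun x hx => by simpa [φ, mul_assoc] using h _ ((hU₀ x).1 hx)) fun x hx => by
      have := congrArg PF.σ (h _ ((hU₀ _).1 hx))
      rw [← S.θσ] at this
      simpa [φ, mul_assoc, mul_comm ψ] using this
  have h3 : finrank F (LinearMap.ker φ) < finrank F K := Submodule.finrank_lt fun h =>
    mul_ne_zero hψ (by simpa using hψ) (S.eq_zero_of_θ fun k => (h ▸ Submodule.mem_top :
      k ∈ LinearMap.ker φ))
  have h4 := Submodule.finrank_sup_add_finrank_inf_eq U₀ U₁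
  have h5 := Submodule.finrank_mono h2
  obtain ⟨x, hx, hx0⟩ := exists_notMem_of_finrank_lt (U := ⊥) (W := U₀ ⊓ U₁) (by
    rw [finrank_bot]; omega)
  by_cases h6 : PK.σ x = x
  · obtain ⟨δ, hδ0, hδ⟩ := exists_skew PF.σ PF.σσ S.neF
    exact ⟨δ • x, smul_ne_zero hδ0 hx0, by rw [S.σ_smul, hδ, h6, neg_smul],
      (hU₀ _).1 (U₀.smul_mem δ hx.1)⟩
  · exact ⟨x - PK.σ x, sub_ne_zero.2 (Ne.symm h6), by simp, (hU₀ _).1 (U₀.sub_mem hx.1 hx.2)⟩

variable {j : ℕ}
  (hmax : ∀ A₁ A₂, Mem PK X A₁ → Mem PK X A₂ → A₁ ≠ A₂ → finrank F ↥(A₁ ⊓ A₂) ≤ j)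
include hmax

theorem fix_of_shift (hb : Bad PK X) {L A : Submodule F V} (h : Mem PK X A)
    (hj : j ≤ finrank F ↥(L ⊓ A)) {s : V} (hs : s ∈ A) (hsL : s ∉ L) {y : V ≃ₗ[F] V} (hy : y ∈ X)
    (hyD : ∀ d ∈ L, y d = d) (hyL : ∀ a ∈ A, y a - a ∈ L) (hys : y s - s ∈ A) {a : V}
    (ha : a ∈ A) : y a = a := by
  have := S.finV
  have h1 : A.map (y : V →ₗ[F] V) = A := by
    refine map_eq_of_inv hmax h hy (N := (L ⊓ A) ⊔ F ∙ s) (sup_le inf_le_right (by simpa using hs))
      (by rw [Submodule.finrank_sup_span_singleton (p := L ⊓ A) (fun h => hsL h.1)]; omega)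
      fun n hn => ?_
    obtain ⟨d, hd, c, rfl⟩ := mem_sup_span_singleton.1 hn
    refine mem_sup_span_singleton.2 ⟨d + c • (y s - s), Submodule.add_mem _ hd
      (Submodule.smul_mem _ _ ⟨hyL s hs, hys⟩), c, ?_⟩
    rw [map_add, map_smul, hyD d hd.1]; module
  let f : V →ₗ[F] V := (y : V →ₗ[F] V) - LinearMap.id
  have h2 := LinearMap.finrank_range_add_finrank_ker (f.domRestrict A)
  have h3 : LinearMap.range (f.domRestrict A) ≤ L ⊓ A := by
    rintro _ ⟨a, rfl⟩
    exact ⟨hyL a a.2, A.sub_mem (h1.le ⟨a, a.2, rfl⟩) a.2⟩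
  have h4 : finrank F (LinearMap.ker (f.domRestrict A)) = finrank F ↥(A ⊓ LinearMap.ker f) := by
    rw [LinearMap.ker_domRestrict, ← Submodule.finrank_map_subtype_eq, Submodule.map_comap_subtype]
  have h5 : L ⊓ A ≤ A ⊓ LinearMap.ker f := fun d hd => ⟨hd.2, by simp [f, hyD d hd.1]⟩
  have h6 := Submodule.finrank_mono h3
  have h7 := Submodule.finrank_mono h5
  have h8 := S.three
  rw [h.finrank_eq] at h2
  obtain ⟨d, hd, hd0⟩ := exists_notMem_of_finrank_lt (U := ⊥) (W := A ⊓ LinearMap.ker f) (by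
    rw [finrank_bot]; omega)
  obtain ⟨d', hd', hd0'⟩ := exists_notMem_of_finrank_lt (U := F ∙ d) (W := A ⊓ LinearMap.ker f) (by
    have := finrank_span_singleton_le (F := F) d
    omega)
  exact hb.fix_two S.prime h hy h1 hd.1 hd0 (by simpa [f, sub_eq_zero] using hd.2) hd'.1 hd0'
    (by simpa [f, sub_eq_zero] using hd'.2) ha

theorem false_of_bad (hb : Bad PK X) (hj0 : 0 < j) {u : V} (h0 : u ≠ 0)
    (hu : PK.Val u 0) {A : Submodule F V} (h : Mem PK X A) (hne : A ≠ ln F K u)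
    (hj : j ≤ finrank F ↥(ln F K u ⊓ A)) : False := by
  have := S.finV
  have := S.finK
  have huu := Polar.sing_B hu
  have hL : ∀ d ∈ ln F K u, PK.B d u = 0 := fun d hd => by
    obtain ⟨k, rfl⟩ := mem_ln.1 hd
    simp [huu]
  have htv : ∀ c, c ≠ 0 → PK.σ c = -c → ∀ s ∈ A, s ∉ ln F K u → (c * PK.B s u) • u ∈ A →
      ∀ a ∈ A, PK.B a u = 0 := by
    intro c hc0 hc s hs hsL hs' a ha
    obtain ⟨t, ht, ht'⟩ := S.exists_tv hu hc
    have := S.fix_of_shift hmax hb h hj hs hsL ht (fun d hd => by simp [ht', hL d hd])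
      (fun a _ => by simpa [ht'] using smul_mem_ln _ _) (by simpa [ht'] using hs') ha
    simpa [ht', hc0, h0] using this
  obtain ⟨d, hd, hd0⟩ := exists_notMem_of_finrank_lt (U := ⊥) (W := ln F K u ⊓ A) (by
    rw [finrank_bot]; omega)
  obtain ⟨δ, rfl⟩ := mem_ln.1 hd.1
  have hδ0 : δ ≠ 0 := fun h => hd0 (by simp [h])
  obtain ⟨v, hv, hvL⟩ : ∃ v ∈ A, v ∉ ln F K u := by
    by_contra! hcon
    exact hne (Submodule.eq_of_le_of_finrank_eq hcon (by rw [h.finrank_eq, finrank_ln h0]))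
  by_cases h1 : ∃ s ∈ A, s ∉ ln F K u ∧ PK.B s u = 0
  · obtain ⟨s, hs, hsL, hsu⟩ := h1
    obtain ⟨c, hc0, hc⟩ := exists_skew PK.σ PK.σσ S.neK
    have h2 := htv c hc0 hc s hs hsL (by simp [hsu])
    obtain ⟨w, hw, hsw⟩ := Polar.exists_sep (P := PK) (U := K ∙ u) hsL (-δ)
    rw [Polar.perp_span_singleton, Polar.mem_pp] at hw
    obtain ⟨e, he⟩ := PK.val_ex w
    have h3 : ∀ a ∈ A, PK.eich u w e a - a = (-PK.B a w) • u := fun a ha => by
      simp [Polar.eich, h2 a ha, S.εK]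
    have := S.fix_of_shift hmax hb h hj hs hsL (S.eich_mem hu hw he) (fun d hd => by
        obtain ⟨k, rfl⟩ := mem_ln.1 hd
        exact Polar.eich_fix _ (by simp [huu]) (by simp [PK.B_symm hw]))
      (fun a ha => (h3 a ha).symm ▸ smul_mem_ln _ _)
      (by rw [LinearEquiv.restrictScalars_apply, Polar.eichE_apply, h3 s hs, hsw, neg_neg]
          exact hd.2) hs
    rw [LinearEquiv.restrictScalars_apply, Polar.eichE_apply, ← sub_eq_zero, h3 s hs, hsw,
      neg_neg] at this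
    exact hd0 this
  push Not at h1
  let ψ : V →ₗ[F] K := (PK.B.flip u).restrictScalars F
  let ι : K →ₗ[F] V := (LinearMap.toSpanSingleton K V u).restrictScalars F
  have h2 : finrank F (A.comap ι) = finrank F ↥(ln F K u ⊓ A) := by
    rw [← LinearEquiv.finrank_eq (Submodule.equivMapOfInjective ι (smul_left_injective K h0) _).symm,
      Submodule.map_comap_eq, show LinearMap.range ι = ln F K u from
        Submodule.ext fun x => mem_ln.symm]
  have h3 : finrank F K ≤ finrank F (A.map ψ) + finrank F ↥(ln F K u ⊓ A) := by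
    have h4 := LinearMap.finrank_range_add_finrank_ker (ψ.domRestrict A)
    rw [LinearMap.range_domRestrict, LinearMap.ker_domRestrict, ← Submodule.finrank_map_subtype_eq,
      Submodule.map_comap_subtype, h.finrank_eq] at h4
    have h5 : A ⊓ LinearMap.ker ψ ≤ ln F K u ⊓ A := fun a ha =>
      ⟨by_contra fun h => h1 a ha.1 h ha.2, ha.1⟩
    have := Submodule.finrank_mono h5
    omega
  by_cases h4 : finrank F K ≤ 2 * finrank F (A.comap ι)
  · obtain ⟨c, hc0, hc, h5⟩ := S.exists_skew_mul h4 (h1 v hv hvL) fun k hk => by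
      simpa [herm S.εK v u] using S.mem_B h (show k • u ∈ A from hk) hv
    exact h1 v hv hvL (htv c hc0 hc v hv hvL h5 v hv)
  · obtain ⟨c, hc0, hc, s, hs, h5⟩ := S.exists_skew_mul (M := A.map ψ) (by omega) hδ0 (by
      rintro _ ⟨a, ha, rfl⟩
      simpa [mul_comm, ψ] using S.mem_B h ha hd.2)
    replace h5 : PK.B s u = c * δ := h5
    have hsL : s ∉ ln F K u := fun h => mul_ne_zero hc0 hδ0 (h5 ▸ hL s h)
    exact h1 s hs hsL (htv c⁻¹ (inv_ne_zero hc0) (by simp [hc]) s hs hsL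
      (by simpa [h5, hc0] using hd.2) s hs)

end Setup

theorem Setup.E_le_or_semi {PF : Polar F V} {PK : Polar K V} {θ : K →ₗ[F] F}
    {X : Subgroup (V ≃ₗ[F] V)} (S : Setup PF PK θ X) [Finite K] [FiniteDimensional K V] :
    PF.E ≤ X ∨ ∀ g ∈ X, Semi K g := by
  have := S.finV
  by_cases hb : Bad PK X
  · rcases exists_max_pair PK X with h | ⟨j, hj, hmax, u, A, h0, hu, hA, hne, hj'⟩
    · exact Or.inr fun g hg => S.semi_of_mem (fun A => S.eq_ln_of_disjoint h) hg
    · exact (S.false_of_bad hmax hb hj h0 hu hA hne hj').elim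
  · exact Or.inl (S.E_le_of_not_bad hb)

end Cfsg.Agent.H7.UExt
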