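import Cfsg.Agent.H7.UExtB
import Cfsg.Agent.H7.Inst
import Cfsg.Agent.H3.ExtMat
import Cfsg.Agent.H8.Proper

/-!
Maximality of the extension-field subgroups of the special unitary groups.
-/

set_option autoImplicit false
set_option linter.unusedSectionVars false

namespace Cfsg.Agent.H7.UExt

open Module Cfsg.Agent.H3.Ext Cfsg.Agent.H1.OExt

/-- The polar space of a non-degenerate hermitian form. -/
def hermPolar {K V : Type*} [Field K] [AddCommGroup V] [Module K V] (σ : K →+* K)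
    (hσσ : ∀ a, σ (σ a) = a) (hσ : ∃ a, σ a ≠ a) (β : V → Dual K V)
    (herm : ∀ x y, β x y = σ (β y x)) (nondeg : ∀ y, (∀ x, β y x = 0) → y = 0) : Polar K V where
  σ := σ
  ε := 1
  B := LinearMap.mk₂'ₛₗ (RingHom.id K) σ (fun x y => β y x) (fun _ _ _ => map_add _ _ _)
    (fun _ _ _ => map_smul _ _ _) (fun m n₁ n₂ => by rw [herm, map_add, map_add, ← herm, ← herm])
    (fun c m n => by rw [herm, map_smul, smul_eq_mul, map_mul, ← herm]; rfl)
  Val x c := β x x = c + σ c
  σσ := hσσ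
  εε := Or.inl rfl
  herm x y := by simp [herm x y]
  nondeg := nondeg
  val_ex x := by
    obtain ⟨θ, hθ⟩ := exists_trace_one σ hσσ hσ
    refine ⟨θ * β x x, ?_⟩
    rw [map_mul, ← herm]
    linear_combination (-β x x) * hθ
  val_add {x y c d} hx hy := by
    have h1 : ∀ m, β (x + y) m = β x m + β y m := fun m => by
      rw [herm, map_add, map_add, ← herm, ← herm]
    simp only [h1, hx, hy, map_add, LinearMap.mk₂'ₛₗ_apply, herm x y]
    ring
  val_smul {x c} a hx := by
    rw [map_smul, herm, map_smul, hx]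
    simp only [map_mul, map_add, hσσ, smul_eq_mul]
    ring
  val_self hx := by simpa using hx
  val_min a := by simp [hσσ]

variable {F K V : Type*} [Field F] [Field K] [Algebra F K] [AddCommGroup V] [Module F V]
  [Module K V] [IsScalarTower F K V]

theorem exists_polarK [FiniteDimensional F K] [FiniteDimensional K V] [Nontrivial V]
    {PF : Polar F V} (hε : PF.ε = 1) (hσ : ∃ a, PF.σ a ≠ a)
    (hadj : ∀ k : K, ∃ k' : K, ∀ x y, PF.B (k • x) y = PF.B x (k' • y)) :
    ∃ (PK : Polar K V) (θ : K →ₗ[F] F), PK.ε = 1 ∧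
      (∀ (a : F) (k : K), PK.σ (a • k) = PF.σ a • PK.σ k) ∧ (∀ k, θ (PK.σ k) = PF.σ (θ k)) ∧
      θ ≠ 0 ∧ ∀ x y, PF.B x y = θ (PK.B x y) := by
  choose s hs using hadj
  have huniq : ∀ a b : K, (∀ x y, PF.B x (a • y) = PF.B x (b • y)) → a = b := fun a b h => by
    obtain ⟨y, hy⟩ := exists_ne (0 : V)
    refine smul_left_injective K hy (sub_eq_zero.1 (PF.nondeg _ fun x => ?_))
    simp only [map_sub, h x y, sub_self]
  let σ : K →+* K :=
    { toFun := s
      map_one' := huniq _ _ fun x y => by rw [← hs, one_smul, one_smul]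
      map_mul' := fun a b => huniq _ _ fun x y => by
        rw [← hs, mul_smul, hs, hs, smul_smul, mul_comm]
      map_zero' := huniq _ _ fun x y => by rw [← hs]; simp
      map_add' := fun a b => huniq _ _ fun x y => by
        rw [← hs, add_smul, add_smul, map_add, map_add, LinearMap.add_apply, hs, hs] }
  have hs' : ∀ k x y, PF.B (k • x) y = PF.B x (σ k • y) := hs
  have hσσ : ∀ a, σ (σ a) = a := fun a => huniq _ _ fun x y => by
    rw [← hs', herm hε, ← hs', ← herm hε]
  have hsm : ∀ (a : F) (k : K), σ (a • k) = PF.σ a • σ k := fun a k => huniq _ _ fun x y => by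
    rw [← hs', smul_assoc, smul_assoc, map_smul, LinearMap.smul_apply, PF.B_smul_right, PF.σσ, hs',
      smul_eq_mul]
  obtain ⟨x₀, hx₀⟩ : ∃ x₀, PF.B x₀ x₀ ≠ 0 := by
    by_contra! hcon
    obtain ⟨y, hy⟩ := exists_ne (0 : V)
    exact hy (PF.nondeg y fun x => Polar.B_eq_zero_of_forall_isotropic hσ (U := ⊤)
      (fun x _ => hcon x) trivial trivial)
  let θ : K →ₗ[F] F := PF.B.flip x₀ ∘ₗ (LinearMap.toSpanSingleton K V x₀).restrictScalars F
  have hθ1 : ∀ k, θ k = PF.B (k • x₀) x₀ := fun _ => rfl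
  have hθ : θ ≠ 0 := fun e => hx₀ (by simpa [e] using (hθ1 1).symm)
  have hθσ : ∀ k, θ (σ k) = PF.σ (θ k) := fun k => by rw [hθ1, hθ1, herm hε, ← hs']
  have hinj : ∀ a b : K, (∀ k, θ (k * a) = θ (k * b)) → a = b := fun a b h => by
    by_contra hne
    apply hθ
    ext k
    have := h (k / (a - b))
    rwa [← sub_eq_zero, ← map_sub, ← mul_sub, div_mul_cancel₀ _ (sub_ne_zero.2 hne)] at this
  choose ψ hψ using fun y => exists_dualK (K := K) hθ (PF.B.flip y)
  have h1 : ∀ k x y, θ (k * ψ y x) = PF.B (k • x) y := fun k x y => by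
    rw [← smul_eq_mul, ← map_smul, hψ]; rfl
  have h2 : ∀ x y, ψ x y = σ (ψ y x) := fun x y => hinj _ _ fun k => by
    rw [h1, ← hσσ k, ← map_mul, hθσ, h1, ← herm hε, hσσ, hs']
  obtain ⟨ω, hω⟩ := hσ
  refine ⟨hermPolar σ hσσ ⟨ω • 1, fun h => hω ?_⟩ ψ h2 fun y hy => PF.nondeg y fun x => ?_, θ, rfl,
    hsm, hθσ, hθ, fun x y => (hψ y x).symm⟩
  · rw [hsm, map_one] at h
    exact smul_left_injective F one_ne_zero h
  · have := hψ y x
    rw [hy x, map_zero] at this
    exact this.symm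

theorem exists_mu_norm [Fintype F] [Finite K] {q : ℕ} (hF : Fintype.card F = q ^ 2) {σ : K →+* K}
    (hσσ : ∀ a, σ (σ a) = a) (hσ : ∀ a : F, σ (algebraMap F K a) = algebraMap F K (a ^ q))
    (hr : 3 ≤ finrank F K) (hex : ¬ (q = 2 ∧ finrank F K = 3)) :
    ∃ μ : K, μ * σ μ = 1 ∧ Algebra.norm F μ = 1 ∧ μ ∉ (algebraMap F K).range := by
  have := Fintype.ofFinite K
  have hq := one_lt_q hF
  by_contra! hcon
  have h1 : ∀ ν : K, ν * σ ν = 1 → ν ^ ((q + 1) * (q + 1)) = 1 := fun ν hν => by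
    obtain ⟨a, ha⟩ := hcon (ν ^ (q + 1)) (by rw [map_pow, ← mul_pow, hν, one_pow]) (by
      apply (algebraMap F K).injective
      rw [map_pow, pow_succ', map_mul, ← hσ, FiniteField.algebraMap_norm_eq_pow, map_pow, ← mul_pow,
        hν, one_pow, map_one])
    rw [pow_mul, ← ha, ← map_pow, pow_succ', map_mul, ← hσ, ha, map_pow, ← mul_pow, hν, one_pow]
  let K₀ := σ.eqLocusField (RingHom.id K)
  have h2 := card_sq_le (P := K₀.toSubring) fun h => by
    obtain ⟨a, ha⟩ := qFrob_ne hF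
    have : algebraMap F K a ∈ K₀.toSubring := h ▸ Subring.mem_top _
    exact ha ((algebraMap F K).injective ((hσ a).symm.trans this))
  have h3 : Fintype.card K - 1 ∣ (q + 1) * (q + 1) * (Nat.card K₀ - 1) := by
    refine (FiniteField.forall_pow_eq_one_iff K _).1 fun x => Units.ext ?_
    have hx : σ x ≠ 0 := by simp
    have h4 := h1 (x / σ x) (by simp [hσσ])
    rw [div_pow, div_eq_one_iff_eq (pow_ne_zero _ hx), ← map_pow] at h4
    have := Fintype.ofFinite K₀
    have := congrArg Subtype.val (FiniteField.pow_card_sub_one_eq_one (⟨_, h4.symm⟩ : K₀)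
      fun h => by simpa using congrArg Subtype.val h)
    simpa [pow_mul] using this
  have h4 : Fintype.card K = q ^ finrank F K * q ^ finrank F K := by
    rw [card_eq_pow_finrank (K := F), hF, ← pow_mul, mul_comm, pow_mul, sq]
  have h5 : 1 < Nat.card K₀ := Finite.one_lt_card
  have h6 := Nat.le_of_dvd (by positivity [Nat.sub_pos_of_lt h5]) h3
  rw [Nat.card_eq_fintype_card (α := K), h4] at h2
  have h7 : Nat.card K₀ ≤ q ^ finrank F K := Nat.mul_self_le_mul_self_iff.1 h2
  have h8 : (q + 1) * (q + 1) ≤ q ^ finrank F K := by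
    by_cases h : q = 2
    · have : 2 ^ 4 ≤ 2 ^ finrank F K := Nat.pow_le_pow_right two_pos (by omega)
      subst h; omega
    · refine le_trans ?_ (Nat.pow_le_pow_right (by omega) hr)
      have : 3 ≤ q := by omega
      nlinarith [Nat.mul_le_mul_right (q * q) this]
  rw [h4] at h6
  generalize q ^ finrank F K = T at *
  generalize (q + 1) * (q + 1) = M at *
  generalize Nat.card K₀ = Q at *
  have h9 : M * (Q - 1) ≤ T * (T - 1) := Nat.mul_le_mul h8 (by omega)
  obtain ⟨T, rfl⟩ : ∃ T', T = T' + 1 := ⟨T - 1, by omega⟩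
  simp only [Nat.add_sub_cancel] at h9
  have : (T + 1) * (T + 1) = (T + 1) * T + T + 1 := by ring
  omega

set_option maxHeartbeats 1600000 in
open Matrix in
/-- Extension-field subgroups of `SU_n(q)`, `n / r ≥ 2`. -/
theorem su_ext_maximal {F : Type*} [Field F] [Fintype F] {n q : ℕ} (hF : Fintype.card F = q ^ 2)
    {r : ℕ} (hr : r.Prime) (h3 : 3 ≤ r) (hn : r < n) (hex : ¬ (q = 2 ∧ n = 6))
    {K : Subalgebra F (Matrix (Fin n) (Fin n) F)} (hK : Geo.IsFieldSubalgebra r K)
    (hadj : Geo.IsAdjointClosedFor (hermForm n F q) K) :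
    Geo.IsMaximalIn (GU n F q ⊓ Geo.specialLinear (Fin n) F)
      (Geo.subalgebraNormalizer K ⊓ (GU n F q ⊓ Geo.specialLinear (Fin n) F)) := by
  have : Nonempty (Fin n) := ⟨⟨0, by omega⟩⟩
  let _ : Field K := (Asch.isField_of_inv hK.comm hK.inv).toField
  have hr' : (finrank F K).Prime := hK.finrank_eq ▸ hr
  have hm := finrank_mul_finrank F K (Fin n → F)
  rw [hK.finrank_eq, finrank_fintype_fun_eq_card, Fintype.card_fin] at hm
  have hm2 : 2 ≤ finrank K (Fin n → F) := by
    by_contra h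
    have := Nat.mul_le_mul_left r (by omega : finrank K (Fin n → F) ≤ 1)
    omega
  have hn6 : 6 ≤ n := hm ▸ Nat.mul_le_mul h3 hm2
  have : FiniteDimensional K (Fin n → F) := Module.finite_of_finrank_pos (by omega)
  have hσ := unitPowPolar_ne hF (isUnitaryFormPow_hermForm hF n)
  obtain ⟨PK, θ, h1, h2, h4, hθ, hB⟩ := exists_polarK (K := K) (PF := uStd hF n) rfl hσ fun k => by
    obtain ⟨k', hk', h⟩ := hadj k k.2
    exact ⟨⟨k', hk'⟩, h⟩
  refine isMaximalIn_of inf_le_right ?_ fun X hX hX' g hg hgN => ?_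
  · by_contra! hcon
    exact (H8.hasE_SU hF hn6).not_le_subalgebraNormalizer hr.two_le hK fun g hg => (hcon g hg).1
  have hXE : X.map toLE.toMonoidHom ≤ (uStd hF n).E := by
    rintro _ ⟨g, hg, rfl⟩
    exact (mem_SU_iff hF hn6 g).1 (hX' hg)
  have S : Setup (uStd hF n) PK θ (X.map toLE.toMonoidHom) :=
    ⟨rfl, h1, hσ, h2, h4, hθ, hB, hXE.trans Polar.E_le_Iso, fun g hg hg' => ?_, hr',
      hK.finrank_eq ▸ h3, hm2, fun h => exists_mu_norm hF PK.σσ (fun a => by
        simp [Algebra.algebraMap_eq_smul_one, h2, unitPowPolar_σ]) (hK.finrank_eq ▸ h3)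
        fun h' => hex ⟨h'.1, by rw [← hm, h, ← hK.finrank_eq, h'.2]⟩⟩
  · rcases S.E_le_or_semi with h | h
    · intro k hk
      obtain ⟨k', hk', e⟩ := h ((mem_SU_iff hF hn6 k).1 hk)
      exact toLE.injective e ▸ hk'
    · exact absurd ⟨(mem_normalizer_iff g).mpr (h _ ⟨g, hg, rfl⟩), hX' hg⟩ hgN
  · obtain ⟨k, hk⟩ := toLE.surjective (g.restrictScalars F)
    refine ⟨k, hX ⟨(mem_normalizer_iff k).mpr fun l => ⟨l, fun x => by
      rw [hk]; exact g.map_smul l x⟩, (mem_SU_iff hF hn6 k).2 ?_⟩, hk⟩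
    rw [hk, Polar.E_eq_SU hσ rfl (by simpa using hn6)]
    refine ⟨Polar.mem_Iso_of_unitary hσ rfl fun x y => ?_, mem_SLV.2 ?_⟩
    · rw [hB, hB]; exact congrArg θ (Polar.Iso.B hg x y)
    · rw [← hg', ← LinearMap.det_restrictScalars]; rfl

end Cfsg.Agent.H7.UExt
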