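import Cfsg.Agent.H7.SubPolar
import Cfsg.Agent.H7.Nondeg

/-!
Unitary structures on an orthogonal space: an operator `J` generating a quadratic field
extension, whose adjoint is its conjugate.
-/

set_option autoImplicit false
set_option linter.unusedSectionVars false

namespace Cfsg.Agent.H7

open Module

variable {F : Type*} [Field F] {V : Type*} [AddCommGroup V] [Module F V]

/-- The normaliser of the algebra spanned by `1` and `J`. -/
def NJ (J : V →ₗ[F] V) : Subgroup (V ≃ₗ[F] V) where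
  carrier := {g | (∃ a b : F, ∀ x, g (J x) = a • g x + b • J (g x)) ∧
    ∃ a b : F, ∀ x, J (g x) = a • g x + b • g (J x)}
  mul_mem' := by
    rintro g h ⟨⟨a, b, h1⟩, c, d, h2⟩ ⟨⟨a', b', h1'⟩, c', d', h2'⟩
    refine ⟨⟨a' + b' * a, b' * b, fun x => ?_⟩, c + d * c', d * d', fun x => ?_⟩
    · simp only [LinearEquiv.mul_apply, h1', map_add, map_smul, h1]; module
    · simp only [LinearEquiv.mul_apply, h2, h2', map_add, map_smul]; module
  one_mem' := ⟨⟨0, 1, fun x => by simp⟩, 0, 1, fun x => by simp⟩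
  inv_mem' := by
    rintro g ⟨⟨a, b, h1⟩, c, d, h2⟩
    refine ⟨⟨c, d, fun x => g.injective ?_⟩, a, b, fun x => g.injective ?_⟩
    · have := h2 (g⁻¹ x)
      simp only [map_add, map_smul, show ∀ y, g (g⁻¹ y) = y from g.apply_symm_apply] at this ⊢
      exact this
    · have := h1 (g⁻¹ x)
      simp only [map_add, map_smul, show ∀ y, g (g⁻¹ y) = y from g.apply_symm_apply] at this ⊢
      exact this

theorem mem_NJ_of_comm {J : V →ₗ[F] V} {g : V ≃ₗ[F] V} (h : ∀ x, g (J x) = J (g x)) :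
    g ∈ NJ J :=
  ⟨⟨0, 1, fun x => by simp [h]⟩, 0, 1, fun x => by simp [h]⟩

namespace Polar

/-- A unitary structure on an orthogonal space. -/
structure UStr (O : Polar F V) where
  J : V →ₗ[F] V
  t : F
  n : F
  lam : ∀ c, O.Val 0 c → c = 0
  JJ : ∀ x, J (J x) = t • J x - n • x
  aniso : ∀ a b : F, a * a - t * a * b + n * b * b = 0 → a = 0 ∧ b = 0
  adj : ∀ x y, O.B (J x) y = t * O.B x y - O.B x (J y)
  valJ : ∀ x c, O.Val x c → O.Val (J x) (n * c)
  BJ : ∀ x c, O.Val x c → O.B x (J x) = t * c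

namespace UStr

variable [Finite F] [FiniteDimensional F V] {O : Polar F V} (U : O.UStr)

include U in
theorem σ_eq (a : F) : O.σ a = a := (σ_eq_of_lam U.lam a).1

include U in
theorem ε_eq : O.ε = 1 := (σ_eq_of_lam U.lam 0).2

include U in
theorem symm (x y : V) : O.B x y = O.B y x := by rw [O.herm y x, U.σ_eq, U.ε_eq, one_mul]

include U in
theorem wild : O.Wild 3 := wild_three_of_σ U.σ_eq

include U in
theorem val_unique {x : V} {c d : F} (h : O.Val x c) (h' : O.Val x d) : c = d :=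
  sub_eq_zero.1 (U.lam _ (val_sub_val h h'))

theorem BJJ (x y : V) : O.B (U.J x) (U.J y) = U.n * O.B x y := by
  simp only [U.adj, U.JJ, map_sub, B_smul_right, U.σ_eq]; ring

theorem sing_J {u : V} (hu : O.Val u 0) : O.Val (U.J u) 0 := val_congr (U.valJ u 0 hu) (by simp)

theorem B_J_self {u : V} (hu : O.Val u 0) : O.B u (U.J u) = 0 := by simpa using U.BJ u 0 hu

/-- the `K`-line through `u` -/
def kl (u : V) : Submodule F V := (F ∙ u) ⊔ F ∙ U.J u

/-- the `K`-perp of `u` -/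
def kp (u : V) : Submodule F V := O.pp u ⊓ O.pp (U.J u)

/-- invariance under `J` -/
def JInv (W : Submodule F V) : Prop := ∀ x ∈ W, U.J x ∈ W

variable {U}

theorem mem_kl {u x : V} : x ∈ U.kl u ↔ ∃ a b : F, x = a • u + b • U.J u := by
  simp only [kl, mem_sup_span_singleton, Submodule.mem_span_singleton]
  constructor
  · rintro ⟨_, ⟨a, rfl⟩, b, rfl⟩; exact ⟨a, b, rfl⟩
  · rintro ⟨a, b, rfl⟩; exact ⟨_, ⟨a, rfl⟩, b, rfl⟩

theorem mem_kp {u x : V} : x ∈ U.kp u ↔ O.B x u = 0 ∧ O.B x (U.J u) = 0 := Iff.rfl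

theorem self_mem_kl (u : V) : u ∈ U.kl u := mem_kl.2 ⟨1, 0, by simp⟩

theorem jInv_kl (u : V) : U.JInv (U.kl u) := by
  intro x hx
  obtain ⟨a, b, rfl⟩ := mem_kl.1 hx
  exact mem_kl.2 ⟨-(b * U.n), a + b * U.t, by simp only [map_add, map_smul, U.JJ]; module⟩

theorem jInv_kp (u : V) : U.JInv (U.kp u) := by
  intro x hx
  obtain ⟨h1, h2⟩ := mem_kp.1 hx
  exact mem_kp.2 ⟨by simp [U.adj, h1, h2], by simp [U.BJJ, h1]⟩

theorem JInv.inf {W W' : Submodule F V} (h : U.JInv W) (h' : U.JInv W') : U.JInv (W ⊓ W') :=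
  fun x hx => ⟨h x hx.1, h' x hx.2⟩

theorem JInv.sup {W W' : Submodule F V} (h : U.JInv W) (h' : U.JInv W') : U.JInv (W ⊔ W') := by
  intro x hx
  obtain ⟨a, ha, b, hb, rfl⟩ := Submodule.mem_sup.1 hx
  rw [map_add]
  exact Submodule.add_mem_sup (h a ha) (h' b hb)

theorem JInv.kl_le {W : Submodule F V} (h : U.JInv W) {u : V} (hu : u ∈ W) : U.kl u ≤ W := by
  intro x hx
  obtain ⟨a, b, rfl⟩ := mem_kl.1 hx
  exact W.add_mem (W.smul_mem _ hu) (W.smul_mem _ (h u hu))

theorem norm_ne {a b : F} (h : ¬ (a = 0 ∧ b = 0)) : a * a + U.t * a * b + U.n * b * b ≠ 0 := by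
  intro h0
  have := U.aniso a (-b) (by linear_combination h0)
  exact h ⟨this.1, neg_eq_zero.1 this.2⟩

theorem conj_mul (a b : F) (x : V) :
    (a + U.t * b) • (a • x + b • U.J x) - b • U.J (a • x + b • U.J x) =
      (a * a + U.t * a * b + U.n * b * b) • x := by
  simp only [map_add, map_smul, U.JJ]; module

theorem JInv.mem_of_comb {W : Submodule F V} (h : U.JInv W) {a b : F} (hab : ¬ (a = 0 ∧ b = 0))
    {x : V} (hx : a • x + b • U.J x ∈ W) : x ∈ W := by
  rw [← W.smul_mem_iff (norm_ne (U := U) hab), ← conj_mul]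
  exact W.sub_mem (W.smul_mem _ hx) (W.smul_mem _ (h _ hx))

theorem JInv.exists_comb {W : Submodule F V} (h : U.JInv W) {a b : F} (hab : ¬ (a = 0 ∧ b = 0))
    {d : V} (hd : d ∈ W) : ∃ w ∈ W, a • w + b • U.J w = d := by
  have h0 := norm_ne (U := U) hab
  refine ⟨(a * a + U.t * a * b + U.n * b * b)⁻¹ • ((a + U.t * b) • d - b • U.J d),
    W.smul_mem _ (W.sub_mem (W.smul_mem _ hd) (W.smul_mem _ (h _ hd))), ?_⟩
  have key : a • ((a + U.t * b) • d - b • U.J d) + b • U.J ((a + U.t * b) • d - b • U.J d) =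
      (a * a + U.t * a * b + U.n * b * b) • d := by
    simp only [map_add, map_sub, map_smul, U.JJ]; module
  rw [map_smul, smul_comm a, smul_comm b, ← smul_add, key, smul_smul, inv_mul_cancel₀ h0, one_smul]

theorem comb_eq_zero {a b : F} {x : V} (hx : x ≠ 0) (h : a • x + b • U.J x = 0) :
    a = 0 ∧ b = 0 := by
  by_contra hab
  exact hx (JInv.mem_of_comb (U := U) (W := ⊥) (fun y hy => by simp_all) hab (by simpa using h))

theorem mem_kl_symm {u w : V} (hu : u ≠ 0) (h : u ∈ U.kl w) : w ∈ U.kl u := by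
  obtain ⟨a, b, hab⟩ := mem_kl.1 h
  refine (jInv_kl u).mem_of_comb (a := a) (b := b) (fun h0 => hu (by simp [hab, h0])) ?_
  rw [← hab]; exact self_mem_kl u

theorem perp_kl (u : V) : O.perp (U.kl u) = U.kp u := by
  rw [kl, perp_sup, perp_span_singleton, perp_span_singleton, kp]

theorem perp_kp (u : V) : O.perp (U.kp u) = U.kl u := by rw [← perp_kl, perp_perp]

theorem finrank_kl_le (u : V) : finrank F (U.kl u) ≤ 2 := finrank_span_pair_le _ _

theorem finrank_inf_kp_ge (W : Submodule F V) (u : V) :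
    finrank F W ≤ finrank F ↥(W ⊓ U.kp u) + 2 := by
  have h1 := finrank_inf_pp_ge (P := O) W u
  have h2 := finrank_inf_pp_ge (P := O) (W ⊓ O.pp u) (U.J u)
  rw [inf_assoc] at h2
  show _ ≤ finrank F ↥(W ⊓ (O.pp u ⊓ O.pp (U.J u))) + 2
  omega

theorem finrank_kp_ge (u : V) : finrank F V ≤ finrank F (U.kp u) + 2 := by
  have := finrank_inf_kp_ge (U := U) ⊤ u
  rwa [finrank_top, top_inf_eq] at this

theorem mem_kp_symm {u x : V} (h : x ∈ U.kp u) : u ∈ U.kp x := by
  obtain ⟨h1, h2⟩ := mem_kp.1 h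
  exact mem_kp.2 ⟨by rw [U.symm, h1], by rw [U.symm, U.adj, h1, h2]; simp⟩

theorem self_mem_kp {u : V} (hu : O.Val u 0) : u ∈ U.kp u := ⟨sing_B hu, U.B_J_self hu⟩

theorem kl_le_kp {u : V} (hu : O.Val u 0) : U.kl u ≤ U.kp u := (jInv_kp u).kl_le (self_mem_kp hu)

theorem kp_le_of_mem_kl {u v : V} (h : v ∈ U.kl u) : U.kp u ≤ U.kp v := by
  rw [← perp_kl, ← perp_kl]
  exact perp_anti ((jInv_kl u).kl_le h)

theorem sing_of_mem_kl {u v : V} (hu : O.Val u 0) (h : v ∈ U.kl u) : O.Val v 0 := by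
  obtain ⟨a, b, rfl⟩ := mem_kl.1 h
  exact val_congr (val_add_orth (sing_smul hu a) (sing_smul (U.sing_J hu) b)
    (by simp [U.B_J_self hu])) (by simp)

/-- a singular vector in `kp v` not orthogonal to a given vector -/
theorem exists_sing_kp (hn : 8 ≤ finrank F V) {v z : V} (hz : z ∉ U.kl v) :
    ∃ e ∈ U.kp v, O.Val e 0 ∧ O.B z e ≠ 0 := by
  refine exists_sing_ne_of_sub U.wild (by rwa [perp_kp]) ?_
  have h1 := finrank_kp_ge (U := U) v
  have h2 := finrank_kl_le (U := U) v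
  have h3 : finrank F ↥(U.kp v ⊓ O.perp (U.kp v)) ≤ finrank F (U.kl v) :=
    Submodule.finrank_mono (by rw [perp_kp]; exact inf_le_right)
  omega

variable (U) in
/-- The elements of the elementary orthogonal group commuting with `J`. -/
def grp : Subgroup (V ≃ₗ[F] V) where
  carrier := {g | g ∈ O.E ∧ ∀ x, g (U.J x) = U.J (g x)}
  mul_mem' {a b} ha hb := ⟨O.E.mul_mem ha.1 hb.1, fun x => by
    simp only [LinearEquiv.mul_apply, hb.2, ha.2]⟩
  one_mem' := ⟨O.E.one_mem, fun _ => rfl⟩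
  inv_mem' {a} ha := ⟨O.E.inv_mem ha.1, fun x => a.injective (by
    rw [ha.2]
    simp only [show ∀ y, a (a⁻¹ y) = y from a.apply_symm_apply])⟩

theorem grp_le_NJ : U.grp ≤ NJ U.J := fun _ hg => mem_NJ_of_comm hg.2

theorem grp_le_Iso : U.grp ≤ O.Iso := fun _ hg => E_le_Iso hg.1

theorem map_mem_kp {g : V ≃ₗ[F] V} (hg : g ∈ U.grp) {u x : V} :
    g x ∈ U.kp (g u) ↔ x ∈ U.kp u := by
  rw [mem_kp, mem_kp, ← hg.2, Iso.B (grp_le_Iso hg), Iso.B (grp_le_Iso hg)]

/-- unitary transvections -/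
theorem exists_tv {u : V} (hu : O.Val u 0) (c : F) :
    ∃ g ∈ U.grp, ∀ x, g x = x + c • (O.B x u • U.J u - O.B x (U.J u) • u) := by
  have h1 : O.B (c • U.J u) u = 0 := by simp [U.adj, sing_B hu, U.B_J_self hu]
  have h2 : O.Val (c • U.J u) 0 := sing_smul (U.sing_J hu) c
  have h3 : ∀ x, eichE hu h1 h2 x = x + c • (O.B x u • U.J u - O.B x (U.J u) • u) := by
    intro x
    simp only [eichE_apply, eich, B_smul_right, U.σ_eq, U.ε_eq]; module
  refine ⟨_, ⟨eichE_mem_E hu h1 h2, fun x => ?_⟩, h3⟩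
  simp only [h3, map_add, map_sub, map_smul, U.adj x, U.JJ, B_smul_right, U.σ_eq]
  module

/-- unitary Eichler transformations -/
theorem exists_eich {u w : V} (hu : O.Val u 0) (hw : w ∈ U.kp u) {c : F} (hc : O.Val w c) :
    ∃ g ∈ U.grp, ∀ x, g x = x + (O.B x (U.J u) • w - O.B x u • U.J w) +
      (O.B x (U.J w) • u - O.B x w • U.J u) +
      c • ((U.t * O.B x (U.J u) - U.n * O.B x u) • u - O.B x (U.J u) • U.J u) := by
  have h1 : O.B (-U.J w) u = 0 := by simp [(mem_kp.1 (jInv_kp u w hw)).1]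
  have h2 : O.Val (-U.J w) (U.n * c) := val_neg (U.valJ w c hc)
  have hwu : O.B w u = 0 := hw.1
  have hwJ : O.B w (U.J u) = 0 := hw.2
  have h3 : ∀ x, (eichE hu h1 h2 * eichE (U.sing_J hu) hwJ hc) x =
      x + (O.B x (U.J u) • w - O.B x u • U.J w) + (O.B x (U.J w) • u - O.B x w • U.J u) +
      c • ((U.t * O.B x (U.J u) - U.n * O.B x u) • u - O.B x (U.J u) • U.J u) := by
    intro x
    have e1 : O.B (U.J u) u = 0 := by rw [U.symm]; exact U.B_J_self hu
    have e2 : O.B (U.J u) (U.J w) = 0 := by rw [U.BJJ, U.symm, hwu, mul_zero]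
    simp only [LinearEquiv.mul_apply, eichE_apply, eich, U.σ_eq, U.ε_eq, map_add, map_sub,
      map_smul, map_neg, LinearMap.add_apply, LinearMap.sub_apply, LinearMap.smul_apply,
      smul_eq_mul, hwu, e1, e2, U.BJ w c hc]
    module
  refine ⟨_, ⟨O.E.mul_mem (eichE_mem_E _ _ _) (eichE_mem_E _ _ _), fun x => ?_⟩, h3⟩
  simp only [h3, map_add, map_sub, map_smul, U.adj x, U.JJ, B_smul_right, U.σ_eq]
  module

end UStr

end Polar

end Cfsg.Agent.H7
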