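import Cfsg.Agent.H7.UStr

/-!
Unitary groups inside orthogonal and symplectic groups: transitivity, irreducibility, and the
maximality of the normaliser of the quadratic field.
-/

set_option autoImplicit false
set_option linter.unusedSectionVars false

namespace Cfsg.Agent.H7

open Module

variable {F : Type*} [Field F] {V : Type*} [AddCommGroup V] [Module F V]

namespace Polar

namespace UStr

variable [Finite F] [FiniteDimensional F V] {O : Polar F V} {U : O.UStr}

theorem exists_move {u v v' : V} (hu : O.Val u 0) {c : F} (hv : O.Val v c) (hv' : O.Val v' c)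
    (h1 : v' - v ∈ U.kp u) (h0 : v ∉ U.kp u) : ∃ g ∈ U.grp, g v = v' := by
  set α := O.B v u with hα
  set β := O.B v (U.J u) with hβ
  have hab : ¬ (β = 0 ∧ -α = 0) := fun h => h0 ⟨neg_eq_zero.1 h.2, h.1⟩
  obtain ⟨w, hw, hwd⟩ := (jInv_kp u).exists_comb hab h1
  obtain ⟨c', hc'⟩ := O.val_ex w
  obtain ⟨g, hg, hg'⟩ := exists_eich hu hw hc'
  obtain ⟨a, b, hab'⟩ : ∃ a b : F, v' = g v + (a • u + b • U.J u) := by
    refine ⟨-(O.B v (U.J w) + c' * (U.t * β - U.n * α)), O.B v w + c' * β, ?_⟩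
    rw [hg']
    linear_combination (norm := module) -hwd
  have hgv := Iso.val (grp_le_Iso hg) hv
  have hs : O.Val (a • u + b • U.J u) 0 := sing_of_mem_kl hu (mem_kl.2 ⟨a, b, rfl⟩)
  have e1 : O.B (g v) u = α := by
    have h2 : O.B (v' - v) u = 0 := h1.1
    have h3 : O.B (a • u + b • U.J u) u = 0 := (kl_le_kp hu (mem_kl.2 ⟨a, b, rfl⟩)).1
    rw [hab'] at h2
    simp only [map_sub, map_add (O.B) (g v), LinearMap.add_apply, LinearMap.sub_apply, h3] at h2
    linear_combination h2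
  have e2 : O.B (g v) (U.J u) = β := by
    have h2 : O.B (v' - v) (U.J u) = 0 := h1.2
    have h3 : O.B (a • u + b • U.J u) (U.J u) = 0 := (kl_le_kp hu (mem_kl.2 ⟨a, b, rfl⟩)).2
    rw [hab'] at h2
    simp only [map_sub, map_add (O.B) (g v), LinearMap.add_apply, LinearMap.sub_apply, h3] at h2
    linear_combination h2
  have e3 : a * α + b * β = 0 := by
    have := U.val_unique (O.val_add hgv hs) (hab' ▸ hv')
    simp only [map_add, B_smul_right, U.σ_eq, e1, e2] at this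
    linear_combination this
  obtain ⟨s, hs1, hs2⟩ : ∃ s, s * α = b ∧ s * β = -a := by
    by_cases h : α = 0
    · have hb : β ≠ 0 := fun h' => hab ⟨h', by simp [h]⟩
      refine ⟨-a / β, ?_, by field_simp⟩
      rw [h, mul_zero, zero_add] at e3
      rw [h, mul_zero, (mul_eq_zero.1 e3).resolve_right hb]
    · refine ⟨b / α, by field_simp, ?_⟩
      field_simp
      linear_combination e3
  obtain ⟨T, hT, hT'⟩ := exists_tv (U := U) hu s
  refine ⟨T * g, U.grp.mul_mem hT hg, ?_⟩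
  rw [LinearEquiv.mul_apply, hT', e1, e2, hab', smul_sub, smul_smul, smul_smul, hs1, hs2]
  module

theorem trans_of_notMem (hn : 8 ≤ finrank F V) {z z' : V} {c : F} (hz : O.Val z c)
    (hz' : O.Val z' c) (h0 : z ≠ 0) (h : z' ∉ U.kl z) : ∃ g ∈ U.grp, g z = z' := by
  have h1 : z ∉ U.kl (z' - z) := fun h1 => h (by
    have := mem_kl_symm h0 h1
    simpa using (U.kl z).add_mem this (self_mem_kl z))
  obtain ⟨e, he, hes, hze⟩ := exists_sing_kp hn h1
  exact exists_move hes hz hz' (mem_kp_symm he) fun h => hze h.1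

theorem trans_sing (hn : 8 ≤ finrank F V) {z z' : V} (hz : O.Val z 0)
    (hz' : O.Val z' 0) (h0 : z ≠ 0) (h0' : z' ≠ 0) : ∃ g ∈ U.grp, g z = z' := by
  by_cases h : z' ∈ U.kl z
  · obtain ⟨y, -, hy, hys⟩ := U.wild.exists_notMem ⊤ (U.kl z) (by
      have := finrank_kl_le (U := U) z
      rw [finrank_top]; omega)
    have hy0 : y ≠ 0 := fun h => hy (h ▸ Submodule.zero_mem _)
    obtain ⟨g, hg, hgz⟩ := trans_of_notMem hn hz hys h0 hy
    obtain ⟨g', hg', hgz'⟩ := trans_of_notMem (U := U) hn hys hz' hy0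
      (fun h' => hy ((jInv_kl z).kl_le h (mem_kl_symm h0' h')))
    exact ⟨g' * g, U.grp.mul_mem hg' hg, by rw [LinearEquiv.mul_apply, hgz, hgz']⟩
  · exact trans_of_notMem hn hz hz' h0 h

theorem exists_sub_mem_kp {f e : V} (h : f ∉ U.kp e) (x : V) :
    ∃ y ∈ U.kl f, x - y ∈ U.kp e := by
  have hN := norm_ne (U := U) (a := O.B f (U.J e)) (b := -O.B f e)
    (fun h' => h ⟨neg_eq_zero.1 h'.2, h'.1⟩)
  have hN' := inv_mul_cancel₀ hN
  set N := (O.B f (U.J e) * O.B f (U.J e) + U.t * O.B f (U.J e) * -O.B f e +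
    U.n * -O.B f e * -O.B f e)⁻¹
  refine ⟨_, mem_kl.2 ⟨N * (O.B x e * U.n * O.B f e -
    O.B x (U.J e) * (U.t * O.B f e - O.B f (U.J e))),
    N * (O.B f e * O.B x (U.J e) - O.B f (U.J e) * O.B x e), rfl⟩, mem_kp.2 ⟨?_, ?_⟩⟩
  · simp only [map_sub, map_add, map_smul, LinearMap.sub_apply, LinearMap.add_apply,
      LinearMap.smul_apply, smul_eq_mul, U.adj f]
    linear_combination (-O.B x e) * hN'
  · simp only [map_sub, map_add, map_smul, LinearMap.sub_apply, LinearMap.add_apply,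
      LinearMap.smul_apply, smul_eq_mul, U.BJJ]
    linear_combination (-O.B x (U.J e)) * hN'

section Irr

variable {z : V} {A : Submodule F V} (hA : ∀ g ∈ U.grp, g z = z → ∀ x ∈ A, g x ∈ A)
include hA

theorem inf_kp_le (hn : 9 ≤ finrank F V) {a e : V} (ha : a ∈ A) (he : e ∈ U.kp z)
    (hes : O.Val e 0) (hae : a ∉ U.kp e) : U.kp z ⊓ U.kp e ≤ A := by
  set α := O.B a e with hα
  set β := O.B a (U.J e) with hβ
  have hab : ¬ (β = 0 ∧ -α = 0) := fun h => hae ⟨neg_eq_zero.1 h.2, h.1⟩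
  have hze := mem_kp.1 (mem_kp_symm he)
  have key : ∀ w ∈ U.kp z ⊓ U.kp e, ∀ c, O.Val w c → (β • w - α • U.J w) +
      (O.B a (U.J w) • e - O.B a w • U.J e) + c • ((U.t * β - U.n * α) • e - β • U.J e) ∈ A := by
    intro w hw c hc
    obtain ⟨g, hg, hg'⟩ := exists_eich hes hw.2 hc
    have hzw := mem_kp.1 (mem_kp_symm hw.1)
    have := hA g hg (by rw [hg']; simp [hze.1, hze.2, hzw.1, hzw.2]) a ha
    rwa [hg', add_assoc, add_assoc, A.add_mem_iff_right ha, ← add_assoc] at this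
  have h1 : α • U.J e - β • e ∈ A := by
    obtain ⟨g, hg, hg'⟩ := exists_tv (U := U) hes 1
    have := hA g hg (by rw [hg']; simp [hze.1, hze.2]) a ha
    rwa [hg', one_smul, A.add_mem_iff_right ha] at this
  have h2 : (U.t * β - U.n * α) • e - β • U.J e ∈ A := by
    obtain ⟨w, hw, w', hw', hww⟩ : ∃ w ∈ U.kp z ⊓ U.kp e, ∃ w' ∈ U.kp z ⊓ U.kp e,
        O.B w w' ≠ 0 := by
      by_contra! h
      have h1 := two_mul_finrank_le_of_le_perp (P := O) (W := U.kp z ⊓ U.kp e)
        fun w hw => mem_perp.2 (h w hw)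
      have h2 := finrank_inf_kp_ge (U := U) (U.kp z) e
      have h3 := finrank_kp_ge (U := U) z
      omega
    obtain ⟨c, hc⟩ := O.val_ex w
    obtain ⟨c', hc'⟩ := O.val_ex w'
    have := A.sub_mem (key _ (Submodule.add_mem _ hw hw') _ (O.val_add hc hc'))
      (A.add_mem (key w hw c hc) (key w' hw' c' hc'))
    rw [← A.smul_mem_iff hww]
    convert this using 1
    simp only [map_add]
    module
  have hN := norm_ne (U := U) hab
  have h3 : e ∈ A := by
    rw [← A.smul_mem_iff hN]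
    convert A.neg_mem (A.add_mem (A.smul_mem β h1) (A.smul_mem α h2)) using 1
    module
  have h4 : U.J e ∈ A := by
    rw [← A.smul_mem_iff hN]
    convert A.neg_mem (A.add_mem (A.smul_mem (U.t * β - U.n * α) h1) (A.smul_mem β h2)) using 1
    module
  intro d hd
  obtain ⟨w, hw, rfl⟩ := ((jInv_kp z).inf (jInv_kp e)).exists_comb hab hd
  obtain ⟨c, hc⟩ := O.val_ex w
  have := key w hw c hc
  rw [A.add_mem_iff_left (A.smul_mem _ h2), A.add_mem_iff_left
    (A.sub_mem (A.smul_mem _ h3) (A.smul_mem _ h4))] at this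
  convert this using 1
  module

/-- a subspace invariant under the stabiliser of `z` lies in `K z` or contains `(K z)^⊥` -/
theorem kp_le_of_inv (hn : 9 ≤ finrank F V) {a : V} (ha : a ∈ A) (haz : a ∉ U.kl z) :
    U.kp z ≤ A := by
  obtain ⟨e, he, hes, hae⟩ := exists_sing_kp (by omega) haz
  have h1 := inf_kp_le hA hn ha he hes fun h => hae h.1
  by_cases hez : e ∈ U.kl z
  · exact fun x hx => h1 ⟨hx, kp_le_of_mem_kl hez hx⟩
  obtain ⟨f, hf, hfs, hef⟩ := exists_sing_kp (by omega) hez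
  have h2 := inf_kp_le hA hn (h1 ⟨he, self_mem_kp hes⟩) hf hfs fun h => hef h.1
  have h3 : U.kl f ≤ A := fun x hx =>
    h2 ⟨(jInv_kp z).kl_le hf hx, kl_le_kp hfs hx⟩
  intro x hx
  obtain ⟨y, hy, hxy⟩ := exists_sub_mem_kp (U := U) (f := f) (e := e)
    (fun h => O.B_ne_symm hef h.1) x
  have := h1 ⟨(U.kp z).sub_mem hx ((jInv_kp z).kl_le hf hy), hxy⟩
  rwa [A.sub_mem_iff_left (h3 hy)] at this

end Irr

/-- A linear map sending each singular vector into its `K`-line lies in `K`. -/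
theorem exists_eq_of_sing (hn : 9 ≤ finrank F V) {D : V →ₗ[F] V}
    (hD : ∀ u, O.Val u 0 → D u ∈ U.kl u) : ∃ a b : F, ∀ x, D x = a • x + b • U.J x := by
  obtain ⟨u, -, hu0, hu⟩ := U.wild.exists_notMem ⊤ ⊥ (by rw [finrank_top, finrank_bot]; omega)
  rw [Submodule.mem_bot] at hu0
  obtain ⟨a, b, hab⟩ := mem_kl.1 (hD u hu)
  set D' : V →ₗ[F] V := D - (a • LinearMap.id + b • U.J) with hD'
  have h1 : ∀ x, D' x = D x - (a • x + b • U.J x) := fun x => rfl
  have h2 : ∀ u, O.Val u 0 → D' u ∈ U.kl u := fun u hu => by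
    rw [h1]; exact Submodule.sub_mem _ (hD u hu) (mem_kl.2 ⟨a, b, rfl⟩)
  have step : ∀ u w, O.Val u 0 → O.Val w 0 → O.B u w = 0 → u ∉ U.kl w → D' u = 0 →
      D' w = 0 := by
    intro u w hu hw huw hn h0
    obtain ⟨α, β, h3⟩ := mem_kl.1 (h2 (u + w) (val_congr (val_add_orth hu hw huw) (by simp)))
    rw [map_add, h0, zero_add] at h3
    by_cases hαβ : α = 0 ∧ β = 0
    · rw [h3, hαβ.1, hαβ.2]; simp
    refine absurd ((jInv_kl w).mem_of_comb hαβ ?_) hn
    have : α • u + β • U.J u = D' w - (α • w + β • U.J w) := by rw [h3, map_add]; module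
    rw [this]
    exact Submodule.sub_mem _ (h2 w hw) (mem_kl.2 ⟨α, β, rfl⟩)
  have h3 : LinearMap.ker D' = ⊤ := by
    refine eq_top_of_forall_sing U.wild (by omega) fun v hv => ?_
    by_cases hv0 : v = 0
    · simp [hv0]
    obtain ⟨w, hw, hw', hws⟩ := U.wild.exists_notMem (O.pp u ⊓ O.pp v) (U.kl u ⊔ U.kl v) (by
      have := finrank_inf_pp_ge (P := O) (O.pp u) v
      have := finrank_pp (P := O) hu0
      have := Submodule.finrank_add_le_finrank_add_finrank (U.kl u) (U.kl v)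
      have := finrank_kl_le (U := U) u
      have := finrank_kl_le (U := U) v
      omega)
    have hw0 : w ≠ 0 := fun h => hw' (h ▸ Submodule.zero_mem _)
    have e1 := step u w hu hws (O.B_symm hw.1)
      (fun h => hw' (Submodule.mem_sup_left (mem_kl_symm hu0 h))) (by rw [h1, hab, sub_self])
    exact step w v hws hv hw.2 (fun h => hw' (Submodule.mem_sup_right h)) e1
  refine ⟨a, b, fun x => ?_⟩
  have : D' x = 0 := LinearMap.mem_ker.1 (h3 ▸ Submodule.mem_top)
  rwa [h1, sub_eq_zero] at this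

theorem mem_NJ_of {g : V ≃ₗ[F] V} {a b : F} (h : ∀ x, g (U.J x) = a • g x + b • U.J (g x)) :
    g ∈ NJ U.J := by
  refine ⟨⟨a, b, h⟩, ?_⟩
  by_cases hb : b = 0
  · refine ⟨0, 0, fun x => ?_⟩
    by_cases hx : x = 0
    · simp [hx]
    have : (-a) • x + (1 : F) • U.J x = 0 := g.injective (by simp [h, hb])
    exact absurd (comb_eq_zero hx this).2 one_ne_zero
  · refine ⟨-a / b, b⁻¹, fun x => ?_⟩
    rw [h]
    match_scalars <;> field_simp <;> ring

theorem exists_sing_of_notMem_NJ (hn : 9 ≤ finrank F V) {g : V ≃ₗ[F] V} (hg : g ∉ NJ U.J) :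
    ∃ u, O.Val u 0 ∧ g (U.J (g⁻¹ u)) ∉ U.kl u := by
  by_contra! h
  obtain ⟨a, b, hab⟩ := exists_eq_of_sing hn
    (D := (g : V →ₗ[F] V) ∘ₗ U.J ∘ₗ ((g⁻¹ : V ≃ₗ[F] V) : V →ₗ[F] V)) h
  refine hg (mem_NJ_of (a := a) (b := b) fun x => ?_)
  have := hab (g x)
  simpa [show ∀ y, g⁻¹ (g y) = y from g.symm_apply_apply] using this

end UStr

end Polar

end Cfsg.Agent.H7
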