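import Cfsg.Agent.H7.UStr2
import Cfsg.Agent.H7.Inst

/-!
Maximality of the normaliser of a quadratic field of unitary type in `Sp` and `Ω`.
-/

set_option autoImplicit false
set_option linter.unusedSectionVars false

namespace Cfsg.Agent.H7

open Module

variable {F : Type*} [Field F] {V : Type*} [AddCommGroup V] [Module F V]

namespace Polar

namespace UStr

variable [Finite F] [FiniteDimensional F V] {O : Polar F V} {U : O.UStr}

section Amb

variable {P : Polar F V} {p r : F} (hpr : ¬ (p = 0 ∧ r = 0))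
  (hB : ∀ x y, P.B x y = O.B x (p • y + r • U.J y))
include hB

theorem B_eq_zero_of_kp {x y : V} (h : x ∈ U.kp y) : P.B x y = 0 := by
  rw [hB]; exact (kp_le_of_mem_kl (mem_kl.2 ⟨p, r, rfl⟩) h).1

include hpr

theorem mem_kp_of_B {x y : V} (h : P.B x y = 0) (h' : O.B x (U.J (p • y + r • U.J y)) = 0) :
    x ∈ U.kp y := by
  refine kp_le_of_mem_kl (u := p • y + r • U.J y) ?_ ⟨by rwa [hB] at h, h'⟩
  exact (jInv_kl _).mem_of_comb hpr (self_mem_kl _)

theorem E_le_of_eSub (hn : 9 ≤ finrank F V) (hsing : ∀ u, O.Val u 0 → P.Val u 0)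
    (hU : U.grp ≤ P.Iso) (hΛ : ∀ c, P.Val 0 c → ∃ t, c = t - P.ε * P.σ t)
    {X : Subgroup (V ≃ₗ[F] V)} (hX : U.grp ≤ X) {z a : V} (hz : O.Val z 0) (hz0 : z ≠ 0)
    (ha : a ∈ P.eSub X (hsing z hz)) (haz : a ∉ U.kl z) : P.E ≤ X := by
  have h1 : U.kp z ≤ P.eSub X (hsing z hz) :=
    kp_le_of_inv (fun g hg hgz x hx => apply_mem_eSub _ (hX hg) (hU hg) hgz hx) hn ha haz
  have h2 : ∀ z' (hz' : O.Val z' 0), z' ≠ 0 → U.kp z' ≤ P.eSub X (hsing z' hz') := by
    intro z' hz' hz0' x hx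
    obtain ⟨g, hg, rfl⟩ := trans_sing (U := U) (by omega) hz hz' hz0 hz0'
    obtain ⟨x, rfl⟩ := g.surjective x
    have h3 := h1 ((map_mem_kp hg).1 hx)
    refine ⟨by rw [Iso.B (hU hg), h3.1], fun c => ?_⟩
    obtain ⟨d, hd, hd'⟩ := h3.2 c
    exact ⟨d, by simpa using Iso.val (hU hg) hd, by simpa using hd'.conj (hX hg) (hU hg)⟩
  have h3 : ∀ z' (hz' : O.Val z' 0), z' ≠ 0 → P.FullA X z' := by
    intro z' hz' hz0'
    set κ := p • z' + r • U.J z' with hκ
    have hκs : O.Val κ 0 := sing_of_mem_kl hz' (mem_kl.2 ⟨p, r, rfl⟩)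
    have hκ0 : κ ≠ 0 := fun h => hpr (comb_eq_zero hz0' h)
    obtain ⟨y, hy, hys, hy'⟩ := exists_hyperbolic (P := O) (U := F ∙ κ) (U.sing_J hκs)
      (fun h => by
        obtain ⟨c, hc⟩ := Submodule.mem_span_singleton.1 h
        exact one_ne_zero (comb_eq_zero (U := U) (a := -c) (b := 1) hκ0
          (by rw [← hc]; simp)).2)
      (by rw [perp_span_singleton, mem_pp, U.symm]; exact U.B_J_self hκs) 1 one_ne_zero
    rw [perp_span_singleton, mem_pp] at hy
    have hy0 : y ≠ 0 := fun h => by simp [h] at hy'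
    have hyz : P.B y z' = 0 := by rw [hB, hy]
    obtain ⟨w, hw, w', hw', hww⟩ : ∃ w ∈ U.kp y ⊓ U.kp z', ∃ w' ∈ U.kp y ⊓ U.kp z',
        P.B w w' ≠ 0 := by
      by_contra! h
      have h1 := two_mul_finrank_le_of_le_perp (P := P) (W := U.kp y ⊓ U.kp z')
        fun w hw => mem_perp.2 (h w hw)
      have h2 := finrank_inf_kp_ge (U := U) (U.kp y) z'
      have h3 := finrank_kp_ge (U := U) y
      omega
    obtain ⟨c, hc, hcX⟩ := (h2 y hys hy0 hw'.1).2 1
    rw [one_smul] at hc hcX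
    have hwy : P.B w' y = 0 := B_eq_zero_of_kp hB hw'.1
    have h4 := apply_mem_eSub (hsing z' hz') (g := eichE (hsing y hys) hwy hc)
      (hcX.mem fun _ => rfl) (eichE_mem_Iso _ _ _)
      (eich_fix c (P.B_symm hyz) (B_eq_zero_of_kp hB (mem_kp_symm hw'.2))) (h2 z' hz' hz0' hw.2)
    have h5 : y ∈ P.eSub X (hsing z' hz') := by
      rw [eichE_apply, eich, B_eq_zero_of_kp hB hw.1, zero_smul, add_zero, mul_zero, add_zero,
        Submodule.sub_mem_iff_right _ (h2 z' hz' hz0' hw.2),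
        Submodule.smul_mem_iff _ (by simp [hww])] at h4
      exact h4
    have h6 : P.pp z' ≤ P.eSub X (hsing z' hz') := by
      intro v hv
      have : v - O.B v (U.J κ) • y ∈ U.kp z' := mem_kp_of_B hpr hB
        (by simp [hyz, show P.B v z' = 0 from hv]) (by simp [← hκ, U.symm y, hy'])
      have := h2 z' hz' hz0' this
      rwa [Submodule.sub_mem_iff_left _ (Submodule.smul_mem _ _ h5)] at this
    refine fullA_of_eSub (hsing z' hz') (fun c hc => ?_) h6
    obtain ⟨t, rfl⟩ := hΛ c hc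
    refine EI_lam_min (hsing z' hz') (by omega) (fun v hv => ⟨hv, ?_⟩) t
    simpa using (h6 hv).2 1
  have hκs : O.Val (p • z + r • U.J z) 0 := sing_of_mem_kl hz (mem_kl.2 ⟨p, r, rfl⟩)
  have hκ0 : p • z + r • U.J z ≠ 0 := fun h => hpr (comb_eq_zero hz0 h)
  obtain ⟨y, -, hys, hy'⟩ := exists_hyperbolic (P := O) (U := ⊥) hκs (by simpa using hκ0)
    (by simp [perp_bot]) 1 one_ne_zero
  have hy0 : y ≠ 0 := fun h => by simp [h] at hy'
  exact E_le_of_fullA (hsing z hz) (hsing y hys) (h3 z hz hz0) (h3 y hys hy0)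
    (by rw [hB, U.symm, hy']; exact one_ne_zero)

theorem exists_E_notMem_NJ (hn : 9 ≤ finrank F V) (hsing : ∀ u, O.Val u 0 → P.Val u 0) :
    ∃ g ∈ P.E, g ∉ NJ U.J := by
  obtain ⟨z, -, hz0, hz⟩ := U.wild.exists_notMem ⊤ ⊥ (by rw [finrank_top, finrank_bot]; omega)
  rw [Submodule.mem_bot] at hz0
  obtain ⟨a, ha, haz⟩ := exists_notMem_of_finrank_lt (U := U.kl z) (W := U.kp z) (by
    have := finrank_kp_ge (U := U) z
    have := finrank_kl_le (U := U) z
    omega)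
  obtain ⟨c, hc⟩ := P.val_ex a
  have haz' := B_eq_zero_of_kp hB ha
  refine ⟨_, eichE_mem_E (hsing z hz) haz' hc, ?_⟩
  rintro ⟨⟨α, β, h⟩, -⟩
  have hfix : ∀ x ∈ U.kp z ⊓ U.kp a, eichE (hsing z hz) haz' hc x = x := fun x hx =>
    eich_fix c (B_eq_zero_of_kp hB hx.1) (B_eq_zero_of_kp hB hx.2)
  obtain ⟨x, hx, hx0⟩ := exists_notMem_of_finrank_lt (U := ⊥) (W := U.kp z ⊓ U.kp a) (by
    have := finrank_kp_ge (U := U) z
    have := finrank_inf_kp_ge (U := U) (U.kp z) a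
    rw [finrank_bot]; omega)
  have h1 := h x
  rw [hfix x hx, hfix _ (((jInv_kp z).inf (jInv_kp a)) x hx)] at h1
  obtain ⟨hα, hβ⟩ := comb_eq_zero (U := U) (a := α) (b := β - 1) (by simpa using hx0)
    (by linear_combination (norm := module) -h1)
  rw [sub_eq_zero] at hβ
  simp only [hα, hβ, zero_smul, one_smul, zero_add] at h
  have hκ : p • a + r • U.J a ∉ U.kl z := fun h => haz ((jInv_kl z).mem_of_comb hpr h)
  obtain ⟨y, hy, hy'⟩ := exists_sep' (P := O) hκ 1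
  rw [perp_kl] at hy
  rw [← hB] at hy'
  have h2 := h y
  simp only [eichE_apply, eich, B_eq_zero_of_kp hB hy, B_eq_zero_of_kp hB (jInv_kp z y hy), hy',
    map_sub, map_add, map_smul, zero_smul, mul_zero, add_zero, mul_one] at h2
  exact P.ε_ne_zero (comb_eq_zero (U := U) (a := -(P.ε * P.B (U.J y) a)) (b := P.ε) hz0
    (by linear_combination (norm := module) h2)).2

end Amb

/-- `ΓU ∩ Ω` is maximal in `Ω` -/
theorem NJ_maximal_o (hn : 9 ≤ finrank F V) : Geo.IsMaximalIn O.E (NJ U.J ⊓ O.E) := by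
  have hpr : ¬ ((1 : F) = 0 ∧ (0 : F) = 0) := by simp
  have hB : ∀ x y, O.B x y = O.B x ((1 : F) • y + (0 : F) • U.J y) := by simp
  refine isMaximalIn_of inf_le_right ?_ fun X hHX hXE g hg hgH => ?_
  · obtain ⟨g, hg, hg'⟩ := exists_E_notMem_NJ hpr hB hn fun _ h => h
    exact ⟨g, hg, fun h => hg' h.1⟩
  have hU : U.grp ≤ X := fun x hx => hHX ⟨grp_le_NJ hx, hx.1⟩
  have hgI := E_le_Iso (hXE hg)
  obtain ⟨u, hu, hu'⟩ := exists_sing_of_notMem_NJ (U := U) hn fun h => hgH ⟨h, hXE hg⟩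
  have hu0 : u ≠ 0 := fun h => hu' (by simp [h])
  obtain ⟨u, rfl⟩ := g.surjective u
  rw [show g⁻¹ (g u) = u from g.symm_apply_apply u] at hu'
  refine E_le_of_eSub hpr hB hn (fun _ h => h) grp_le_Iso (fun c hc => ⟨0, by simp [U.lam c hc]⟩)
    hU hu hu0 (a := g (U.J u)) ⟨?_, fun c => ⟨0, ?_, ?_⟩⟩ hu'
  all_goals rw [Iso.val_iff hgI] at hu
  · rw [Iso.B hgI, U.symm, U.B_J_self hu]
  · exact sing_smul (Iso.val hgI (U.sing_J hu)) c
  · obtain ⟨T, hT, hT'⟩ := exists_tv (U := U) hu c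
    have : O.EI X u (c • U.J u) 0 := (Has.of_mem (hU hT)).congr fun x => by
      simp only [hT', eich, B_smul_right, U.σ_eq, U.ε_eq]; module
    simpa using this.conj hg hgI

/-- `ΓU ∩ Sp` is maximal in `Sp` in odd characteristic -/
theorem NJ_maximal_sp (hn : 10 ≤ finrank F V) (h2 : (2 : F) ≠ 0) (ht : U.t = 0) {S : Polar F V}
    (hS : ∀ x c, S.Val x c) (hσ : ∀ a, S.σ a = a) (hε : S.ε = -1) {r : F} (hr : r ≠ 0)
    (hB : ∀ x y, S.B x y = r * O.B x (U.J y)) : Geo.IsMaximalIn S.E (NJ U.J ⊓ S.E) := by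
  have hpr : ¬ ((0 : F) = 0 ∧ r = 0) := by simp [hr]
  have hB' : ∀ x y, S.B x y = O.B x ((0 : F) • y + r • U.J y) := by simp [hB, U.σ_eq]
  have hUI : U.grp ≤ S.Iso := fun g hg =>
    ⟨fun x y => by rw [hB, hB, ← hg.2, Iso.B (grp_le_Iso hg)], fun _ _ _ => hS _ _⟩
  have hE : S.E = S.Iso := E_eq_Iso fun x => hS x 0
  refine isMaximalIn_of inf_le_right ?_ fun X hHX hXE g hg hgH => ?_
  · obtain ⟨g, hg, hg'⟩ := exists_E_notMem_NJ hpr hB' (by omega) fun _ _ => hS _ _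
    exact ⟨g, hg, fun h => hg' h.1⟩
  have hU : U.grp ≤ X := fun x hx => hHX ⟨grp_le_NJ hx, hE ▸ hUI hx⟩
  have hgI := E_le_Iso (hXE hg)
  obtain ⟨u, hu, hu'⟩ := exists_sing_of_notMem_NJ (U := U) (g := g⁻¹) (by omega)
    fun h => hgH ⟨by simpa using (NJ U.J).inv_mem h, hXE hg⟩
  rw [inv_inv] at hu'
  have hu0 : u ≠ 0 := fun h => hu' (by simp [h])
  set a := g u with ha
  set b := g (U.J u) with hb
  have ha0 : a ≠ 0 := by simpa [ha] using hu0
  have hba : b ∉ U.kl a := by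
    intro h
    obtain ⟨α, β, h⟩ := mem_kl.1 h
    by_cases hβ : β = 0
    · refine one_ne_zero (comb_eq_zero (U := U) (a := -α) (b := 1) hu0 (g.injective ?_)).2
      simp [← ha, ← hb, h, hβ]
    · refine hu' (mem_kl.2 ⟨-α / β, β⁻¹, g.injective ?_⟩)
      rw [show ∀ y, g (g⁻¹ y) = y from g.apply_symm_apply, map_add, map_smul, map_smul, ← ha, ← hb,
        h]
      match_scalars <;> field_simp <;> ring
  have hab : a ∉ U.kl b := fun h => hba (mem_kl_symm ha0 h)
  have hn0 : U.n ≠ 0 := fun h => one_ne_zero (U.aniso 0 1 (by simp [h])).2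
  have hSab : S.B a b = 0 := by
    rw [Iso.B hgI, hB, U.JJ, ht]; simp [sing_B hu]
  have hSS : ∀ x, S.B x x = 0 := fun x => sing_B (hS x 0)
  have hSs : ∀ x y, S.B x y = -S.B y x := fun x y => by rw [S.herm y x, hσ, hε]; ring
  have hy : ∀ c : F, Has X fun x => x + c • ((U.n * S.B x a) • a + S.B x b • b) := by
    intro c
    obtain ⟨T, hT, hT'⟩ := exists_tv (U := U) hu (-(c * r * U.n))
    refine (Has.of_mem (hU hT)).conj hg fun x => ?_
    simp only [ha, hb, Iso.B hgI, hT', map_add, map_sub, map_smul, hB, U.JJ, ht, B_smul_right,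
      U.σ_eq]
    module
  obtain ⟨v, hv, hvs, hv0, hav⟩ : ∃ v ∈ U.kp a ⊓ U.kp b, O.Val v 0 ∧ v ≠ 0 ∧
      a ∉ U.kl v ⊔ U.kl b := by
    by_cases h : U.kl a ⊔ U.kl b ≤ U.kp a ⊓ U.kp b
    · have hb' := h (Submodule.mem_sup_right (self_mem_kl b))
      refine ⟨b, hb', ?_, fun h => hba (h ▸ Submodule.zero_mem _), by simpa using hab⟩
      obtain ⟨c, hc⟩ := O.val_ex b
      have h3 := O.val_self hc
      rw [show O.B b b = 0 from hb'.2.1, U.σ_eq, U.ε_eq] at h3
      have : c = 0 := by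
        apply mul_left_cancel₀ h2
        linear_combination -h3
      exact this ▸ hc
    · obtain ⟨v, hv, hv', hvs⟩ := U.wild.exists_notMem (U.kp a ⊓ U.kp b)
        ((U.kl a ⊔ U.kl b) ⊓ (U.kp a ⊓ U.kp b)) (by
          have := Submodule.finrank_lt_finrank_of_lt (inf_lt_left.2 h)
          have := Submodule.finrank_add_le_finrank_add_finrank (U.kl a) (U.kl b)
          have := finrank_kl_le (U := U) a
          have := finrank_kl_le (U := U) b
          have := finrank_kp_ge (U := U) a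
          have := finrank_inf_kp_ge (U := U) (U.kp a) b
          omega)
      refine ⟨v, hv, hvs, fun h => hv' (h ▸ Submodule.zero_mem _), fun h => hv' ⟨?_, hv⟩⟩
      obtain ⟨y, hy, y', hy', hyy⟩ := Submodule.mem_sup.1 h
      obtain ⟨α, β, rfl⟩ := mem_kl.1 hy
      refine ((jInv_kl a).sup (jInv_kl b)).mem_of_comb (a := α) (b := β) (fun h0 => hab ?_) ?_
      · rw [← hyy, h0.1, h0.2]; simpa using hy'
      · rw [eq_sub_of_add_eq hyy]
        exact Submodule.sub_mem _ (Submodule.mem_sup_left (self_mem_kl a))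
          (Submodule.mem_sup_right hy')
  obtain ⟨w, hw, haw⟩ := exists_sep (P := O) hav 1
  rw [perp_sup, perp_kl, perp_kl] at hw
  obtain ⟨c, hc⟩ := O.val_ex w
  obtain ⟨h, hh, hh'⟩ := exists_eich hvs hw.1 hc
  set z := O.B a (U.J w) • v - U.J v with hz
  have hzv : z ∈ U.kl v := mem_kl.2 ⟨O.B a (U.J w), -1, by rw [hz]; module⟩
  have hz0 : z ≠ 0 := fun h => by
    simpa using (comb_eq_zero (U := U) (a := O.B a (U.J w)) (b := -1) hv0
      (by rw [← h, hz]; module)).2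
  have hav' := mem_kp.1 (mem_kp_symm hv.1)
  have hbv' := mem_kp.1 (mem_kp_symm hv.2)
  have hbw' := mem_kp.1 (mem_kp_symm hw.2)
  have hha : h a = a + z := by rw [hh']; simp [hav'.1, hav'.2, haw, hz]
  have hhb : h b = b := by rw [hh']; simp [hbv'.1, hbv'.2, hbw'.1, hbw'.2]
  have haz : S.B a z = 0 := B_eq_zero_of_kp hB' (kp_le_of_mem_kl hzv (mem_kp_symm hv.1))
  have hbz : S.B b z = 0 := B_eq_zero_of_kp hB' (kp_le_of_mem_kl hzv (mem_kp_symm hv.2))
  refine E_le_of_eSub hpr hB' (by omega) (fun _ _ => hS _ _) hUI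
    (fun c _ => ⟨c / 2, by rw [hσ, hε]; field_simp; ring⟩) hU (sing_of_mem_kl hvs hzv) hz0 (a := a)
    ⟨haz, fun s => ⟨-s, hS _ _, ?_⟩⟩
    fun h => hav (Submodule.mem_sup_left ((jInv_kl v).kl_le hzv h))
  have h3 : Has X fun x => x + (s / U.n) • ((U.n * S.B x (a + z)) • (a + z) + S.B x b • b) :=
    (hy (s / U.n)).conj (hU hh) fun x => by
      simp only [← hha, map_add, map_smul, Iso.B (hUI hh)]
      rw [← Iso.B (hUI hh) x b, hhb]
  refine (h3.comp (hy (-(s / U.n)))).congr fun x => ?_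
  simp only [eich, map_add, map_smul, LinearMap.add_apply, LinearMap.smul_apply, smul_eq_mul,
    hSS, hSab, hSs b a, haz, hbz, B_smul_right, hσ, hε]
  match_scalars <;> field_simp <;> ring

end UStr

end Polar

end Cfsg.Agent.H7
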